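import Cfsg.Agent.H24.U4C

/-!
# Minimal index for `SU₄(q)`: conclusion (namespace `H24.MD.U4`)
-/

set_option autoImplicit false
set_option linter.unusedSectionVars false

open Subgroup H20 H10 H10.Form Module

namespace H24.MD.U4

open O (Fl ix)
open T U

variable {F V : Type*} [Field F] [Finite F] [AddCommGroup V] [Module F V] [Finite V] {φ : Form F V} [φ.Nondeg]
  {H J K : Subgroup φ.Isom} {p x w u v e f y z : V} {a s t c : F} {q : ℕ}

variable (h : φ.IsUnitary q) (hd : finrank F V = 4) (hm : H.relIndex φ.E < (q + 1) * (q ^ 3 + 1))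
include h hd hm

theorem noD (hq : q ≤ 3) (hp : φ.Q p = 0) (hD : ¬ Dp H p) (hx : Dp H x) : x = 0 := by_contra fun x0 => by
  obtain ⟨hp0, a1, -⟩ := types h hd hm hp hD
  obtain ⟨g, g1, rfl⟩ := (h.big (by omega)).exists_E_map_sing hp hp0 hx.1 x0
  have a2 := pt_add (F := F) (H := H) hp0 g1 fun k hk c e => hD (by simpa using (e ▸ hx.smul c : Dp H (k • p)).map (inv_mem hk))
  have a3 := rel_pos H (pt F (g • p) ⊓ φ.E)
  have a4 := relIndex_dvd_card H φ.E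
  have := Module.nontrivial_of_finrank_pos (R := F) (M := V) (by omega)
  have a5 := h.card_SIsom
  rw [h.card_Isom, hd, ← h.E_eq_SIsom (by omega)] at a5
  have hq2 := h.two_le
  unfold ix at a1
  generalize H.relIndex φ.E = n at *
  interval_cases q
  · rw [show Nat.card φ.E = 25920 by simp [guOrd, Finset.prod_range_succ, Nat.even_add_one] at a5; omega] at a4
    have : 25 ≤ n := by omega
    interval_cases n <;> omega
  · rw [show Nat.card φ.E = 13063680 by simp [guOrd, Finset.prod_range_succ, Nat.even_add_one] at a5; omega] at a4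
    have : 109 ≤ n := by omega
    interval_cases n <;> omega

theorem small (hq : q ≤ 3) (hp : φ.Q p = 0) (hD : ¬ Dp H p) : False := by
  have ty : ∀ y, φ.Q y = 0 → ∀ y0 : y ≠ 0, ∀ hy : φ.Q y = 0, Zs H y = ⊥ ∧ ∃ u, Fl φ y u ∧ ∃ v, u ∈ aa H y ∧ v ∈ aa H y ∧ φ.B u v ≠ 0 ∧ (2 : F) = 0 ∧ q = 2 ∧
      aa H y = NN φ y u v ∧ ∀ a, φ.T a = 0 → φ.siegel u 0 a ∈ JJ H hy y0 := fun y _ y0 hy => by
    obtain ⟨_, -, b, u, hf, c | c⟩ := types h hd hm hy fun e => y0 (noD h hd hm hq hp hD e)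
    · obtain ⟨u, a, -, -, ⟨β, d⟩, -⟩ := L_main h hd hm b hf c.1 c.2
      exact (a.ne (eq_neg_of_add_eq_zero_left (noD h hd hm hq hp hD d) ▸ neg_mem (mem_sp y β))).elim
    · exact ⟨b, u, hf, c⟩
  have hp0 : p ≠ 0 := fun e => hD (e ▸ Dp.zero)
  obtain ⟨-, u, hf, v, u1, v1, uv, h2, rfl, hN, hJ⟩ := ty p hp hp0 hp
  have f2 : ∀ {a : F}, φ.σ a = a → a = 0 ∨ a = 1 := fun {a} e => by
    rw [h.σ_eq] at e
    exact (mul_eq_zero.1 (by linear_combination e : a * (a - 1) = 0)).imp_right sub_eq_zero.1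
  have t1 : φ.T 1 = 0 := by simp [h.herm.T_eq, one_add_one_eq_two, h2]
  have fx : ∀ {a : F}, φ.T a = 0 → φ.σ a = a := fun {a} e => by linear_combination skew h e - a * h2
  have qv := iso h hd hp hp0 (fun e => hD ⟨hp, e⟩) hm v1
  have pv := perp1 p v v1.1
  have tuv : φ.T (φ.B u v) = 0 := (hN ▸ v1 : v ∈ NN φ p u v).2.1
  have q0 : ∀ {s} (c : F), φ.T s = 0 → φ.T s = φ.Q (c • u) := fun c e => by simp [e, φ.Q_smul_of_sing hf.qx]
  have b0 : ∀ c : F, φ.B p (c • u) = 0 := fun c => by simp [hf.b]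
  obtain ⟨γ, s2, s3, m2⟩ : ∃ γ s, φ.T s = 0 ∧ φ.siegel u 0 1 * φ.siegel p (γ • u) s ∈ H := by
    obtain ⟨-, _, ⟨w, w1, s, s1, rfl⟩, k1⟩ := hJ 1 t1
    have w2 := perp1 p w w1
    have e1 : φ.siegel u 0 1 • p = (1 : F) • p := by simp [tv h hf.qx t1, hf.symm.b]
    have e2 : (φ.siegel u 0 1)⁻¹ = φ.siegel u 0 1 := by rw [← tv_neg hf.qx t1, show (-1 : F) = 1 by linear_combination -h2]
    obtain ⟨e3, e4⟩ := si_conj _ hp one_ne_zero e1 w2 s1
    have k2 := mul_mem k1 k1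
    have e5 : φ.T s = φ.Q (φ.siegel u 0 1 • w) := by simp [s1]
    rw [← mul_assoc, e2] at *
    rw [e4, map_one, one_smul, one_mul, one_mul, φ.siegel_mul hp e3 e5 w2 s1] at k2
    have e6 : φ.siegel u 0 1 • w + w ∈ NN φ p u v := hN ▸ (mem_aa hp).2 ⟨by simp [e3, w2], _, by simp [φ.Q_add, s1], k2⟩
    have e7 : φ.σ (φ.B u w) = φ.B u w := fix_of h (t := φ.B v u) (by rw [φ.T_B_comm]; exact tuv) (mt φ.B_symm_zero uv) (by
      have := e6.2.2
      rw [tv h hf.qx t1] at this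
      simpa [sub_add_eq_add_sub, ← two_mul, h2] using this)
    have e8 : φ.σ (-φ.B u w / φ.B u v) = -φ.B u w / φ.B u v := by simp [e7, fx tuv]
    obtain ⟨w3, s', s4, k3⟩ := (mem_aa hp).1 (hN ▸ NN.smul h (hN ▸ v1) e8 : _ ∈ aa H p)
    have k4 := mul_mem k1 k3
    rw [mul_assoc, φ.siegel_mul hp w2 s1 w3 s4] at k4
    have s5 : φ.T (s + s' + φ.B w ((-φ.B u w / φ.B u v) • v)) = φ.Q (w + (-φ.B u w / φ.B u v) • v) := by simp only [map_add, φ.Q_add, s1, s4]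
    obtain ⟨b, γ, e⟩ := Submodule.mem_span_pair.1 ((mem_L h hd hf).2 ⟨(by rw [map_add, w2, w3, add_zero] : φ.B p (w + (-φ.B u w / φ.B u v) • v) = 0), by
      simp [uv]⟩)
    rw [← e] at k4 s5
    have s6 := s5.trans (by simp [φ.Q_add, φ.Q_smul, hp, hf.qx, hf.b] : φ.Q (b • p + γ • u) = 0)
    rw [add_comm (b • p), si_shift h hp (b0 _) (q0 _ s6)] at k4
    exact ⟨γ, _, by rw [map_sub, map_add, s6]; simp [h.herm.T_eq, add_comm], k4⟩
  have nt : ∀ γ s, φ.T s = 0 → φ.siegel u 0 1 * φ.siegel p (γ • u) s ∈ H → s = φ.σ γ * γ + 1 := fun γ s a b => by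
    have c : s ≠ φ.σ γ * γ := fun e => by
      have y1 : φ.Q ((1 : F) • u + φ.σ γ • p) = 0 := by simp [φ.Q_add, φ.Q_smul, hp, hf.qx, hf.symm.b]
      exact one_ne_zero ((ty _ y1 (fun e => hf.ne (by
        rw [one_smul] at e; exact eq_neg_of_add_eq_zero_left e ▸ neg_mem (mem_sp p _))) y1).1.le ⟨t1, fun _ => by
        rw [tv_split h hp hf.qx hf.b t1]; simpa [e, mul_comm] using b⟩)
    rcases f2 (fx a) with rfl | rfl <;> rcases f2 (a := φ.σ γ * γ) (by simp [mul_comm]) with e | e <;> simp_all [one_add_one_eq_two]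
  obtain ⟨-, s1, s4, m1⟩ := (mem_aa hp).1 u1
  have a1 := nt γ s2 s3 m2
  have a2 := nt (γ + 1) (s2 + s1) (by simp [s3, s4, hf.qx]) (by
    have := mul_mem m2 m1
    rw [mul_assoc, φ.siegel_mul hp (b0 _) (q0 _ s3) hf.b s4] at this
    simpa [add_smul, φ.B_self_eq_zero hf.qx] using this)
  obtain ⟨β, hβ⟩ := h.exists_T_eq (fx (s4.trans hf.qx))
  have y1 : φ.Q (u + β • p) = 0 := by simp [φ.Q_add, φ.Q_smul, hp, hf.qx, hf.symm.b]
  have y2 : φ.B (u + β • p) p = 0 := by simp [hf.symm.b, φ.B_self_eq_zero hp]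
  rw [h.herm.T_eq] at hβ
  rw [map_add, map_one] at a2
  have c1 : φ.σ γ + β + (γ + φ.σ β) = 1 := by linear_combination hβ + a1 - a2 + (s1 - 1) * h2
  have c2 : (γ + φ.σ β) * (φ.σ γ + β) = 1 := (f2 (by simp [mul_comm])).resolve_left fun e => by
    rcases mul_eq_zero.1 e with e | e
    · simpa [e, show φ.σ γ + β = 0 by simpa using congrArg φ.σ e] using c1
    · simpa [e, show γ + φ.σ β = 0 by simpa using congrArg φ.σ e] using c1
  obtain ⟨-, u', hf', v', u2, v2, uv', -, -, hN', -⟩ := ty _ y1 (fun e => hf.ne (eq_neg_of_add_eq_zero_left e ▸ neg_mem (mem_sp p _))) y1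
  have d1 : p ∈ NN φ (u + β • p) u' v' := hN' ▸ (mem_aa y1).2 ⟨y2, 0, by simp [hp], by
    convert m1 using 1
    refine iext fun x => ?_
    simp only [si h y1 y2 (s := 0) (by simp [hp]), si h hp hf.b s4, map_add, LinearMap.add_apply, φ.B_smul_left]
    match_scalars
    · ring
    · linear_combination φ.B p x * h2
    · linear_combination -φ.B p x * hβ + (β * φ.B p x - φ.B u x) * h2⟩
  have d2 : (φ.σ γ + β) • p ∈ NN φ (u + β • p) u' v' := hN' ▸ (mem_aa y1).2 ⟨by simp only [φ.B_smul_right, y2, mul_zero], 1, by simp [t1, φ.Q_smul_of_sing hp], by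
    convert m2 using 1
    refine iext fun x => ?_
    simp only [si h y1 (w := (φ.σ γ + β) • p) (s := 1) (by simp only [φ.B_smul_right, y2, mul_zero]) (by simp [t1, φ.Q_smul_of_sing hp]), mul_smul,
      si h hp (b0 γ) (q0 γ s3), tv h hf.qx t1, map_add, map_sub, LinearMap.add_apply, φ.B_smul_left, φ.B_smul_right, σ_σ, hf.symm.b, φ.B_self_eq_zero hf.qx]
    match_scalars
    · ring
    · linear_combination γ * φ.B p x * h2
    · linear_combination φ.B p x * c2 + φ.B p x * a1 + (φ.B p x * (1 - φ.σ β * φ.σ γ - φ.σ β * β) - φ.B u x * (φ.σ γ + β)) * h2⟩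
  have d3 : ¬ (φ.B u' p = 0 ∧ φ.B v' p = 0) := fun e => by
    obtain ⟨c, hc⟩ := Submodule.mem_span_singleton.1 (NN.rad h hd hf' (iso h hd y1 hf'.p0 (fun e => hf'.p0 (noD h hd hm hq hp hD ⟨y1, e⟩)) hm v2)
      (perp1 _ _ v2.1) uv' (hN' ▸ v2 : v' ∈ NN φ _ u' v').2.1 y2 e.1 e.2)
    have c0 : c ≠ 0 := fun e => hp0 (by rw [← hc, e, zero_smul])
    exact hf.ne (Submodule.mem_span_singleton.2 ⟨c⁻¹ - β, by rw [sub_smul, ← hc, inv_smul_smul₀ c0, hc, add_sub_cancel_right]⟩)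
  have d4 : φ.σ (φ.σ γ + β) = φ.σ γ + β := by
    rcases not_and_or.1 d3 with e | e
    exacts [fix_of h d1.2.1 e (by simpa using d2.2.1), fix_of h d1.2.2 e (by simpa using d2.2.2)]
  rw [map_add, σ_σ] at d4
  exact one_ne_zero (by linear_combination d4 - c1 + (φ.σ γ + β) * h2 : (1 : F) = 0)

section big

variable (hq : 4 ≤ q)
include hq

theorem one_pt (hp : φ.Q p = 0) (hD : ¬ Dp H p) : ∃ u, u ≠ 0 ∧ Dp H u ∧ φ.B p u = 0 ∧ ∀ x, Dp H x → φ.B p x = 0 → x ∈ F ∙ u := by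
  obtain ⟨hp0, -, b, u, hf, c | ⟨_, -, -, -, -, e, -⟩⟩ := types h hd hm hp hD
  swap; · omega
  obtain ⟨u, hf, h1, h2, -, h3⟩ := L_main h hd hm b hf c.1 c.2
  refine ⟨u, hf.symm.p0, h3 hq, hf.b, fun x hx e => ?_⟩
  obtain ⟨a, a0, ha⟩ := h.exists_skew
  obtain ⟨β, c, rfl⟩ := Submodule.mem_span_pair.1 (show x ∈ Submodule.span F {p, u} from by_contra fun e' => by
    have e1 : φ.B x u ≠ 0 := fun e1 => e' ((mem_L h hd hf).2 ⟨e, φ.B_symm_zero e1⟩)
    have := (h1 _).1 (aa_conj (c := 1) hp one_ne_zero (hx.mem ha) (by simp [tv h hx.1 ha, φ.B_symm_zero e]) ((h1 u).2 (mem_r p u)))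
    rw [map_one, one_smul, tv h hx.1 ha] at this
    exact e' ((Submodule.smul_mem_iff _ (mul_ne_zero a0 e1)).1 (by simpa using sub_mem (mem_r p u) this)))
  have := hx.mem ha
  have e1 : φ.T (φ.σ β * β * a) = 0 := by simp [φ.T_norm, ha]
  rw [add_comm, tv_split h hp hf.qx hf.b ha, mul_mem_cancel_left ((h3 hq).mem (by simp [φ.T_norm, ha])),
    si_split hp (φ.Q_smul_of_sing hf.qx _) (by simp [hf.b]) e1, mul_mem_cancel_right (h2 _)] at this
  have : β = 0 := by simpa [a0] using b.le ⟨e1, fun _ => this⟩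
  simp [this, mem_sp]

theorem Dtwo (hz : φ.Q z = 0) (hx : Dp H x) (hy : Dp H y) (h1 : φ.B z x = 0) (h2 : φ.B z y = 0) (h3 : ∃ w, φ.B w x ≠ 0 ∧ φ.B w y = 0) (y0 : y ≠ 0) :
    Dp H z := by_contra fun e => by
  obtain ⟨u, -, -, -, a⟩ := one_pt h hd hm hq hz e
  obtain ⟨c, rfl⟩ := Submodule.mem_span_singleton.1 (a x hx h1)
  obtain ⟨d, rfl⟩ := Submodule.mem_span_singleton.1 (a y hy h2)
  obtain ⟨w, w1, w2⟩ := h3
  simp_all

theorem Dline (hx : Dp H x) (he : Dp H e) (h1 : φ.B x e = 0) (h2 : φ.B y x ≠ 0) (h3 : φ.B y e = 0) (h4 : φ.B f x = 0) (h5 : φ.B f e ≠ 0) (p : V) :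
    ∃ z, Dp H z ∧ φ.B p z = 0 ∧ φ.B x z = 0 ∧ φ.B e z = 0 ∧ (φ.B y z ≠ 0 ∨ φ.B f z ≠ 0) := by
  have a1 := φ.B_self_eq_zero hx.1
  have a2 := φ.B_self_eq_zero he.1
  have a3 := φ.B_symm_zero h1
  by_cases e1 : φ.B p x = 0
  · exact ⟨x, hx, e1, a1, a3, .inl h2⟩
  exact ⟨φ.B p e • x - φ.B p x • e, Dtwo h hd hm hq (by simp [sub_eq_add_neg, ← neg_smul, φ.Q_add, φ.Q_smul, hx.1, he.1, h1]) hx he
    (by simp [a1, a3]) (by simp [a2, h1]) ⟨y, h2, h3⟩ fun e => h5 (by simp [e]), by simp [mul_comm], by simp [a1, h1], by simp [a2, a3],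
    .inr (by simp [h4, h5, e1])⟩

theorem Dorth (hp : φ.Q p = 0) (hD : ¬ Dp H p) (hx : Dp H x) (hy : Dp H y) : φ.B x y = 0 := by_contra fun h0 => by
  have hh := isHyp_of_ne hx.1 hy.1 h0
  obtain ⟨e, e1, f, f1, hv⟩ := U.ex_hyp h hh.nondegOn.perp (by have := hh.finrank_perp; omega)
  obtain ⟨e2, e3⟩ := φ.mem_perp_pair.1 e1
  obtain ⟨f2, f3⟩ := φ.mem_perp_pair.1 f1
  simp only [φ.B_smul_left, mul_eq_zero, map_eq_zero, inv_eq_zero, h0, false_or] at e3 f3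
  have y0 : y ≠ 0 := fun e => h0 (by simp [e])
  have k : ∀ {z}, φ.Q z = 0 → φ.B x z = 0 → φ.B y z = 0 → Dp H z := fun a b c => Dtwo h hd hm hq a hx hy (φ.B_symm_zero b) (φ.B_symm_zero c)
    ⟨y, mt φ.B_symm_zero h0, φ.B_self_eq_zero hy.1⟩ y0
  obtain ⟨z, z1, z2, -, -, z3⟩ := Dline h hd hm hq hx (k hv.Qe e2 e3) e2 (mt φ.B_symm_zero h0) e3 (φ.B_symm_zero f2) (Bfe h hv ▸ one_ne_zero) p
  obtain ⟨z', z4, z5, z6, z7, z8⟩ := Dline h hd hm hq hy (k hv.Qf f2 f3) f3 h0 f2 (φ.B_symm_zero e3) (hv.Bef ▸ one_ne_zero) p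
  obtain ⟨u, -, -, -, a⟩ := one_pt h hd hm hq hp hD
  obtain ⟨c, rfl⟩ := Submodule.mem_span_singleton.1 (a z z1 z2)
  obtain ⟨d, rfl⟩ := Submodule.mem_span_singleton.1 (a z' z4 z5)
  have : d ≠ 0 := fun e => by simp [e] at z8
  simp_all

theorem large (hp : φ.Q p = 0) (hD : ¬ Dp H p) : False := by
  obtain ⟨u, u0, u1, -⟩ := one_pt h hd hm hq hp hD
  obtain ⟨f, hf⟩ := φ.exists_hyp u1.1 u0
  obtain ⟨v, v0, v1, v2, -⟩ := one_pt h hd hm hq hf.Qf fun e => one_ne_zero (hf.Bef.symm.trans (Dorth h hd hm hq hp hD u1 e))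
  have fl : Fl φ u v := ⟨u1.1, v1.1, Dorth h hd hm hq hp hD u1 v1, u0, fun e => by
    obtain ⟨c, rfl⟩ := Submodule.mem_span_singleton.1 e
    simp_all [Bfe h hf]⟩
  have k : ∀ {x}, Dp H x → x ∈ Submodule.span F {u, v} := fun a => (mem_L h hd fl).2 ⟨Dorth h hd hm hq hp hD u1 a, Dorth h hd hm hq hp hD v1 a⟩
  exact ((line_ge h hd fl).trans (rel_anti _ fun g hg => mem_stbL (k (u1.map hg)) (k (v1.map hg)))).not_gt hm

end big

omit hm in
theorem min_index (hH : ¬ φ.E ≤ H) : (q + 1) * (q ^ 3 + 1) ≤ H.relIndex φ.E := by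
  by_contra! hm
  obtain ⟨p, hp, hD⟩ : ∃ p, φ.Q p = 0 ∧ ¬ Dp H p := by
    by_contra! e
    refine hH (h.E_eq_SIsom (by omega) ▸ fun g hg => ?_)
    refine (closure_le (H.subgroupOf φ.SIsom)).2 ?_ (h.closure_transvections (by omega) (by omega) ▸ mem_top (⟨g, hg⟩ : φ.SIsom))
    rintro g ⟨p, c, hp, hc, hg⟩
    have := (e p hp).mem (t := -c) (by simp [hc])
    rwa [φ.siegel_zero_eq_quasi hp (by simp [hc]), h.herm.ε_eq, one_mul, neg_neg, ← hg] at this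
  rcases le_or_gt q 3 with e | e
  exacts [small h hd hm e hp hD, large h hd hm e hp hD]

omit h hd hm in
theorem final (hF : Nat.card F = q ^ 2) {n : ℕ} (hn : n = 4) : (∀ H : Subgroup (Cfsg.PSU n F q), H ≠ ⊤ → (q + 1) * (q ^ 3 + 1) ≤ H.index) ∧
    ∃ H : Subgroup (Cfsg.PSU n F q), H.index = (q + 1) * (q ^ 3 + 1) := by
  have e := quotCenterEquiv (SUEquiv hF n)
  have h := stdU_isUnitary hF n
  have hd : finrank F (Fin n → F) = 4 := by simpa
  have hN := stdU_nondeg hF n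
  generalize stdU hF n = φ at *
  obtain ⟨p, f, hf⟩ := h.exists_hyp_of_two_le (by omega)
  obtain ⟨u, u1, v, v1, hv⟩ := U.ex_hyp h hf.nondegOn.perp (by have := hf.finrank_perp; omega)
  have fl : Fl φ p u := ⟨hf.Qe, hv.Qe, (φ.mem_perp_pair.1 u1).1, hf.e_ne_zero, fun e => by
    obtain ⟨c, rfl⟩ := Submodule.mem_span_singleton.1 e
    simpa [(φ.mem_perp_pair.1 v1).1] using hv.Bef⟩
  rw [← h.E_eq_SIsom (by omega)] at e
  refine bridge e (fun H _ h3 => min_index h hd h3) (fun g hg => ?_) ((line_le h hd fl).antisymm (line_ge h hd fl))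
  obtain ⟨c, hc⟩ := (mem_center_E_iff h.conn hf).1 hg
  exact mem_subgroupOf.2 (mem_stbL ((hc p).symm.subst (motive := (· ∈ _)) (Submodule.smul_mem _ c (mem_l p u)))
    ((hc u).symm.subst (motive := (· ∈ _)) (Submodule.smul_mem _ c (mem_r p u))))

end H24.MD.U4
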