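import Mathlib
import Cfsg.Agent.H10.Dec
import Cfsg.Agent.H10.Sym

/-!
# Non-maximal stabilisers of orthogonal decompositions
* `H24.NM.Btw φ S` : some subgroup lies strictly between `E ⊓ S` and `E`; `Btw.map`
* `btw_set` (stabiliser of a set of vectors), `btw_union`, `btw_frame`, `btw_22`, `btw_24`, `btw_42`,
  `btw_unit`, `btw_alt`
-/

set_option autoImplicit false

namespace H24.NM
open Module H10 H10.Form

variable {F V : Type*} [Field F] [AddCommGroup V] [Module F V] {φ : Form F V}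

variable (φ) in
/-- some subgroup lies strictly between `E ⊓ S` and `E` -/
def Btw (S : Subgroup φ.Isom) : Prop :=
  ∃ L : Subgroup φ.Isom, φ.E ⊓ S ≤ L ∧ (∃ g ∈ φ.E, g ∈ L ∧ g ∉ S) ∧ ¬ φ.E ≤ L

theorem Btw.map {ι : Type} [Fintype ι] [DecidableEq ι] {φ : Form F (ι → F)}
    {S : Subgroup (Matrix.GeneralLinearGroup ι F)} (h : Btw φ (S.comap φ.toGL)) :
    ∃ K : Subgroup (Matrix.GeneralLinearGroup ι F), S ⊓ φ.E.map φ.toGL < K ∧ K < φ.E.map φ.toGL :=
  let ⟨L, h1, h2, h3⟩ := h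
  exists_between_map toGL_injective L h1 h2 h3

variable [φ.Nondeg] [FiniteDimensional F V] [Finite F]

theorem btw_set (h : φ.Std) (hn : 5 ≤ finrank F V) {S : Subgroup φ.Isom} (A : Set V)
    (h1 : ∀ g ∈ S, ∀ x ∈ A, g.1 x ∈ A) (h2 : ∃ g ∈ φ.E, (∀ x ∈ A, g.1 x ∈ A) ∧ g ∉ S)
    (h3 : ∃ u ∈ A, ∃ v ∉ A, u ≠ 0 ∧ v ≠ 0 ∧ φ.Q u = φ.Q v) : Btw φ S := by
  have : Finite V := Module.finite_of_finite F
  let L : Subgroup φ.Isom :=
    { carrier := {g | ∀ x ∈ A, g.1 x ∈ A}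
      one_mem' := fun x hx => hx
      mul_mem' := fun ha hb x hx => ha _ (hb x hx)
      inv_mem' := fun {g} hg x hx => by
        obtain ⟨y, hy, rfl⟩ := ((Set.toFinite A).injOn_iff_bijOn_of_mapsTo hg).1
          g.1.injective.injOn |>.surjOn hx
        simpa using hy }
  obtain ⟨u, hu, v, hv, hu0, hv0, hQ⟩ := h3
  refine ⟨L, fun g hg => h1 g hg.2, h2, fun h4 => ?_⟩
  obtain ⟨k, hk, rfl⟩ := h.exists_E_map hn hu0 hv0 hQ
  exact hv (h4 hk u hu)

variable {κ : Type*} {D : κ → Submodule F V}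

omit [φ.Nondeg] [FiniteDimensional F V] [Finite F] in
theorem dstab_mem {g : φ.Isom} (hg : g ∈ φ.dstab D) {i : κ} {x : V} (hx : x ∈ D i) :
    ∃ j, g.1 x ∈ D j :=
  let ⟨σ, h⟩ := hg
  ⟨σ i, (h i).le (Submodule.mem_map_of_mem hx)⟩

omit [φ.Nondeg] [FiniteDimensional F V] [Finite F] in
theorem not_dstab (hD : φ.ODec D) {g : φ.Isom} {a : κ} {w u : V} (hw : w ∈ D a) (hw0 : w ≠ 0)
    (hgw : g.1 w ∈ D a) (hu : u ∈ D a) (hgu : g.1 u ∉ D a) : g ∉ φ.dstab D := fun ⟨σ, h⟩ => by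
  by_cases ha : σ a = a
  · exact hgu (ha ▸ (h a).le (Submodule.mem_map_of_mem hu))
  · exact hw0 (by simpa using hD.eq_zero_of_mem ha ((h a).le (Submodule.mem_map_of_mem hw)) hgw)

omit [φ.Nondeg] [FiniteDimensional F V] [Finite F] in
theorem add_notMem (hD : φ.ODec D) {a : κ} {u s : V} (hu : u ∈ D a) (hu0 : u ≠ 0)
    (hs : s ∈ φ.perp (D a)) (hs0 : s ≠ 0) (i : κ) : u + s ∉ D i := fun hi => by
  by_cases h2 : i = a
  · subst h2
    exact hs0 (hD.nondeg i s ((add_mem_cancel_left hu).1 hi) (φ.mem_perp'.1 hs))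
  · exact hu0 (hD.nondeg a u hu (φ.mem_perp'.1
      ((add_mem_cancel_right hs).1 (hD.orth a i (Ne.symm h2) hi))))

variable (φ D) in
/-- vectors of norm `c` in the blocks -/
def Un (c : F) : Set V := {x | (∃ i, x ∈ D i) ∧ φ.Q x = c}

theorem btw_union (h : φ.Std) (hD : φ.ODec D) {a : κ} (hn : finrank F (D a) + 4 ≤ finrank F V) {c : F}
    {u : V} (hu : u ∈ D a) (hu0 : u ≠ 0) (hQ : φ.Q u = c)
    (h2 : ∃ g ∈ φ.E, (∀ x ∈ Un φ D c, g.1 x ∈ Un φ D c) ∧ g ∉ φ.dstab D) : Btw φ (φ.dstab D) := by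
  have h3 := φ.finrank_perp (D a)
  have h4 : 0 < finrank F (D a) := finrank_pos_iff_exists_ne_zero.2 ⟨⟨u, hu⟩, by simpa using hu0⟩
  obtain ⟨s, hs, hs0, hs'⟩ := h.sing (φ.perp (D a)) (by omega)
  refine btw_set h (by omega) (Un φ D c) (fun g hg x ⟨⟨i, hx⟩, hx'⟩ => ⟨dstab_mem hg hx, by simpa⟩) h2
    ⟨u, ⟨⟨a, hu⟩, hQ⟩, u + s, fun ⟨⟨i, hi⟩, _⟩ => add_notMem hD hu hu0 hs hs0 i hi, hu0,
      fun h0 => add_notMem hD hu hu0 hs hs0 a (h0 ▸ zero_mem _), ?_⟩
  rw [φ.Q_add_of_orth (hs u hu), hs', add_zero]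

omit [φ.Nondeg] [FiniteDimensional F V] [Finite F] in
theorem swap_pres (hD : φ.ODec D) {c : F} {a b : κ} (hab : a ≠ b) {u v : V} (hu : u ∈ D a) (hv : v ∈ D b)
    (hfu : ∀ x ∈ D a, φ.Q x = c → x ∈ F ∙ u ∨ φ.B u x = 0)
    (hfv : ∀ x ∈ D b, φ.Q x = c → x ∈ F ∙ v ∨ φ.B v x = 0) {g : φ.Isom} (h1 : g.1 u = v)
    (h2 : g.1 v = u) (h3 : ∀ x, φ.B u x = 0 → φ.B v x = 0 → g.1 x = x) :
    ∀ x ∈ Un φ D c, g.1 x ∈ Un φ D c := fun x ⟨⟨i, hi⟩, hx⟩ => by
  refine ⟨?_, by simpa⟩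
  by_cases h4 : φ.B u x = 0
  · by_cases h5 : φ.B v x = 0
    · exact ⟨i, (h3 x h4 h5).symm ▸ hi⟩
    obtain rfl : i = b := by_contra fun h6 => h5 (hD.orth b i (Ne.symm h6) hi v hv)
    obtain ⟨l, rfl⟩ := Submodule.mem_span_singleton.1 ((hfv x hi hx).resolve_right h5)
    exact ⟨a, by rw [map_smul, h2]; exact (D a).smul_mem _ hu⟩
  obtain rfl : i = a := by_contra fun h6 => h4 (hD.orth a i (Ne.symm h6) hi u hu)
  obtain ⟨l, rfl⟩ := Submodule.mem_span_singleton.1 ((hfu x hi hx).resolve_right h4)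
  exact ⟨b, by rw [map_smul, h1]; exact (D b).smul_mem _ hv⟩

theorem exists_ne_two {t : ℕ} (ht : 3 ≤ t) : ∃ a b d : Fin t, a ≠ b ∧ a ≠ d ∧ b ≠ d :=
  ⟨⟨0, by omega⟩, ⟨1, by omega⟩, ⟨2, by omega⟩, by simp, by simp, by simp⟩

section quad
variable (h : φ.IsQuad)
include h

omit [Finite F] in
theorem refl_swap {u v : V} (h2 : (2 : F) ≠ 0) (hu : φ.Q u ≠ 0) (hQ : φ.Q v = φ.Q u)
    (hB : φ.B u v = 0) : (φ.refl (u - v)).1 u = v ∧ (φ.refl (u - v)).1 v = u ∧
      ∀ x, φ.B u x = 0 → φ.B v x = 0 → (φ.refl (u - v)).1 x = x := by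
  have h1 : φ.Q (u - v) = 2 * φ.Q u := by rw [φ.Q_sub, hB, hQ]; simp; ring
  refine ⟨?_, ?_, fun x h3 h4 => h.refl_of_orth (by simp [h3, h4])⟩
  · rw [h.refl_apply, h1, map_sub, LinearMap.sub_apply, h.B_self, φ.B_symm_zero hB,
      show -(2 * φ.Q u)⁻¹ * (2 * φ.Q u - 0) = -1 by field_simp; ring]
    module
  · rw [h.refl_apply, h1, map_sub, LinearMap.sub_apply, h.B_self, hB, hQ,
      show -(2 * φ.Q u)⁻¹ * (0 - 2 * φ.Q u) = 1 by field_simp; ring]
    module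

theorem refl_mul_mem (hn : 5 ≤ finrank F V) {u v : V} (hu : φ.Q u ≠ 0) (hQ : φ.Q u = φ.Q v) :
    φ.refl u * φ.refl v ∈ φ.E := by
  rw [h.E_eq_commutator (h.good_of_finrank (by omega)) (by omega)]
  exact h.refl_mul_refl_mem hu one_ne_zero (by simp [hQ])

theorem btw_frame (h2 : (2 : F) ≠ 0) (hD : φ.ODec D) {a b d : κ} (hab : a ≠ b) (had : a ≠ d)
    (hbd : b ≠ d) (hn : finrank F (D a) + 4 ≤ finrank F V) (hk : 2 ≤ finrank F (D a)) {c : F}
    (hc : c ≠ 0) (hex : ∀ i, ∃ u ∈ D i, φ.Q u = c)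
    (hfr : ∀ i, ∀ u ∈ D i, ∀ x ∈ D i, φ.Q u = c → φ.Q x = c → x ∈ F ∙ u ∨ φ.B u x = 0) :
    Btw φ (φ.dstab D) := by
  obtain ⟨u, hu, hu'⟩ := hex a
  obtain ⟨v, hv, hv'⟩ := hex b
  obtain ⟨w, hw, hw'⟩ := hex d
  obtain ⟨a1, a2, a3⟩ := refl_swap h h2 (hu' ▸ hc) (hv'.trans hu'.symm) (hD.orth a b hab hv u hu)
  obtain ⟨b1, b2, b3⟩ := refl_swap h h2 (hu' ▸ hc) (hw'.trans hu'.symm) (hD.orth a d had hw u hu)
  obtain ⟨z, hz, hz0, hz'⟩ := φ.exists_orth (D a) ⊥ [u] (by simpa)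
  have h3 : ∀ i, ∀ v ∈ D i, a ≠ i → φ.Q v = c → φ.Q (u - v) = 2 * c := fun i v hv hi h => by
    rw [φ.Q_sub, hD.orth a i hi hv u hu, hu', h]; simp; ring
  refine btw_union (h.std (by omega)) hD hn hu (by rintro rfl; simp [hc.symm] at hu') hu'
    ⟨_, refl_mul_mem h (by omega) (u := u - v) (v := u - w) (by simp [h3 b v hv hab hv', h2, hc])
      (by rw [h3 b v hv hab hv', h3 d w hw had hw']), fun x hx => ?_,
      not_dstab hD hz (by simpa using hz0) ?_ hu ?_⟩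
  · exact swap_pres hD hab hu hv (hfr a u hu · · hu') (hfr b v hv · · hv') a1 a2 a3 _
      (swap_pres hD had hu hw (hfr a u hu · · hu') (hfr d w hw · · hw') b1 b2 b3 x hx)
  · rw [Isom.mul_apply, b3 z (by simpa using hz') (hD.orth d a had.symm hz w hw),
      a3 z (by simpa using hz') (hD.orth b a hab.symm hz v hv)]
    exact hz
  · rw [Isom.mul_apply, b1, a3 w (hD.orth a d had hw u hu) (hD.orth b d hbd hw v hv)]
    exact fun h4 => hc (by rw [← hw', hD.eq_zero_of_mem had h4 hw, φ.Q_zero])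

omit [φ.Nondeg] [Finite F] in
theorem plane_sing {W : Submodule F V} (hW : finrank F W = 2) {x y z : V} (hx : x ∈ W) (hy : y ∈ W)
    (hz : z ∈ W) (hz0 : z ≠ 0) (hQ : φ.Q z = 0) {c : F} (hc : c ≠ 0) (h1 : φ.Q x = c) (h2 : φ.Q y = c)
    (hg : φ.B x y ^ 2 ≠ 4 * c ^ 2) : ∃ t : F, t ≠ 0 ∧ φ.B x y = -c * (t + t⁻¹) := by
  have h3 := φ.linearIndependent_pair_of_gram (e := x) (f := y) (by
    rw [h.B_self, h.B_self, h.B_comm y, h1, h2]; exact fun e => hg (by linear_combination -e))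
  have h4 : Submodule.span F {x, y} = W := Submodule.eq_of_le_of_finrank_eq
    (Submodule.span_le.2 (Set.pair_subset hx hy)) (by rw [finrank_span_pair_of_li h3, hW])
  obtain ⟨α, β, rfl⟩ := Submodule.mem_span_pair.1 (h4.ge hz)
  rw [h.Q_comb, h1, h2] at hQ
  have hα : α ≠ 0 := by rintro rfl; simp [hc] at hQ; simp [hQ] at hz0
  have hβ : β ≠ 0 := by rintro rfl; simp [hc, hα] at hQ
  refine ⟨α / β, div_ne_zero hα hβ, ?_⟩
  field_simp
  linear_combination hQ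

omit h [φ.Nondeg] [Finite F] in
theorem plane_aniso {W : Submodule F V} (hW : finrank F W = 2) (hW' : φ.NondegOn W) {x z : V}
    (hx : x ∈ W) (hz : z ∈ W) (hQ : φ.Q x ≠ 0) (hB : φ.B x z = 0) (hQ' : φ.Q z = 0) : z = 0 := by
  by_contra h0
  have h3 : LinearIndependent F ![z, x] := (LinearIndependent.pair_iff' h0).2 fun a ha =>
    hQ (ha ▸ φ.Q_smul_of_sing hQ' a)
  have h4 : Submodule.span F {z, x} = W := Submodule.eq_of_le_of_finrank_eq
    (Submodule.span_le.2 (Set.pair_subset hz hx)) (by rw [finrank_span_pair_of_li h3, hW])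
  refine h0 (hW' z hz fun y hy => ?_)
  obtain ⟨α, β, rfl⟩ := Submodule.mem_span_pair.1 (h4.ge hy)
  simp [φ.B_self_eq_zero hQ', φ.B_symm_zero hB]

omit [φ.Nondeg] [Finite F] [FiniteDimensional F V] in
theorem frame_of {W : Submodule F V} {x y : V} (hx : x ∈ W) (hy : y ∈ W) {c : F}
    (h1 : φ.Q x = c) (h2 : φ.Q y = c) (han : ∀ z ∈ W, φ.B x z = 0 → φ.Q z = 0 → z = 0)
    (hB : φ.B x y ^ 2 = 4 * c ^ 2 ∨ φ.B x y = 0) : y ∈ F ∙ x ∨ φ.B x y = 0 := by
  refine hB.imp_left fun h3 => ?_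
  rcases sq_eq_sq_iff_eq_or_eq_neg.1 (h3.trans (by ring : _ = (2 * c) ^ 2)) with h4 | h4
  · have := han (y - x) (sub_mem hy hx) (by simp [h.B_self, h1, h4])
      (by rw [φ.Q_sub, h.T_eq, h.B_comm, h1, h2, h4]; ring)
    exact Submodule.mem_span_singleton.2 ⟨1, by rw [one_smul, eq_comm, ← sub_eq_zero, this]⟩
  · have := han (y + x) (add_mem hy hx) (by simp [h.B_self, h1, h4])
      (by rw [φ.Q_add, h.T_eq, h.B_comm, h1, h2, h4]; ring)
    exact Submodule.mem_span_singleton.2 ⟨-1, by rw [neg_one_smul, neg_eq_iff_add_eq_zero, add_comm, this]⟩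

theorem three_refl (h2 : (2 : F) = 0) (hD : φ.ODec D) {a b d : κ} (hab : a ≠ b) (had : a ≠ d)
    (hbd : b ≠ d) (hn : 5 ≤ finrank F V) {u v w : V} (hu : u ∈ D a) (hv : v ∈ D b) (hw : w ∈ D d)
    (hu' : φ.Q u = 1) (hv' : φ.Q v = 1) (hw' : φ.Q w = 1) : φ.Q (u + (v + w)) = 1 ∧
      φ.refl (u + (v + w)) * φ.refl u ∈ φ.E ∧ φ.refl (u + (v + w)) * φ.refl u ∉ φ.dstab D := by
  have h1 : v + w ∈ φ.perp (D a) := add_mem (hD.orth a b hab hv) (hD.orth a d had hw)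
  have h3 : φ.Q (u + (v + w)) = 1 := by
    rw [φ.Q_add_of_orth (h1 u hu), φ.Q_add_of_orth (hD.orth b d hbd hw v hv), hu', hv', hw']
    linear_combination h2
  have hu0 : u ≠ 0 := by rintro rfl; simp at hu'
  have h4 : φ.B u u = 0 := by rw [h.B_self, h2, zero_mul]
  obtain ⟨e, he, he'⟩ : ∃ e ∈ D a, φ.B u e ≠ 0 := by
    by_contra h0; push Not at h0; exact hu0 (hD.nondeg a u hu h0)
  refine ⟨h3, refl_mul_mem h hn (by simp [h3]) (h3.trans hu'.symm), not_dstab hD hu hu0 ?_ he ?_⟩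
  · rwa [Isom.mul_apply, h.refl_of_orth h4, h.refl_of_orth (by
      rw [map_add, LinearMap.add_apply, h4, φ.mem_perp'.1 h1 u hu, add_zero])]
  have h5 : (φ.refl u).1 e ∈ D a := h.refl_apply u e ▸ add_mem he ((D a).smul_mem _ hu)
  rw [Isom.mul_apply, h.refl_apply, add_mem_cancel_left h5, Submodule.smul_mem_iff]
  · refine add_notMem hD hu hu0 h1 (fun h6 => ?_) a
    have := hD.eq_zero_of_mem hbd hv ((add_mem_cancel_right hw).1 (h6 ▸ zero_mem _))
    simp [this] at hv'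
  rw [map_add φ.B, LinearMap.add_apply, φ.mem_perp'.1 h1 _ h5, h.refl_apply, h3]
  simpa [h4] using he'

theorem btw_22 (hq : Nat.card F = 2) (hD : φ.ODec D) {a b d : κ} (hab : a ≠ b) (had : a ≠ d)
    (hbd : b ≠ d) (hn : 6 ≤ finrank F V) (hk : ∀ i, finrank F (D i) = 2)
    (hp : ∀ i, ∃ z ∈ D i, z ≠ 0 ∧ φ.Q z = 0) : Btw φ (φ.dstab D) := by
  have := Fintype.ofFinite F
  rw [Nat.card_eq_fintype_card] at hq
  have h2 : (2 : F) = 0 := by simpa [hq] using FiniteField.cast_card_eq_zero F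
  choose s hs hs' using fun i => h.exists_Q_eq (hD.nondeg i) (hk i).ge 1
  obtain ⟨h3, h4, h5⟩ := three_refl h h2 hD hab had hbd (by omega) (hs a) (hs b) (hs d) (hs' a)
    (hs' b) (hs' d)
  have h6 : ∀ i, ∀ x ∈ Un φ D 1, φ.B (s i) x = 0 := fun i x ⟨⟨j, hj⟩, hx⟩ => by
    by_cases hij : i = j
    · subst hij
      obtain ⟨z, hz, hz0, hz'⟩ := hp i
      by_contra h0
      obtain ⟨t, ht, ht'⟩ := plane_sing h (hk i) (hs i) hj hz hz0 hz' one_ne_zero (hs' i) hx (by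
        rw [show (4 : F) = 2 * 2 by norm_num, h2]; simpa using h0)
      obtain rfl : t = 1 := by simpa [hq] using FiniteField.pow_card_sub_one_eq_one t ht
      exact h0 (by rw [ht']; simp; linear_combination -h2)
    · exact hD.orth i j hij hj _ (hs i)
  refine btw_union (h.std (by omega)) hD (by rw [hk a]; omega) (hs a)
    (fun h0 => by simpa [h0] using hs' a) (hs' a) ⟨_, h4, fun x hx => ?_, h5⟩
  rwa [Isom.mul_apply, h.refl_of_orth (h6 a x hx), h.refl_of_orth (by simp [h6 _ x hx])]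

theorem btw_24 (hq : Nat.card F = 4) (hD : φ.ODec D) {a b d : κ} (hab : a ≠ b) (had : a ≠ d)
    (hbd : b ≠ d) (hn : 6 ≤ finrank F V) (hk : ∀ i, finrank F (D i) = 2)
    (hp : ∀ i, ∃ z ∈ D i, z ≠ 0 ∧ φ.Q z = 0) : Btw φ (φ.dstab D) := by
  have := Fintype.ofFinite F
  rw [Nat.card_eq_fintype_card] at hq
  have h2 : (2 : F) = 0 := by
    have := FiniteField.cast_card_eq_zero F
    rw [hq] at this
    exact pow_eq_zero_iff (n := 2) (by omega) |>.1 (by norm_num; exact_mod_cast this)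
  choose s hs hs' using fun i => h.exists_Q_eq (hD.nondeg i) (hk i).ge 1
  obtain ⟨h3, h4, h5⟩ := three_refl h h2 hD hab had hbd (by omega) (hs a) (hs b) (hs d) (hs' a)
    (hs' b) (hs' d)
  let A := AddSubgroup.closure (Un φ D 1)
  have h6 : ∀ x ∈ Un φ D 1, ∀ y ∈ Un φ D 1, φ.B x y ^ 2 = φ.B x y := fun x ⟨⟨i, hi⟩, hx⟩ y ⟨⟨j, hj⟩, hy⟩ => by
    by_cases hij : i = j
    · subst hij
      obtain ⟨z, hz, hz0, hz'⟩ := hp i
      by_cases h0 : φ.B x y = 0
      · simp [h0]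
      obtain ⟨t, ht, ht'⟩ := plane_sing h (hk i) hi hj hz hz0 hz' one_ne_zero hx hy (by
        rw [show (4 : F) = 2 * 2 by norm_num, h2]; simpa using h0)
      have h7 : t ^ 3 = 1 := by simpa [hq] using FiniteField.pow_card_sub_one_eq_one t ht
      rw [ht', show t⁻¹ = t ^ 2 from inv_eq_of_mul_eq_one_right (by linear_combination h7)]
      linear_combination (t ^ 3 + t ^ 2 + t) * h2 + t * h7
    · simp [hD.orth i j hij hj _ hi]
  have h7 : ∀ x ∈ A, ∀ y ∈ A, φ.B x y ^ 2 = φ.B x y := fun x hx y hy => by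
    induction hx, hy using AddSubgroup.closure_induction₂ with
    | mem x y hx hy => exact h6 x hx y hy
    | zero_left => simp
    | zero_right => simp
    | add_left x y z _ _ _ h1 h1' =>
      rw [map_add, LinearMap.add_apply]; linear_combination h1 + h1' + φ.B x z * φ.B y z * h2
    | add_right x y z _ _ _ h1 h1' =>
      rw [map_add]; linear_combination h1 + h1' + φ.B z x * φ.B z y * h2
    | neg_left x y _ _ h1 => rw [map_neg, LinearMap.neg_apply]; linear_combination h1 + φ.B x y * h2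
    | neg_right x y _ _ h1 => rw [map_neg]; linear_combination h1 + φ.B x y * h2
  have h8 : ∀ i, s i ∈ A := fun i => AddSubgroup.subset_closure ⟨⟨i, hs i⟩, hs' i⟩
  have h9 : ∀ u ∈ A, φ.Q u = 1 → ∀ x ∈ A, (φ.refl u).1 x ∈ A := fun u hu hu' x hx => by
    rw [h.refl_apply, hu']
    rcases eq_or_ne (φ.B u x) 0 with h0 | h0
    · simpa [h0] using hx
    · rw [mul_left_cancel₀ h0 (show φ.B u x * φ.B u x = φ.B u x * 1 by linear_combination h7 u hu x hx)]
      simpa using add_mem hx (neg_mem hu)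
  have hs0 : s a ≠ 0 := fun h0 => by simpa [h0] using hs' a
  obtain ⟨ω, hω⟩ : ∃ ω : F, ω ^ 2 ≠ ω := by
    classical
    obtain ⟨ω, hω⟩ : ∃ ω : F, ω ∉ ({0, 1} : Finset F) := by
      by_contra h0; push Not at h0
      have := Finset.card_le_card (s := Finset.univ) fun x _ => h0 x
      have := Finset.card_le_two (a := (0 : F)) (b := 1)
      simp_all
    simp only [Finset.mem_insert, Finset.mem_singleton, not_or] at hω
    exact ⟨ω, fun h0 => hω.2 (mul_left_cancel₀ hω.1 (by linear_combination h0))⟩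
  obtain ⟨e, he, he'⟩ : ∃ e ∈ D a, φ.B (s a) e ≠ 0 := by
    by_contra h0; push Not at h0; exact hs0 (hD.nondeg a _ (hs a) h0)
  obtain ⟨y, hy, hy'⟩ := h.exists_Q_eq (hD.nondeg b) (hk b).ge (1 - φ.Q ((ω / φ.B (s a) e) • e))
  have h10 : φ.B (s a) ((ω / φ.B (s a) e) • e + y) = ω := by
    simp [hD.orth a b hab hy _ (hs a), he']
  refine btw_set (h.std (by omega)) (by omega) A (fun g hg x hx => ?_) ⟨_, h4, fun x hx =>
    h9 _ (add_mem (h8 a) (add_mem (h8 b) (h8 d))) h3 _ (h9 _ (h8 a) (hs' a) x hx), h5⟩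
    ⟨s a, h8 a, (ω / φ.B (s a) e) • e + y, fun h0 => hω (h10 ▸ h7 _ (h8 a) _ h0), hs0,
      fun h0 => hω (by rw [← h10, h0]; simp), ?_⟩
  · refine (AddSubgroup.closure_le (A.comap (g.1 : V →+ V))).2 (fun x hx => ?_) hx
    obtain ⟨⟨i, hi⟩, hx⟩ := hx
    exact AddSubgroup.subset_closure ⟨dstab_mem hg hi, by simpa⟩
  · rw [φ.Q_add_of_orth (hD.orth a b hab hy _ ((D a).smul_mem _ he)), hy', hs']; ring

theorem btw_42 (hq : Nat.card F = 2) (hD : φ.ODec D) {a b : κ} (hab : a ≠ b)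
    (hn : 8 ≤ finrank F V) (hk : ∀ i, finrank F (D i) = 4)
    (hp : ∀ i, (φ.restrict (D i)).HasTS 2) : Btw φ (φ.dstab D) := by
  have := Fintype.ofFinite F
  rw [Nat.card_eq_fintype_card] at hq
  have h2 : (2 : F) = 0 := by simpa [hq] using FiniteField.cast_card_eq_zero F
  have h2' : (1 : F) + 1 = 0 := by linear_combination h2
  have h01 : ∀ a : F, a = 0 ∨ a = 1 := fun a => or_iff_not_imp_left.2 fun h => by
    simpa [hq] using FiniteField.pow_card_sub_one_eq_one a h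
  have h1 : ∀ i, ∃ u ∈ D i, ∃ v ∈ D i, φ.Q u = 1 ∧ φ.Q v = 1 ∧ φ.B u v = 1 ∧ ∀ s ∈ D i, φ.Q s = 1 →
      s = u ∨ s = v ∨ s = u + v ∨ φ.B u s = 0 ∧ φ.B v s = 0 := fun i => by
    have := (hD.nondeg i).nondeg
    obtain ⟨T, hT⟩ := (isQuad_ofQuad (qPlus 2 F)).exists_isEquiv_even (h.restrict (D i)) (m := 2)
      (by simp) (hk i) (iff_of_true qPlus_hasTS (hp i))
    have hQ : ∀ x, φ.Q (T x) = Cfsg.quadFormPlus 2 F x := hT.Q
    have hB : ∀ x y, φ.B (T x) (T y) = QuadraticMap.polar (Cfsg.quadFormPlus 2 F) x y := hT.B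
    refine ⟨_, (T (Sum.elim ![1, 0] ![1, 0])).2, _, (T (Sum.elim ![1, 1] ![0, 1])).2,
      by simp [hQ, Cfsg.quadFormPlus], by simp [hQ, Cfsg.quadFormPlus],
      by simp [hB, polar_quadFormPlus], fun s hs hs' => ?_⟩
    obtain ⟨x, hx⟩ := T.surjective ⟨s, hs⟩
    obtain rfl : T x = s := congrArg Subtype.val hx
    simp only [hQ, hB, polar_quadFormPlus, Cfsg.quadFormPlus, ← Submodule.coe_add, ← map_add,
      Subtype.coe_inj, EmbeddingLike.apply_eq_iff_eq, funext_iff, Sum.forall, Fin.forall_fin_two] at hs' ⊢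
    rcases h01 (x (.inl 0)) with e1 | e1 <;> rcases h01 (x (.inl 1)) with e2 | e2 <;>
      rcases h01 (x (.inr 0)) with e3 | e3 <;> rcases h01 (x (.inr 1)) with e4 | e4 <;>
      simp [e1, e2, e3, e4, h2'] at hs' ⊢
  obtain ⟨u, hu, v, hv, a1, a2, a3, a4⟩ := h1 a
  obtain ⟨u', hu', v', hv', b1, b2, b3, b4⟩ := h1 b
  have o1 := fun x hx y hy => hD.orth a b hab (x := y) hy x hx
  have o2 := fun x hx y hy => hD.orth b a hab.symm (x := y) hy x hx
  have c1 : φ.Q (u + u') = 0 := by rw [φ.Q_add_of_orth (o1 _ hu _ hu'), a1, b1, h2']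
  have c2 : φ.T 0 = φ.Q (v + v') := by rw [φ.Q_add_of_orth (o1 _ hv _ hv'), a2, b2, h2', map_zero]
  have c3 : φ.B (u + u') (v + v') = 0 := by simp [a3, b3, o1 _ hu _ hv', o2 _ hu' _ hv, h2']
  have c4 : ∀ x, φ.B x x = 0 := fun x => by rw [h.B_self, h2, zero_mul]
  have c5 := φ.siegel_apply c1 c3 c2
  have c6 := φ.siegel_mem_E c1 c3 c2
  set g := φ.siegel (u + u') (v + v') 0
  have d1 : g.1 u = u' := by
    rw [c5]; simp [h.B_comm v, a3, c4, o2 _ hu' _ hu, o2 _ hv' _ hu]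
    linear_combination (norm := module) h2 • u
  have d2 : g.1 v = v' := by
    rw [c5]; simp [a3, c4, o2 _ hu' _ hv, o2 _ hv' _ hv, h.ε_eq]
    linear_combination (norm := module) -h2 • v'
  have d3 : g.1 u' = u := by
    rw [c5]; simp [h.B_comm v', b3, c4, o1 _ hu _ hu', o1 _ hv _ hu']
    linear_combination (norm := module) h2 • u'
  have d4 : g.1 v' = v := by
    rw [c5]; simp [b3, c4, o1 _ hu _ hv', o1 _ hv _ hv', h.ε_eq]
    linear_combination (norm := module) -h2 • v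
  have d5 : ∀ x, φ.B u x = 0 → φ.B v x = 0 → φ.B u' x = 0 → φ.B v' x = 0 → g.1 x = x :=
    fun x e1 e2 e3 e4 => by rw [c5]; simp [e1, e2, e3, e4]
  obtain ⟨z, hz, hz0, hz'⟩ := φ.exists_orth (D a) ⊥ [u, v] (by simp [hk])
  have hu0 : u ≠ 0 := by rintro rfl; simp at a1
  refine btw_union (h.std (by omega)) hD (by rw [hk a]; omega) hu hu0 a1 ⟨g, c6,
    fun x ⟨⟨i, hi⟩, hx⟩ => ⟨?_, by simpa⟩, not_dstab hD hz (by simpa using hz0) ?_ hu ?_⟩
  · by_cases ha : i = a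
    · subst ha
      rcases a4 x hi hx with rfl | rfl | rfl | e
      exacts [⟨b, d1 ▸ hu'⟩, ⟨b, d2 ▸ hv'⟩, ⟨b, by rw [map_add, d1, d2]; exact add_mem hu' hv'⟩,
        ⟨i, (d5 x e.1 e.2 (o2 _ hu' _ hi) (o2 _ hv' _ hi)).symm ▸ hi⟩]
    by_cases hb : i = b
    · subst hb
      rcases b4 x hi hx with rfl | rfl | rfl | e
      exacts [⟨a, d3 ▸ hu⟩, ⟨a, d4 ▸ hv⟩, ⟨a, by rw [map_add, d3, d4]; exact add_mem hu hv⟩,
        ⟨i, (d5 x (o1 _ hu _ hi) (o1 _ hv _ hi) e.1 e.2).symm ▸ hi⟩]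
    exact ⟨i, (d5 x (hD.orth a i (Ne.symm ha) hi _ hu) (hD.orth a i (Ne.symm ha) hi _ hv)
      (hD.orth b i (Ne.symm hb) hi _ hu') (hD.orth b i (Ne.symm hb) hi _ hv')).symm ▸ hi⟩
  · rwa [d5 z (hz' u (by simp)) (hz' v (by simp)) (o2 _ hu' _ hz) (o2 _ hv' _ hz)]
  · rw [d1]; exact fun h4 => by simp [hD.eq_zero_of_mem hab h4 hu'] at b1

theorem aniso33 [Fintype F] (hq : Fintype.card F = 3) (hn : finrank F V = 3) : ∃ c : F, c ≠ 0 ∧
    (∃ u, φ.Q u = c) ∧ ∀ x z, φ.Q x = c → φ.B x z = 0 → φ.Q z = 0 → z = 0 := by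
  let e := (ZMod.ringEquivOfPrime F (by decide) hq).symm
  have h2 : (2 : F) ≠ 0 := fun h0 => by
    have := congrArg e h0; rw [map_ofNat, map_zero] at this; exact absurd this (by decide)
  obtain ⟨b, b1, b2⟩ := h.exists_orth_basis' h2 hn
  have key : ∀ a : Fin 3 → ZMod 3, (∀ i, a i ≠ 0) → ∃ i, ∀ x z : Fin 3 → ZMod 3,
      ∑ j, x j ^ 2 * a j = a i → ∑ j, x j * z j * a j = 0 → ∑ j, z j ^ 2 * a j = 0 → z = 0 := by
    decide +kernel
  obtain ⟨i, hi⟩ := key (fun i => e (φ.Q (b i))) (by simpa using b2)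
  have hB : ∀ x z, φ.B x z = 2 * ∑ j, b.repr x j * b.repr z j * φ.Q (b j) := fun x z => by
    conv_lhs => rw [← b.sum_repr x, ← b.sum_repr z]
    simp only [Fin.sum_univ_three, map_add, LinearMap.add_apply, φ.B_smul_left, φ.B_smul_right,
      h.σ_eq, h.B_self]
    simp [b1]; ring
  have hQ : ∀ x, φ.Q x = ∑ j, b.repr x j ^ 2 * φ.Q (b j) := fun x => mul_left_cancel₀ h2 (by
    rw [← h.B_self, hB]; simp [sq])
  refine ⟨_, b2 i, ⟨_, rfl⟩, fun x z h1 h3 h4 => b.repr.injective (Finsupp.ext fun j => ?_)⟩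
  rw [hQ] at h1 h4
  rw [hB, mul_eq_zero, or_iff_right h2] at h3
  simpa using congrFun (hi (fun j => e (b.repr x j)) (fun j => e (b.repr z j))
    (by simpa using congrArg e h1) (by simpa using congrArg e h3) (by simpa using congrArg e h4)) j

theorem btw_orth {t k : ℕ} {D : Fin t → Submodule F V} (hD : φ.ODec D) (hn : 13 ≤ finrank F V)
    (htk : finrank F V = t * k) (hk : ∀ i, finrank F (D i) = k)
    (iso : ∀ i j, ∃ e : D i ≃ₗ[F] D j, ∀ w, φ.Q (e w) = φ.Q w)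
    (hc : (k = 2 ∧ (Nat.card F = 3 ∨ (∀ i, ∃ z ∈ D i, z ≠ 0 ∧ φ.Q z = 0) ∧
      (Nat.card F = 2 ∨ Nat.card F = 4 ∨ Nat.card F = 5))) ∨ (k = 3 ∧ Nat.card F = 3) ∨
      (k = 4 ∧ Nat.card F = 2 ∧ ∀ i, (φ.restrict (D i)).HasTS 2)) : Btw φ (φ.dstab D) := by
  obtain ⟨a, b, d, hab, had, hbd⟩ := exists_ne_two (t := t) (by
    rcases hc with ⟨rfl, -⟩ | ⟨rfl, -⟩ | ⟨rfl, -⟩ <;> omega)
  have := Fintype.ofFinite F
  have h3 : Nat.card F = 3 → ∀ c : F, c ≠ 0 → ∀ B : F, B ^ 2 = 4 * c ^ 2 ∨ B = 0 := fun hq c hc B => by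
    rw [Nat.card_eq_fintype_card] at hq
    have h4 : ∀ c : F, c ≠ 0 → c ^ 2 = 1 := fun c hc => by
      simpa [hq] using FiniteField.pow_card_sub_one_eq_one c hc
    have h5 : (3 : F) = 0 := by simpa [hq] using FiniteField.cast_card_eq_zero F
    exact or_iff_not_imp_right.2 fun hB => by rw [h4 B hB, h4 c hc]; linear_combination -h5
  have h2 : Nat.card F = 3 ∨ Nat.card F = 5 → (2 : F) ≠ 0 := fun hq =>
    odd_card_iff.1 (by rcases hq with h | h <;> rw [h] <;> decide)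
  rcases hc with ⟨rfl, hq | ⟨hp, hq | hq | hq⟩⟩ | ⟨rfl, hq⟩ | ⟨rfl, hq, hp⟩
  · exact btw_frame h (h2 (.inl hq)) hD hab had hbd (by rw [hk]; omega) (hk a).ge one_ne_zero
      (fun i => h.exists_Q_eq (hD.nondeg i) (hk i).ge 1) fun i u hu x hx h4 h5 =>
        frame_of h hu hx h4 h5 (fun z hz => plane_aniso (hk i) (hD.nondeg i) hu hz (by simp [h4]))
          (h3 hq _ one_ne_zero _)
  · exact btw_22 h hq hD hab had hbd (by omega) hk hp
  · exact btw_24 h hq hD hab had hbd (by omega) hk hp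
  · refine btw_frame h (h2 (.inr hq)) hD hab had hbd (by rw [hk]; omega) (hk a).ge one_ne_zero
      (fun i => h.exists_Q_eq (hD.nondeg i) (hk i).ge 1) fun i u hu x hx h4 h5 =>
        frame_of h hu hx h4 h5 (fun z hz => plane_aniso (hk i) (hD.nondeg i) hu hz (by simp [h4]))
          (or_iff_not_imp_left.2 fun h6 => ?_)
    obtain ⟨z, hz, hz0, hz'⟩ := hp i
    obtain ⟨s, hs, hs'⟩ := plane_sing h (hk i) hu hx hz hz0 hz' one_ne_zero h4 h5 h6
    rw [Nat.card_eq_fintype_card] at hq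
    have h7 : s ^ 4 = 1 := by simpa [hq] using FiniteField.pow_card_sub_one_eq_one s hs
    rw [show s⁻¹ = s ^ 3 from inv_eq_of_mul_eq_one_right (by linear_combination h7)] at hs'
    rcases mul_eq_zero.1 (show (s ^ 2 - 1) * (s ^ 2 + 1) = 0 by linear_combination h7) with h8 | h8
    · exact absurd (by rw [hs']; linear_combination (s ^ 4 + 3 * s ^ 2 + 4) * h8) h6
    · rw [hs']; linear_combination -s * h8
  · have := (hD.nondeg a).nondeg
    obtain ⟨c, hc, ⟨u, hu⟩, h4⟩ := aniso33 (h.restrict (D a)) (by simpa using hq) (hk a)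
    refine btw_frame h (h2 (.inl hq)) hD hab had hbd (by rw [hk]; omega) (by rw [hk]; omega) hc
      (fun i => (iso a i).elim fun e he => ⟨_, (e u).2, (he u).trans hu⟩) fun i u hu x hx h5 h6 =>
        frame_of h hu hx h5 h6 (fun z hz h7 h8 => ?_) (h3 hq _ hc _)
    obtain ⟨e, he⟩ := iso i a
    have h9 := he (⟨u, hu⟩ + ⟨z, hz⟩)
    rw [map_add, Submodule.coe_add, Submodule.coe_add, h.Q_add, h.Q_add, he, he, h7] at h9
    simpa using h4 (e ⟨u, hu⟩) (e ⟨z, hz⟩) ((he _).trans h5) (add_left_cancel h9) ((he _).trans h8)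
  · exact btw_42 h hq hD hab (by omega) hk hp

end quad

theorem btw_unit (h : φ.IsUnitary 2) (hD : φ.ODec D) {a b : κ} (hab : a ≠ b)
    (hn : 6 ≤ finrank F V) (hk : ∀ i, finrank F (D i) = 2) : Btw φ (φ.dstab D) := by
  have := Fintype.ofFinite F
  have hq : Fintype.card F = 4 := by simpa using h.card
  have h2 : (2 : F) = 0 := by
    have := FiniteField.cast_card_eq_zero F
    rw [hq] at this
    exact pow_eq_zero_iff (n := 2) (by omega) |>.1 (by norm_num; exact_mod_cast this)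
  have h0 : ∀ i, D i ≠ ⊥ := fun i h0 => by have := hk i; rw [h0] at this; simp at this
  obtain ⟨u, hu, hu'⟩ := h.exists_Q_eq (hD.nondeg a) (h0 a) (c := 1) (map_one _)
  obtain ⟨v, hv, hv'⟩ := h.exists_Q_eq (hD.nondeg b) (h0 b) (c := 1) (map_one _)
  have hfr : ∀ i, ∀ u ∈ D i, φ.Q u = 1 → ∀ x ∈ D i, φ.Q x = 1 → x ∈ F ∙ u ∨ φ.B u x = 0 :=
    fun i u hu hu' x hx hx' => or_iff_not_imp_right.2 fun h3 => by
      have h4 : φ.B u x ^ 3 = 1 := by simpa [hq] using FiniteField.pow_card_sub_one_eq_one _ h3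
      have := plane_aniso (hk i) (hD.nondeg i) hu (sub_mem hx ((D i).smul_mem (φ.B u x) hu))
        (by simp [hu']) (by simp [← h.herm.Q_eq, hu']) (by
          rw [φ.Q_sub, φ.Q_smul, φ.B_smul_right, φ.symm u x, h.herm.T_eq, hx', hu', h.herm.ε_eq]
          simp only [map_mul, φ.σ_σ, h.σ_eq, map_one]
          linear_combination (-φ.B u x ^ 3 - 1) * h4)
      exact Submodule.mem_span_singleton.2 ⟨_, (sub_eq_zero.1 this).symm⟩
  have o1 := hD.orth a b hab hv u hu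
  have c1 : φ.Q (u + v) = 0 := by rw [φ.Q_add_of_orth o1, hu', hv']; linear_combination h2
  have c2 : φ.T 1 = φ.Q 0 := by rw [h.herm.T_eq]; simp; linear_combination h2
  have c5 := φ.siegel_apply c1 (by simp) c2
  obtain ⟨z, hz, hz0, hz'⟩ := φ.exists_orth (D a) ⊥ [u] (by simp [hk])
  have d1 : (φ.siegel (u + v) 0 1).1 u = v := by
    rw [c5]; simp [← h.herm.Q_eq, hu', φ.B_symm_zero o1, h.herm.ε_eq]
    linear_combination (norm := module) -h2 • v
  have d3 : ∀ x, φ.B u x = 0 → φ.B v x = 0 → (φ.siegel (u + v) 0 1).1 x = x := fun x e1 e2 => by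
    rw [c5]; simp [e1, e2]
  refine btw_union (h.std (by omega)) hD (by rw [hk a]; omega) hu (by rintro rfl; simp at hu') hu'
    ⟨_, φ.siegel_mem_E c1 (by simp) c2, swap_pres hD hab hu hv (hfr a u hu hu') (hfr b v hv hv') d1
      ?_ d3, not_dstab hD hz (by simpa using hz0) ?_ hu ?_⟩
  · rw [c5]; simp [← h.herm.Q_eq, hv', o1, h.herm.ε_eq]
    linear_combination (norm := module) -h2 • u
  · rwa [d3 z (by simpa using hz') (hD.orth b a hab.symm hz v hv)]
  · rw [d1]; exact fun h4 => by simp [hD.eq_zero_of_mem hab h4 hv] at hv'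

theorem btw_alt (h : H09.IsAltF φ) (hq : Nat.card F = 2) [Finite κ] (hD : φ.ODec D) {a b d : κ}
    (hab : a ≠ b) (had : a ≠ d) (hbd : b ≠ d) (hn : 5 ≤ finrank F V)
    (hk : ∀ i, finrank F (D i) = 2) : Btw φ (φ.dstab D) := by
  classical
  have := Fintype.ofFinite F
  have := Fintype.ofFinite κ
  rw [Nat.card_eq_fintype_card] at hq
  have h2 : (2 : F) = 0 := by simpa [hq] using FiniteField.cast_card_eq_zero F
  have h01 : ∀ a : F, a ≠ 0 → a = 1 := fun a h => by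
    simpa [hq] using FiniteField.pow_card_sub_one_eq_one a h
  have hπ : ∀ i x, ∃! y, y ∈ D i ∧ x - y ∈ φ.perp (D i) := fun i x => by
    obtain ⟨y, z, rfl⟩ := exists_add_of_isCompl (hD.nondeg i).isCompl_perp x
    refine ⟨y, ⟨y.2, by simp⟩, fun y' hy' => sub_eq_zero.1 (hD.nondeg i _ (sub_mem hy'.1 y.2)
      (φ.mem_perp'.1 ?_))⟩
    convert sub_mem z.2 hy'.2 using 1; abel
  choose π hπ hπ' using hπ
  let q : V → F := fun y => if y = 0 then 0 else 1
  let Q : V → F := fun x => ∑ i, q (π i x)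
  have h3 : ∀ a, ∀ s ∈ D a, s ≠ 0 → ∀ x, Q (x + s) = Q x + 1 + φ.B s x := fun a s hs hs0 x => by
    have h4 : ∀ i ≠ a, π i (x + s) = π i x := fun i hi => (hπ' i _ _ ⟨(hπ i x).1, by
      convert add_mem (hπ i x).2 (hD.orth i a hi hs) using 1; abel⟩).symm
    have h5 : π a (x + s) = π a x + s := (hπ' a _ _ ⟨add_mem (hπ a x).1 hs, by
      simpa using (hπ a x).2⟩).symm
    have h6 : φ.B s x = φ.B s (π a x) := by
      have := (hπ a x).2 s hs
      rwa [map_sub, sub_eq_zero] at this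
    have h7 : ∀ y ∈ D a, q (y + s) = q y + 1 + φ.B s y := fun y hy => by
      by_cases h8 : y = 0
      · simp [q, h8, hs0]
      by_cases h9 : y + s = 0
      · simp [q, h8, eq_neg_of_add_eq_zero_left h9, hs0, B_self_of_isAltF h]
        linear_combination -h2
      have h10 : φ.B s y = 1 := h01 _ fun h0 => by
        have h3 : LinearIndependent F ![s, y] := (LinearIndependent.pair_iff' hs0).2 fun c hc => by
          rw [h01 c (by rintro rfl; exact h8 (by simp [← hc]))] at hc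
          exact h9 (by rw [← hc]; linear_combination (norm := module) h2 • s)
        have h4 : Submodule.span F {s, y} = D a := Submodule.eq_of_le_of_finrank_eq
          (Submodule.span_le.2 (Set.pair_subset hs hy)) (by rw [finrank_span_pair_of_li h3, hk])
        refine hs0 (hD.nondeg a s hs fun z hz => ?_)
        obtain ⟨α, β, rfl⟩ := Submodule.mem_span_pair.1 (h4.ge hz)
        simp [B_self_of_isAltF h, h0]
      simp [q, h8, h9, h10]
      linear_combination h2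
    simp only [Q, ← Finset.add_sum_erase _ _ (Finset.mem_univ a)]
    rw [Finset.sum_congr rfl fun i hi => by rw [h4 i (Finset.ne_of_mem_erase hi)], h5,
      h7 _ (hπ a x).1, h6]
    ring
  have h0 : Q 0 = 0 := Finset.sum_eq_zero fun i _ => if_pos (hπ' i 0 0 ⟨zero_mem _, by simp⟩).symm
  choose s hs hs0 using fun i => Submodule.exists_mem_ne_zero_of_ne_bot (p := D i)
    fun h0 => by have := hk i; rw [h0] at this; simp at this
  have h4 : Q (s a) = 1 := by simpa [h0] using h3 a _ (hs a) (hs0 a) 0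
  have h5 : s b + s d ∈ φ.perp (D a) := add_mem (hD.orth a b hab (hs b)) (hD.orth a d had (hs d))
  obtain ⟨e, he, he'⟩ : ∃ e ∈ D a, φ.B (s a) e ≠ 0 := by
    by_contra h0; push Not at h0; exact hs0 a (hD.nondeg a _ (hs a) h0)
  refine btw_set (std_of_isAltF h) hn {x | Q x = 1} (fun g ⟨σ, hσ⟩ x hx => ?_)
    ⟨φ.quasi (s a + (s b + s d)) 1, E_eq_top_of_isAltF h ▸ trivial, fun x hx => ?_,
      not_dstab hD (hs a) (hs0 a) ?_ he ?_⟩ ⟨s a, h4, s a + s b, fun h6 => ?_, hs0 a,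
      fun h6 => add_notMem hD (hs a) (hs0 a) (hD.orth a b hab (hs b)) (hs0 b) a (h6 ▸ zero_mem _),
      by simp [h.Q_eq]⟩
  · have h6 : ∀ i, π (σ i) (g.1 x) = g.1 (π i x) := fun i => (hπ' _ _ _
      ⟨(hσ i).le (Submodule.mem_map_of_mem (hπ i x).1), fun y hy => by
        obtain ⟨z, hz, rfl⟩ := (hσ i).ge hy
        simpa [← map_sub] using (hπ i x).2 z hz⟩).symm
    change ∑ i, _ = 1
    rw [← Equiv.sum_comp σ]
    simpa [h6, q] using hx
  · change Q _ = 1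
    rw [quasi_apply_alt h, one_mul]
    by_cases h6 : φ.B (s a + (s b + s d)) x = 0
    · rw [h6, zero_smul, add_zero]; exact hx
    rw [h01 _ h6, one_smul, ← add_assoc, ← add_assoc, h3 d _ (hs d) (hs0 d), h3 b _ (hs b) (hs0 b),
      h3 a _ (hs a) (hs0 a), show Q x = 1 from hx]
    have := h01 _ h6
    simp [hD.orth b a hab.symm (hs a) _ (hs b), hD.orth d a had.symm (hs a) _ (hs d),
      hD.orth d b hbd.symm (hs b) _ (hs d)] at this ⊢
    linear_combination this + 2 * h2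
  · simpa [quasi_apply_alt h, B_self_of_isAltF h, hD.orth b a hab.symm (hs a) _ (hs b),
      hD.orth d a had.symm (hs a) _ (hs d)] using hs a
  · rw [quasi_apply_alt h, add_mem_cancel_left he, Submodule.smul_mem_iff]
    · refine add_notMem hD (hs a) (hs0 a) h5 (fun h6 => hs0 b ?_) a
      exact hD.eq_zero_of_mem hbd (hs b) ((add_mem_cancel_right (hs d)).1 (h6 ▸ zero_mem _))
    · rwa [map_add φ.B, LinearMap.add_apply, φ.mem_perp'.1 h5 _ he, add_zero, one_mul]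
  · change Q _ = 1 at h6
    rw [h3 b _ (hs b) (hs0 b), h4, hD.orth b a hab.symm (hs a) _ (hs b)] at h6
    simp at h6

section gl
open Cfsg Cfsg.Geo
variable {ι : Type} [Fintype ι] [DecidableEq ι] {t k : ℕ} {D : Fin t → Submodule F (ι → F)}

omit [Finite F] [DecidableEq ι] in
theorem card_eq (h : IsMDecomposition k D) : Fintype.card ι = t * k := by
  have := (DirectSum.isInternal_submodule_iff_iSupIndep_and_iSup_eq_top D).2 ⟨h.indep, h.iSup_eq_top⟩
  have h1 := (LinearEquiv.ofBijective (DirectSum.coeLinearMap D) this).finrank_eq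
  simpa [finrank_directSum, h.finrank_eq] using h1.symm

omit [Finite F] in
theorem oDec_quad {Q : QuadraticForm F (ι → F)}
    (hD : IsNondegenerateMDecomposition (QuadraticMap.polar Q) k D) : (ofQuad Q).ODec D :=
  oDec_of (fun _ _ => Or.inl rfl) (fun _ _ => (ofQuad Q).B_eq_zero_comm) hD

theorem nm_orth {Q : QuadraticForm F (ι → F)} [(ofQuad Q).Nondeg] (hn : 13 ≤ Fintype.card ι)
    (hD : IsOrthogonalMDecomposition Q k D)
    (hc : (k = 2 ∧ (Nat.card F = 3 ∨ (∀ i, IsPlusTypeOn Q (D i)) ∧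
      (Nat.card F = 2 ∨ Nat.card F = 4 ∨ Nat.card F = 5))) ∨ (k = 3 ∧ Nat.card F = 3) ∨
      (k = 4 ∧ Nat.card F = 2 ∧ ∀ i, IsPlusTypeOn Q (D i))) :
    ∃ K : Subgroup (Matrix.GeneralLinearGroup ι F), decompositionStabilizer D ⊓ omegaGL Q < K ∧
      K < omegaGL Q := by
  have hk := hD.decomp.decomp.finrank_eq
  rw [omegaGL_eq_E Q (by omega)]
  refine Btw.map ?_
  rw [comap_decompositionStabilizer]
  refine btw_orth (isQuad_ofQuad Q) (oDec_quad hD.decomp) (by simpa) (by simpa using card_eq hD.1.1)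
    hk hD.isometric (hc.imp (fun h => ⟨h.1, h.2.imp_right (.imp_left fun h1 i => ?_)⟩)
      (.imp_right fun h => ⟨h.1, h.2.1, fun i => (isPlusTypeOn_iff (by rw [hk, h.1])).1 (h.2.2 i)⟩))
  obtain ⟨X, a, b, c⟩ := h1 i
  obtain ⟨v, d, e⟩ := Submodule.exists_mem_ne_zero_of_ne_bot (p := X) (by
    rintro rfl; simp [hk, h.1] at c)
  exact ⟨v, a d, e, b v d⟩

end gl
end H24.NM
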