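import Mathlib
import Cfsg.Agent.H24.NM1
import Cfsg.Agent.H10.AsLin

/-!
# Non-maximal stabilisers of tensor decompositions
`H24.NM.Tn` (tensor structure on a formed space), `PT` (tensor-preserving isometries), `tau`,
`btw_tens`, `fr_quad`, `fr_unit`, `btw_sp2`.
-/

set_option autoImplicit false

namespace H24.NM
open Module H10 H10.Form

variable {F V X Y : Type*} [Field F] [AddCommGroup V] [Module F V] [AddCommGroup X] [Module F X]
  [AddCommGroup Y] [Module F Y] {φ : Form F V} {τ : X →ₗ[F] Y →ₗ[F] V} {β : X → X → F} {γ : Y → Y → F}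

variable (φ τ β γ) in
/-- tensor structure -/
structure Tn : Prop where
  B : ∀ x y x' y', φ.B (τ x y) (τ x' y') = β x x' * γ y y'
  n1 : ∀ x ≠ 0, ∃ x', β x' x ≠ 0
  n2 : ∀ y ≠ 0, ∃ y', γ y' y ≠ 0

variable (τ) in
/-- `g` preserves the tensor structure -/
def PT (g : φ.Isom) : Prop := ∃ (u : X ≃ₗ[F] X) (v : Y ≃ₗ[F] Y), ∀ x y, g.1 (τ x y) = τ (u x) (v y)

theorem Tn.flip (h : Tn φ τ β γ) : Tn φ τ.flip γ β :=
  ⟨fun x y x' y' => (h.B y x y' x').trans (mul_comm _ _), h.n2, h.n1⟩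

theorem PT.flip {g : φ.Isom} (h : PT τ g) : PT τ.flip g :=
  let ⟨u, v, h⟩ := h
  ⟨v, u, fun x y => h y x⟩

theorem Tn.eq_zero (h : Tn φ τ β γ) {x : X} {y : Y} (hx : x ≠ 0) (h0 : τ x y = 0) : y = 0 := by
  by_contra hy
  obtain ⟨x', hx'⟩ := h.n1 x hx
  obtain ⟨y', hy'⟩ := h.n2 y hy
  exact mul_ne_zero hx' hy' (by rw [← h.B, h0, map_zero])

variable (β) in
/-- frame vectors -/
def Fr (x : X) : Prop := β x x ≠ 0 ∧ ∀ z, β x z = 0 → β z z = 0 → z = 0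

variable [φ.Nondeg] [FiniteDimensional F V] [Finite F]

theorem btw_tens [FiniteDimensional F Y] (h : φ.Std) (ht : Tn φ τ β γ) {S : Subgroup φ.Isom}
    (hS : ∀ g ∈ S, PT τ g) (hY : 3 ≤ finrank F Y) (hn : finrank F Y + 3 ≤ finrank F V) {a b : X}
    (ha : Fr β a) (hb : b ≠ 0) (hab : β a b = 0)
    (hfr : ∀ x, Fr β x → x ∈ F ∙ a ∨ β a x = 0) : Btw φ S := by
  obtain ⟨y0, hy0⟩ : ∃ y : Y, y ≠ 0 := finrank_pos_iff_exists_ne_zero.1 (by omega : 0 < finrank F Y)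
  obtain ⟨y1, hy1⟩ := ht.n2 y0 hy0
  have ha0 : a ≠ 0 := fun h0 => mul_ne_zero ha.1 hy1 (by rw [← ht.B, h0]; simp)
  let D := LinearMap.range (τ a)
  have hD : φ.NondegOn D := by
    rintro _ ⟨y, rfl⟩ h0
    by_contra h1
    obtain ⟨y', hy'⟩ := ht.n2 y (by rintro rfl; simp at h1)
    exact mul_ne_zero ha.1 hy' (by rw [← ht.B]; exact φ.B_symm_zero (h0 _ ⟨y', rfl⟩))
  have hd : finrank F D = finrank F Y :=
    LinearMap.finrank_range_of_inj ((injective_iff_map_eq_zero _).2 fun y => ht.eq_zero ha0)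
  have h1 : ∀ x y, β a x = 0 → τ x y ∈ φ.perp D := by
    rintro x y hx _ ⟨y', rfl⟩; rw [ht.B, hx, zero_mul]
  have h2 := φ.finrank_perp D
  obtain ⟨s, hs, hs0, hs'⟩ := h.sing (φ.perp D) (by omega)
  obtain ⟨p, hp, hp0, hp'⟩ := h.sing D (by omega)
  obtain ⟨w, hw, hw0, hw'⟩ := φ.exists_orth D (F ∙ p) [p] (by
    have := finrank_span_singleton_le (F := F) p; simp; omega)
  replace hw' := hw' p (by simp)
  obtain ⟨r, hr, -⟩ := φ.half w
  have h3 : ∀ x ∈ φ.perp D, (φ.siegel p w r).1 x = x := fun x hx =>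
    φ.siegel_apply_of_orth hp' hw' hr (hx p hp) (hx w hw)
  have hu0 : τ a y0 ≠ 0 := fun h0 => hy0 (ht.eq_zero ha0 h0)
  have h4 : ∀ v, v ∈ D ∨ v ∈ φ.perp D → τ a y0 + s ≠ v := by
    rintro _ (h5 | h5) rfl
    · exact hs0 (hD s ((add_mem_cancel_left (show _ ∈ D from ⟨y0, rfl⟩)).1 h5) (φ.mem_perp'.1 hs))
    · exact hu0 (hD _ ⟨y0, rfl⟩ (φ.mem_perp'.1 ((add_mem_cancel_right hs).1 h5)))
  have h5 : ∀ x y, Fr β x → τ x y ∈ D ∨ τ x y ∈ φ.perp D := fun x y hx =>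
    (hfr x hx).imp (fun h6 => by
      obtain ⟨c, rfl⟩ := Submodule.mem_span_singleton.1 h6
      exact ⟨c • y, by simp⟩) (h1 x y)
  refine btw_set h (by omega) {v | ∃ x y, Fr β x ∧ τ x y = v} ?_ ⟨_, φ.siegel_mem_E hp' hw' hr, ?_,
    fun h6 => ?_⟩ ⟨_, ⟨a, y0, ha, rfl⟩, τ a y0 + s, fun ⟨x, y, h6, h7⟩ => h4 _ (h5 x y h6) h7.symm, hu0,
      h4 0 (.inl (zero_mem _)), by rw [φ.Q_add_of_orth (hs _ ⟨y0, rfl⟩), hs', add_zero]⟩
  · rintro g hg _ ⟨x, y, hx, rfl⟩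
    obtain ⟨u, v, h6⟩ := hS g hg
    have h7 : ∀ x z, β (u x) (u z) = 0 ↔ β x z = 0 := fun x z => by
      have h8 : ∀ y y', β (u x) (u z) * γ (v y) (v y') = β x z * γ y y' := fun y y' => by
        rw [← ht.B, ← ht.B, ← h6, ← h6, Isom.B_map]
      refine ⟨fun h9 => by simpa [h9, hy1] using h8 y1 y0, fun h9 => ?_⟩
      simpa [h9, hy1] using h8 (v.symm y1) (v.symm y0)
    refine ⟨u x, v y, ⟨mt (h7 _ _).1 hx.1, fun z h8 h9 => ?_⟩, (h6 x y).symm⟩
    obtain ⟨z, rfl⟩ := u.surjective z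
    rw [hx.2 z ((h7 _ _).1 h8) ((h7 _ _).1 h9), map_zero]
  · rintro _ ⟨x, y, hx, rfl⟩
    rcases h5 x y hx with h6 | h6
    · obtain ⟨y', h7⟩ := (φ.fix_le_stab _ |>.trans (φ.stab_perp D).le <| show _ ∈ φ.fix _ from h3) _ |>.1 h6
      exact ⟨a, y', ha, h7⟩
    · exact ⟨x, y, hx, (h3 _ h6).symm⟩
  obtain ⟨u, v, h7⟩ := hS _ h6
  obtain ⟨x', hx'⟩ := ht.n1 b hb
  have h8 : ∀ y, β x' (u b) • v y = β x' b • y := fun y => sub_eq_zero.1 (by_contra fun h8 => by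
    obtain ⟨y', hy'⟩ := ht.n2 _ h8
    have h9 := congrArg (φ.B (τ x' y')) ((h7 b y).symm.trans (h3 _ (h1 b y hab)))
    refine mul_ne_zero hx' hy' ?_
    rw [← ht.B]
    simp only [map_sub, map_smul, ht.B, smul_eq_mul] at h9 ⊢
    linear_combination β x' b * h9)
  obtain ⟨y, rfl⟩ := hp
  have hμ : β x' (u b) ≠ 0 := fun h9 => by simpa [h9, hx', hy0] using (h8 y0).symm
  have h10 : β x' b • u a - β x' (u b) • a = 0 := by_contra fun h10 => hp0 (by
    have := h7 a y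
    rw [φ.siegel_apply_self hp' hw' hr] at this
    rw [ht.eq_zero h10 (y := y) (by
      rw [map_sub, LinearMap.sub_apply, map_smul, map_smul, LinearMap.smul_apply, LinearMap.smul_apply,
        ← map_smul, ← h8, map_smul, ← this, sub_self]), map_zero])
  obtain ⟨f, ⟨z, rfl⟩, hf⟩ : ∃ f ∈ D, φ.B (τ a y) f ≠ 0 := by
    by_contra h0; push Not at h0; exact hp0 (hD _ ⟨y, rfl⟩ h0)
  have h11 : (φ.siegel (τ a y) w r).1 (τ a z) = τ a z := smul_right_injective _ hμ (by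
    simp only
    rw [h7, ← map_smul, h8, map_smul, ← LinearMap.smul_apply, ← map_smul, sub_eq_zero.1 h10]; simp)
  rw [φ.siegel_apply hp' hw' hr] at h11
  refine hw0 ((Submodule.smul_mem_iff _ (mul_ne_zero φ.ε_ne_zero hf)).1 (Submodule.mem_span_singleton.2
    ⟨φ.B w (τ a z) - φ.ε * r * φ.B (τ a y) (τ a z), ?_⟩))
  linear_combination (norm := module) h11

theorem fr_quad (h : φ.IsQuad) (hq : Nat.card F = 3) (hn : finrank F V = 3) :
    ∃ a b, Fr (φ.B · ·) a ∧ b ≠ 0 ∧ φ.B a b = 0 ∧ ∀ x, Fr (φ.B · ·) x → x ∈ F ∙ a ∨ φ.B a x = 0 := by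
  have := Fintype.ofFinite F
  rw [Nat.card_eq_fintype_card] at hq
  let e := (ZMod.ringEquivOfPrime F (by decide) hq).symm
  have h2 : (2 : F) ≠ 0 := fun h0 => by
    have := congrArg e h0; rw [map_ofNat, map_zero] at this; exact absurd this (by decide)
  obtain ⟨b, b1, b2⟩ := h.exists_orth_basis' h2 hn
  have key : ∀ a : Fin 3 → ZMod 3, (∀ i, a i ≠ 0) → ∃ i, (∀ z : Fin 3 → ZMod 3,
      z i = 0 → ∑ j, z j * z j * a j = 0 → z = 0) ∧ ∀ x : Fin 3 → ZMod 3, (∀ z : Fin 3 → ZMod 3,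
      ∑ j, x j * z j * a j = 0 → ∑ j, z j * z j * a j = 0 → z = 0) → (∀ j ≠ i, x j = 0) ∨ x i = 0 := by
    decide +kernel
  obtain ⟨i, hi, hi'⟩ := key (fun i => e (φ.Q (b i))) (by simpa using b2)
  have hB : ∀ x z, φ.B x z = 0 ↔ ∑ j, e (b.repr x j) * e (b.repr z j) * e (φ.Q (b j)) = 0 := fun x z => by
    have : φ.B x z = 2 * ∑ j, b.repr x j * b.repr z j * φ.Q (b j) := by
      conv_lhs => rw [← b.sum_repr x, ← b.sum_repr z]
      simp only [Fin.sum_univ_three, map_add, LinearMap.add_apply, φ.B_smul_left, φ.B_smul_right,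
        h.σ_eq, h.B_self]
      simp [b1]; ring
    rw [this, mul_eq_zero, or_iff_right h2, ← e.map_eq_zero_iff]; simp
  have h3 : ∀ z, φ.B (b i) z = 0 ↔ b.repr z i = 0 := fun z => by
    simp [hB, Finsupp.single_apply, apply_ite e, b2]
  obtain ⟨j, hj⟩ := exists_ne i
  refine ⟨b i, b j, ⟨by simp [h.B_self, h2, b2], fun z h4 h5 => b.repr.injective (Finsupp.ext fun j => ?_)⟩,
    b.ne_zero j, b1 _ _ hj.symm, fun x hx => (hi' (fun j => e (b.repr x j)) fun z h4 h5 => ?_).imp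
      (fun h4 => ?_) fun h4 => (h3 x).2 (by simpa using h4)⟩
  · simpa using congrFun (hi (fun j => e (b.repr z j)) (by simpa using (h3 z).1 h4) ((hB _ _).1 h5)) j
  · have h6 : ∀ j, e (b.repr (b.equivFun.symm fun j => e.symm (z j)) j) = z j := fun j => by
      rw [← b.equivFun_apply, LinearEquiv.apply_symm_apply, RingEquiv.apply_symm_apply]
    have := hx.2 (b.equivFun.symm fun j => e.symm (z j)) ((hB _ _).2 (by simpa only [h6] using h4))
      ((hB _ _).2 (by simpa only [h6] using h5))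
    ext j
    simpa using congrFun (b.equivFun.symm.map_eq_zero_iff.1 this) j
  · rw [← b.sum_repr x, Finset.sum_eq_single i (fun j _ hj => by simpa [b.ne_zero] using h4 j hj) (by simp)]
    exact Submodule.smul_mem _ _ (Submodule.mem_span_singleton_self _)

theorem fr_unit (h : φ.IsUnitary 2) (hn : finrank F V = 2) :
    ∃ a b, Fr (φ.B · ·) a ∧ b ≠ 0 ∧ φ.B a b = 0 ∧ ∀ x, Fr (φ.B · ·) x → x ∈ F ∙ a ∨ φ.B a x = 0 := by
  have := Fintype.ofFinite F
  have hq : Fintype.card F = 4 := by simpa using h.card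
  have h3 : ∀ a : F, a ≠ 0 → a ^ 3 = 1 := fun a ha => by
    simpa [hq] using FiniteField.pow_card_sub_one_eq_one _ ha
  have : Nontrivial V := finrank_pos_iff.1 (by omega : 0 < finrank F V)
  obtain ⟨u, -, hu⟩ := h.exists_Q_eq φ.nondegOn_top top_ne_bot (c := 1) (map_one _)
  obtain ⟨b, -, hb, hb'⟩ := φ.exists_orth ⊤ ⊥ [u] (by simp [hn])
  have h4 : ∀ z, φ.B u z = 0 → φ.Q z = 0 → z = 0 := fun z =>
    plane_aniso (W := ⊤) (by simpa) φ.nondegOn_top trivial trivial (by simp [hu])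
  refine ⟨u, b, ⟨by simp [← h.herm.Q_eq, hu], fun z h5 h6 => h4 z h5 ((h.herm.Q_eq z).trans h6)⟩,
    by simpa using hb, by simpa using hb', fun x hx => or_iff_not_imp_right.2 fun h5 => ?_⟩
  have h6 : φ.Q x = 1 := by
    have h7 := φ.σ_B x x
    rw [h.σ_eq, h.herm.ε_eq, one_mul, sq] at h7
    rw [h.herm.Q_eq]; exact mul_left_cancel₀ hx.1 (h7.trans (mul_one _).symm)
  have := h4 (x - φ.B u x • u) (by simp [← h.herm.Q_eq, hu]) (by
    rw [φ.Q_sub, φ.Q_smul, φ.B_smul_right, φ.symm u x, h.herm.T_eq, h6, hu, h.herm.ε_eq]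
    simp only [map_mul, φ.σ_σ, h.σ_eq, map_one]
    linear_combination (-φ.B u x ^ 3 - 1) * h3 _ h5)
  exact Submodule.mem_span_singleton.2 ⟨_, (sub_eq_zero.1 this).symm⟩

theorem btw_sp2 [FiniteDimensional F Y] (h : φ.IsQuad) (hq : Nat.card F = 2) {τ : (Fin 2 → F) →ₗ[F] Y →ₗ[F] V}
    {ψ : Form F Y} [ψ.Nondeg] (hψ : H09.IsAltF ψ)
    (hB : ∀ x y x' y', φ.B (τ x y) (τ x' y') = (x 0 * x' 1 + x 1 * x' 0) * ψ.B y y')
    (hQ : ∀ x y, φ.Q (τ x y) = 0)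
    {S : Subgroup φ.Isom} (hS : ∀ g ∈ S, PT τ g) (hY : 3 ≤ finrank F Y) : Btw φ S := by
  have := Fintype.ofFinite F
  have : Finite V := Module.finite_of_finite F
  rw [Nat.card_eq_fintype_card] at hq
  have h2 : (2 : F) = 0 := by simpa [hq] using FiniteField.cast_card_eq_zero F
  have h2' : (1 : F) + 1 = 0 := by linear_combination h2
  have h01 : ∀ a : F, a = 0 ∨ a = 1 := fun a => or_iff_not_imp_left.2 fun h => by
    simpa [hq] using FiniteField.pow_card_sub_one_eq_one a h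
  set A := τ ![1, 0]
  set C := τ ![0, 1]
  have hx : ∀ x y, τ x y = x 0 • A y + x 1 • C y := fun x y => by
    conv_lhs => rw [show x = x 0 • ![1, 0] + x 1 • ![0, 1] by ext i; fin_cases i <;> simp]
    simp only [map_add, map_smul, LinearMap.add_apply, LinearMap.smul_apply, A, C]
  have bAA : ∀ y y', φ.B (A y) (A y') = 0 := by simp [A, hB]
  have bCC : ∀ y y', φ.B (C y) (C y') = 0 := by simp [C, hB]
  have bAC : ∀ y y', φ.B (A y) (C y') = ψ.B y y' := by simp [A, C, hB]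
  have bCA : ∀ y y', φ.B (C y) (A y') = ψ.B y y' := by simp [A, C, hB]
  have inj : ∀ {y y' z z'}, A y + C y' = A z + C z' → y = z ∧ y' = z' := fun h0 =>
    ⟨ψ.ext_B_right fun w => by simpa [bCA, bCC] using congrArg (φ.B (C w)) h0,
      ψ.ext_B_right fun w => by simpa [bAA, bAC] using congrArg (φ.B (A w)) h0⟩
  let R : Set (V × V) := {p | ∃ y y', p.1 = A y + C y' ∧
    (p.2 = A y' + C (y + y') ∨ p.2 = A (y + y') + C y)}
  let L : Subgroup φ.Isom :=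
    { carrier := {g | ∀ p ∈ R, Prod.map g.1 g.1 p ∈ R}
      one_mem' := fun x hx => hx
      mul_mem' := fun ha hb x hx => ha _ (hb x hx)
      inv_mem' := fun {g} hg x hx => by
        obtain ⟨y, hy, rfl⟩ := ((Set.toFinite R).injOn_iff_bijOn_of_mapsTo hg).1
          (g.1.injective.prodMap g.1.injective).injOn |>.surjOn hx
        simpa [Prod.map] using hy }
  obtain ⟨y1, hy1⟩ : ∃ y : Y, y ≠ 0 := finrank_pos_iff_exists_ne_zero.1 (by omega : 0 < finrank F Y)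
  obtain ⟨z, hz⟩ := ψ.exists_B_eq_one hy1
  obtain ⟨y2, -, hy2, h3⟩ := ψ.exists_orth ⊤ ⊥ [y1, z] (by simp; omega)
  have b1 := h3 y1 (by simp)
  have b2 := ψ.B_symm_zero (h3 z (by simp))
  have b3 := ψ.B_symm_zero b1
  have b0 := B_self_of_isAltF hψ
  have hA : ∀ y, φ.Q (A y) = 0 := hQ _
  have hC : ∀ y, φ.Q (C y) = 0 := hQ _
  have c1 : φ.Q (A y1 + C y2) = 0 := by simp [h.Q_add, hA, hC, bAC, b1]
  have c2 : φ.B (A y1 + C y2) (A y2 + C (y1 + y2)) = 0 := by simp [bAA, bAC, bCA, bCC, b0, b1]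
  have c3 : φ.T 0 = φ.Q (A y2 + C (y1 + y2)) := by
    rw [h.Q_add, hA, hC, bAC]; simp [b0, b3]
  refine ⟨L, ?_, ⟨_, φ.siegel_mem_E c1 c2 c3, ?_, fun h4 => ?_⟩, fun h4 => ?_⟩
  · rintro g ⟨-, hg⟩ ⟨_, w⟩ ⟨y, y', rfl, hw⟩
    obtain ⟨u, v, h4⟩ := hS g hg
    have h5 : ∀ y y', g.1 (A y + C y') = A (u ![1, 0] 0 • v y + u ![0, 1] 0 • v y') +
        C (u ![1, 0] 1 • v y + u ![0, 1] 1 • v y') := fun y y' => by
      rw [map_add, h4, h4, hx, hx (u _)]; simp only [map_add, map_smul]; abel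
    have h6 : u ![1, 0] ≠ 0 := by simp
    have h7 : u ![0, 1] ≠ 0 := by simp
    have h8 : u ![1, 0] ≠ u ![0, 1] := by simp
    have twoY : ∀ v : Y, v + v = 0 := fun v => by rw [← two_smul F, h2, zero_smul]
    refine ⟨_, _, h5 y y', ?_⟩
    simp only [ne_eq, funext_iff, Fin.forall_fin_two, Pi.zero_apply] at h6 h7 h8
    simp only at hw
    rcases hw with rfl | rfl <;> simp only [Prod.map_snd, h5, map_add v] <;>
      rcases h01 (u ![1, 0] 0) with e1 | e1 <;> rcases h01 (u ![1, 0] 1) with e2 | e2 <;>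
      rcases h01 (u ![0, 1] 0) with e3 | e3 <;> rcases h01 (u ![0, 1] 1) with e4 | e4 <;>
      simp only [e1, e2, e3, e4, zero_smul, one_smul, zero_add, add_zero, and_self, not_true] at h6 h7 h8 ⊢ <;>
      simp [add_assoc, add_comm, add_left_comm (v y), add_left_comm (v y'), twoY, ← add_assoc (v y) (v y), ← add_assoc (v y') (v y')]
  · rintro ⟨_, w⟩ ⟨y, y', rfl, hw⟩
    have h5 : ∀ y y', (φ.siegel (A y1 + C y2) (A y2 + C (y1 + y2)) 0).1 (A y + C y') =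
        A (y + (ψ.B y2 y' + ψ.B y1 y + ψ.B y2 y) • y1 + (ψ.B y1 y' + ψ.B y2 y) • y2) +
        C (y' + (ψ.B y2 y' + ψ.B y1 y + ψ.B y2 y) • y2 + (ψ.B y1 y' + ψ.B y2 y) • (y1 + y2)) := fun y y' => by
      rw [φ.siegel_apply c1 c2 c3]
      simp only [map_add, map_smul, LinearMap.add_apply, bAA, bAC, bCA, bCC, h.ε_eq]
      linear_combination (norm := module) -h2 • (ψ.B y1 y' + ψ.B y2 y) • (A y2 + C y1 + C y2)
    refine ⟨_, _, h5 y y', hw.imp ?_ ?_⟩ <;> rintro rfl <;> simp only [Prod.map_snd, h5] <;> congr 2 <;>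
      simp only [map_add] <;> match_scalars <;> grind
  · obtain ⟨u, v, h5⟩ := hS _ h4
    have h6 : (φ.siegel _ _ _).1 (A z) = _ := h5 ![1, 0] z
    rw [φ.siegel_apply c1 c2 c3, hx (u _), ← map_smul A, ← map_smul C] at h6
    obtain ⟨h7, h8⟩ := inj (h6.symm.trans (show _ = A (z + y1) + C y2 by
      simp [bAA, bCA, hz, b2, add_assoc]))
    rcases h01 (u ![1, 0] 1) with e | e
    · simp [e] at h8; simp [← h8] at hy2
    rw [e, one_smul] at h8
    simpa [h8, hz, b0, b1] using congrArg (ψ.B y1) h7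
  · obtain ⟨y, y', h5, h6⟩ := h4 (φ.siegel_mem_E (hA y1) (bAA y1 y2) (s := 0) (by simp [hA]))
      (A z, C z) ⟨z, 0, by simp, .inl (by simp)⟩
    simp only [Prod.map, φ.siegel_apply (hA y1) (bAA y1 y2) (s := 0) (by simp [hA]), bAA, bAC, hz, b2,
      h.ε_eq] at h5 h6
    obtain ⟨rfl, rfl⟩ := inj (y := z) (y' := 0) (Eq.trans (by simp) h5)
    rcases h6 with h6 | h6 <;> have := (inj (y := -y2) (y' := z) (Eq.trans (by simp; abel) h6)).1
    · simp at this; simp [this] at hy2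
    · simpa [b1, hz] using congrArg (ψ.B y1) this

section gl
open Cfsg Cfsg.Geo Matrix H10.As
open scoped Kronecker
variable {ι : Type} [Fintype ι] [DecidableEq ι] {m k : ℕ} (e : ι ≃ Fin m × Fin k) (P : GL ι F)

/-- pure tensors in the coordinates `e`, `P` -/
noncomputable def tau : (Fin m → F) →ₗ[F] (Fin k → F) →ₗ[F] ι → F :=
  LinearMap.mk₂ F (fun x y => lq e P fun a => x a.1 * y a.2)
    (fun _ _ _ => by rw [← map_add]; congr 1; ext; simp [add_mul])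
    (fun _ _ _ => by rw [← map_smul]; congr 1; ext; simp [mul_assoc])
    (fun _ _ _ => by rw [← map_add]; congr 1; ext; simp [mul_add])
    (fun _ _ _ => by rw [← map_smul]; congr 1; ext; simp [mul_left_comm])

variable {e P}
omit [Finite F] in
theorem pt_tau {φ : Form F (ι → F)} : ∀ g ∈ (tensorProductSubgroup m k e P).comap φ.toGL,
    PT (tau e P) g := fun g hg => by
  obtain ⟨a, b, h⟩ := (mem_co e P).1 hg
  refine ⟨glEquiv a, glEquiv b, fun x y => ?_⟩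
  rw [← toGL_mulVec]
  refine (mulVec_lq e P _ _).trans (congrArg _ ?_)
  rw [← pl_val, h]
  ext i
  change _ = (a.1 *ᵥ x) i.1 * (b.1 *ᵥ y) i.2
  simp [mulVec, dotProduct, Fintype.sum_prod_type, Finset.sum_mul_sum, mul_mul_mul_comm]

omit [Finite F] in
theorem tau_form {σ : F →+* F} {f : (ι → F) → (ι → F) → F} {f₁ : (Fin m → F) → (Fin m → F) → F}
    {f₂ : (Fin k → F) → (Fin k → F) → F} (h₁ : Sq σ f₁) (h₂ : Sq σ f₂)
    (h : IsTensorFormStructure σ f f₁ f₂ e P) : ∃ c : F, c ≠ 0 ∧ ∀ x y x' y',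
      f (tau e P x y) (tau e P x' y') = c * (f₁ x x' * f₂ y y') :=
  h.imp fun c hc => ⟨hc.1, fun x y x' y' => (hc.2 (fun a => x a.1 * y a.2) fun a => x' a.1 * y' a.2).trans (by
    rw [formOfGram_kron, ← h₁.eq_gram, ← h₂.eq_gram])⟩

theorem btw_o3 {φ : Form F (ι → F)} [φ.Nondeg] (h : φ.Std) (hq : Nat.card F = 3)
    {Y : Type*} [AddCommGroup Y] [Module F Y] [FiniteDimensional F Y] {τ : (Fin 3 → F) →ₗ[F] Y →ₗ[F] ι → F}
    {f₁ : (Fin 3 → F) → (Fin 3 → F) → F} (h₁ : IsSymmetricForm f₁) {γ : Y → Y → F}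
    (h₂ : ∀ y ≠ 0, ∃ y', γ y' y ≠ 0) {c : F} (hc : c ≠ 0)
    (hB : ∀ x y x' y', φ.B (τ x y) (τ x' y') = c * (f₁ x x' * γ y y')) {S : Subgroup φ.Isom}
    (hS : ∀ g ∈ S, PT τ g) (hY : 3 ≤ finrank F Y) (hn : finrank F Y + 3 ≤ Fintype.card ι) : Btw φ S := by
  have h2 : (2 : F) ≠ 0 := odd_card_iff.1 (by rw [hq]; decide)
  obtain ⟨Q, hQ, _⟩ := exists_ofQuad ((sf_of_symm h₁).quad h2)
  have h3 : ∀ x y, (ofQuad Q).B x y = 2 * f₁ x y := fun x y => by
    rw [ofQuad_B, hQ, (sf_of_symm h₁).polar_eq]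
  obtain ⟨a, b, h4, h5, h6, h7⟩ := fr_quad (isQuad_ofQuad Q) hq (by simp)
  refine btw_tens (γ := fun y y' => c / 2 * γ y y') h ⟨fun x y x' y' => ?_, fun x hx => ?_, fun y hy => ?_⟩
    hS hY (by simpa) h4 h5 h6 h7
  · rw [hB, h3]; field_simp
  · obtain ⟨y, hy⟩ := (ofQuad Q).exists_B_ne_zero hx
    exact ⟨y, mt (ofQuad Q).B_symm_zero hy⟩
  · simpa [hc, h2] using h₂ y hy

theorem nm_o3 {Q : QuadraticForm F (ι → F)} [(ofQuad Q).Nondeg] (hq : Nat.card F = 3) (hk : 3 ≤ k)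
    {e : ι ≃ Fin 3 × Fin k} {f₁ : (Fin 3 → F) → (Fin 3 → F) → F} {f₂ : (Fin k → F) → (Fin k → F) → F}
    (h₁ : IsSymmetricForm f₁) (h₂ : IsSymmetricForm f₂)
    (hT : IsTensorFormStructure id (QuadraticMap.polar Q) f₁ f₂ e P) :
    ∃ K : Subgroup (GL ι F), tensorProductSubgroup 3 k e P ⊓ omegaGL Q < K ∧ K < omegaGL Q := by
  have hn : Fintype.card ι = 3 * k := by simpa using Fintype.card_congr e
  obtain ⟨c, hc, h⟩ := tau_form (σ := .id F) (sf_of_symm h₁).toSq (sf_of_symm h₂).toSq hT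
  rw [omegaGL_eq_E Q (by omega)]
  exact (btw_o3 ((isQuad_ofQuad Q).std (by simp; omega)) hq h₁ (fun y hy => (h₂.3 y hy).1) hc h pt_tau
    (by simpa) (by simp; omega)).map

end gl
end H24.NM
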