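import Mathlib

/-!
`H24.Am.level`: in a field of characteristic zero containing `√5` and a non-trivial root of unity of order prime to `10`,
`-1` is a sum of three squares (Dirichlet's theorem, Gauss' identity `4 Φ_m = A² + m B²`, descent for `x² + 5 y²`).
-/

set_option autoImplicit false

open Finset

namespace H24.Am

variable {K : Type*} [Field K] [CharZero K]

theorem two_sq {s : K} (hs : s ^ 2 = 5) (n : ℕ) : ∀ x : ℕ, n ∣ x ^ 2 + 5 → ∃ a b : K, (n : K) = a ^ 2 + b ^ 2 := by
  induction n using Nat.strong_induction_on with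
  | _ n ih =>
  intro x hx
  rcases lt_or_ge n 4 with h | h
  · interval_cases n
    · exact ⟨0, 0, by simp⟩
    · exact ⟨1, 0, by simp⟩
    · exact ⟨1, 1, by norm_num⟩
    · exact ⟨(1 + s) / 2, (1 - s) / 2, by linear_combination (-1 / 2 : K) * hs⟩
  have h1 : n ∣ (x % n) ^ 2 + 5 := (Nat.modEq_zero_iff_dvd.1 ((((Nat.mod_modEq x n).pow 2).add_right 5).trans
    (Nat.modEq_zero_iff_dvd.2 hx)))
  have h2 : x % n < n := Nat.mod_lt _ (by omega)
  generalize x % n = y at h1 h2
  obtain ⟨k, hk⟩ := h1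
  have h3 : k < n := by
    by_contra! e
    nlinarith [Nat.mul_le_mul_left n e]
  obtain ⟨a, b, e⟩ := ih k h3 y ⟨n, by rw [hk, mul_comm]⟩
  have h4 : (k : K) ≠ 0 := Nat.cast_ne_zero.2 (by rintro rfl; simp at hk)
  have h5 : (y : K) ^ 2 + 5 = n * k := by exact_mod_cast hk
  refine ⟨(a * y + b * s) / k, (a * s - b * y) / k, ?_⟩
  field_simp
  linear_combination (-k : K) * h5 + (y ^ 2 + 5) * e - (a ^ 2 + b ^ 2) * hs

theorem gauss {m : ℕ} (hm : m.Prime) (h4 : m % 4 = 3) (η : K) :
    ∃ α β : K, (1 - η) * (α ^ 2 + m * β ^ 2) = 1 - η ^ m := by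
  classical
  haveI := Fact.mk hm
  let E := AlgebraicClosure K
  obtain ⟨ζ, hζ⟩ := HasEnoughRootsOfUnity.exists_primitiveRoot E m
  let ψ := AddChar.zmodChar m ((IsPrimitiveRoot.iff_def ζ m).mp hζ).left
  have hψ : ψ.IsPrimitive := AddChar.zmodChar_primitive_of_primitive_root m hζ
  have h2 : ringChar (ZMod m) ≠ 2 := by rw [ZMod.ringChar_zmod_n]; omega
  let q := quadraticChar (ZMod m)
  have hq : q (-1) = -1 := by
    rw [quadraticChar_neg_one h2, ZMod.card, ZMod.χ₄_nat_three_mod_four h4]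
  let χ := q.ringHomComp (Int.castRingHom E)
  have hχ : χ ≠ 1 := (MulChar.ringHomComp_ne_one_iff (RingHom.injective_int _)).2 (quadraticChar_ne_one h2)
  have hχ1 : χ (-1) = -1 := by simp [χ, hq]
  let Q : Finset (ZMod m) := univ.filter fun a => q a = 1
  let u : AddMonoidAlgebra K (ZMod m) := ∏ a ∈ Q, (1 - .single a η)
  have hq0 : q 0 = 0 := quadraticChar_zero
  have h0 : ∀ a, q a = 1 → a ≠ 0 := fun a h e => by simp [e, hq0] at h
  have hu : ∀ c, q c = 1 → ∀ a, u.coeff (c * a) = u.coeff a := fun c hc a => by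
    let e : ZMod m ≃+ ZMod m := AddAut.mulLeft (Units.mk0 c (h0 c hc))
    have h1 : AddMonoidAlgebra.domCongr K K e u = u := by
      simp only [u, map_prod, map_sub, map_one, AddMonoidAlgebra.domCongr_single]
      refine prod_equiv e.toEquiv (fun a => ?_) fun a _ => rfl
      have : q (e.toEquiv a) = q a := by rw [show e.toEquiv a = c * a from rfl, map_mul, hc, one_mul]
      simp only [Q, mem_filter, mem_univ, true_and, this]
    conv_lhs => rw [← h1, AddMonoidAlgebra.coeff_domCongr, show c * a = e a from rfl, e.symm_apply_apply]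
  set A := (u.coeff 1 + u.coeff (-1)) / 2 with hA
  set B := (u.coeff 1 - u.coeff (-1)) / 2 with hB
  have hf : ∀ c, u.coeff c = A + B * q c + if c = 0 then u.coeff 0 - A else 0 := fun c => by
    by_cases h : c = 0
    · simp [h, hq0]
    rw [if_neg h]
    rcases quadraticChar_dichotomy h with e | e
    · rw [← mul_one c, hu c e, mul_one, e, hA, hB]; push_cast; ring
    · have := hu (-c) (by rw [← neg_one_mul, map_mul, hq, e]; simp) (-1)
      rw [neg_mul_neg, mul_one] at this
      rw [this, e, hA, hB]; push_cast; ring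
  have key : ∀ φ : AddChar (ZMod m) E, φ ≠ 1 → ∏ a ∈ Q, (1 - algebraMap K E η * φ a) =
      algebraMap K E (u.coeff 0 - A) + algebraMap K E B * gaussSum χ φ := fun φ hφ => by
    have h1 := AddMonoidAlgebra.lift_apply' (R := K) (A := E) φ.toMonoidHom u
    rw [Finsupp.sum_fintype _ _ (by simp)] at h1
    conv_lhs at h1 => simp only [u, map_prod, map_sub, map_one, AddMonoidAlgebra.lift_single, Algebra.smul_def]
    refine h1.trans ?_
    rw [sum_congr rfl fun c _ => by rw [hf c]]
    simp only [map_add, add_mul, sum_add_distrib, map_mul, mul_assoc, ← mul_sum, apply_ite (algebraMap K E), map_zero,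
      ite_mul, zero_mul, sum_ite_eq', mem_univ, if_true, AddChar.toMonoidHom_apply, toAdd_ofAdd,
      AddChar.sum_eq_zero_of_ne_one hφ, AddChar.map_zero_eq_one]
    simp [gaussSum, χ, add_comm]
  have h5 : ψ ≠ 1 := by simpa using hψ (one_ne_zero (α := ZMod m))
  have h6 := key ψ h5
  have h7 := key ψ⁻¹ (inv_ne_one.2 h5)
  have h8 := mul_gaussSum_inv_eq_gaussSum χ ψ
  have h9 := gaussSum_sq hχ ((quadraticChar_isQuadratic _).comp _) hψ
  rw [hχ1] at h8 h9
  rw [ZMod.card] at h9
  have h10 : ∏ a : ZMod m, (1 - algebraMap K E η * ψ a) = 1 - algebraMap K E η ^ m := by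
    have := congrArg (Polynomial.eval 1) (X_pow_sub_C_eq_prod hζ hm.pos (rfl : algebraMap K E η ^ m = _))
    simp only [Polynomial.eval_sub, Polynomial.eval_pow, Polynomial.eval_X, Polynomial.eval_C, one_pow,
      Polynomial.eval_prod] at this
    rw [this]
    refine prod_nbij' ZMod.val (fun i => (i : ZMod m)) (fun a _ => mem_range.2 (ZMod.val_lt a)) (fun _ _ => mem_univ _)
      (fun a _ => ZMod.natCast_zmod_val a) (fun i hi => ZMod.val_cast_of_lt (mem_range.1 hi)) fun a _ => ?_
    rw [mul_comm]; rfl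
  have h11 : (univ : Finset (ZMod m)) = insert 0 (Q ∪ Q.image Neg.neg) := by
    ext a
    by_cases h : a = 0
    · simp [h]
    rcases quadraticChar_dichotomy h with e | e
    · exact iff_of_true (mem_univ _) (mem_insert_of_mem (mem_union_left _ (mem_filter.2 ⟨mem_univ _, e⟩)))
    · simp only [mem_univ, mem_insert, mem_union, mem_image, true_iff]
      exact Or.inr (Or.inr ⟨-a, mem_filter.2 ⟨mem_univ _, by rw [← neg_one_mul, map_mul, hq, e]; simp⟩, neg_neg a⟩)
  rw [h11, prod_insert (by simp [Q, hq0]), prod_union (disjoint_left.2 fun a ha hb => by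
    obtain ⟨b, hb', rfl⟩ := mem_image.1 hb
    have h1 : q (-b) = 1 := (mem_filter.1 ha).2
    have h3 : q b = 1 := (mem_filter.1 hb').2
    rw [← neg_one_mul, map_mul, hq, h3] at h1
    simp at h1), prod_image neg_injective.injOn, h6] at h10
  simp only [AddChar.inv_apply] at h7
  rw [h7, AddChar.map_zero_eq_one, ← h8] at h10
  refine ⟨u.coeff 0 - A, B, (algebraMap K E).injective ?_⟩
  simp only [map_mul, map_sub, map_add, map_pow, map_one, map_natCast] at h10 ⊢
  rw [← h8] at h9
  linear_combination h10 + (1 - algebraMap K E η) * (algebraMap K E B) ^ 2 * h9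

theorem level {s η : K} (hs : s ^ 2 = 5) {r : ℕ} (hr : r.Coprime 10) (h1 : η ^ r = 1) (h2 : η ≠ 1) :
    ∃ a b c : K, 1 + a ^ 2 + b ^ 2 + c ^ 2 = 0 := by
  have hr' : Nat.Coprime 20 r := (Nat.Coprime.coprime_dvd_right (by norm_num) (hr.pow_right 2)).symm
  have hr0 : r ≠ 0 := by rintro rfl; simp at hr
  obtain ⟨a, a1, a2⟩ := Nat.chineseRemainder hr' 3 (r - 1)
  obtain ⟨m, -, hm, e⟩ := Nat.forall_exists_prime_gt_and_modEq 0 (q := 20 * r) (a := a) (by omega)
    (Nat.Coprime.mul_right (by rw [Nat.Coprime, a1.gcd_eq]; norm_num) (by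
      rw [Nat.Coprime, a2.gcd_eq]
      exact (Nat.coprime_self_sub_left (by omega)).2 (by simp)))
  have e1 : m % 20 = 3 := (e.of_mul_right r).trans a1
  have e2 : η ^ m * η = 1 := by
    have := ((e.of_mul_left 20).trans a2).add_right 1
    rw [Nat.sub_add_cancel (by omega)] at this
    obtain ⟨k, hk⟩ := Nat.modEq_zero_iff_dvd.1 (this.trans (Nat.modEq_zero_iff_dvd.2 dvd_rfl))
    rw [← pow_succ, hk, pow_mul, h1, one_pow]
  obtain ⟨α, β, h3⟩ := gauss hm (by omega) η
  haveI := Fact.mk hm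
  haveI : Fact (Nat.Prime 5) := ⟨by norm_num⟩
  have h4 : IsSquare (-5 : ZMod m) := by
    have h5 : legendreSym m 5 = -1 := by
      have := legendreSym.quadratic_reciprocity_one_mod_four (p := 5) (q := m) rfl (by omega)
      rw [show ((5 : ℕ) : ℤ) = 5 from rfl] at this
      rw [this, legendreSym.mod, show (m : ℤ) % (5 : ℕ) = 3 by omega]
      norm_num
    have h6 : legendreSym m (-5) = 1 := by
      rw [legendreSym.at_neg (by omega), h5, ZMod.χ₄_nat_three_mod_four (by omega)]; rfl
    simpa using (legendreSym.eq_one_iff m (fun e => by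
      rw [(legendreSym.eq_zero_iff m _).2 e] at h6; simp at h6)).1 h6
  obtain ⟨x, hx⟩ := h4
  obtain ⟨c, d, h5⟩ := two_sq hs m x.val ((ZMod.natCast_eq_zero_iff _ _).1 (by
    push_cast; rw [ZMod.natCast_zmod_val, sq, ← hx]; ring))
  obtain ⟨k, hk⟩ : Odd r := (Nat.coprime_two_right).1 (Nat.Coprime.coprime_dvd_right (by norm_num) hr)
  have h6 : (η ^ (k + 1)) ^ 2 = η := by
    rw [← pow_mul, show (k + 1) * 2 = r + 1 by omega, pow_succ, h1, one_mul]
  have h7 : 1 + η * (α ^ 2 + m * β ^ 2) = 0 := mul_left_cancel₀ (sub_ne_zero.2 h2.symm) (by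
    linear_combination η * h3 - e2)
  refine ⟨η ^ (k + 1) * α, η ^ (k + 1) * c * β, η ^ (k + 1) * d * β, ?_⟩
  simp only [mul_pow, h6]
  linear_combination h7 - η * β ^ 2 * h5

end H24.Am
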