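import Cfsg.Agent.H24.Am1

/-!
`SL(2,5)` inside a division ring (namespace `H24.Am`): its centralizer has no non-trivial element of order prime to `10`
(`noCent`) and it has no extension of index two (`noExt`).
-/

set_option autoImplicit false

namespace H24.Am

/-- `SL(2,5)` -/
abbrev SL5 := Matrix.SpecialLinearGroup (Fin 2) (ZMod 5)
/-- transvection -/
def T : SL5 := ⟨!![1,1;0,1], by decide⟩
/-- Weyl element -/
def S : SL5 := ⟨!![0,4;1,0], by decide⟩
/-- diagonal element of order four -/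
def K : SL5 := ⟨!![2,0;0,3], by decide⟩
/-- minus one -/
def N : SL5 := ⟨!![4,0;0,4], by decide⟩

theorem d1 : ∀ a : SL5, a ^ 5 = 1 → a = 1 ∨ ∃ g : SL5, g * a = T * g ∨ g * a = T * T * g := by decide +kernel
theorem d2 : ∀ a : SL5, a * a = N → (T * a) ^ 3 = N → ∃ y : Fin 5, T ^ (y : ℕ) * a = S * T ^ (y : ℕ) := by decide +kernel
theorem d3 : ∀ a : SL5, a * a = N → (T * T * a) ^ 3 = N → ∃ y : Fin 5, T ^ (y : ℕ) * a = K * S * T ^ (y : ℕ) := by
  decide +kernel
theorem d4 : ∀ a : SL5, a * T = T * a → a * S = S * a → a = 1 ∨ a = N := by decide +kernel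
theorem d5 : ∀ a : SL5, a * T = T * T * (T * T) * a → a * S = K * (K * S) * a → a = K ∨ a = N * K := by decide +kernel

variable {D : Type*} [DivisionRing D]

theorem quat (h2 : (2 : D) ≠ 0) {i k a b c : D} (hi : i * i = -1) (hk : k * k = -1) (hik : k * i = -(i * k))
    (ab : Commute a b) (ac : Commute a c) (bc : Commute b c) (ai : Commute i a) (bi : Commute i b) (ci : Commute i c)
    (ak : Commute k a) (bk : Commute k b) (ck : Commute k c) : 1 + a ^ 2 + b ^ 2 + c ^ 2 ≠ 0 := fun h => by
  have mv : ∀ {x y : D}, Commute x y → ∀ t, x * (y * t) = y * (x * t) := fun h t => h.left_comm t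
  have hi' : ∀ t, i * (i * t) = -t := fun t => by rw [← mul_assoc, hi, neg_one_mul]
  have hk' : ∀ t, k * (k * t) = -t := fun t => by rw [← mul_assoc, hk, neg_one_mul]
  have hik' : ∀ t, k * (i * t) = -(i * (k * t)) := fun t => by rw [← mul_assoc, hik, neg_mul, mul_assoc]
  set v := a * i + b * k + c * (i * k) with hv
  have h1 : v * v = 1 := by
    rw [eq_neg_of_add_eq_zero_left (show 1 + (a ^ 2 + b ^ 2 + c ^ 2) = 0 by rw [← h]; abel), hv]
    simp only [add_mul, mul_add, mul_assoc, mv ai, mv bi, mv ci, mv ak, mv bk, mv ck, hi, hk, hik, hi', hk', hik', mul_neg,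
      neg_neg, mv ab.symm, mv ac.symm, mv bc.symm, mul_one, sq, ai.eq, bi.eq, ci.eq, ak.eq, bk.eq, ck.eq, neg_mul]
    abel
  have h3 : v + -(i * v * i) + -(k * v * k) + -(i * k * v * (i * k)) = 0 := by
    rw [hv]
    simp only [add_mul, mul_add, mul_assoc, mv ai, mv bi, mv ci, mv ak, mv bk, mv ck, hi, hk, hik, hi', hk', hik', mul_neg,
      neg_neg, mul_one, ai.eq, bi.eq, ci.eq, ak.eq, bk.eq, ck.eq, neg_mul, neg_add]
    abel
  have h4 : (2 : D) * 2 ≠ 0 := mul_ne_zero h2 h2
  rcases mul_self_eq_one_iff.1 h1 with e | e <;> rw [e] at h3 <;>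
    simp only [mul_assoc, one_mul, mul_one, hi, hk, hik, hi', hk', hik', mul_neg, neg_mul, neg_neg] at h3 <;> apply h4
  · rw [← h3]; norm_num
  · rw [← neg_eq_zero, ← h3]; norm_num

variable (f : SL5 →* D) (hf : Function.Injective f)
include hf

theorem fN : f N = -1 := (mul_self_eq_one_iff.1 (by rw [← map_mul, show N * N = 1 by decide +kernel, map_one])).resolve_left
  fun e => absurd (hf (e.trans (map_one f).symm)) (by decide +kernel)

theorem two_ne : (2 : D) ≠ 0 := fun e => by
  have : f N = f 1 := by rw [fN f hf, map_one, neg_eq_iff_add_eq_zero, one_add_one_eq_two, e]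
  exact absurd (hf this) (by decide +kernel)

theorem geo {g : SL5} {n : ℕ} (h : g ^ n = 1) (h1 : g ≠ 1) : ∑ j ∈ Finset.range n, f (g ^ j) = 0 := by
  have := mul_geom_sum (f g) n
  rw [← map_pow, h, map_one, sub_self] at this
  simpa using (mul_eq_zero.1 this).resolve_left (sub_ne_zero.2 fun e => h1 (hf (e.trans (map_one f).symm)))

theorem fS : f S * f S = -1 := by rw [← map_mul, show S * S = N by decide +kernel, fN f hf]
theorem fK : f K * f K = -1 := by rw [← map_mul, show K * K = N by decide +kernel, fN f hf]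
theorem fKS : f K * f S = -(f S * f K) := by
  rw [← map_mul, show K * S = N * (S * K) by decide +kernel, map_mul, map_mul, fN f hf, neg_one_mul]

theorem geo5 : 1 + f T + f T ^ 2 + f T ^ 3 + f T ^ 4 = 0 := by
  simpa [Finset.sum_range_succ] using geo f hf (g := T) (n := 5) (by decide +kernel) (by decide +kernel)

omit hf in
/-- the square root of five -/
def rt : D := 1 + 2 * (f T + f T ^ 4)

theorem rt_sq : rt f ^ 2 = 5 := by
  have h := geo5 f hf
  have h5 : f T ^ 5 = 1 := by rw [← map_pow, show T ^ 5 = 1 by decide +kernel, map_one]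
  have : rt f ^ 2 = 4 * (1 + f T + f T ^ 2 + f T ^ 3 + f T ^ 4) + 4 * (f T ^ 5 - 1) * (f T ^ 3 + 2) + 5 * 1 := by
    rw [rt]; noncomm_ring
  rw [this, h, h5]; simp

theorem rt_S : Commute (f S) (rt f) := by
  have h1 := geo f hf (g := N * (T * S)) (n := 3) (by decide +kernel) (by decide +kernel)
  have h2 := geo f hf (g := T ^ 4 * S) (n := 3) (by decide +kernel) (by decide +kernel)
  simp only [Finset.sum_range_succ, Finset.range_zero, Finset.sum_empty, pow_zero, pow_one] at h1 h2
  rw [show (N * (T * S)) ^ 2 = S * T ^ 4 by decide +kernel] at h1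
  rw [show (T ^ 4 * S) ^ 2 = N * (S * T) by decide +kernel] at h2
  simp only [map_mul, map_pow, fN f hf, map_one] at h1 h2
  have : f S * rt f - rt f * f S = 2 * (0 + 1 + -1 * (f T * f S) + f S * f T ^ 4) -
      2 * (0 + 1 + f T ^ 4 * f S + -1 * (f S * f T)) := by rw [rt]; noncomm_ring
  rw [h1, h2, sub_self, sub_eq_zero] at this
  exact this

omit hf in
theorem rt_K : Commute (f K) (rt f) := by
  have h1 : f K * f T = f T ^ 4 * f K := by rw [← map_pow, ← map_mul, ← map_mul, show K * T = T ^ 4 * K by decide +kernel]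
  have h2 : f K * f T ^ 4 = f T * f K := by rw [← map_pow, ← map_mul, ← map_mul, show K * T ^ 4 = T * K by decide +kernel]
  have : f K * rt f - rt f * f K = 2 * (f K * f T - f T ^ 4 * f K) + 2 * (f K * f T ^ 4 - f T * f K) := by
    rw [rt]; noncomm_ring
  rw [h1, h2, sub_self, sub_self, mul_zero, add_zero, sub_eq_zero] at this
  exact this

theorem charZero : CharZero D := by
  obtain ⟨p, hp⟩ := CharP.exists D
  rcases eq_or_ne p 0 with rfl | h
  · exact CharP.charP_to_charZero D
  haveI : NeZero p := ⟨h⟩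
  obtain ⟨a, b, e⟩ := CharP.sq_add_sq D p (-1)
  exact absurd (show 1 + (a : D) ^ 2 + (b : D) ^ 2 + (0 : D) ^ 2 = 0 by rw [add_assoc 1, e]; simp)
    (quat (two_ne f hf) (fS f hf) (fK f hf) (fKS f hf) (Nat.cast_commute _ _) (Nat.cast_commute _ _) (Nat.cast_commute _ _)
      (Nat.commute_cast _ _) (Nat.commute_cast _ _) (Commute.zero_right _) (Nat.commute_cast _ _) (Nat.commute_cast _ _)
      (Commute.zero_right _))

theorem noCent {m : D} {r : ℕ} (hr : r.Coprime 10) (h1 : m ^ r = 1) (hc : ∀ g, Commute (f g) m) : m = 1 := by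
  by_contra h2
  haveI := charZero f hf
  have hs : Commute (rt f) m := (Commute.one_left _).add_left (((Nat.cast_commute 2 m)).mul_left
    ((hc T).add_left ((hc T).pow_left 4)))
  let F : Subfield D := { Subring.centralizer (Set.centralizer {m, rt f}) with
    inv_mem' := fun _ h => Set.inv_mem_centralizer₀ h }
  have hm : m ∈ F := fun y hy => (hy m (by simp)).symm
  have hr' : rt f ∈ F := fun y hy => (hy _ (by simp)).symm
  have key : ∀ y, Commute y m → Commute y (rt f) → ∀ x : F, Commute y x := fun y a b x => x.2 y (by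
    rintro _ (rfl | rfl)
    exacts [a.symm, b.symm])
  have hcm : ∀ x y : F, Commute (x : D) y := fun x y =>
    key x (key m rfl hs.symm x).symm (key _ hs rfl x).symm y
  letI : Field F := { F.toDivisionRing with mul_comm := fun x y => Subtype.ext (hcm x y) }
  haveI : CharZero F := ⟨fun a b h => Nat.cast_injective (R := D) (by simpa using congrArg F.subtype h)⟩
  obtain ⟨a, b, c, e⟩ := level (K := F) (s := ⟨_, hr'⟩) (η := ⟨m, hm⟩) (Subtype.ext (rt_sq f hf)) hr (Subtype.ext h1)
    fun e => h2 (congrArg Subtype.val e)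
  have hi := key _ (hc S) (rt_S f hf)
  have hk := key _ (hc K) (rt_K f)
  exact quat (two_ne f hf) (fS f hf) (fK f hf) (fKS f hf) (hcm a b) (hcm a c) (hcm b c) (hi a) (hi b) (hi c) (hk a) (hk b)
    (hk c) (congrArg Subtype.val e)

omit hf in
/-- `h` normalises the image, squares into it and lies outside -/
def Out (h : D) : Prop := h ≠ 0 ∧ (∀ g, ∃ g', h * f g = f g' * h) ∧ (∃ w, h * h = f w) ∧ ∀ g, h ≠ f g

omit hf in
theorem Out.mul {h : D} (H : Out f h) (g : SL5) : Out f (f g * h) := by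
  obtain ⟨h0, h1, ⟨w, h2⟩, h3⟩ := H
  refine ⟨mul_ne_zero (Group.isUnit g |>.map f).ne_zero h0, fun a => ?_, ?_, fun a e => h3 (g⁻¹ * a) ?_⟩
  · obtain ⟨b, e⟩ := h1 a
    exact ⟨g * b * g⁻¹, by rw [mul_assoc, e, ← mul_assoc, ← mul_assoc, ← map_mul, ← map_mul]; simp⟩
  · obtain ⟨b, e⟩ := h1 g
    exact ⟨g * b * w, by rw [mul_assoc, ← mul_assoc h, e, mul_assoc, h2, map_mul, map_mul, mul_assoc]⟩
  · rw [map_mul, ← e, ← mul_assoc, ← map_mul]; simp

omit hf in
theorem rmul {h : D} {a b c d : SL5} (h1 : h * f a = f b * h) (h2 : h * f c = f d * h) : h * f (a * c) = f (b * d) * h := by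
  rw [map_mul, map_mul, ← mul_assoc, h1, mul_assoc, h2, mul_assoc]

omit hf in
theorem rpow {h : D} {a b : SL5} (h1 : h * f a = f b * h) (n : ℕ) : h * f (a ^ n) = f (b ^ n) * h := by
  induction n with
  | zero => simp
  | succ n ih => rw [pow_succ, pow_succ]; exact rmul f ih h1

omit hf in
theorem rconj {h : D} {a b c g : SL5} (h1 : h * f a = f b * h) (e : g * b = c * g) : f g * h * f a = f c * (f g * h) := by
  rw [mul_assoc, h1, ← mul_assoc, ← mul_assoc, ← map_mul, ← map_mul, e]

theorem rN {h : D} (h0 : h ≠ 0) {b : SL5} (h1 : h * f N = f b * h) : b = N :=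
  hf (mul_right_cancel₀ h0 (by rw [← h1, fN f hf]; simp))

theorem rsq {h : D} {a b c w : SL5} (h1 : h * f a = f b * h) (h2 : h * f b = f c * h) (e : h * h = f w) : w * a = c * w :=
  hf (by rw [map_mul, map_mul, ← e, mul_assoc, h1, ← mul_assoc, h2, mul_assoc])

theorem case1 {h : D} (H : Out f h) (h1 : h * f T = f T * h) (h2 : h * f S = f S * h) : False := by
  obtain ⟨h0, -, ⟨w, h3⟩, h4⟩ := H
  rcases d4 w (rsq f hf h1 h1 h3) (rsq f hf h2 h2 h3) with rfl | rfl
  · rcases mul_self_eq_one_iff.1 (h3.trans (map_one f)) with e | e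
    exacts [h4 1 (e.trans (map_one f).symm), h4 N (e.trans (fN f hf).symm)]
  · rcases (Commute.mul_self_eq_mul_self_iff h2).1 (h3.trans ((fN f hf).trans (fS f hf).symm)) with e | e
    exacts [h4 S e, h4 (N * S) (by rw [e, map_mul, fN f hf, neg_one_mul])]

theorem case2 {h : D} (H : Out f h) (h1 : h * f T = f (T * T) * h) (h2 : h * f S = f (K * S) * h) : False := by
  obtain ⟨h0, -, ⟨w, h3⟩, h4⟩ := H
  have h5 := rmul f (rmul f (rmul f (rmul f (rmul f (rpow f h2 3) (rpow f h1 2)) h2) (rpow f h1 3)) (rpow f h2 3)) (rpow f h1 2)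
  rw [show S ^ 3 * T ^ 2 * S * T ^ 3 * S ^ 3 * T ^ 2 = K by decide +kernel,
    show (K * S) ^ 3 * (T * T) ^ 2 * (K * S) * (T * T) ^ 3 * (K * S) ^ 3 * (T * T) ^ 2 = K by decide +kernel] at h5
  have h6 := d5 w (rsq f hf h1 (rmul f h1 h1) h3) (rsq f hf h2 (rmul f h5 h2) h3)
  have h7 := rpow f h1 4
  rw [show (T * T) ^ 4 = T ^ 3 by decide +kernel, map_pow, map_pow] at h7
  rw [map_mul] at h1 h2
  have hi := fS f hf
  have hk := fK f hf
  have hik := fKS f hf
  have hsi := rt_S f hf
  have hsk := rt_K f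
  have hs := rt_sq f hf
  have h8 : h * rt f = -(rt f * h) := by
    have : h * rt f + rt f * h = 2 * (1 + f T + f T ^ 2 + f T ^ 3 + f T ^ 4) * h + 2 * (h * f T - f T * f T * h) +
      2 * (h * f T ^ 4 - f T ^ 3 * h) := by rw [rt]; noncomm_ring
    rw [geo5 f hf, h1, h7] at this
    exact eq_neg_of_add_eq_zero_left (by simpa using this)
  have h9 : ∀ g, h * f S ≠ f g := fun g e => h4 (g * S⁻¹) (by rw [map_mul, ← e, mul_assoc, ← map_mul]; simp)
  have hN := fN f hf
  have h2' := two_ne f hf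
  generalize rt f = s at *
  generalize f S = i at *
  have mv : ∀ {x y z : D}, x * y = z → ∀ t, x * (y * t) = z * t := fun h t => by rw [← mul_assoc, h]
  rcases h6 with rfl | rfl
  · generalize f K = k at *
    rw [sq] at hs
    have hx : ∀ y, Commute y ((1 - k) * h) → Commute y s → Commute y ((1 - k) * h + s + (1 - k) * h * s) :=
      fun y a b => (a.add_right b).add_right (a.mul_right b)
    refine quat h2' hi hk hik (Commute.refl 1) (Commute.one_left _) (Commute.one_left _) (Commute.one_right _)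
      (Commute.one_right _) (hx _ ?_ hsi) (Commute.one_right _) (Commute.one_right _) (hx _ ?_ hsk) ?_
    · simp only [Commute, SemiconjBy, sub_mul, mul_sub, mul_assoc, one_mul, h2, mv hk, mv hik, neg_mul, mul_neg, neg_neg]
      abel
    · simp only [Commute, SemiconjBy, sub_mul, mul_sub, mul_assoc, one_mul, h5]
    · simp only [sq, add_mul, mul_add, sub_mul, mul_sub, mul_assoc, one_mul, h5, mv h5, h3, mv h3, hk, mv hk, h8, mv h8,
        hs, mv hs, hsk.symm.eq, mv hsk.symm.eq, neg_mul, mul_neg, neg_neg]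
      noncomm_ring
      simp
  · rw [map_mul, hN, neg_one_mul] at h3
    have : h * i * (h * i) = 1 := by
      have e1 : i * (f K * i) = f K := by rw [hik, mul_neg, mv hi]; simp
      calc _ = h * (i * (f K * i)) * h := by rw [mul_assoc h i, h2]; simp only [mul_assoc]
        _ = _ := by rw [e1, h5, mul_assoc, h3, mul_neg, hk, neg_neg]
    rcases mul_self_eq_one_iff.1 this with e | e
    exacts [h9 1 (e.trans (map_one f).symm), h9 N (e.trans hN.symm)]

theorem noExt {h : D} (H : Out f h) : False := by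
  obtain ⟨a, e⟩ := H.2.1 T
  have h1 := rpow f e 5
  rw [show T ^ 5 = 1 by decide +kernel, map_one, mul_one] at h1
  have h2 : a ^ 5 = 1 := hf (mul_right_cancel₀ H.1 (by rw [← h1, map_one, one_mul]))
  rcases d1 a h2 with rfl | ⟨g, e' | e'⟩
  · exact absurd (hf (mul_left_cancel₀ H.1 (e.trans (by simp : _ = h * f 1)))) (by decide +kernel)
  all_goals
    have H' := H.mul f g
    have h3 := rconj f e e'
    obtain ⟨b, h4⟩ := H'.2.1 S
    have h5 := rmul f h4 h4
    have h6 := rpow f (rmul f h3 h4) 3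
    rw [show S * S = N by decide +kernel] at h5
    rw [show (T * S) ^ 3 = N by decide +kernel] at h6
  · obtain ⟨y, h7⟩ := d2 b (rN f hf H'.1 h5) (rN f hf H'.1 h6)
    exact case1 f hf (H'.mul f _) (rconj f h3 ((Commute.refl T).pow_left _)) (rconj f h4 h7)
  · obtain ⟨y, h7⟩ := d3 b (rN f hf H'.1 h5) (rN f hf H'.1 h6)
    exact case2 f hf (H'.mul f _) (rconj f h3 (((Commute.refl T).mul_right (Commute.refl T)).pow_left _)) (rconj f h4 h7)

end H24.Am
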