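import Mathlib
import Cfsg.Prelude.Def_Solvable
import Cfsg.Agent.S0035
import Cfsg.Agent.S0039
import Cfsg.Agent.H24.Partition

/-!
Bridge from `Cfsg.IsFrobeniusComplement` to the ambient "fixed point free" form (namespace H24).
* `exists_kernel_of_frobenius`: for `H : Subgroup F` a Frobenius complement of `F : Subgroup X` there is `K : Subgroup X` with carrier the Frobenius kernel, `K ⊔ R = F`, `F ≤ N(K)`, `K ≠ ⊥`, and `R = H.map F.subtype` acting fixed point freely on `K`.
-/

set_option autoImplicit false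
open Cfsg

namespace H24

theorem exists_kernel_of_frobenius {X : Type*} [Group X] [Finite X] {F : Subgroup X}
    {H : Subgroup F} (hH : IsFrobeniusComplement H) :
    ∃ K : Subgroup X, (K : Set X) = Subtype.val '' frobeniusKernel H ∧
      Nat.card K = Nat.card (frobeniusKernel H) ∧ K ⊔ H.map F.subtype = F ∧
      F ≤ Subgroup.normalizer (K : Set X) ∧ K ≠ ⊥ ∧
      ∀ r ∈ H.map F.subtype, r ≠ 1 → K ⊓ Subgroup.centralizer {r} = ⊥ := by
  obtain ⟨N, hN, hn, hc⟩ := Cfsg.Agent.S0035.result H hH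
  have hN1 : N ≠ ⊥ := by
    rintro rfl
    exact hH.2.1 (by simpa using hc.sup_eq_top)
  have h2 := (Cfsg.Agent.S0039.result N H hc hN1 hH.1).mp hH
  refine ⟨N.map F.subtype, by rw [← hN]; rfl, ?_, ?_, H01.le_normalizer_map_subtype N, ?_, ?_⟩
  · rw [H02.card_map_subtype, ← hN]; rfl
  · rw [← Subgroup.map_sup, hc.sup_eq_top, ← MonoidHom.range_eq_map, Subgroup.range_subtype]
  · rwa [Ne, Subgroup.map_eq_bot_iff_of_injective _ F.subtype_injective]
  · rintro _ ⟨r, hr, rfl⟩ h1
    rw [eq_bot_iff]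
    rintro _ ⟨⟨k, hk, rfl⟩, hk'⟩
    have : k ∈ N ⊓ Subgroup.centralizer {r} := Subgroup.mem_inf.mpr ⟨hk,
      Subgroup.mem_centralizer_singleton_iff.mpr
        (Subtype.ext (Subgroup.mem_centralizer_singleton_iff.mp hk'))⟩
    rw [h2 r hr (fun h => h1 (by rw [h, map_one])), Subgroup.mem_bot] at this
    rw [this, map_one]; exact Subgroup.one_mem _

end H24
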