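import Cfsg.Agent.H24.Gr3

/-!
Gross's theorem: the `2`-length of a solvable group with Sylow `2`-subgroups of exponent `2 ^ (e + 1)` is at most
`2 e + 1` (`gross`).
-/

set_option autoImplicit false

open Module Cfsg Subgroup BG
open scoped commutatorElement

universe u v

namespace H24.Gr
open H24.HH

theorem res_one {p : ℕ} {B : Type u} [Group B] [Finite B] (hp : p.Prime) (h : ⊤ ≤ pPrimePCore p B) {b : B}
    (hb : b ∈ pResidual p B) (h1 : b ^ p = 1) : b = 1 := by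
  obtain ⟨k, hk⟩ := ppcore_relIndex hp (⊤ : Subgroup B)
  rw [ppc_top, top_le_iff.1 h, relIndex_top_right] at hk
  haveI : (piCoreOf {p}ᶜ (⊤ : Subgroup B)).Normal := normalizer_eq_top_iff.1 (top_le_iff.1 (le_norm_pcore _ _))
  haveI := Fact.mk hp
  by_contra h2
  exact pcore_not_dvd hp ⊤ (orderOf_eq_prime h1 h2 ▸ orderOf_dvd_natCard _ (H03.pResidual_le_of_index _ hk hb))

theorem last {A : Type u} [Group A] [Finite A] [Group.IsSolvable A] {e : ℕ} {g : A} (hg : g ^ 2 ^ (e + 2) = 1)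
    (S : Sylow 2 A) (hS : g ∈ (S : Subgroup A)) (h : ∀ g' ∈ (S : Subgroup A), ⁅g ^ 2 ^ e, g' ^ 2 ^ (e + 1)⁆ = 1) :
    g ^ 2 ^ (e + 1) ∈ pPrimePCore 2 A := by
  have h1 : IsPSolvable 2 A := PS.of_solvable
  obtain ⟨X, _, _, f, M, _, _, _, D, hf, h4⟩ := exists_md h1
  have h5 := PS.quotient (PS.of_surjective h1 f hf) (pCore 2 X)
  rw [← h4, mem_comap, ← QuotientGroup.eq_one_iff, map_pow, QuotientGroup.mk_pow]
  by_contra h7
  have := D.nontrivial (x := f g) (fun e => h7 (by rw [e, one_pow]))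
  have : Module.Finite (ZMod 2) M := Module.Finite.of_finite
  have h8 := Nat.two_pow_pos e
  have h9 : (D.ρ (f g) - 1) ^ (2 ^ e + (2 ^ (e + 1) - 1)) ≠ 0 := fun h => by
    rcases thmB D.inj h5 (H02.pCore_quotient_pCore 2 X) (orderOf_eq (by
      rw [← QuotientGroup.mk_pow, ← map_pow, hg, map_one, QuotientGroup.mk_one]) h7) h with
      h10 | ⟨n, q, m, h10, h11, hq, -, hm, h13, -, h12⟩
    · omega
    · have h14 : 2 ≤ n := by
        by_contra h14
        obtain rfl : n = 1 := by omega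
        have := Nat.one_lt_pow (n := m) (by omega) hq.one_lt
        omega
      rw [Nat.mul_sub_one, ← pow_add, Nat.sub_add_cancel h11] at h12
      have := Nat.pow_le_pow_right two_pos (show e + 1 + 1 - n ≤ e by omega)
      omega
  obtain ⟨m, hm⟩ : ∃ m, ((D.ρ (f g) - 1) ^ (2 ^ e + (2 ^ (e + 1) - 1)) : End (ZMod 2) M) m ≠ 0 := by
    by_contra! h'; exact h9 (LinearMap.ext h')
  obtain ⟨g', hg', h10⟩ := mul_mem (H02.pCore_le_sylow (S.mapSurjective hf) (D.e_mem m)) ⟨g, hS, rfl⟩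
  have h11 := congrArg f (h g' hg')
  rw [map_commutatorElement, map_pow, map_pow, h10, D.mul_pow', map_one, commutatorElement_eq_one_iff_mul_comm,
    ← mul_assoc, mul_assoc (D.e _), pow_mul_comm, ← mul_assoc, mul_left_inj, ← commutatorElement_eq_one_iff_mul_comm,
    ← D.comm] at h11
  refine hm ?_
  rw [pow_add, End.mul_apply, sub_one_pow (F := ZMod 2), ← map_pow]
  exact D.eq_zero h11

variable {G : Type u} [Group G] [Finite G] [Group.IsSolvable G] {V : Type*} [AddCommGroup V] {e : ℕ}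

theorem key_closed {K : Type*} [Field K] [Module K V] {ρ : Representation K G V} [Module.Finite K V] [CharP K 2]
    [IsAlgClosed K] (hρ : Function.Injective ρ) (hO : pCore 2 G = ⊥)
    (h : ∀ S : Subgroup G, IsPGroup 2 S → ∀ g ∈ S, (ρ g - 1) ^ (2 ^ (e + 2) - 1) = 0) {g : G}
    (hg : IsPGroup 2 (zpowers g)) : g ^ 2 ^ (e + 1) ∈ pPrimePCore 2 G := by
  have hexp : ∀ g : G, IsPGroup 2 (zpowers g) → g ^ 2 ^ (e + 2) = 1 := fun g hg => hρ (by
    rw [map_pow, map_one, ← sub_eq_zero, ← sub_one_pow (F := K)]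
    exact pow_eq_zero_of_le (Nat.sub_le _ _) (h _ hg g (mem_zpowers g)))
  have hcj : ∀ a : G, IsPGroup 2 (zpowers (a * g * a⁻¹)) := fun a =>
    pg_zp (k := e + 2) (by rw [conj_pow, hexp g hg, mul_one, mul_inv_cancel])
  set N := normalClosure ({g ^ 2 ^ (e + 1)} : Set G)
  have hN : ∀ K : Subgroup G, (∀ a, (a * g * a⁻¹) ^ 2 ^ (e + 1) ∈ K) → N ≤ K := fun K hK => (closure_le _).2 fun b hb => by
    obtain ⟨_, rfl, hb⟩ := Group.mem_conjugatesOfSet_iff.1 hb
    obtain ⟨a, rfl⟩ := isConj_iff.1 hb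
    exact conj_pow (a := a) (b := g) ▸ hK a
  have hyN : ∀ a, (a * g * a⁻¹) ^ 2 ^ (e + 1) ∈ N := fun a => by
    rw [conj_pow]; exact normalClosure_normal.conj_mem _ (subset_normalClosure (Set.mem_singleton _)) a
  by_cases hR : 2 ∣ Nat.card ((pResidual 2 N).map N.subtype)
  swap
  · obtain ⟨k, hk⟩ := H03.exists_index_pResidual (p := 2) (G := N)
    rw [← ppc_top]
    refine le_ppcore' Nat.prime_two le_top le_top (Fl.top_le_norm _) (Fl.top_le_norm N) hR ⟨k, ?_⟩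
      (subset_normalClosure (Set.mem_singleton _))
    rw [← hk, relIndex, subgroupOf, comap_map_eq_self_of_injective N.subtype_injective]
  obtain ⟨⟨d', hd'⟩, hd2⟩ := exists_prime_orderOf_dvd_card' 2 hR
  rw [orderOf_mk] at hd2
  obtain ⟨d, hd1, rfl⟩ := hd'
  have hd3 : d ^ 2 = 1 := Subtype.ext (hd2 ▸ pow_orderOf_eq_one (N.subtype d) :)
  obtain ⟨q, Q, W, hq, hq2, hQ, hn, hφ, hW, hd4⟩ := exists_QW inferInstance hρ hO (d := d)
    (fun e => by rw [orderOf_eq_one_iff.2 (show N.subtype d = 1 from e)] at hd2; omega)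
    (pg_zp (k := 1) (congrArg Subtype.val hd3))
  haveI := Fact.mk hq
  have hφ' : frattiniOf Q ≤ Q ⊓ scal ρ W := le_inf (phi_le Q) ((le_inf (phi_le Q) hφ).trans hW.cent_le)
  have hd : ⁅Q, Q⁆ ≤ Q ⊓ scal ρ W := (der_le_phi hq hQ).trans hφ'
  obtain ⟨M, _, _, _, τ, κ, k1, k2, k3, k4, k5⟩ := exists_sm (q := q) (L := N_(Q) ⊓ N_(Q ⊓ scal ρ W)) hd
    (fun g hg => hφ' (pow_mem_phi hq hQ hg)) inf_le_left inf_le_right
  let D : Sm q Q _ _ M := ⟨τ, κ, inf_le_left, k1, k2, k3, k4, k5⟩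
  have h5 := hN _ fun a => loc1 hρ hq2 hQ hW (hn (mem_top _)) (h _ (hcj a) _ (mem_zpowers _))
  set D₀ := (MonoidHom.ker D.τ).map (Subgroup.subtype _)
  have h6 : N ≤ N_(D₀) := (h5.trans inf_le_left).trans (H02.le_normalizer_map_subtype _)
  haveI : (D₀.subgroupOf N).Normal := normal_subgroupOf_of_le_normalizer h6
  have hβ := QuotientGroup.mk'_surjective (D₀.subgroupOf N)
  obtain ⟨g, h7, h8, ha⟩ : ∃ g : G, IsPGroup 2 (zpowers g) ∧ ∃ h : g ^ 2 ^ (e + 1) ∈ N,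
      QuotientGroup.mk' (D₀.subgroupOf N) ⟨_, h⟩ ∉ pPrimePCore 2 _ := by
    by_contra! ha
    have h7 := hN (((pPrimePCore 2 _).comap (QuotientGroup.mk' (D₀.subgroupOf N))).map N.subtype) fun a =>
      ⟨_, ha _ (hcj a) (hyN a), rfl⟩
    obtain ⟨c, hc1, hc2⟩ := (QuotientGroup.eq_one_iff d).1 (res_one Nat.prime_two (fun b _ => by
      obtain ⟨b, rfl⟩ := hβ b
      obtain ⟨c, hc, e⟩ := h7 b.2
      exact Subtype.ext e ▸ hc) (H03.pResidual_le_comap (QuotientGroup.mk' (D₀.subgroupOf N)) hd1)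
      (by rw [← QuotientGroup.mk_pow, hd3, QuotientGroup.mk_one]))
    have h8 : ⁅zpowers d.1, Q⁆ ≤ Q ⊓ scal ρ W := (H26.le_commKer_iff.1 (zpowers_le.2 ⟨(h5 d.2).1.2, fun g hg =>
      (k3 ⟨_, comm_le_right (le_top.trans hn) (commutator_mem_commutator (mem_zpowers d.1) hg)⟩).1 (by
        rw [show κ _ = _ from D.comm c ⟨g, hg⟩ _ (congrArg (⁅·, g⁆) hc2.symm), show D.τ c = 1 from hc1]; simp)⟩)).2
    exact hd4 ((comm_comm _ _).le.trans ((comm_mono le_rfl ((comm_comm _ _).le.trans h8)).trans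
      ((H26.le_commKer_iff.1 (zpowers_le.2 (h5 d.2).2)).2.trans inf_le_right)))
  exfalso
  have h9 : g ∈ N ⊔ zpowers g := mem_sup_right (mem_zpowers g)
  obtain ⟨S, hS⟩ := (pg_zp (g := (⟨g, h9⟩ : ↥(N ⊔ zpowers g))) (Subtype.ext (hexp g h7))).exists_le_sylow
  replace hS := hS (mem_zpowers _)
  have hψ := QuotientGroup.mk'_surjective (D₀.subgroupOf (N ⊔ zpowers g)).normalCore
  refine ha (ppc_transfer Nat.prime_two ((QuotientGroup.mk' (D₀.subgroupOf (N ⊔ zpowers g)).normalCore).comp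
    (inclusion le_sup_left)) hβ (fun b hb => (QuotientGroup.eq_one_iff _).2
      (normalCore_le _ ((QuotientGroup.eq_one_iff _).1 hb) :)) ?_)
  refine last (g := QuotientGroup.mk' _ ⟨g, h9⟩) (by
    rw [← map_pow, show (⟨g, h9⟩ : ↥(N ⊔ zpowers g)) ^ _ = 1 from Subtype.ext (hexp g h7), map_one])
    (S.mapSurjective hψ) ⟨_, hS, rfl⟩ ?_
  rintro _ ⟨g', hg', rfl⟩
  rw [← map_pow, ← map_pow, ← map_commutatorElement]
  refine (QuotientGroup.eq_one_iff _).2 fun ⟨b, hb⟩ => ?_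
  obtain ⟨n, hn', _, ⟨i, rfl⟩, rfl⟩ := mem_sup_of_normal_left.1 hb
  have hS' := S.2.map (Subgroup.subtype _)
  have h10 := rel D hρ hq2 hQ hW hd hS' (le_top.trans hn) (h _ hS') (g := g) (g' := g ^ i * g' * (g ^ i)⁻¹) ⟨_, hS, rfl⟩
    ⟨_, mul_mem (mul_mem (zpow_mem hS i) hg') (inv_mem (zpow_mem hS i)), rfl⟩ (y := ⟨_, (h5 h8).1⟩) rfl fun e => ha (by
      rw [show QuotientGroup.mk' (D₀.subgroupOf N) ⟨_, h8⟩ = 1 from (QuotientGroup.eq_one_iff _).2 ⟨_, e, rfl⟩]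
      exact one_mem _)
  have h11 := conj_mem_of_norm (h6 hn') h10
  change n * g ^ i * ⁅g ^ 2 ^ e, g'.1 ^ 2 ^ (e + 1)⁆ * (n * g ^ i)⁻¹ ∈ D₀
  convert h11 using 1
  rw [conj_pow]
  simp only [commutatorElement_def, ← zpow_natCast]
  group

theorem key {F : Type*} [Field F] [CharP F 2] [Module F V] [Module.Finite F V] {ρ : Representation F G V}
    (hρ : Function.Injective ρ) (hO : pCore 2 G = ⊥)
    (h : ∀ S : Subgroup G, IsPGroup 2 S → ∀ g ∈ S, (ρ g - 1) ^ (2 ^ (e + 2) - 1) = 0) {g : G}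
    (hg : IsPGroup 2 (zpowers g)) : g ^ 2 ^ (e + 1) ∈ pPrimePCore 2 G := by
  refine key_closed (bc_inj hρ) hO (fun S hS a ha => ?_) hg
  have := congrArg (Module.End.baseChangeHom F (AlgebraicClosure F) V) (h S hS a ha)
  rwa [map_pow, map_sub, map_one, map_zero] at this

theorem gross (e : ℕ) : ∀ (G : Type u) [Group G] [Finite G] [Group.IsSolvable G], ExpLE 2 (e + 1) G →
    PLengthLE 2 (2 * e + 1) G := by
  induction e with
  | zero =>
    intro G _ _ _ h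
    obtain ⟨X, _, _, f, M, _, _, _, D, hf, h4⟩ := exists_md (p := 2) (G := G) PS.of_solvable
    refine plen_succ_of hf h4 (ExpLE.plen_zero fun P x hx => D.inj ?_)
    simpa [sub_eq_zero] using (h.map hf).nil D P hx
  | succ e ih =>
    intro G _ _ _ h3
    obtain ⟨X, _, _, f, M, _, _, _, D, hf, h4⟩ := exists_md (p := 2) (G := G) PS.of_solvable
    haveI := Group.isSolvable_of_surjective hf
    obtain ⟨Y, _, _, f', M', _, _, _, D', hf', h4'⟩ := exists_md (p := 2) (G := X ⧸ pCore 2 X) PS.of_solvable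
    haveI := Group.isSolvable_of_surjective hf'
    have hs := QuotientGroup.mk'_surjective (pCore 2 Y)
    refine plen_succ_of hf h4 (plen_succ_of hf' h4' (ih _ fun P x hx => ?_))
    have : Module.Finite (ZMod 2) M := Module.Finite.of_finite
    obtain ⟨S, rfl⟩ := Sylow.mapSurjective_surjective hs 2 P
    obtain ⟨S, rfl⟩ := Sylow.mapSurjective_surjective hf' 2 S
    obtain ⟨_, ⟨g, hg, rfl⟩, rfl⟩ := hx
    have h5 := key D.inj (H02.pCore_quotient_pCore 2 X) (fun T hT x hx => by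
      obtain ⟨P, hP⟩ := hT.exists_le_sylow
      exact (h3.map hf).nil D P (hP hx)) (pg_le S.2 (zpowers_le.2 hg))
    rw [← h4'] at h5
    rw [← map_pow, ← map_pow]
    exact (QuotientGroup.eq_one_iff _).2 h5

end H24.Gr
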