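import Cfsg.Agent.H24.Reg
import Cfsg.Prelude.Def_JordanBlocks

/-!
The unipotent matrix of Jordan type `d` (`Cfsg.jordanTypeMatrix`): kernels of powers of `N = J - 1`
(`H24.Jor.finrank_ker`), its centraliser algebra (`card_cen`, `isUnit_iff`, `exists_bar`), the order of the centraliser
in `GL` (`card_units`).
-/

set_option autoImplicit false

open Module Matrix

namespace H24.Jor

theorem card_pre {E T : Type*} [AddCommGroup E] [AddCommGroup T] (π : E →+ T) (hπ : Function.Surjective π)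
    (P : T → Prop) : Nat.card {x // P (π x)} = Nat.card π.ker * Nat.card {y // P y} := by
  obtain ⟨s, hs⟩ := hπ.hasRightInverse
  rw [← Nat.card_prod]
  exact Nat.card_congr
    { toFun := fun x => (⟨x.1 - s (π x.1), by simp [hs (π x.1)]⟩, ⟨π x.1, x.2⟩)
      invFun := fun y => ⟨y.1.1 + s y.2.1, by
        rw [map_add, hs, (AddMonoidHom.mem_ker.1 y.1.2), zero_add]; exact y.2.2⟩
      left_inv := fun x => by simp
      right_inv := fun y => by
        have := AddMonoidHom.mem_ker.1 y.1.2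
        ext <;> simp [this, hs y.2.1] }

theorem card_pre' {E T : Type*} [AddCommGroup E] [AddCommGroup T] (π : E →+ T) (hπ : Function.Surjective π)
    (P : T → Prop) : Nat.card {x // P (π x)} * Nat.card T = Nat.card E * Nat.card {y // P y} := by
  have h := card_pre π hπ fun _ => True
  rw [Nat.card_subtype_true, Nat.card_subtype_true] at h
  rw [card_pre π hπ, h]; ring

variable {F : Type*} [Field F] {t : ℕ} (d : Fin t → ℕ)

/-- the index type -/
abbrev I := (k : Fin t) × Fin (d k)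

variable (F) in
/-- the nilpotent part -/
def N : Matrix (I d) (I d) F := Cfsg.jordanTypeMatrix d F - 1

variable {d}

theorem I_ext {p q : I d} (h1 : p.1 = q.1) (h2 : (p.2 : ℕ) = q.2) : p = q := by
  obtain ⟨k, i⟩ := p
  obtain ⟨l, j⟩ := q
  obtain rfl : k = l := h1
  obtain rfl : i = j := Fin.ext h2
  rfl

theorem N_apply (p q : I d) : N F d p q = if p.1 = q.1 ∧ (p.2 : ℕ) = q.2 + 1 then 1 else 0 := by
  obtain ⟨k, i⟩ := p
  obtain ⟨l, j⟩ := q
  by_cases h : k = l
  · subst h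
    simp only [N, Cfsg.jordanTypeMatrix, Matrix.sub_apply, blockDiagonal'_apply_eq, Cfsg.jordanBlock, of_apply, one_apply,
      Sigma.mk.injEq, heq_eq_eq, true_and, Fin.ext_iff]
    split_ifs <;> simp <;> omega
  · simp [N, Cfsg.jordanTypeMatrix, blockDiagonal'_apply_ne _ _ _ h, one_apply, h]

theorem N_pow_apply (j : ℕ) (p q : I d) :
    (N F d ^ j) p q = if p.1 = q.1 ∧ (p.2 : ℕ) = q.2 + j then 1 else 0 := by
  induction j generalizing q with
  | zero =>
    rw [pow_zero, one_apply]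
    exact if_congr ⟨fun h => by subst h; simp, fun h => I_ext h.1 h.2⟩ rfl rfl
  | succ j ih =>
    rw [pow_succ, mul_apply]
    simp only [ih, N_apply]
    split_ifs with h
    · have h3 : (q.2 : ℕ) + 1 < d q.1 := by have := p.2.2; have := congrArg d h.1; omega
      rw [Finset.sum_eq_single (⟨q.1, ⟨_, h3⟩⟩ : I d)]
      · rw [if_pos ⟨h.1, by simp; omega⟩, if_pos ⟨rfl, rfl⟩, one_mul]
      · intro r _ hr
        rw [if_neg (c := r.1 = q.1 ∧ _) fun e => hr (I_ext e.1 e.2), mul_zero]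
      · simp
    · refine Finset.sum_eq_zero fun r _ => ?_
      split_ifs with h1 h2
      · exact absurd ⟨h1.1.trans h2.1, by omega⟩ h
      all_goals simp

theorem pow_mulVec {j : ℕ} (w : I d → F) {p q : I d} (h1 : p.1 = q.1) (h2 : (p.2 : ℕ) = q.2 + j) :
    (N F d ^ j *ᵥ w) p = w q := by
  simp only [mulVec, dotProduct, N_pow_apply]
  rw [Finset.sum_eq_single q]
  · rw [if_pos ⟨h1, h2⟩, one_mul]
  · intro r _ hr
    rw [if_neg fun e => hr (I_ext (e.1.symm.trans h1) (by omega)), zero_mul]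
  · simp

theorem pow_mulVec_lt {j : ℕ} (w : I d → F) {p : I d} (h : (p.2 : ℕ) < j) : (N F d ^ j *ᵥ w) p = 0 := by
  simp only [mulVec, dotProduct, N_pow_apply]
  exact Finset.sum_eq_zero fun r _ => by rw [if_neg fun e => by omega, zero_mul]

theorem mem_ker {j : ℕ} {w : I d → F} : N F d ^ j *ᵥ w = 0 ↔ ∀ q : I d, q.2 + j < d q.1 → w q = 0 := by
  refine ⟨fun h q hq => ?_, fun h => funext fun p => ?_⟩
  · rw [← pow_mulVec w (p := ⟨q.1, ⟨_, hq⟩⟩) (q := q) rfl rfl, h]; rfl
  · by_cases hp : (p.2 : ℕ) < j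
    · exact pow_mulVec_lt w hp
    · have := p.2.2
      rw [pow_mulVec w (j := j) (p := p) (q := ⟨p.1, ⟨p.2 - j, by omega⟩⟩) rfl (by simp; omega)]
      exact h _ (by simp; omega)

theorem finrank_ker (j : ℕ) : finrank F (LinearMap.ker (mulVecLin (N F d ^ j))) = ∑ k, min (d k) j := by
  classical
  have e : LinearMap.ker (mulVecLin (N F d ^ j)) =
      ⨅ q ∈ {q : I d | q.2 + j < d q.1}, LinearMap.ker (LinearMap.proj q : (I d → F) →ₗ[F] F) := by
    ext w; simp [mem_ker, Submodule.mem_iInf]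
  rw [e, (LinearMap.iInfKerProjEquiv F (fun _ => F) (I := {q : I d | q.2 + j < d q.1}ᶜ) disjoint_compl_left
    (by simp)).finrank_eq, finrank_fintype_fun_eq_card, Fintype.card_subtype, Finset.card_filter, Fintype.sum_sigma]
  refine Finset.sum_congr rfl fun k _ => ?_
  simp only [Set.mem_compl_iff, Set.mem_ofPred_eq]
  rw [Fin.sum_univ_eq_sum_range (fun i => if ¬ i + j < d k then 1 else 0), ← Finset.card_filter,
    show (Finset.range (d k)).filter (fun i => ¬ i + j < d k) = Finset.Ico (d k - j) (d k) by ext; simp; omega,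
    Nat.card_Ico]
  omega

theorem pow_eq_zero {j : ℕ} (h : ∀ k, d k ≤ j) : N F d ^ j = 0 := by
  ext p q
  have := p.2.2
  have := h p.1
  rw [N_pow_apply, if_neg fun e => by omega]; rfl

theorem nilp : IsNilpotent (N F d) := ⟨_, pow_eq_zero fun k => Finset.le_sup (f := d) (Finset.mem_univ k)⟩

theorem mem_range {w : I d → F} (h : ∀ p : I d, (p.2 : ℕ) = 0 → w p = 0) : ∃ y, N F d *ᵥ y = w := by
  refine ⟨fun q => if h : q.2 + 1 < d q.1 then w ⟨q.1, ⟨_, h⟩⟩ else 0, funext fun p => ?_⟩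
  rw [← pow_one (N F d)]
  by_cases hp : (p.2 : ℕ) < 1
  · rw [pow_mulVec_lt _ hp, h p (by omega)]
  · have := p.2.2
    rw [pow_mulVec _ (j := 1) (p := p) (q := ⟨p.1, ⟨p.2 - 1, by omega⟩⟩) rfl (by simp; omega), dif_pos (by simp; omega)]
    exact congrArg w (I_ext rfl (by simp; omega))

variable (hd : ∀ k, 1 ≤ d k)

/-- the index of the generator of a block -/
def z (k : Fin t) : I d := ⟨k, ⟨0, hd k⟩⟩

/-- the generator of a block -/
def v (k : Fin t) : I d → F := Pi.single (z hd k) 1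

theorem pow_v (q : I d) : N F d ^ (q.2 : ℕ) *ᵥ v hd q.1 = Pi.single q 1 := by
  ext p
  rw [v, mulVec_single_one, col_apply, N_pow_apply, Pi.single_apply]
  exact if_congr ⟨fun h => I_ext h.1 (by simpa [z] using h.2), fun h => by subst h; simp [z]⟩ rfl rfl

theorem pow_v_zero {k : Fin t} {j : ℕ} (h : d k ≤ j) : N F d ^ j *ᵥ v hd k = 0 :=
  mem_ker.2 fun q hq => Pi.single_eq_of_ne (by rintro rfl; simp [z] at hq; omega) _

theorem ext_v {x y : Matrix (I d) (I d) F} (h : ∀ (l : Fin t) (j : ℕ), j < d l →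
    x *ᵥ (N F d ^ j *ᵥ v hd l) = y *ᵥ (N F d ^ j *ᵥ v hd l)) : x = y := by
  ext p q
  have := congrFun (h q.1 q.2 q.2.2) p
  rwa [pow_v, mulVec_single_one, mulVec_single_one] at this

theorem comm_pow {x : Matrix (I d) (I d) F} (hx : Commute x (N F d)) (j : ℕ) (w : I d → F) :
    x *ᵥ (N F d ^ j *ᵥ w) = N F d ^ j *ᵥ (x *ᵥ w) := by
  rw [mulVec_mulVec, mulVec_mulVec, (hx.pow_right j).eq]

theorem exists_lift (w : Fin t → I d → F) (hw : ∀ l, N F d ^ d l *ᵥ w l = 0) :
    ∃ x, Commute x (N F d) ∧ ∀ l, x *ᵥ v hd l = w l := by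
  let x : Matrix (I d) (I d) F := of fun p q => (N F d ^ (q.2 : ℕ) *ᵥ w q.1) p
  have h : ∀ l j, x *ᵥ (N F d ^ j *ᵥ v hd l) = N F d ^ j *ᵥ w l := fun l j => by
    by_cases hj : j < d l
    · rw [pow_v hd ⟨l, ⟨j, hj⟩⟩, mulVec_single_one]; rfl
    · rw [pow_v_zero hd (by omega), mulVec_zero, show j = (j - d l) + d l by omega, pow_add, ← mulVec_mulVec, hw,
        mulVec_zero]
  refine ⟨x, ext_v hd fun l j _ => ?_, fun l => by simpa using h l 0⟩
  rw [← mulVec_mulVec, ← mulVec_mulVec, h, mulVec_mulVec _ (N F d), mulVec_mulVec _ (N F d), ← pow_succ', h]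

variable (F d) in
/-- the centraliser -/
def E : Submodule F (Matrix (I d) (I d) F) where
  carrier := {x | Commute x (N F d)}
  add_mem' := Commute.add_left
  zero_mem' := Commute.zero_left _
  smul_mem' c _ h := h.smul_left c

include hd in
theorem card_E [Finite F] : Nat.card (E F d) = Nat.card F ^ ∑ l, ∑ k, min (d k) (d l) := by
  rw [Nat.card_eq_of_bijective (fun x : E F d => (fun l => ⟨x.1 *ᵥ v hd l, by
    change N F d ^ d l *ᵥ _ = 0
    rw [← comm_pow x.2, pow_v_zero hd le_rfl, mulVec_zero]⟩ : ∀ l, LinearMap.ker (mulVecLin (N F d ^ d l))))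
    ⟨fun x y h => Subtype.ext (ext_v hd fun l j _ => ?_), fun w => ?_⟩, Nat.card_pi, ← Finset.prod_pow_eq_pow_sum]
  · exact Finset.prod_congr rfl fun l _ => by rw [Module.natCard_eq_pow_finrank (K := F), finrank_ker]
  · have : x.1 *ᵥ v hd l = y.1 *ᵥ v hd l := congrArg Subtype.val (congrFun h l)
    rw [comm_pow x.2, comm_pow y.2, this]
  · obtain ⟨x, h1, h2⟩ := exists_lift hd (fun l => (w l).1) fun l => (w l).2
    exact ⟨⟨x, h1⟩, funext fun l => Subtype.ext (h2 l)⟩

/-- the action on `V / N V` -/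
def bar : Matrix (I d) (I d) F →ₗ[F] Matrix (Fin t) (Fin t) F where
  toFun x := of fun k l => x (z hd k) (z hd l)
  map_add' _ _ := rfl
  map_smul' _ _ := rfl

theorem bar_apply (x : Matrix (I d) (I d) F) (k l : Fin t) : bar hd x k l = (x *ᵥ v hd l) (z hd k) := by
  rw [v, mulVec_single_one]; rfl

theorem bar_tri {x : Matrix (I d) (I d) F} (hx : Commute x (N F d)) : (bar hd x).BlockTriangular d := fun k l h => by
  rw [bar_apply]
  exact mem_ker.1 (by rw [← comm_pow hx, pow_v_zero hd le_rfl, mulVec_zero]) (z hd k) (by simpa [z] using h)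

theorem sum_v_apply (c : Fin t → F) (k : Fin t) : (∑ l, c l • v hd l) (z hd k) = c k := by
  rw [Finset.sum_apply, Finset.sum_eq_single k]
  · simp [v]
  · intro l _ hl
    rw [Pi.smul_apply, v, Pi.single_eq_of_ne fun e => hl (congrArg Sigma.fst e).symm, smul_zero]
  · simp

theorem decomp (w : I d → F) : ∃ y, w = ∑ l, w (z hd l) • v hd l + N F d *ᵥ y := by
  obtain ⟨y, hy⟩ := mem_range (w := w - ∑ l, w (z hd l) • v hd l) fun p hp => by
    rw [show p = z hd p.1 from I_ext rfl hp, Pi.sub_apply, sum_v_apply, sub_self]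
  exact ⟨y, by rw [hy, add_sub_cancel]⟩

theorem N_z (y : I d → F) (k : Fin t) : (N F d *ᵥ y) (z hd k) = 0 := by
  rw [← pow_one (N F d)]; exact pow_mulVec_lt _ (by simp [z])

theorem bar_mulVec {x : Matrix (I d) (I d) F} (hx : Commute x (N F d)) (w : I d → F) :
    bar hd x *ᵥ (fun l => w (z hd l)) = fun k => (x *ᵥ w) (z hd k) := by
  funext k
  obtain ⟨y, hy⟩ := decomp hd w
  conv_rhs => rw [hy, mulVec_add, mulVec_mulVec, hx.eq, ← mulVec_mulVec, Pi.add_apply, N_z, add_zero, mulVec_sum,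
    Finset.sum_apply]
  simp only [mulVec_smul, Pi.smul_apply, smul_eq_mul, ← bar_apply]
  simp only [mulVec, dotProduct, mul_comm]

theorem isUnit_bar {x : Matrix (I d) (I d) F} (hx : Commute x (N F d)) : IsUnit x ↔ IsUnit (bar hd x) := by
  rw [← mulVec_surjective_iff_isUnit, ← mulVec_surjective_iff_isUnit]
  refine ⟨fun h c => ?_, fun h => ?_⟩
  · obtain ⟨y, hy⟩ := h (∑ l, c l • v hd l)
    exact ⟨_, (bar_mulVec hd hx y).trans (funext fun k => by rw [hy, sum_v_apply])⟩
  · have h1 : ∀ j w, ∃ y y', w = x *ᵥ y + N F d ^ j *ᵥ y' := fun j w => by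
      induction j with
      | zero => exact ⟨0, w, by simp⟩
      | succ j ih =>
        obtain ⟨y, y', rfl⟩ := ih
        obtain ⟨c, hc⟩ := h fun l => y' (z hd l)
        obtain ⟨y'', h2⟩ := mem_range (w := y' - x *ᵥ ∑ l, c l • v hd l) fun p hp => by
          have := congrFun (bar_mulVec hd hx (∑ l, c l • v hd l)) p.1
          simp only [sum_v_apply] at this
          rw [show p = z hd p.1 from I_ext rfl hp, Pi.sub_apply, ← this, hc, sub_self]
        refine ⟨y + N F d ^ j *ᵥ ∑ l, c l • v hd l, y'', ?_⟩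
        rw [pow_succ, ← mulVec_mulVec, h2, mulVec_add, comm_pow hx, mulVec_sub]; abel
    intro w
    obtain ⟨j, hj⟩ := nilp (F := F) (d := d)
    obtain ⟨y, y', h2⟩ := h1 j w
    exact ⟨y, by rw [h2, hj, zero_mulVec, add_zero]⟩

theorem isUnit_tri {A : Matrix (Fin t) (Fin t) F} (hA : A.BlockTriangular d) {s : ℕ} (hs : ∀ k, d k < s) :
    IsUnit A ↔ ∀ i : Fin s, IsUnit (A.toSquareBlock d i) := by
  simp only [isUnit_iff_isUnit_det, isUnit_iff_ne_zero, hA.det, Finset.prod_ne_zero_iff]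
  refine ⟨fun h i => ?_, fun h i hi => ?_⟩
  · by_cases hi : (i : ℕ) ∈ Finset.univ.image d
    · exact h i hi
    · haveI : IsEmpty {k // d k = i} := ⟨fun k => hi (Finset.mem_image.2 ⟨k, Finset.mem_univ _, k.2⟩)⟩
      simp
  · obtain ⟨k, -, rfl⟩ := Finset.mem_image.1 hi
    exact h ⟨_, hs k⟩

theorem exists_bar {A : Matrix (Fin t) (Fin t) F} (hA : A.BlockTriangular d) :
    ∃ x, Commute x (N F d) ∧ bar hd x = A := by
  obtain ⟨x, h1, h2⟩ := exists_lift hd (fun l => ∑ k, A k l • (v hd k : I d → F)) fun l => by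
    rw [mulVec_sum]
    refine Finset.sum_eq_zero fun k _ => ?_
    by_cases h : d k ≤ d l
    · rw [mulVec_smul, pow_v_zero hd h, smul_zero]
    · rw [hA (not_le.1 h), zero_smul, mulVec_zero]
  exact ⟨x, h1, by ext k l; rw [bar_apply, h2, sum_v_apply]⟩

theorem exists_diag {s : ℕ} (hs : ∀ k, d k < s) (M : ∀ i : Fin s, Matrix {k // d k = i} {k // d k = i} F) :
    ∃ A : Matrix (Fin t) (Fin t) F, A.BlockTriangular d ∧ ∀ i : Fin s, A.toSquareBlock d i = M i := by
  refine ⟨of fun k l => if h : d k = d l then M ⟨_, hs l⟩ ⟨k, h⟩ ⟨l, rfl⟩ else 0, fun k l h => dif_neg h.ne',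
    fun ⟨i, hi⟩ => ?_⟩
  ext ⟨k, hk⟩ ⟨l, hl⟩
  obtain rfl : d l = i := hl
  exact dif_pos hk

theorem card_fib (i : ℕ) : Fintype.card {k // d k = i} = (Finset.univ.filter fun k => d k = i).card :=
  Fintype.card_subtype _

theorem card_unit_mat [Fintype F] (ι : Type*) [Fintype ι] [DecidableEq ι] :
    Nat.card {A : Matrix ι ι F // IsUnit A} =
      ∏ j : Fin (Fintype.card ι), (Fintype.card F ^ Fintype.card ι - Fintype.card F ^ (j : ℕ)) := by
  rw [← card_GL_field]
  refine ((Nat.card_eq_of_bijective (fun g : GL ι F => (⟨g.1, g.isUnit⟩ : {A : Matrix ι ι F // IsUnit A}))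
    ⟨fun g h e => Units.ext (congrArg Subtype.val e), fun ⟨_, g, h⟩ => ⟨g, Subtype.ext h⟩⟩).symm).trans ?_
  exact Nat.card_congr (Units.mapEquiv (reindexAlgEquiv F F (Fintype.equivFin ι)).toMulEquiv).toEquiv

theorem sum_fib {s : ℕ} (hs : ∀ k, d k < s) (f : ℕ → ℕ) :
    ∑ k, f (d k) = ∑ i ∈ Finset.range s, (Finset.univ.filter fun k => d k = i).card * f i := by
  rw [← Finset.sum_fiberwise_of_maps_to (t := Finset.range s) (g := d) fun k _ => Finset.mem_range.2 (hs k)]
  refine Finset.sum_congr rfl fun i _ => ?_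
  rw [Finset.sum_congr rfl fun k hk => congrArg f (Finset.mem_filter.1 hk).2, Finset.sum_const, smul_eq_mul]

theorem sum_min (a : ℕ → ℕ) (h0 : a 0 = 0) (s : ℕ) :
    ∑ j ∈ Finset.range s, a j * ∑ i ∈ Finset.range s, a i * min i j =
      2 * (∑ i ∈ Finset.range s, ∑ j ∈ Finset.range s, if i < j then i * a i * a j else 0) +
        ∑ i ∈ Finset.range s, (i - 1) * a i ^ 2 + ∑ i ∈ Finset.range s, a i * a i := by
  have h1 : ∑ i ∈ Finset.range s, (i - 1) * a i ^ 2 + ∑ i ∈ Finset.range s, a i * a i =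
      ∑ i ∈ Finset.range s, ∑ j ∈ Finset.range s, if i = j then i * a i * a j else 0 := by
    rw [← Finset.sum_add_distrib]
    refine Finset.sum_congr rfl fun i hi => ?_
    rw [Finset.sum_ite_eq, if_pos hi]
    rcases i with _ | i
    · simp [h0]
    · simp; ring
  rw [add_assoc, h1, two_mul, add_assoc]
  conv_rhs => enter [1]; rw [Finset.sum_comm]
  simp only [← Finset.sum_add_distrib, Finset.mul_sum]
  refine Finset.sum_congr rfl fun j _ => Finset.sum_congr rfl fun i _ => ?_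
  rcases lt_trichotomy i j with h | rfl | h
  · simp [h, h.le, h.ne', h.not_gt]; ring
  · simp; ring
  · simp [h, h.le, h.ne, h.not_gt]; ring

variable (d) in
/-- the exponent `γ` -/
def gam : ℕ := 2 * (∑ i ∈ Finset.range (Finset.univ.sup d + 1), ∑ j ∈ Finset.range (Finset.univ.sup d + 1),
  if i < j then i * (Finset.univ.filter fun k => d k = i).card * (Finset.univ.filter fun k => d k = j).card else 0) +
  ∑ i ∈ Finset.range (Finset.univ.sup d + 1), (i - 1) * (Finset.univ.filter fun k => d k = i).card ^ 2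

theorem lt_sup (k : Fin t) : d k < Finset.univ.sup d + 1 := Nat.lt_succ_of_le (Finset.le_sup (Finset.mem_univ k))

include hd in
theorem dim_eq : ∑ l, ∑ k, min (d k) (d l) =
    gam d + ∑ i : Fin (Finset.univ.sup d + 1), Fintype.card {k // d k = i} * Fintype.card {k // d k = i} := by
  rw [sum_fib lt_sup fun j => ∑ k, min (d k) j]
  have h := fun j => sum_fib (d := d) lt_sup fun i => min i j
  simp only [h, card_fib]
  rw [sum_min (fun i => (Finset.univ.filter fun k => d k = i).card) (by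
    simpa using fun k => Nat.pos_iff_ne_zero.1 (hd k)), Fin.sum_univ_eq_sum_range fun i => (Finset.univ.filter fun k => d k = i).card *
      (Finset.univ.filter fun k => d k = i).card, gam]

include hd in
theorem card_units [Fintype F] : Nat.card {x : E F d // IsUnit x.1} = Fintype.card F ^ gam d *
    ∏ i ∈ Finset.range (Finset.univ.sup d + 1), ∏ j : Fin (Finset.univ.filter fun k => d k = i).card,
      (Fintype.card F ^ (Finset.univ.filter fun k => d k = i).card - Fintype.card F ^ (j : ℕ)) := by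
  let π : E F d →+ ∀ i : Fin (Finset.univ.sup d + 1), Matrix {k // d k = i} {k // d k = i} F :=
    AddMonoidHom.mk' (fun x i => (bar hd x.1).toSquareBlock d i) fun _ _ => rfl
  have h := card_pre' π (fun M => by
    obtain ⟨A, hA, h2⟩ := exists_diag lt_sup M
    obtain ⟨x, h1, rfl⟩ := exists_bar hd hA
    exact ⟨⟨x, h1⟩, funext h2⟩) fun M => ∀ i, IsUnit (M i)
  have h1 : Nat.card (∀ i : Fin (Finset.univ.sup d + 1), Matrix {k // d k = i} {k // d k = i} F) = Nat.card F ^
      ∑ i : Fin (Finset.univ.sup d + 1), Fintype.card {k // d k = i} * Fintype.card {k // d k = i} := by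
    rw [Nat.card_pi, ← Finset.prod_pow_eq_pow_sum]
    exact Finset.prod_congr rfl fun i _ => by rw [Module.natCard_eq_pow_finrank (K := F), finrank_matrix]; simp
  rw [card_E hd, dim_eq hd, Nat.card_congr (Equiv.subtypePiEquivPi (p := fun i (A : Matrix _ _ F) => IsUnit A)),
    h1, Nat.card_pi, pow_add, mul_right_comm] at h
  rw [← Fin.prod_univ_eq_prod_range fun i => ∏ j : Fin (Finset.univ.filter fun k => d k = i).card,
      (Fintype.card F ^ (Finset.univ.filter fun k => d k = i).card - Fintype.card F ^ (j : ℕ)),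
    Nat.card_congr (Equiv.subtypeEquivRight fun x : E F d => (isUnit_bar hd x.2).trans (isUnit_tri (bar_tri hd x.2) lt_sup))]
  refine (Nat.eq_of_mul_eq_mul_right (pow_pos Nat.card_pos _) h).trans ?_
  rw [Nat.card_eq_fintype_card]
  congr 1
  exact Finset.prod_congr rfl fun i _ => by rw [card_unit_mat, card_fib]

section
variable {n : Type*} [Fintype n] [DecidableEq n]

theorem exists_tr {e : I d ≃ n} {u : Matrix n n F} (h : IsConj (reindex e e (Cfsg.jordanTypeMatrix d F)) u) :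
    ∃ (φ : (I d → F) ≃ₗ[F] (n → F)) (ψ : Matrix (I d) (I d) F ≃ₐ[F] Matrix n n F), ψ (N F d) = u - 1 ∧
      ∀ x w, φ (x *ᵥ w) = ψ x *ᵥ φ w := by
  obtain ⟨φ, hφ⟩ := (H24.Sim.iso_reindex e _).trans ((H24.Sim.isConj_iff_iso _ _).1 h)
  let ψ : Matrix (I d) (I d) F ≃ₐ[F] Matrix n n F :=
    (toLinAlgEquiv'.trans (φ.conjAlgEquiv F)).trans toLinAlgEquiv'.symm
  have h1 : ∀ x w, φ (x *ᵥ w) = ψ x *ᵥ φ w := fun x w => by
    rw [← toLinAlgEquiv'_apply (ψ x)]
    simp [ψ, LinearEquiv.conjAlgEquiv_apply]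
  refine ⟨φ, ψ, toLin'.injective (LinearMap.ext fun w => ?_), h1⟩
  obtain ⟨w, rfl⟩ := φ.surjective w
  rw [toLin'_apply, toLin'_apply, ← h1, N, sub_mulVec, sub_mulVec, map_sub, one_mulVec, one_mulVec]
  exact congrArg (· - φ w) (hφ w)

theorem isConj_iff (e : I d ≃ n) {u : Matrix n n F} : IsConj (reindex e e (Cfsg.jordanTypeMatrix d F)) u ↔
    IsNilpotent (u - 1) ∧ ∀ j, finrank F (LinearMap.ker (toLin' ((u - 1) ^ j))) = ∑ k, min (d k) j := by
  have h1 : ∀ u : Matrix n n F, IsConj (reindex e e (Cfsg.jordanTypeMatrix d F)) u →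
      IsNilpotent (u - 1) ∧ ∀ j, finrank F (LinearMap.ker (toLin' ((u - 1) ^ j))) = ∑ k, min (d k) j := fun u h => by
    obtain ⟨φ, ψ, h2, h3⟩ := exists_tr h
    refine ⟨h2 ▸ nilp.map ψ, fun j => ?_⟩
    rw [← finrank_ker (F := F), ← h2, ← map_pow]
    exact (H24.Sim.Iso.finrank_ker ⟨φ, h3 _⟩).symm
  refine ⟨h1 u, fun h => ?_⟩
  have h2 := h1 _ (IsConj.refl _)
  refine H24.Sim.isConj_of_unip_rank h2.1 h.1 fun j => ?_
  have e1 := LinearMap.finrank_range_add_finrank_ker (toLin' ((u - 1) ^ j))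
  have e2 := LinearMap.finrank_range_add_finrank_ker (toLin' ((reindex e e (Cfsg.jordanTypeMatrix d F) - 1) ^ j))
  rw [h.2] at e1
  rw [h2.2] at e2
  exact Nat.add_right_cancel (e2.trans e1.symm)

theorem commute_iff {ψ : Matrix (I d) (I d) F ≃ₐ[F] Matrix n n F} {u : Matrix n n F} (h : ψ (N F d) = u - 1)
    (x : Matrix (I d) (I d) F) : Commute x (N F d) ↔ Commute (ψ x) u := by
  refine ⟨fun hx => ?_, fun hx => ψ.injective ?_⟩
  · have := (h ▸ hx.map ψ).add_right (Commute.one_right _)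
    rwa [sub_add_cancel] at this
  · rw [map_mul, map_mul, h]; exact hx.sub_right (Commute.one_right _)

include hd in
theorem card_cent [Fintype F] {e : I d ≃ n} {u : GL n F} (h : IsConj (reindex e e (Cfsg.jordanTypeMatrix d F)) u.1) :
    Nat.card (Subgroup.centralizer ({u} : Set (GL n F))) = Fintype.card F ^ gam d *
    ∏ i ∈ Finset.range (Finset.univ.sup d + 1), ∏ j : Fin (Finset.univ.filter fun k => d k = i).card,
      (Fintype.card F ^ (Finset.univ.filter fun k => d k = i).card - Fintype.card F ^ (j : ℕ)) := by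
  obtain ⟨φ, ψ, h1, -⟩ := exists_tr h
  rw [← card_units hd]
  refine Nat.card_eq_of_bijective (fun g => ⟨⟨ψ.symm g.1.1, (commute_iff h1 _).2 ?_⟩, g.1.isUnit.map ψ.symm⟩)
    ⟨fun g g' e => Subtype.ext (Units.ext (ψ.symm.injective (congrArg (fun x => x.1.1) e))), fun ⟨⟨x, hx⟩, hu⟩ => ?_⟩
  · rw [ψ.apply_symm_apply]
    exact congrArg Units.val (Subgroup.mem_centralizer_singleton_iff.1 g.2)
  · obtain ⟨g, hg⟩ := hu.map ψ
    exact ⟨⟨g, Subgroup.mem_centralizer_singleton_iff.2 (Units.ext (by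
      rw [Units.val_mul, Units.val_mul, hg]; exact ((commute_iff h1 x).1 hx).eq))⟩,
      Subtype.ext (Subtype.ext (by simp [hg]))⟩

end

end H24.Jor
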