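import Cfsg.Agent.H24.Jor
import Cfsg.Agent.S0277

/-!
Counting hermitian elements (`H24.Jor.card_sq`, `card_norm`) and the centraliser of a unipotent element of `GU`
(`card_cent_GU`).
-/

set_option autoImplicit false

open Module Matrix Cfsg H24.Uni

namespace H24.Jor

theorem card_of_fib {G H : Type*} [Group G] (f : G → H) (U : Subgroup G) (hf : Function.Surjective f)
    (h : ∀ x y, f x = f y ↔ x * y⁻¹ ∈ U) : Nat.card G = Nat.card U * Nat.card H := by
  obtain ⟨s, hs⟩ := hf.hasRightInverse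
  rw [← Nat.card_prod]
  refine (Nat.card_eq_of_bijective (fun y : U × H => y.1.1 * s y.2) ⟨fun y y' e => ?_, fun x => ?_⟩).symm
  · have e1 : y.2 = y'.2 := by
      have e2 : ∀ y : U × H, f (y.1.1 * s y.2) = y.2 := fun y => ((h _ _).2 (by simp)).trans (hs _)
      rw [← e2 y, ← e2 y']; exact congrArg f e
    simp only [e1, mul_left_inj] at e
    exact Prod.ext (Subtype.ext e) e1
  · exact ⟨(⟨_, (h x (s (f x))).1 (hs _).symm⟩, f x), by simp⟩

variable {K : Type*} [Field K] [Finite K] {q : ℕ} (hK : Nat.card K = q ^ 2)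

theorem card_sq {X : Type*} [AddCommGroup X] [Module K X] [Finite X] (s : X →+ X) (h1 : ∀ x, s (s x) = x)
    (h2 : ∀ c x, s (c • x) = H10.conj hK c • s x) : Nat.card X = Nat.card {x // s x = x} ^ 2 := by
  obtain ⟨θ, -, hθ⟩ := exists_theta hK
  rw [pow_two, ← Nat.card_prod]
  refine le_antisymm (Nat.card_le_card_of_injective (fun x => ((⟨x + s x, by rw [map_add, h1, add_comm]⟩,
    ⟨θ • x + s (θ • x), by rw [map_add, h1, add_comm]⟩) : {x // s x = x} × {x // s x = x})) fun x y e => ?_)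
    (Nat.card_le_card_of_injective (fun y => y.1.1 + θ • y.2.1) fun y y' e => ?_)
  · have e1 : x + s x = y + s y := congrArg (fun p => p.1.1) e
    have e2 : θ • x + s (θ • x) = θ • y + s (θ • y) := congrArg (fun p => p.2.1) e
    rw [h2, h2] at e2
    exact smul_right_injective X hθ (by simp only; linear_combination (norm := module) e2 - H10.conj hK θ • e1)
  · have e2 := congrArg s e
    simp only [map_add, h2, y.1.2, y.2.2, y'.1.2, y'.2.2] at e e2
    have e3 : y.2.1 = y'.2.1 := smul_right_injective X hθ (by simp only; linear_combination (norm := module) e - e2)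
    rw [e3, add_left_inj] at e
    exact Prod.ext (Subtype.ext e) (Subtype.ext e3)

theorem card_norm {n : ℕ} (a : GU n K q) : Nat.card (Subgroup.centralizer ({a.1} : Set (GL (Fin n) K))) =
    Nat.card (Subgroup.centralizer ({a} : Set (GU n K q))) *
      Nat.card {x : Matrix (Fin n) (Fin n) K // Commute x a.1.1 ∧ st hK x = x ∧ IsUnit x} := by
  have ha := (mem_GU_iff hK _).1 a.2
  have ha' : st hK a.1.1 = (a.1⁻¹).1 := (Units.inv_eq_of_mul_eq_one_left ha).symm
  have hc : ∀ x, Commute x a.1.1 → Commute (st hK x) a.1.1 := fun x h => by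
    have := congrArg (st hK) h.eq
    rw [st_mul, st_mul, ha'] at this
    exact (Commute.units_inv_left_iff.1 this).symm
  rw [card_of_fib (fun g : Subgroup.centralizer ({a.1} : Set (GL (Fin n) K)) =>
    (⟨st hK g.1.1 * g.1.1, ?_, by rw [st_mul, st_st], (isUnit_st hK g.1.isUnit).mul g.1.isUnit⟩ :
      {x : Matrix (Fin n) (Fin n) K // Commute x a.1.1 ∧ st hK x = x ∧ IsUnit x}))
    ((GU n K q).subgroupOf _) (fun ⟨x, h1, h2, h3⟩ => ?_) fun g g' => ?_]
  · congr 1
    exact Nat.card_congr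
      { toFun := fun g => ⟨⟨g.1.1, g.2⟩, Subgroup.mem_centralizer_singleton_iff.2
          (Subtype.ext (Subgroup.mem_centralizer_singleton_iff.1 g.1.2))⟩
        invFun := fun g => ⟨⟨g.1.1, Subgroup.mem_centralizer_singleton_iff.2
          (congrArg Subtype.val (Subgroup.mem_centralizer_singleton_iff.1 g.2))⟩, g.1.2⟩
        left_inv := fun _ => rfl
        right_inv := fun _ => rfl }
  · have : Commute g.1.1 a.1.1 := congrArg Units.val (Subgroup.mem_centralizer_singleton_iff.1 g.2)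
    exact (hc _ this).mul_left this
  · obtain ⟨u, e1, e2⟩ := exists_st_mul hK h2 h3
    exact ⟨⟨u, Subgroup.mem_centralizer_singleton_iff.2 (Units.ext (e2 _ h1.symm).symm.eq)⟩, Subtype.ext e1⟩
  · rw [Subtype.mk.injEq, Subgroup.mem_subgroupOf, mem_GU_iff hK]
    change _ ↔ st hK (g.1.1 * (g'.1⁻¹).1) * (g.1.1 * (g'.1⁻¹).1) = 1
    rw [st_mul, Matrix.mul_assoc, ← Matrix.mul_assoc (st hK g.1.1)]
    refine ⟨fun h => ?_, fun h => ?_⟩
    · rw [h, Units.mul_inv_cancel_right, st_inv_mul]
    · have := congrArg (fun x => st hK g'.1.1 * x * g'.1.1) h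
      rw [← Matrix.mul_assoc, st_mul_inv, Matrix.one_mul, Units.inv_mul_cancel_right, Matrix.mul_one] at this
      exact this

/-- conjugate transpose for any index type -/
def ct {ι : Type*} : Matrix ι ι K →+ Matrix ι ι K where
  toFun A := of fun i j => H10.conj hK (A j i)
  map_zero' := by ext; simp
  map_add' _ _ := by ext; simp

theorem card_herm (ι : Type*) [Fintype ι] : Nat.card {A : Matrix ι ι K // ct hK A = A} =
    q ^ (Fintype.card ι * Fintype.card ι) := by
  have h := card_sq hK (ct hK (ι := ι)) (fun A => by ext; simp [ct, H10.conj_conj]) fun c A => by ext; simp [ct]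
  rw [Module.natCard_eq_pow_finrank (K := K), finrank_matrix, hK, finrank_self, mul_one, ← pow_mul, mul_comm 2,
    pow_mul] at h
  exact (Nat.pow_left_injective two_ne_zero h).symm

theorem card_herm_unit (ι : Type*) [Fintype ι] [DecidableEq ι] : Nat.card {A : Matrix ι ι K // IsUnit A} =
    Nat.card (GU (Fintype.card ι) K q) * Nat.card {A : Matrix ι ι K // ct hK A = A ∧ IsUnit A} := by
  have h := card_norm hK (1 : GU (Fintype.card ι) K q)
  rw [show Subgroup.centralizer {(1 : GU (Fintype.card ι) K q)} = ⊤ by simp, Subgroup.card_top,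
    show Subgroup.centralizer {(1 : GU (Fintype.card ι) K q).1} = ⊤ by simp, Subgroup.card_top] at h
  haveI := Fintype.ofFinite K
  rw [card_unit_mat, ← card_GL_field, h]
  congr 1
  let e := reindexAlgEquiv K K (Fintype.equivFin ι)
  refine (Nat.card_congr (e.toEquiv.subtypeEquiv fun A => ?_)).symm
  change _ ↔ _ ∧ e (ct hK A) = e A ∧ IsUnit (e A)
  simp [MulEquiv.isUnit_map]

section
variable {t : ℕ} {d : Fin t → ℕ} (hd : ∀ k, 1 ≤ d k) (B : (I d → K) → (I d → K) →ₗ[K] K)
  (s : Matrix (I d) (I d) K →+ Matrix (I d) (I d) K) (U : Matrix (I d) (I d) K)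
  (b1 : ∀ a b, B a b = H10.conj hK (B b a)) (b2 : ∀ a, (∀ b, B b a = 0) → a = 0)
  (b3 : ∀ x a b, B (x *ᵥ b) a = B b (s x *ᵥ a)) (s1 : ∀ x, s (s x) = x) (s2 : ∀ c x, s (c • x) = H10.conj hK c • s x)
  (s3 : ∀ x, Commute x (N K d) → Commute (s x) (N K d)) (u1 : s (N K d) = -(U * N K d)) (u2 : Commute U (N K d))
  (u3 : U * (1 + N K d) = 1)

set_option maxHeartbeats 1600000 in
include hd b1 b2 b3 s1 s2 s3 u1 u2 u3 in
theorem card_hu : Nat.card {x : E K d // s x.1 = x.1 ∧ IsUnit x.1} = q ^ gam d *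
    ∏ i : Fin (Finset.univ.sup d + 1),
      Nat.card {A : Matrix {k // d k = i} {k // d k = i} K // ct hK A = A ∧ IsUnit A} := by
  have f1 : ∀ j w, N K d *ᵥ w = 0 → U ^ j *ᵥ w = w := fun j w h => by
    have e : U *ᵥ w = w := by
      have := congrArg (· *ᵥ w) u3
      simpa only [← mulVec_mulVec, add_mulVec, one_mulVec, h, add_zero] using this
    induction j with
    | zero => simp
    | succ j ih => rw [pow_succ, ← mulVec_mulVec, e, ih]
  have f2 : ∀ j a b, N K d ^ (j + 1) *ᵥ a = 0 → B (N K d ^ j *ᵥ b) a = (-1) ^ j * B b (N K d ^ j *ᵥ a) := fun j a b h => by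
    have e : ∀ j a b, B (N K d ^ j *ᵥ b) a = B b (s (N K d) ^ j *ᵥ a) := fun j => by
      induction j with
      | zero => simp
      | succ j ih => intro a b; rw [pow_succ', ← mulVec_mulVec, b3, ih, mulVec_mulVec, ← pow_succ]
    rw [e, u1, ← neg_one_smul K (U * _), smul_pow, u2.mul_pow, smul_mulVec, ← mulVec_mulVec, f1 _ _ (by
      rwa [mulVec_mulVec, ← pow_succ']), map_smul, smul_eq_mul]
  have f3 : ∀ a b, N K d *ᵥ a = 0 → B (N K d *ᵥ b) a = 0 := fun a b h => by
    rw [b3, u1, neg_mulVec, ← mulVec_mulVec, h, mulVec_zero, neg_zero, map_zero]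
  let W : Fin t → I d → K := fun k => N K d ^ (d k - 1) *ᵥ v hd k
  have f4 : ∀ k, N K d *ᵥ W k = 0 := fun k => by
    rw [mulVec_mulVec, ← pow_succ', pow_v_zero hd (by omega)]
  let Ψ : Matrix (I d) (I d) K →ₗ[K] Matrix (Fin t) (Fin t) K :=
    { toFun := fun x => of fun k l => B (W k) (x *ᵥ v hd l)
      map_add' := fun x y => by ext; simp [add_mulVec]
      map_smul' := fun c x => by ext; simp [smul_mulVec] }
  have g1 : ∀ x, Ψ x = Ψ 1 * bar hd x := fun x => by
    ext k l
    obtain ⟨y, hy⟩ := decomp hd (x *ᵥ v hd l)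
    change B (W k) (x *ᵥ v hd l) = ∑ m, B (W k) (1 *ᵥ v hd m) * bar hd x m l
    rw [hy, map_add, b1 _ (N K d *ᵥ y), f3 _ _ (f4 k), map_zero, add_zero, map_sum]
    simp [bar_apply, mul_comm]
  have g2 : (Ψ 1).BlockTriangular d := fun k l h => by
    change B (W k) (1 *ᵥ v hd l) = 0
    rw [one_mulVec, f2 _ _ _ (pow_v_zero hd (by omega)), pow_v_zero hd (by omega), map_zero, mul_zero]
  have g3 : IsUnit (Ψ 1) := by
    rw [← vecMul_injective_iff_isUnit, ← coe_vecMulLinear, injective_iff_map_eq_zero]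
    intro c hc
    have e1 : ∑ k, H10.conj hK (c k) • W k = 0 := b2 _ fun b => by
      obtain ⟨y, hy⟩ := decomp hd b
      have e2 : ∀ l, B (v hd l) (∑ k, H10.conj hK (c k) • W k) = 0 := fun l => by
        have := congrArg (H10.conj hK) (congrFun hc l)
        simp only [vecMulLinear_apply, vecMul, dotProduct, Ψ, map_sum, map_mul, LinearMap.coe_mk, AddHom.coe_mk,
          of_apply, one_mulVec, ← b1, Pi.zero_apply, map_zero] at this
        simpa using this
      rw [b1, hy, map_add, b1 _ (N K d *ᵥ y), f3 _ _ (by simp [mulVec_sum, mulVec_smul, f4]), map_sum]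
      simp [b1 _ (v hd _), e2]
    funext k
    have := congrFun e1 ⟨k, ⟨d k - 1, by have := hd k; omega⟩⟩
    have e3 : ∀ l, W l = Pi.single ⟨l, ⟨d l - 1, by have := hd l; omega⟩⟩ 1 := fun l =>
      pow_v hd ⟨l, ⟨d l - 1, by have := hd l; omega⟩⟩
    rw [Finset.sum_apply, Finset.sum_eq_single k (fun l _ hl => by
      rw [e3, Pi.smul_apply, Pi.single_eq_of_ne fun e => hl (congrArg Sigma.fst e).symm, smul_zero]) (by simp), e3] at this
    simpa using this
  obtain ⟨θ, hθ, hδ⟩ := exists_theta hK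
  set δ := θ - H10.conj hK θ with hδ'
  let Φ : ∀ i : ℕ, Matrix (I d) (I d) K →ₗ[K] Matrix {k // d k = i} {k // d k = i} K := fun i =>
    { toFun := fun x => δ ^ (i - 1) • (Ψ x).toSquareBlock d i
      map_add' := fun x y => by rw [map_add, ← smul_add]; rfl
      map_smul' := fun c x => by rw [map_smul, smul_comm]; rfl }
  have g4 : ∀ i x, Commute x (N K d) → Φ i (s x) = ct hK (Φ i x) := fun i x hx => by
    ext ⟨k, hk⟩ ⟨l, hl⟩
    change δ ^ (i - 1) * B (W k) (s x *ᵥ v hd l) = H10.conj hK (δ ^ (i - 1) * B (W l) (x *ᵥ v hd k))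
    rw [← b3, comm_pow hx, f2 _ _ _ (pow_v_zero hd (by omega)), map_mul, ← b1, map_pow, hδ', map_sub, H10.conj_conj,
      ← neg_sub θ, neg_pow _ (i - 1), hk, ← hl]
    simp only [W]
    ring
  let sE : E K d →+ E K d := AddMonoidHom.mk' (fun x => ⟨s x.1, s3 _ x.2⟩) fun x y => Subtype.ext (map_add s _ _)
  let π : sE.eqLocus (AddMonoidHom.id _) →+ ∀ i : Fin (Finset.univ.sup d + 1),
      (ct hK (ι := {k // d k = i})).eqLocus (AddMonoidHom.id _) := AddMonoidHom.mk'
    (fun x i => ⟨Φ i x.1.1, (g4 _ _ x.1.2).symm.trans (congrArg (fun y : E K d => Φ i y.1) x.2)⟩)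
    fun x y => funext fun i => Subtype.ext (map_add (Φ i) _ _)
  have h := card_pre' π (fun H => by
    obtain ⟨A, hA, h2⟩ := exists_diag lt_sup fun i => (δ ^ ((i : ℕ) - 1))⁻¹ • (H i).1
    haveI := g3.invertible
    obtain ⟨y, h3, h4⟩ := exists_bar hd ((blockTriangular_inv_of_blockTriangular g2).mul hA)
    have h5 : ∀ i : Fin (Finset.univ.sup d + 1), Φ i y = (H i).1 := fun i => by
      change δ ^ _ • (Ψ y).toSquareBlock d i = _
      rw [g1, h4, mul_inv_cancel_left_of_invertible, h2, smul_inv_smul₀ (pow_ne_zero _ hδ)]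
    refine ⟨⟨⟨θ • y + s (θ • y), (h3.smul_left θ).add_left (s3 _ (h3.smul_left θ))⟩, Subtype.ext ?_⟩,
      funext fun i => Subtype.ext ?_⟩
    · change s (θ • y + s (θ • y)) = θ • y + s (θ • y)
      rw [map_add, s1, add_comm]
    · change Φ i (θ • y + s (θ • y)) = (H i).1
      have h6 : ct hK (H i).1 = (H i).1 := (H i).2
      rw [s2, map_add, map_smul, map_smul, g4 _ _ h3, h5, h6, ← add_smul, hθ, one_smul]) fun H => ∀ i, IsUnit (H i).1
  have c1 : Nat.card (sE.eqLocus (AddMonoidHom.id _)) = q ^ (gam d + ∑ i : Fin (Finset.univ.sup d + 1),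
      Fintype.card {k // d k = i} * Fintype.card {k // d k = i}) := by
    have := card_sq hK sE (fun x => Subtype.ext (s1 _)) fun c x => Subtype.ext (s2 _ _)
    rw [card_E hd, dim_eq hd, hK, ← pow_mul, mul_comm 2, pow_mul] at this
    exact (Nat.pow_left_injective two_ne_zero this).symm
  have c3 : ∀ i : Fin (Finset.univ.sup d + 1), Nat.card ((ct hK (ι := {k // d k = i})).eqLocus (AddMonoidHom.id _)) =
      q ^ (Fintype.card {k // d k = i} * Fintype.card {k // d k = i}) := fun i => card_herm hK {k // d k = i}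
  have c4 : ∀ i : Fin (Finset.univ.sup d + 1),
      Nat.card {A : (ct hK (ι := {k // d k = i})).eqLocus (AddMonoidHom.id _) // IsUnit A.1} =
      Nat.card {A : Matrix {k // d k = i} {k // d k = i} K // ct hK A = A ∧ IsUnit A} := fun i =>
    Nat.card_congr (Equiv.subtypeSubtypeEquivSubtypeInter (fun A => ct hK A = A) fun A => IsUnit A)
  rw [c1, Nat.card_congr (Equiv.subtypePiEquivPi (p := fun (i : Fin (Finset.univ.sup d + 1))
    (A : (ct hK (ι := {k // d k = i})).eqLocus (AddMonoidHom.id _)) => IsUnit A.1)), Nat.card_pi, Nat.card_pi] at h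
  simp only [c3, c4] at h
  rw [Finset.prod_pow_eq_pow_sum, pow_add, mul_right_comm] at h
  have c2 := Nat.eq_of_mul_eq_mul_right (pow_pos (by have := H10.two_le_q hK; omega) _) h
  refine Eq.trans (Nat.card_congr ((Equiv.subtypeSubtypeEquivSubtypeInter (fun x : E K d => sE x = x)
    fun x => ∀ i : Fin (Finset.univ.sup d + 1), IsUnit (Φ i x.1)).trans (Equiv.subtypeEquivRight fun x => ?_)).symm) c2
  refine and_congr Subtype.ext_iff ?_
  rw [isUnit_bar hd x.2, ← (g3.unit.isUnit_units_mul (bar hd x.1)), g3.unit_spec,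
    isUnit_tri (g2.mul (bar_tri hd x.2)) lt_sup, ← g1]
  exact forall_congr' fun i => isUnit_smul_iff (Units.mk0 _ (pow_ne_zero _ hδ)) _

end

include hK in
theorem card_cent_GU {n t : ℕ} {d : Fin t → ℕ} (hd : ∀ k, 1 ≤ d k) {e : I d ≃ Fin n} (u : GU n K q)
    (h : IsConj (reindex e e (jordanTypeMatrix d K)) u.1.1) :
    Nat.card (Subgroup.centralizer ({u} : Set (GU n K q))) = q ^ gam d *
      ∏ i : Fin (Finset.univ.sup d + 1), Nat.card (GU (Fintype.card {k // d k = i}) K q) := by
  haveI := Fintype.ofFinite K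
  have h1 := card_norm hK u
  obtain ⟨φ, ψ, h2, h3⟩ := exists_tr h
  have ha := (mem_GU_iff hK _).1 u.2
  have ha' : st hK u.1.1 = (u.1⁻¹).1 := (Units.inv_eq_of_mul_eq_one_left ha).symm
  let s : Matrix (I d) (I d) K →+ Matrix (I d) (I d) K :=
    AddMonoidHom.mk' (fun x => ψ.symm (st hK (ψ x))) fun x y => by simp
  have h4 := card_hu hK hd (fun a => H10.stdB hK n (φ a) ∘ₗ φ.toLinearMap) s (ψ.symm (u.1⁻¹).1)
    (fun a b => ((H10.stdB_isSymm hK n).eq _ _).symm) (fun a ha => φ.map_eq_zero_iff.1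
      ((H10.stdU hK n).eq_zero_of_B_right fun b => by
        obtain ⟨b, rfl⟩ := φ.surjective b; exact ha b))
    (fun x a b => by
      change hermForm n K q (φ a) (φ (x *ᵥ b)) = hermForm n K q (φ (ψ.symm (st hK (ψ x)) *ᵥ a)) (φ b)
      rw [h3, h3, ψ.apply_symm_apply, hermForm_mulVec hK])
    (fun x => by simp [s, st_st]) (fun c x => by simp [s, st_smul])
    (fun x hx => (commute_iff h2 _).2 (by
      have := congrArg (st hK) ((commute_iff h2 _).1 hx).eq
      rw [st_mul, st_mul, ha'] at this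
      simpa [s] using (Commute.units_inv_left_iff.1 this).symm))
    (ψ.injective (by simp [s, h2, ha', st_one, Matrix.mul_sub]))
    ((commute_iff h2 _).2 (by rw [ψ.apply_symm_apply]; exact (Commute.refl _).units_inv_left)) (ψ.injective (by simp [h2]))
  have h5 : Nat.card {x : Matrix (Fin n) (Fin n) K // Commute x u.1.1 ∧ st hK x = x ∧ IsUnit x} =
      Nat.card {x : E K d // s x.1 = x.1 ∧ IsUnit x.1} := by
    refine (Nat.card_congr ((Equiv.subtypeSubtypeEquivSubtypeInter (fun x => Commute x (N K d))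
      fun x => s x = x ∧ IsUnit x).trans (ψ.toEquiv.subtypeEquiv fun x => ?_))).symm
    exact and_congr (commute_iff h2 _) (and_congr ψ.symm_apply_eq (MulEquiv.isUnit_map ψ).symm)
  have h6 : 0 < Nat.card {x : E K d // s x.1 = x.1 ∧ IsUnit x.1} :=
    @Nat.card_pos _ ⟨⟨⟨1, Commute.one_left _⟩, by simp [s, st_one], isUnit_one⟩⟩ _
  rw [card_cent hd h, h5, ← Fin.prod_univ_eq_prod_range fun i => ∏ j : Fin (Finset.univ.filter fun k => d k = i).card,
      (Fintype.card K ^ (Finset.univ.filter fun k => d k = i).card - Fintype.card K ^ (j : ℕ))] at h1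
  rw [Finset.prod_congr rfl fun (i : Fin (Finset.univ.sup d + 1)) _ => (congrArg
    (fun a => ∏ j : Fin a, (Fintype.card K ^ a - Fintype.card K ^ (j : ℕ))) (card_fib (d := d) i)).symm.trans
    ((card_unit_mat _).symm.trans (card_herm_unit hK _)), Finset.prod_mul_distrib] at h1
  refine Nat.eq_of_mul_eq_mul_right h6 (h1.symm.trans ?_)
  rw [h4, ← Nat.card_eq_fintype_card, hK]
  ring

end H24.Jor
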