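import Cfsg.Agent.H24.Jor
import Cfsg.Agent.H09.SpOrder

/-!
Jordan types of unipotent isometries of symmetric and alternating forms: parity of the multiplicities
(`H24.Jor.even_alt`, `even_symm`) and existence (`Real`, `real_alt`, `real_symm`).
-/

set_option autoImplicit false

open Module LinearMap Polynomial

universe u

namespace H24.Jor

section
variable {F V : Type*} [Field F] [AddCommGroup V] [Module F V] [Module.Finite F V]

theorem finrank_comap (f : End F V) (S : Submodule F V) :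
    finrank F (S.comap f) = finrank F (ker f) + finrank F ↥(S ⊓ range f) := by
  have h := finrank_range_add_finrank_ker (f.domRestrict (S.comap f))
  rw [range_domRestrict, Submodule.map_comap_eq, ker_domRestrict, ← Submodule.finrank_map_subtype_eq _ (Submodule.comap _ _),
    Submodule.map_comap_subtype, inf_eq_right.2 (ker_le_comap f), inf_comm] at h
  omega

theorem even_of_alt (β : LinearMap.BilinForm F V) (h : β.IsAlt) : ∃ m, finrank F V = finrank F (β.orthogonal ⊤) + 2 * m := by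
  obtain ⟨W, hW⟩ := (β.orthogonal ⊤).exists_isCompl
  obtain ⟨m, hm⟩ := H09.even_finrank_of_alt (β.nondegenerate_restrict_of_disjoint_orthogonal h.isRefl (W := W)
    (Submodule.disjoint_def.2 fun x hx hx' => Submodule.disjoint_def.1 hW.disjoint x (fun y _ => by
      obtain ⟨a, ha, b, hb, rfl⟩ := Submodule.mem_sup.1 (hW.sup_eq_top ▸ Submodule.mem_top (x := y))
      have h1 : β a x = 0 := h.isRefl _ _ (ha x trivial)
      have h2 : β b x = 0 := hx' b hb
      change β (a + b) x = 0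
      rw [map_add, LinearMap.add_apply, h1, h2, add_zero]) hx)) fun x => h x
  exact ⟨m, by rw [← hm, Submodule.finrank_add_eq_of_isCompl hW]⟩

variable {B : LinearMap.BilinForm F V} {A : End F V} (hB : B.Nondegenerate) (hA : ∀ x y, B (A x) (A y) = B x y)
include hB hA

theorem exists_U : ∃ U : End F V, Commute U (A - 1) ∧ (∀ r, ∃ P, Commute P (A - 1) ∧ U ^ r = 1 + P * (A - 1)) ∧
    ∀ i a b, B (((A - 1) ^ i) a) b = (-1) ^ i * B a ((U ^ i) (((A - 1) ^ i) b)) := by
  obtain ⟨A, rfl⟩ : IsUnit A := by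
    rw [isUnit_iff_ker_eq_bot, ker_eq_bot']
    exact fun x hx => hB.1 x fun y => by rw [← hA, hx]; simp
  have h1 : Commute (A⁻¹).1 (A.1 - 1) := (Commute.refl _).units_inv_left.sub_right (Commute.one_right _)
  have h2 : (A⁻¹).1 * (A.1 - 1) = 1 - (A⁻¹).1 := by rw [mul_sub, Units.inv_mul, mul_one]
  refine ⟨(A⁻¹).1, h1, fun r => ?_, fun i => ?_⟩
  · induction r with
    | zero => exact ⟨0, Commute.zero_left _, by simp⟩
    | succ r ih =>
      obtain ⟨P, h3, h4⟩ := ih
      refine ⟨(A⁻¹).1 * P - (A⁻¹).1, (h1.mul_left h3).sub_left h1, ?_⟩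
      rw [pow_succ', h4, sub_mul, h2, mul_add, mul_assoc]; simp only [mul_one]; abel
  · have h3 : ∀ a b, B ((A.1 - 1) a) b = -B a (((A⁻¹).1 * (A.1 - 1)) b) := fun a b => by
      have := hA a ((A⁻¹).1 b)
      rw [← End.mul_apply A.1 _ b, Units.mul_inv, End.one_apply] at this
      rw [h2]; simp [this]
    simp only [← End.mul_apply, ← h1.mul_pow]
    induction i with
    | zero => simp
    | succ i ih =>
      intro a b
      rw [pow_succ', End.mul_apply, h3, ih, ← End.mul_apply, ← pow_succ]; ring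

theorem even_gen (hr : B.IsRefl) (j : ℕ) (h : ∀ x, ((A - 1) ^ (j + 1)) x = 0 → B x (((A - 1) ^ j) x) = 0) :
    ∃ m, 2 * finrank F (ker ((A - 1) ^ (j + 1))) =
      finrank F (ker ((A - 1) ^ j)) + finrank F (ker ((A - 1) ^ (j + 2))) + 2 * m := by
  obtain ⟨U, -, -, h3⟩ := exists_U hB hA
  set N := A - 1
  let K := ker (N ^ (j + 1))
  have h1 : B.orthogonal K = range (N ^ (j + 1)) := by
    refine (Submodule.eq_of_le_of_finrank_le ?_ ?_).symm
    · rintro _ ⟨x, rfl⟩ y hy
      refine hr _ _ ?_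
      rw [h3, LinearMap.mem_ker.1 hy]; simp
    · have := finrank_range_add_finrank_ker (N ^ (j + 1))
      rw [B.finrank_orthogonal hB]
      change _ + finrank F K = _ at this
      omega
  obtain ⟨m, hm⟩ := even_of_alt (B.compl₁₂ K.subtype ((N ^ j) ∘ₗ K.subtype)) fun x => h x x.2
  have h2 : (LinearMap.BilinForm.orthogonal (B.compl₁₂ K.subtype ((N ^ j) ∘ₗ K.subtype)) ⊤).map K.subtype =
      (ker N ⊓ range (N ^ (j + 1))).comap (N ^ j) := by
    ext y
    simp only [Submodule.mem_map, Submodule.mem_comap, Submodule.mem_inf, LinearMap.mem_ker, ← h1]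
    constructor
    · rintro ⟨y, hy, rfl⟩
      exact ⟨by rw [← End.mul_apply, ← pow_succ']; exact y.2, fun x hx => hy ⟨x, hx⟩ trivial⟩
    · rintro ⟨h4, h5⟩
      exact ⟨⟨y, by rwa [← End.mul_apply, ← pow_succ'] at h4⟩, fun x _ => h5 x x.2, rfl⟩
  have h4 := finrank_comap (N ^ (j + 1)) (ker N)
  rw [← ker_comp, ← End.mul_eq_comp, ← pow_succ'] at h4
  rw [← Submodule.finrank_map_subtype_eq K (LinearMap.BilinForm.orthogonal _ _), h2, finrank_comap, inf_assoc,
    inf_eq_left.2 (by rw [pow_succ]; exact range_comp_le_range _ _ : range (N ^ (j + 1)) ≤ range (N ^ j))] at hm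
  exact ⟨m, by change finrank F (ker (N ^ (j + 1))) = _ at hm; change finrank F (ker (N ^ (j + 2))) = _ at h4; omega⟩

omit hB hA in
theorem count_eq {t : ℕ} (d : Fin t → ℕ) (j : ℕ) : 2 * ∑ k, min (d k) (j + 1) =
    ∑ k, min (d k) j + ∑ k, min (d k) (j + 2) + (Finset.univ.filter fun k => d k = j + 1).card := by
  rw [Finset.card_filter, Finset.mul_sum, ← Finset.sum_add_distrib, ← Finset.sum_add_distrib]
  exact Finset.sum_congr rfl fun k _ => by split_ifs <;> omega

variable {t : ℕ} {d : Fin t → ℕ} (hk : ∀ j, finrank F (ker ((A - 1) ^ j)) = ∑ k, min (d k) j)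
include hk

theorem even_alt (ha : B.IsAlt) (j : ℕ) (hj : Odd j) : Even (Finset.univ.filter fun k => d k = j).card := by
  obtain ⟨i, rfl⟩ := hj
  obtain ⟨U, h1, h2, h3⟩ := exists_U hB hA
  obtain ⟨m, hm⟩ := even_gen hB hA ha.isRefl (2 * i) fun x hx => ha.isRefl _ _ (by
    obtain ⟨P, h4, h5⟩ := h2 i
    have h6 : (A - 1) ^ i * (P * (A - 1)) * (A - 1) ^ i = P * (A - 1) ^ (2 * i + 1) := by
      rw [← mul_assoc, ← (h4.pow_right i).eq, two_mul, add_right_comm, pow_add, pow_succ]; simp only [mul_assoc]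
    rw [two_mul, pow_add, End.mul_apply, h3, h5, LinearMap.add_apply, map_add, End.one_apply, ha, h3,
      ← End.mul_apply _ (P * _), ← End.mul_apply _ ((A - 1) ^ i), h6, End.mul_apply, hx]
    simp)
  rw [hk, hk, hk, count_eq] at hm
  exact ⟨m, by omega⟩

theorem even_symm (h2 : (2 : F) ≠ 0) (hs : ∀ x y, B x y = B y x) (j : ℕ) (hj : Even j) (h0 : 0 < j) :
    Even (Finset.univ.filter fun k => d k = j).card := by
  obtain ⟨i, rfl⟩ : ∃ i, j = i + 1 := ⟨j - 1, by omega⟩
  obtain ⟨U, h1, h4, h3⟩ := exists_U hB hA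
  obtain ⟨m, hm⟩ := even_gen hB hA (fun x y h => (hs _ _).trans h) i fun x hx => by
    obtain ⟨P, -, h5⟩ := h4 i
    have := h3 i x x
    rw [pow_succ', End.mul_apply] at hx
    rw [h5, LinearMap.add_apply, End.mul_apply, hx, map_zero, add_zero, End.one_apply, hs,
      (Nat.not_even_iff_odd.1 (Nat.even_add_one.1 hj)).neg_one_pow] at this
    exact (mul_eq_zero.1 (by linear_combination this : 2 * B x (((A - 1) ^ i) x) = 0)).resolve_left h2
  rw [hk, hk, hk, count_eq] at hm
  exact ⟨m, by omega⟩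

end

variable {F : Type u} [Field F]

/-- the type `μ` is realised by an isometry of a nondegenerate `ε`-symmetric form -/
def Real (ε : F) (μ : Multiset ℕ) : Prop :=
  ∃ (V : Type u) (_ : AddCommGroup V) (_ : Module F V) (_ : Module.Finite F V) (B : LinearMap.BilinForm F V)
    (A : End F V), (∀ x, (∀ y, B x y = 0) → x = 0) ∧ (∀ x y, B y x = ε * B x y) ∧ (ε = -1 → ∀ x, B x x = 0) ∧
    (∀ x y, B (A x) (A y) = B x y) ∧ finrank F V = μ.sum ∧
    ∀ j, finrank F (ker ((A - 1) ^ j)) = (μ.map fun e => min e j).sum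

variable {ε : F}

theorem Real.zero : Real ε 0 :=
  ⟨Fin 0 → F, inferInstance, inferInstance, inferInstance, 0, 1, fun _ _ => Subsingleton.elim _ _, by simp, by simp,
    by simp, by simp, fun j => finrank_zero_of_subsingleton⟩

theorem finrank_ker_prod {V W : Type*} [AddCommGroup V] [Module F V] [AddCommGroup W] [Module F W] [Module.Finite F V]
    [Module.Finite F W] (A : End F V) (A' : End F W) (j : ℕ) :
    finrank F (ker ((A.prodMap A' - 1 : End F (V × W)) ^ j)) =
      finrank F (ker ((A - 1) ^ j)) + finrank F (ker ((A' - 1) ^ j)) := by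
  have : (A.prodMap A' - 1 : End F (V × W)) ^ j = ((A - 1) ^ j).prodMap ((A' - 1) ^ j) := by
    induction j with
    | zero => ext <;> simp
    | succ j ih => rw [pow_succ, ih]; ext <;> simp [pow_succ]
  rw [this, ker_prodMap, ← finrank_prod]
  exact LinearEquiv.finrank_eq
    { toFun := fun x => (⟨x.1.1, x.2.1⟩, ⟨x.1.2, x.2.2⟩)
      invFun := fun x => ⟨(x.1.1, x.2.1), x.1.2, x.2.2⟩
      map_add' := fun _ _ => rfl
      map_smul' := fun _ _ => rfl
      left_inv := fun _ => rfl
      right_inv := fun _ => rfl }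

theorem Real.add {μ ν : Multiset ℕ} (h : Real ε μ) (h' : Real ε ν) : Real ε (μ + ν) := by
  obtain ⟨V, _, _, _, B, A, h1, h2, h3, h4, h5, h6⟩ := h
  obtain ⟨W, _, _, _, B', A', g1, g2, g3, g4, g5, g6⟩ := h'
  refine ⟨V × W, inferInstance, inferInstance, inferInstance,
    B.compl₁₂ (fst F V W) (fst F V W) + B'.compl₁₂ (snd F V W) (snd F V W), A.prodMap A', fun x hx => ?_,
    fun x y => ?_, fun e x => ?_, fun x y => ?_, by simp [h5, g5], fun j => by simp [finrank_ker_prod, h6, g6]⟩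
  · exact Prod.ext (h1 _ fun y => by simpa using hx (y, 0)) (g1 _ fun y => by simpa using hx (0, y))
  · simp [h2 x.1, g2 x.2, mul_add]
  · simp [h3 e, g3 e]
  · simp [h4, g4]

theorem finrank_ker_cyc (e : ℕ) {x w : AdjoinRoot (X ^ e : F[X])} (hw : IsUnit w)
    (h : x - 1 = w * AdjoinRoot.root _) (j : ℕ) :
    finrank F (ker ((Algebra.lmul F _ x - 1) ^ j)) = min e j := by
  haveI := H24.Sim.finite_adjoinRoot (f := (X ^ e : F[X])) (pow_ne_zero _ X_ne_zero)
  have := H24.Sim.finrank_ker_mul (f := (X ^ e : F[X])) (pow_ne_zero _ X_ne_zero) (X ^ j)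
  rw [H24.Sim.kd1_pow_pow, natDegree_X, mul_one] at this
  rw [← this, ← map_one (Algebra.lmul F _), ← map_sub, ← map_pow, h, mul_pow, map_mul, End.mul_eq_comp,
    ker_comp_of_ker_eq_bot _ ((isUnit_iff_ker_eq_bot _).1 ((hw.pow j).map _)), map_pow (AdjoinRoot.mk _),
    AdjoinRoot.mk_X]

theorem nilp_root (e : ℕ) : IsNilpotent (AdjoinRoot.root (X ^ e : F[X])) :=
  ⟨e, by rw [← AdjoinRoot.mk_X, ← map_pow, AdjoinRoot.mk_self]⟩

theorem Real.pair (hε : ε * ε = 1) (e : ℕ) : Real ε {e, e} := by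
  haveI := H24.Sim.finite_adjoinRoot (f := (X ^ e : F[X])) (pow_ne_zero _ X_ne_zero)
  obtain ⟨l, hl⟩ := H24.Adj.exists_lam (monic_X_pow (R := F) e)
  obtain ⟨w, hw⟩ := (nilp_root (F := F) e).isUnit_one_add.exists_right_inv
  let R := AdjoinRoot (X ^ e : F[X])
  let β : LinearMap.BilinForm F R := (LinearMap.mul F R).compr₂ l
  refine ⟨R × R, inferInstance, inferInstance, inferInstance,
    β.compl₁₂ (fst F R R) (snd F R R) + ε • β.compl₁₂ (snd F R R) (fst F R R),
    (Algebra.lmul F R (1 + AdjoinRoot.root _)).prodMap (Algebra.lmul F R w), fun x hx => ?_, fun x y => ?_,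
    fun h x => ?_, fun x y => ?_, ?_, fun j => ?_⟩
  · refine Prod.ext (hl _ fun y => by simpa [β] using hx (0, y)) (hl _ fun y => ?_)
    simpa [β, left_ne_zero_of_mul_eq_one hε] using hx (y, 0)
  · simp only [β, LinearMap.add_apply, LinearMap.smul_apply, compl₁₂_apply, compr₂_apply, mul_apply', fst_apply, snd_apply, smul_eq_mul]
    rw [mul_comm y.1, mul_comm y.2]; linear_combination -l (x.2 * y.1) * hε
  · simp [β, h, mul_comm]
  · have e1 : ∀ a b : R, (1 + AdjoinRoot.root _) * a * (w * b) = a * b := fun a b => by linear_combination a * b * hw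
    have e2 : ∀ a b : R, w * a * ((1 + AdjoinRoot.root _) * b) = a * b := fun a b => by linear_combination a * b * hw
    simp only [β, LinearMap.add_apply, LinearMap.smul_apply, compl₁₂_apply, compr₂_apply, mul_apply', fst_apply, snd_apply, prodMap_apply,
      Algebra.coe_lmul_eq_mul, e1, e2]
  · simp [R, H24.Sim.finrank_adjoinRoot]
  · rw [finrank_ker_prod, finrank_ker_cyc e isUnit_one (by ring),
      finrank_ker_cyc e (IsUnit.of_mul_eq_one_right _ hw).neg (by linear_combination hw)]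
    simp

theorem Real.even (k : ℕ) : Real (-1 : F) {2 * k} := by
  obtain ⟨u, h1, h2⟩ := H24.Reg.exists_reg F k
  refine ⟨_, inferInstance, inferInstance, inferInstance, H09.spB (Fin k) F, Matrix.toLin' u.1, H09.spB_nondeg.1,
    fun x y => by rw [neg_one_mul, H09.spB_alt.neg_eq], fun _ => H09.spB_alt, H09.mem_sp_iff.1 u.2, by simp [two_mul],
    fun j => ?_⟩
  rcases Nat.eq_zero_or_pos k with rfl | hk
  · exact finrank_zero_of_subsingleton.trans (by simp)
  have := H24.Reg.finrank_ker_pow ⟨_, h1⟩ (by simp; omega) j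
  rw [← Matrix.toLin'_apply', Matrix.toLin'_pow, map_sub, Matrix.toLin'_one] at this
  exact this.trans (by simp [two_mul])

theorem Real.odd (h2 : (2 : F) ≠ 0) (k : ℕ) : Real (1 : F) {2 * k + 1} := by
  haveI := H24.Sim.finite_adjoinRoot (f := (X ^ (2 * k + 1) : F[X])) (pow_ne_zero _ X_ne_zero)
  let R := AdjoinRoot (X ^ (2 * k + 1) : F[X])
  obtain ⟨w, hw⟩ := (nilp_root (F := F) (2 * k + 1)).isUnit_one_sub.exists_right_inv
  let l : R →ₗ[F] F := lcoeff F (2 * k) ∘ₗ AdjoinRoot.modByMonicHom (monic_X_pow _)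
  have hl : ∀ p, l (AdjoinRoot.mk _ p) = p.coeff (2 * k) := fun p => by
    conv_rhs => rw [← modByMonic_add_div p (X ^ (2 * k + 1)), coeff_add, coeff_X_pow_mul', if_neg (by omega), add_zero]
    rfl
  let σ : R →ₐ[F] R := AdjoinRoot.liftAlgHom _ (Algebra.ofId F R) (-AdjoinRoot.root _) (by
    have : AdjoinRoot.root (X ^ (2 * k + 1) : F[X]) ^ (2 * k + 1) = 0 := by
      rw [← AdjoinRoot.mk_X, ← map_pow, AdjoinRoot.mk_self]
    rw [eval₂_X_pow, neg_pow, this, mul_zero])
  have hσ : σ (AdjoinRoot.root _) = -AdjoinRoot.root _ := AdjoinRoot.liftAlgHom_root _ _ _ _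
  have hg : ∀ x : R, ∃ g : F[X], x = aeval (AdjoinRoot.root _) g := fun x => by
    obtain ⟨g, rfl⟩ := AdjoinRoot.mk_surjective x
    exact ⟨g, (AdjoinRoot.aeval_eq g).symm⟩
  have hσσ := H24.Reg.invol hσ hg
  have hlσ : ∀ x, l (σ x) = l x := fun x => by
    obtain ⟨g, rfl⟩ := hg x
    have : aeval (-AdjoinRoot.root (X ^ (2 * k + 1) : F[X])) g = AdjoinRoot.mk _ (g.comp (C (-1) * X)) := by
      rw [← AdjoinRoot.aeval_eq, aeval_comp]; simp
    rw [← aeval_algHom_apply, hσ, this, AdjoinRoot.aeval_eq, hl, hl, comp_C_mul_X_coeff]; simp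
  refine ⟨R, inferInstance, inferInstance, inferInstance, ((LinearMap.mul F R).compr₂ l).compl₂ σ.toLinearMap,
    Algebra.lmul F R ((1 + AdjoinRoot.root _) * w), fun x hx => ?_, fun x y => ?_,
    fun h => absurd (by linear_combination h) h2, fun x y => ?_, by simp [R, H24.Sim.finrank_adjoinRoot], fun j => ?_⟩
  · obtain ⟨g, rfl⟩ := AdjoinRoot.mk_surjective x
    refine AdjoinRoot.mk_eq_zero.2 (X_pow_dvd_iff.2 fun i hi => ?_)
    have := hx (σ (AdjoinRoot.mk _ (X ^ (2 * k - i))))
    change l (_ * σ (σ _)) = 0 at this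
    rwa [hσσ, ← map_mul, hl, coeff_mul_X_pow', if_pos (by omega), show 2 * k - (2 * k - i) = i by omega] at this
  · change l (y * σ x) = 1 * l (x * σ y)
    rw [one_mul, ← hlσ, map_mul, hσσ, mul_comm x]
  · have h3 := congrArg σ hw
    rw [map_mul, map_sub, map_one, hσ] at h3
    change l (_ * x * σ (_ * y)) = l (x * σ y)
    rw [map_mul σ, map_mul σ, map_add, map_one, hσ]
    congr 1
    linear_combination (x * σ y * (1 + AdjoinRoot.root _) * σ w) * hw + (x * σ y) * h3
  · rw [finrank_ker_cyc _ (((Ne.isUnit h2).map (algebraMap F R)).mul (IsUnit.of_mul_eq_one_right _ hw)) (by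
      rw [map_ofNat]; linear_combination hw)]
    simp

theorem real_of (hε : ε * ε = 1) (S : ℕ → Prop) (hS : ∀ e, S e → Real ε {e}) (μ : Multiset ℕ)
    (h : ∀ e, ¬ S e → Even (μ.count e)) : Real ε μ := by
  induction hn : μ.card using Nat.strong_induction_on generalizing μ with | h n ih =>
  rcases μ.empty_or_exists_mem with rfl | ⟨e, he⟩
  · exact Real.zero
  obtain ⟨ν, rfl⟩ := Multiset.exists_cons_of_mem he
  by_cases hs : S e
  · exact (hS e hs).add (ih _ (by simp at hn; omega) ν (fun a ha => by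
      have := h a ha
      rwa [Multiset.count_cons_of_ne (by rintro rfl; exact ha hs)] at this) rfl)
  · have h1 := h e hs
    rw [Multiset.count_cons_self] at h1
    obtain ⟨ν, rfl⟩ := Multiset.exists_cons_of_mem (Multiset.count_ne_zero.1 (by rintro h; simp [h] at h1) : e ∈ ν)
    rw [show e ::ₘ e ::ₘ ν = {e, e} + ν by simp]
    exact (Real.pair hε e).add (ih _ (by simp at hn; omega) ν (fun a ha => by
      have := h a ha
      by_cases hae : a = e
      · subst hae; simpa [Nat.even_add_one] using this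
      · rwa [Multiset.count_cons_of_ne hae, Multiset.count_cons_of_ne hae] at this) rfl)

theorem count_map {t : ℕ} (d : Fin t → ℕ) (j : ℕ) :
    (Finset.univ.val.map d).count j = (Finset.univ.filter fun k => d k = j).card := by
  rw [Multiset.count_map]; simp only [eq_comm (a := j)]; rfl

theorem Real.exists_mat {t : ℕ} {d : Fin t → ℕ} (h : Real ε (Finset.univ.val.map d)) {n : Type*} [Fintype n]
    [DecidableEq n] (e : I d ≃ n) : ∃ (B : LinearMap.BilinForm F (n → F)) (A : GL n F), B.Nondegenerate ∧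
      (∀ x y, B y x = ε * B x y) ∧ (ε = -1 → B.IsAlt) ∧ (∀ x y, B (A.1.mulVec x) (A.1.mulVec y) = B x y) ∧
      IsConj (Matrix.reindex e e (Cfsg.jordanTypeMatrix d F)) A.1 := by
  obtain ⟨V, _, _, _, B, A, h1, h2, h3, h4, h5, h6⟩ := h
  let φ : V ≃ₗ[F] (n → F) := LinearEquiv.ofFinrankEq _ _ (by
    rw [h5, finrank_fintype_fun_eq_card, ← Fintype.card_congr e, Fintype.card_sigma]
    simp only [Fintype.card_fin]; rfl)
  let A' := LinearMap.toMatrix' (φ.conj A)
  have h7 : ∀ j, Matrix.toLin' ((A' - 1) ^ j) = φ.conj ((A - 1) ^ j) := fun j => by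
    rw [Matrix.toLin'_pow, map_sub, Matrix.toLin'_one, Matrix.toLin'_toMatrix']
    change _ = φ.conjRingEquiv _
    rw [map_pow, map_sub, map_one]; rfl
  have h8 : ∀ j, finrank F (ker (Matrix.toLin' ((A' - 1) ^ j))) = ∑ k, min (d k) j := fun j => by
    rw [h7, ← H24.Sim.Iso.finrank_ker (s := (A - 1) ^ j) ⟨φ, fun v => by simp [LinearEquiv.conj_apply]⟩, h6, Multiset.map_map]; rfl
  have h9 : IsNilpotent (A' - 1) := ⟨Finset.univ.sup d, Matrix.toLin'.injective (by
    rw [map_zero, ← ker_eq_top]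
    refine Submodule.eq_top_of_finrank_eq ?_
    rw [h8, ← φ.finrank_eq, h5]
    exact Finset.sum_congr rfl fun k _ => min_eq_left (Finset.le_sup (f := d) (Finset.mem_univ k)))⟩
  obtain ⟨g, hg⟩ := H24.Sim.isUnit_of_unip h9
  have h10 : ∀ x, (∀ y, B.compl₁₂ φ.symm.toLinearMap φ.symm.toLinearMap x y = 0) → x = 0 := fun x hx =>
    φ.symm.map_eq_zero_iff.1 (h1 _ fun y => by simpa using hx (φ y))
  refine ⟨B.compl₁₂ φ.symm.toLinearMap φ.symm.toLinearMap, g, ⟨h10, fun x hx => h10 x fun y => ?_⟩,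
    fun x y => h2 _ _, fun h x => h3 h _, fun x y => ?_, hg ▸ (isConj_iff e).2 ⟨h9, h8⟩⟩
  · exact (h2 _ _).trans (mul_eq_zero_of_right _ (hx y))
  · rw [hg, ← Matrix.toLin'_apply, ← Matrix.toLin'_apply, Matrix.toLin'_toMatrix']
    simp [LinearEquiv.conj_apply, h4]

end H24.Jor
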