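import Cfsg.Agent.S1066
import Cfsg.Agent.S1070

/-!
# Order and simplicity of the twisted group of type `E₆` over the field with four elements
-/

set_option autoImplicit false

namespace H24.LpO
open Cfsg Cfsg.Lie

universe u

theorem o : ∀ (K : Type u) [Field K] [Fintype K], Fintype.card K = 4 → IsSimpleGroup (twistedE6 K 2) ∧
    Nat.card (twistedE6 K 2) = 2 ^ 36 * 3 ^ 9 * 5 ^ 2 * 7 ^ 2 * 11 * 13 * 17 * 19 := by
  intro K _ _ hK
  have hq : IsPrimePow 2 := Nat.prime_two.isPrimePow
  have hK' : Fintype.card K = 2 ^ 2 := hK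
  refine ⟨(Cfsg.Agent.S1070.result hq hK').1, ?_⟩
  have h := Cfsg.Agent.S1066.result hq hK'
  norm_num at h ⊢
  omega

end H24.LpO
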