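import Cfsg.Agent.H20.SylIn

/-!
# Index inequalities (toolkit for minimal permutation degrees; namespace `H24.MD`)

* `chain`, `ncard_le`, `ncard_le_act`, `ncard_le_inv`, `relIndex_le_ncard`, `add_le` (two double cosets), `frac`
* `pair_le` (additive duality bound), `exists_char`
* `scal a` (scalars stabilising an additive subgroup), `scal_lt`, `scal_bound`
-/

set_option autoImplicit false
set_option linter.unusedSectionVars false

open Subgroup H20

namespace H24.MD

section Group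

variable {G Y : Type*} [Group G] [Finite G] {H J K N E P : Subgroup G}

theorem rel_pos (H K : Subgroup G) : 0 < H.relIndex K := Nat.pos_of_ne_zero index_ne_zero_of_finite

theorem rel_mono (H : Subgroup G) (h : N ≤ K) : H.relIndex N ≤ H.relIndex K :=
  relIndex_le_of_le_right h (rel_pos _ _).ne'

theorem rel_anti (K : Subgroup G) (h : H ≤ J) : J.relIndex K ≤ H.relIndex K :=
  relIndex_le_of_le_left h (rel_pos _ _).ne'

theorem chain (h1 : H ⊓ K ≤ J) (hN : N ≤ J ⊓ K) : J.relIndex K * H.relIndex N ≤ H.relIndex K := by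
  rw [← inf_relIndex_right H K, ← relIndex_mul_relIndex (H ⊓ K) (J ⊓ K) K (le_inf h1 inf_le_right) inf_le_right,
    inf_relIndex_right J K, mul_comm]
  exact Nat.mul_le_mul_right _ ((rel_anti N inf_le_left).trans (rel_mono _ hN))

theorem two_le_rel {g : G} (h1 : g ∈ K) (h2 : g ∉ J) : 2 ≤ J.relIndex K := by
  have := rel_pos J K
  have : J.relIndex K ≠ 1 := fun e => h2 (relIndex_eq_one.1 e h1)
  omega

theorem card_mul_rel (H K : Subgroup G) : Nat.card (H ⊓ K : Subgroup G) * H.relIndex K = Nat.card K := by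
  rw [← (H.subgroupOf K).card_mul_index, ← inf_subgroupOf_right, Nat.card_congr (subgroupOfEquivOfLe inf_le_right).toEquiv,
    inf_subgroupOf_right]; rfl

theorem ncard_le [Finite Y] (J K : Subgroup G) (f : G → Y) {n : ℕ} {O : Set Y} (hO : ∀ y ∈ O, ∃ k ∈ K, f k = y)
    (h : ∀ k ∈ K, ∃ T : Set Y, T.ncard ≤ n ∧ ∀ j ∈ K, j ∈ J → f (k * j) ∈ T) : O.ncard ≤ J.relIndex K * n := by
  classical
  choose! T h1 h2 using h
  have := Fintype.ofFinite (K ⧸ J.subgroupOf K)
  calc O.ncard ≤ (⋃ c ∈ (Finset.univ : Finset (K ⧸ J.subgroupOf K)), T c.out).ncard := Set.ncard_le_ncard fun y hy => by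
        obtain ⟨k, hk, rfl⟩ := hO y hy
        obtain ⟨j, hj⟩ := QuotientGroup.mk_out_eq_mul (J.subgroupOf K) ⟨k, hk⟩
        refine Set.mem_biUnion (Finset.mem_univ (QuotientGroup.mk ⟨k, hk⟩)) ?_
        have := h2 _ (QuotientGroup.mk (s := J.subgroupOf K) ⟨k, hk⟩).out.2 (j⁻¹).1 (j⁻¹).1.2 (j⁻¹).2
        simpa [hj] using this
    _ ≤ ∑ c : K ⧸ J.subgroupOf K, (T c.out).ncard := Finset.set_ncard_biUnion_le _ _
    _ ≤ _ := by
        refine (Finset.sum_le_card_nsmul _ _ n fun c _ => h1 _ c.out.2).trans ?_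
        rw [Finset.card_univ, ← Nat.card_eq_fintype_card]; rfl

theorem ncard_le_act [Finite Y] (J K : Subgroup G) (a : G → Y → Y) (hm : ∀ g ∈ K, ∀ h ∈ K, ∀ y, a (g * h) y = a g (a h y)) (y : Y)
    {O S : Set Y} (hO : ∀ z ∈ O, ∃ k ∈ K, a k y = z) (hS : ∀ j ∈ K, j ∈ J → a j y ∈ S) : O.ncard ≤ J.relIndex K * S.ncard :=
  ncard_le J K (a · y) hO fun k hk => ⟨a k '' S, Set.ncard_image_le, fun j hj hJ => ⟨_, hS j hj hJ, (hm k hk j hj y).symm⟩⟩

theorem ncard_le_inv [Finite Y] (J K : Subgroup G) (f : G → Y) {O : Set Y} (hO : ∀ y ∈ O, ∃ k ∈ K, f k = y)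
    (h : ∀ k ∈ K, ∀ j ∈ K, j ∈ J → f (k * j) = f k) : O.ncard ≤ J.relIndex K := by
  simpa using ncard_le J K f (n := 1) hO fun k hk => ⟨{f k}, by simp, h k hk⟩

theorem relIndex_le_ncard [Finite Y] (J K : Subgroup G) (f : G → Y) {T : Set Y} (h1 : ∀ k ∈ K, f k ∈ T)
    (h2 : ∀ k ∈ K, ∀ k' ∈ K, f k = f k' → k⁻¹ * k' ∈ J) : J.relIndex K ≤ T.ncard :=
  Nat.card_le_card_of_injective (fun c : K ⧸ J.subgroupOf K => (⟨f c.out, h1 _ c.out.2⟩ : T)) fun c c' e => by
    rw [← c.out_eq, ← c'.out_eq]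
    exact QuotientGroup.eq.2 (h2 _ c.out.2 _ c'.out.2 (congrArg Subtype.val e))

theorem ncard_mk (H K : Subgroup G) (c : G) : ((fun k => (QuotientGroup.mk (c * k) : G ⧸ H)) '' K).ncard = H.relIndex K :=
  le_antisymm (ncard_le_inv H K _ (fun _ h => h) fun k _ j _ hj => QuotientGroup.eq.2 (by simpa using hj))
    (relIndex_le_ncard H K _ (fun k hk => Set.mem_image_of_mem _ hk) fun k _ k' _ e => by
      simpa [mul_assoc] using QuotientGroup.eq.1 e)

theorem add_le (hP : P ≤ E) {g : G} (hg : g ∈ E) (h : ∀ k ∈ P, g * k ∉ H) :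
    H.relIndex P + H.relIndex (cj g P) ≤ H.relIndex E := by
  rw [← ncard_mk H P 1, ← ncard_mk H (cj g P) g⁻¹, ← ncard_mk H E 1, ← Set.ncard_union_eq]
  · refine Set.ncard_le_ncard (Set.union_subset (Set.image_mono hP) ?_)
    rintro _ ⟨k, hk, rfl⟩
    exact ⟨g⁻¹ * k, by simpa using mul_mem (hP (mem_cj.1 hk)) (inv_mem hg), by simp⟩
  · refine Set.disjoint_left.2 ?_
    rintro _ ⟨k, hk, rfl⟩ ⟨k', hk', e⟩
    exact h _ (mul_mem (inv_mem (mem_cj.1 hk')) hk) (by simpa [mul_assoc] using QuotientGroup.eq.1 e)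

theorem frac (h1 : H ≤ E) (h2 : P ≤ E) : P.relIndex H * H.relIndex E = H.relIndex P * P.relIndex E := by
  rw [← inf_relIndex_right P H, ← inf_relIndex_right H P, relIndex_mul_relIndex _ _ _ inf_le_right h1,
    relIndex_mul_relIndex _ _ _ inf_le_right h2, inf_comm]

theorem rel_of_disjoint (h : H ⊓ K = ⊥) : H.relIndex K = Nat.card K := by
  rw [← card_mul_rel H K, h, card_bot, one_mul]

theorem rel_cj (hE : E.Normal) (P : Subgroup G) (g : G) : (cj g P).relIndex E = P.relIndex E := by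
  conv_lhs => rw [← cj_normal g E]
  exact relIndex_map_map_of_injective _ _ (MulAut.conj g).injective

theorem rel_stab {X : Type*} [MulAction G X] (K : Subgroup G) (x : X) :
    (MulAction.stabilizer G x).relIndex K = {y | ∃ k ∈ K, k • x = y}.ncard := by
  rw [relIndex, show (MulAction.stabilizer G x).subgroupOf K = MulAction.stabilizer K x from rfl, MulAction.index_stabilizer]
  congr 1; ext y; simp [MulAction.mem_orbit_iff, Subgroup.smul_def]

theorem rel_hom {A : Type*} [AddGroup A] (f : Multiplicative A →* G) (H : Subgroup G) (B : AddSubgroup A)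
    (h : ∀ a, a ∈ B ↔ f (.ofAdd a) ∈ H) : H.relIndex f.range = B.index := by
  rw [← index_comap, ← AddSubgroup.index_toSubgroup]
  congr 1; ext a; exact (h a).symm

theorem ncard_le_mul {X : Type*} [MulAction G X] [Finite X] (J K : Subgroup G) (y : X) {O S : Set X} {c : ℕ}
    (hO : ∀ z ∈ O, ∃ k ∈ K, k • y = z) (hS : ∀ j ∈ K, j ∈ J → j • y ∈ S) (hc : c ≤ J.relIndex (MulAction.stabilizer G y ⊓ K)) :
    c * O.ncard ≤ J.relIndex K * S.ncard := by
  have h := frac (H := J ⊓ K) (P := MulAction.stabilizer G y ⊓ K) (E := K) inf_le_right inf_le_right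
  rw [inf_relIndex_right J, inf_relIndex_right, rel_stab] at h
  have h1 : (MulAction.stabilizer G y ⊓ K).relIndex (J ⊓ K) ≤ S.ncard := by
    rw [← inf_relIndex_right, inf_assoc, inf_eq_right.2 inf_le_right, inf_relIndex_right, rel_stab]
    exact Set.ncard_le_ncard fun z ⟨k, hk, e⟩ => e ▸ hS k hk.2 hk.1
  calc _ ≤ _ := Nat.mul_le_mul (hc.trans (rel_anti _ (inf_le_left (b := K))|>.trans' le_rfl)) (Set.ncard_le_ncard hO)
    _ = _ := h.symm
    _ ≤ _ := by rw [mul_comm]; exact Nat.mul_le_mul_left _ h1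

/-- a multiplicatively closed property defines a subgroup of a finite group -/
def mkSub (p : G → Prop) (h1 : p 1) (hm : ∀ a b, p a → p b → p (a * b)) : Subgroup G where
  carrier := {g | p g}
  one_mem' := h1
  mul_mem' := hm _ _
  inv_mem' := fun {g} hg => by
    obtain ⟨n, hn⟩ : g⁻¹ ∈ Submonoid.powers g := mem_powers_iff_mem_zpowers.2 (by simp)
    rw [← hn]; clear hn
    induction n with
    | zero => simpa using h1
    | succ n ih => simpa [pow_succ] using hm _ _ ih hg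

/-- the elements mapping `S` into itself -/
def stb {X : Type*} [MulAction G X] (S : Set X) : Subgroup G :=
  mkSub (fun g => ∀ x ∈ S, g • x ∈ S) (by simp) fun a b ha hb x hx => by rw [mul_smul]; exact ha _ (hb _ hx)

theorem mem_stb {X : Type*} [MulAction G X] {S : Set X} {g : G} : g ∈ stb S ↔ ∀ x ∈ S, g • x ∈ S := Iff.rfl

theorem of_semiregular (hP : P ≤ E) (h : ∀ g ∈ E, H ⊓ cj g P = ⊥) (hm : H.relIndex E < 2 * Nat.card P) {g : G} (hg : g ∈ E) :
    ∃ k ∈ P, g * k ∈ H := by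
  by_contra! hc
  have := add_le hP hg hc
  rw [rel_of_disjoint (h g hg), rel_of_disjoint (by simpa [cj_one] using h 1 E.one_mem), card_cj] at this
  omega

theorem quot_min {Z : Subgroup G} [Z.Normal] {b : ℕ} (h : ∀ H : Subgroup G, H ≠ ⊤ → b ≤ H.index) (hP : Z ≤ P) (hb : P.index = b) :
    (∀ H : Subgroup (G ⧸ Z), H ≠ ⊤ → b ≤ H.index) ∧ ∃ H : Subgroup (G ⧸ Z), H.index = b := by
  refine ⟨fun H hH => ?_, P.map (QuotientGroup.mk' Z), ?_⟩
  · rw [← index_comap_of_surjective H (QuotientGroup.mk'_surjective Z)]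
    exact h _ fun e => hH (comap_injective (QuotientGroup.mk'_surjective Z) e)
  · rw [← hb, index_map_eq _ (QuotientGroup.mk'_surjective Z) (by simpa using hP)]

end Group

section Points

variable (F : Type*) {G V : Type*} [Group G] [Finite G] [Field F] [Finite F] [AddCommGroup V] [Module F V] [Finite V]
  [DistribMulAction G V] [SMulCommClass G F V] {H E : Subgroup G} {v : V}

/-- the stabiliser of the point `⟨v⟩` -/
def pt (v : V) : Subgroup G :=
  mkSub (fun g => ∃ c : F, g • v = c • v) ⟨1, by simp⟩ fun a b ⟨c, ha⟩ ⟨d, hb⟩ => ⟨d * c, by rw [mul_smul, hb, smul_comm, ha, mul_smul]⟩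

/-- the vectors on the points of the `K`-orbit of `⟨v⟩` -/
def cone (K : Subgroup G) (v : V) : Set V := {y | ∃ c : F, c ≠ 0 ∧ ∃ k ∈ K, y = c • k • v}

variable {F}

theorem mem_pt {g : G} : g ∈ pt F v ↔ ∃ c : F, g • v = c • v := Iff.rfl

theorem pt_ne (hv : v ≠ 0) {g : G} {c : F} (h : g • v = c • v) : c ≠ 0 := by
  rintro rfl; exact hv ((smul_eq_zero_iff_eq g).1 (by simpa using h))

theorem cj_pt (g : G) (v : V) : cj g (pt F v) = pt F (g • v) := by
  ext x; simp only [mem_cj, mem_pt, mul_smul, inv_smul_eq_iff, smul_comm g]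

theorem pt_smul {c : F} (hc : c ≠ 0) (v : V) : pt (G := G) F (c • v) = pt F v := by
  ext x; simp only [mem_pt, smul_comm x, smul_comm _ c, smul_right_inj hc]

theorem pt_index (K : Subgroup G) (hv : v ≠ 0) : (pt F v).relIndex K * (Nat.card F - 1) = (cone F K v).ncard := by
  rw [← Nat.card_units, relIndex, index, ← Nat.card_prod]
  refine Nat.card_eq_of_bijective (fun x => ⟨x.2.1 • x.1.out.1 • v, _, x.2.ne_zero, _, x.1.out.2, rfl⟩) ⟨?_, ?_⟩
  · rintro ⟨a, c⟩ ⟨b, d⟩ e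
    replace e : c.1 • a.out.1 • v = d.1 • b.out.1 • v := congrArg Subtype.val e
    obtain rfl : a = b := by
      rw [← a.out_eq, ← b.out_eq]
      refine QuotientGroup.eq.2 ⟨d.1⁻¹ * c.1, ?_⟩
      simp only [coe_subtype, coe_mul, InvMemClass.coe_inv, mul_smul, inv_smul_eq_iff, smul_comm a.out.1, e, inv_smul_smul₀ d.ne_zero]
    rw [Units.ext (smul_left_injective F (fun h => hv ((smul_eq_zero_iff_eq _).1 h)) e)]
  · rintro ⟨_, c, hc, k, hk, rfl⟩
    obtain ⟨⟨j, d, hd⟩, hj⟩ := QuotientGroup.mk_out_eq_mul ((pt F v).subgroupOf K) ⟨k, hk⟩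
    refine ⟨⟨QuotientGroup.mk ⟨k, hk⟩, Units.mk0 (c * d⁻¹) (mul_ne_zero hc (inv_ne_zero (pt_ne hv hd)))⟩, Subtype.ext ?_⟩
    change _ • (_ : K).1 • v = _
    rw [hj, coe_mul, mul_smul]
    change _ • k • j.1 • v = _
    rw [show j.1 • v = d • v from hd, smul_comm k, smul_smul]; simp [pt_ne hv hd]

theorem pt_add (hv : v ≠ 0) {g : G} (hg : g ∈ E) (h : ∀ k ∈ H, ∀ c : F, k • v ≠ c • g • v) :
    H.relIndex (pt F v ⊓ E) + H.relIndex (pt F (g • v) ⊓ E) ≤ H.relIndex E := by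
  have := add_le (H := H) (P := pt F v ⊓ E) inf_le_right hg fun k ⟨⟨c, hc⟩, _⟩ hk => h _ hk c (by rw [mul_smul, hc, smul_comm])
  rwa [cj_inf, cj_pt, cj_of_mem hg] at this

/-- if the `H`-orbit of `⟨v⟩` has at most `i_v` points, then the index of `H` is at least the number of points -/
theorem pt_frac (hv : v ≠ 0) (hE : H ≤ E) (h : (cone F H v).ncard ≤ H.relIndex (pt F v ⊓ E) * (Nat.card F - 1)) :
    (pt F v).relIndex E ≤ H.relIndex E := by
  have h1 := frac (P := pt F v ⊓ E) hE inf_le_right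
  rw [inf_relIndex_right, ← inf_relIndex_right _ H, inf_assoc, inf_eq_right.2 hE, inf_relIndex_right] at h1
  rw [← pt_index H hv] at h
  have := Nat.le_of_mul_le_mul_right h (Nat.sub_pos_of_lt Finite.one_lt_card)
  exact Nat.le_of_mul_le_mul_left (h1 ▸ Nat.mul_le_mul_right _ this) (rel_pos _ _)

end Points

section Add

variable {M U F : Type*} [AddCommGroup M] [AddCommGroup U] [Finite M] [Finite U]

theorem pair_le [AddCommGroup F] (β : M →+ U →+ F) (χ : AddChar F ℂ) (A R : AddSubgroup M) (A' T : AddSubgroup U) (hT : A' ≤ T)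
    (h : ∀ a ∈ A, ∀ u ∈ A', χ (β a u) = 1) (hR : ∀ a ∈ A, (∀ u ∈ T, χ (β a u) = 1) → a ∈ R) :
    Nat.card A * Nat.card A' ≤ Nat.card T * Nat.card R := by
  let f : Multiplicative A →* AddChar (T ⧸ A'.addSubgroupOf T) ℂ := MonoidHom.mk' (fun a =>
    { toFun := Quotient.lift (fun u => χ (β a.toAdd u.1)) fun u v huv => by
        have := h _ a.toAdd.2 _ ((QuotientAddGroup.leftRel_apply (s := A'.addSubgroupOf T)).1 huv)
        rw [← mul_one (χ _), ← this, ← AddChar.map_add_eq_mul, ← map_add]; simp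
      map_zero_eq_one' := by change χ (β _ 0) = 1; simp
      map_add_eq_mul' := by rintro ⟨u⟩ ⟨v⟩; change χ (β _ (u + v)) = _; change _ = χ (β _ u) * χ (β _ v); rw [map_add, AddChar.map_add_eq_mul] })
    fun a b => AddChar.ext _ _ (by rintro ⟨u⟩; change χ (β (a.toAdd + b.toAdd) u) = _; rw [map_add, AddMonoidHom.add_apply, AddChar.map_add_eq_mul]; rfl)
  have h1 := f.ker.card_mul_index
  have h2 : f.ker.index ≤ (A'.addSubgroupOf T).index := by
    have := Fintype.ofFinite (T ⧸ A'.addSubgroupOf T)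
    rw [index_ker, AddSubgroup.index, Nat.card_eq_fintype_card (α := _ ⧸ _), ← AddChar.card_eq, ← Nat.card_eq_fintype_card]
    exact card_le_card_group _
  have h3 : Nat.card f.ker ≤ Nat.card R := Nat.card_le_card_of_injective
    (fun a => ⟨a.1.toAdd.1, hR _ a.1.toAdd.2 fun u hu => DFunLike.congr_fun (MonoidHom.mem_ker.1 a.2) (QuotientAddGroup.mk ⟨u, hu⟩ : T ⧸ A'.addSubgroupOf T)⟩)
    fun a b e => Subtype.ext (Multiplicative.toAdd.injective (Subtype.ext (by simpa using e)))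
  have h4 := (A'.addSubgroupOf T).card_mul_index
  rw [Nat.card_congr (AddSubgroup.addSubgroupOfEquivOfLe hT).toEquiv] at h4
  rw [Nat.card_congr Multiplicative.toAdd] at h1
  rw [← h1, ← h4]
  nlinarith [Nat.mul_le_mul h2 h3]

theorem exists_char {Ξ T : AddSubgroup U} (h : ¬ T ≤ Ξ) : ∃ χ : AddChar U ℂ, (∀ x ∈ Ξ, χ x = 1) ∧ ∃ x ∈ T, χ x ≠ 1 := by
  obtain ⟨x, hx, h⟩ := SetLike.not_le_iff_exists.1 h
  obtain ⟨ψ, hψ⟩ := (AddChar.exists_apply_ne_zero (a := (QuotientAddGroup.mk x : U ⧸ Ξ))).2 (by simpa using h)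
  exact ⟨ψ.compAddMonoidHom (QuotientAddGroup.mk' Ξ), fun y hy => by
    simp [(QuotientAddGroup.eq_zero_iff y).2 hy], x, hx, hψ⟩

theorem exists_rep [AddCommGroup F] (β : M →+ U →+ F) (χ : AddChar F ℂ) (h : ∀ u, (∀ a, χ (β a u) = 1) → u = 0)
    (hc : Nat.card M ≤ Nat.card U) (ψ : AddChar M ℂ) : ∃ u, ∀ a, ψ a = χ (β a u) := by
  have := Fintype.ofFinite M
  obtain ⟨u, hu⟩ := (Function.Injective.bijective_of_nat_card_le (f := fun u : U => χ.compAddMonoidHom (β.flip u)) (fun u w e =>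
    sub_eq_zero.1 (h _ fun a => by
      have : χ (β a u) = χ (β a w) := DFunLike.congr_fun e a
      rw [map_sub, AddChar.map_sub_eq_div, this, div_self (χ.val_isUnit _).ne_zero]))
    (by rwa [Nat.card_eq_fintype_card, AddChar.card_eq, ← Nat.card_eq_fintype_card])).2 ψ
  exact ⟨u, fun a => by rw [← hu]; rfl⟩

variable [Field F] [Finite F] [Module F M]

theorem exists_prim : ∃ χ : AddChar F ℂ, ∀ a : F, (∀ c, χ (c * a) = 1) → a = 0 := by
  obtain ⟨χ, h⟩ := (AddChar.exists_apply_ne_zero (a := (1 : F))).2 one_ne_zero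
  exact ⟨χ, fun a ha => by_contra fun e => h (by simpa [e] using ha a⁻¹)⟩

variable (F) in
/-- the scalars stabilising `a` -/
def scal (a : AddSubgroup M) : Set F := {c | c ≠ 0 ∧ ∀ x ∈ a, c • x ∈ a}

theorem mem_of_smul {a : AddSubgroup M} {c : F} (hc : c ∈ scal F a) {x : M} (h : c • x ∈ a) : x ∈ a := by
  obtain ⟨y, e⟩ := Finite.surjective_of_injective (f := fun y : a => (⟨c • y.1, hc.2 _ y.2⟩ : a))
    (fun y z e => Subtype.ext (smul_right_injective M hc.1 (congrArg Subtype.val e))) ⟨_, h⟩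
  exact smul_right_injective M hc.1 (congrArg Subtype.val e) ▸ y.2

theorem scal_lt {a T : AddSubgroup M} (hT : ∀ (c : F), ∀ x ∈ T, c • x ∈ T) (h : ¬ T ≤ a) : (scal F a).ncard < a.relIndex T := by
  obtain ⟨z, hz, h⟩ := SetLike.not_le_iff_exists.1 h
  rw [Nat.lt_iff_add_one_le, ← Set.ncard_insert_of_notMem (a := 0) (fun e => e.1 rfl)]
  refine Nat.card_le_card_of_injective (fun c : ↥(insert 0 (scal F a)) => (QuotientAddGroup.mk ⟨c.1 • z, hT _ _ hz⟩ : T ⧸ a.addSubgroupOf T))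
    fun c d e => Subtype.ext (by_contra fun hne => h (mem_of_smul (c := d.1 - c.1) ⟨sub_ne_zero.2 (Ne.symm hne), fun x hx => ?_⟩ ?_))
  · have : ∀ c : ↥(insert 0 (scal F a)), c.1 • x ∈ a := fun c => by
      rcases c.2 with e | e
      exacts [by simp [e], e.2 x hx]
    rw [sub_smul]; exact sub_mem (this d) (this c)
  · simpa [sub_smul, neg_add_eq_sub, AddSubgroup.mem_addSubgroupOf] using QuotientAddGroup.eq.1 e

theorem scal_sq {a : AddSubgroup M} {c : F} {y : M} (hy : y ∈ a) (h : c • y ∉ a) : ((scal F a).ncard + 1) ^ 2 ≤ Nat.card F := by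
  let Ξ : AddSubgroup F := a.comap (LinearMap.toSpanSingleton F M y).toAddMonoidHom
  have h1 : scal F a ⊆ scal F Ξ := fun d hd => ⟨hd.1, fun x hx => by
    change (d • x) • y ∈ a; rw [smul_assoc]; exact hd.2 _ hx⟩
  have h2 := scal_lt (F := F) (a := Ξ) (T := ⊤) (by simp) fun e => h (e (AddSubgroup.mem_top c))
  have h3 : (insert 0 (scal F a)).ncard ≤ Nat.card Ξ := Set.ncard_le_ncard (s := insert 0 (scal F a)) (t := (Ξ : Set F)) (by
    rintro d (rfl | hd)
    exacts [zero_mem Ξ, hd.2 y hy]) (Set.toFinite _)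
  rw [Set.ncard_insert_of_notMem (fun e => e.1 rfl)] at h3
  rw [AddSubgroup.relIndex_top_right] at h2
  rw [← Ξ.card_mul_index, sq]
  exact Nat.mul_le_mul h3 ((Nat.succ_le_succ (Set.ncard_le_ncard h1)).trans h2)

theorem scal_bound {a T : AddSubgroup M} (hT : ∀ (c : F), ∀ x ∈ T, c • x ∈ T) (h : ¬ T ≤ a) {t : ℕ}
    (ht : Nat.card F - 1 ≤ t * (scal F a).ncard) :
    Nat.card F ≤ t * a.relIndex T ∧ ((∃ (c : F), ∃ y ∈ a, c • y ∉ a) → Nat.card F + 2 ≤ t * a.relIndex T) := by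
  have h1 := Nat.mul_le_mul_left t (Nat.succ_le_of_lt (scal_lt hT h))
  have h2 : 1 < Nat.card F := Finite.one_lt_card
  rw [Nat.mul_succ] at h1
  refine ⟨by rcases t with _ | t <;> omega, fun ⟨c, y, hy, hc⟩ => ?_⟩
  have h3 := scal_sq hy hc
  have h4 : 0 < (scal F a).ncard := (Set.ncard_pos).2 ⟨1, one_ne_zero, by simp⟩
  by_cases h5 : t ≤ 2
  · have := Nat.mul_le_mul_right (scal F a).ncard h5
    have : Nat.card F ≤ 2 * (scal F a).ncard + 1 := by omega
    nlinarith
  · omega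

end Add

end H24.MD
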