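import Cfsg.Agent.H24.MD1
import Cfsg.Agent.H10.Max

/-!
# Formed spaces: tools for minimal degrees (namespace `H24.MD`)

* `ex_nondeg`, `witt_E` (Witt's lemma inside `φ.E`), `cover`
* quadratic case: `sg φ p w` (Siegel transformation), `orb_card`, `cone_card`, `torus`
-/

set_option autoImplicit false
set_option linter.unusedSectionVars false

open Subgroup H20 H10 H10.Form Module

namespace H24.MD

section Add
variable {M : Type*} [AddCommGroup M] [Finite M] {H J K N : AddSubgroup M}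

theorem achain (h1 : H ⊓ K ≤ J) (hN : N ≤ J ⊓ K) : J.relIndex K * H.relIndex N ≤ H.relIndex K :=
  chain (H := H.toSubgroup) (J := J.toSubgroup) (K := K.toSubgroup) (N := N.toSubgroup) h1 hN

theorem atwo_le {g : M} (h1 : g ∈ K) (h2 : g ∉ J) : 2 ≤ J.relIndex K := two_le_rel (J := J.toSubgroup) (K := K.toSubgroup) h1 h2

theorem arel_pos (H K : AddSubgroup M) : 0 < H.relIndex K := rel_pos H.toSubgroup K.toSubgroup

theorem acard_mul (h : H ≤ K) : Nat.card H * H.relIndex K = Nat.card K := by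
  rw [← (H.addSubgroupOf K).card_mul_index, Nat.card_congr (AddSubgroup.addSubgroupOfEquivOfLe h).toEquiv]; rfl

theorem ale_of_card (h : H ≤ K) (hc : Nat.card K < 2 * Nat.card H) : K ≤ H := fun g hg => by_contra fun e => by
  have := Nat.mul_le_mul_left (Nat.card H) (atwo_le hg e)
  rw [acard_mul h] at this; omega

end Add

theorem fiber_le {X Y : Type*} [Finite X] [Finite Y] (f : X → Y) {O : Set X} {T : Set Y} {n : ℕ}
    (h : ∀ t ∈ T, n ≤ {x ∈ O | f x = t}.ncard) : n * T.ncard ≤ O.ncard := by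
  classical
  rw [Set.ncard_eq_toFinset_card T]
  refine (Finset.mul_card_image_le_card_of_maps_to (f := f) (s := (Set.toFinite {x ∈ O | f x ∈ T}).toFinset) (by simp) n
    fun t ht => (h t (by simpa using ht)).trans_eq ?_).trans ?_
  · rw [← Set.ncard_coe_finset]; congr 1; ext x; simp at ht; simp; aesop
  · rw [← Set.ncard_eq_toFinset_card]; exact Set.ncard_le_ncard fun x hx => hx.1

theorem sq_card {F : Type*} [Field F] [Finite F] {a : F} (ha : a ≠ 0) : Nat.card F - 1 ≤ 2 * {t | ∃ c : F, c ≠ 0 ∧ c * c * a = t}.ncard := by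
  classical
  have := Fintype.ofFinite F
  have := Finset.card_le_mul_card_image (f := fun c : F => c * c * a) (Finset.univ.erase 0) 2 fun t ht => by
    obtain ⟨c, -, rfl⟩ := Finset.mem_image.1 ht
    refine (Finset.card_le_card (t := {c, -c}) fun d hd => ?_).trans Finset.card_le_two
    simpa [ha, mul_self_eq_mul_self_iff] using (Finset.mem_filter.1 hd).2
  rw [Finset.card_erase_of_mem (Finset.mem_univ _), Finset.card_univ, ← Nat.card_eq_fintype_card, ← Set.ncard_coe_finset] at this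
  convert this; ext t; simp

variable {F V : Type*} [Field F] [Finite F] [AddCommGroup V] [Module F V] [Finite V] {φ : Form F V} [φ.Nondeg]

section Tw
variable {G : Type*} [Group G] [Finite G] [DistribMulAction G V] [SMulCommClass G F V]

theorem tw_ncard (m : F → F) (hm : ∀ a b, m (a * b) = m a * m b) (J K : Subgroup G) {p : V} (hK : K ≤ pt F p) (hp : p ≠ 0) (y : V)
    {O S : Set V} (hO : ∀ z ∈ O, ∃ k ∈ K, ∃ c, k • p = c • p ∧ m c • k • y = z)
    (hS : ∀ j ∈ K, j ∈ J → ∀ c, j • p = c • p → m c • j • y ∈ S) : O.ncard ≤ J.relIndex K * S.ncard := by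
  obtain ⟨l, hl⟩ := Module.Projective.exists_dual_eq_one F hp
  have h1 : ∀ {g : G} {c : F}, g • p = c • p → l (g • p) = c := fun h => by simp [h, hl]
  refine ncard_le_act J K (fun g y => m (l (g • p)) • g • y) (fun g hg h hh y => ?_) y (fun z hz => ?_) fun j hj hJ => ?_
  · obtain ⟨c, hc⟩ := hK hg
    obtain ⟨d, hd⟩ := hK hh
    rw [h1 hc, h1 hd, h1 (c := c * d) (by rw [mul_smul, hd, smul_comm, hc, smul_smul, mul_comm]), hm, mul_smul, mul_smul, smul_comm g (m d)]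
  · obtain ⟨k, hk, c, h2, h3⟩ := hO z hz
    exact ⟨k, hk, by rwa [h1 h2]⟩
  · obtain ⟨c, hc⟩ := hK hj
    simpa only [h1 hc] using hS j hj hJ c hc

variable (F) in
/-- the elements with `g p = c p` and `c g X ⊆ X` -/
def tw (p : V) (X : Set V) : Subgroup G :=
  mkSub (fun g => ∃ c : F, g • p = c • p ∧ ∀ w ∈ X, c • g • w ∈ X) ⟨1, by simp⟩ fun a b ⟨c, h1, h2⟩ ⟨d, h3, h4⟩ =>
    ⟨c * d, by rw [mul_smul, h3, smul_comm, h1, smul_smul, mul_comm], fun w hw => by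
      rw [mul_smul, mul_smul, ← smul_comm a]; exact h2 _ (h4 w hw)⟩

theorem tw_app {p w : V} {X : Set V} {g : G} {c : F} (hp : p ≠ 0) (hg : g ∈ tw F p X) (h : g • p = c • p) (hw : w ∈ X) : c • g • w ∈ X := by
  obtain ⟨d, h1, h2⟩ := hg
  exact smul_left_injective F hp (h1.symm.trans h) ▸ h2 w hw

theorem inv_pt {p : V} {g : G} {c : F} (hp : p ≠ 0) (h : g • p = c • p) : g⁻¹ • p = c⁻¹ • p := by
  rw [inv_smul_eq_iff, smul_comm, h, inv_smul_smul₀ (pt_ne hp h)]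

end Tw

@[simp] theorem B_act (g : φ.Isom) (x y : V) : φ.B (g • x) (g • y) = φ.B x y := g.2.B x y
@[simp] theorem Q_act (g : φ.Isom) (x : V) : φ.Q (g • x) = φ.Q x := g.2.Q x
theorem act_sub (g : φ.Isom) (x y : V) : g • (x - y) = g • x - g • y := smul_sub g x y
theorem B_fix {g : φ.Isom} {x : V} (h : g • x = x) (y : V) : φ.B x (g • y) = φ.B x y := by
  conv_lhs => rw [← h, B_act]
theorem iext {g h : φ.Isom} (H : ∀ x : V, g • x = h • x) : g = h := Isom.ext H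

theorem card_sub (W : Submodule F V) : Nat.card W = Nat.card F ^ finrank F W := Module.natCard_eq_pow_finrank
theorem mem_sp (v : V) (c : F) : c • v ∈ F ∙ v := Submodule.smul_mem _ _ (Submodule.mem_span_singleton_self v)
theorem mem_l (p x : V) : p ∈ Submodule.span F {p, x} := Submodule.subset_span (by simp)
theorem mem_r (p x : V) : x ∈ Submodule.span F {p, x} := Submodule.subset_span (by simp)
theorem rank_sup (A B : Submodule F V) : finrank F ↥(A ⊔ B) ≤ finrank F A + finrank F B := Submodule.finrank_add_le_finrank_add_finrank A B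
theorem pow_le_card {W : Submodule F V} {j : ℕ} (h : j ≤ finrank F W) : Nat.card F ^ j ≤ Nat.card W :=
  card_sub W ▸ Nat.pow_le_pow_right Nat.card_pos h
theorem card_le_pow {W : Submodule F V} {j : ℕ} (h : finrank F W ≤ j) : Nat.card W ≤ Nat.card F ^ j :=
  card_sub W ▸ Nat.pow_le_pow_right Nat.card_pos h

variable (φ) in
theorem ex_nondeg (Z : Submodule F V) :
    ∃ W, φ.NondegOn W ∧ W ≤ φ.perp Z ∧ finrank F V ≤ finrank F W + finrank F Z + finrank F ↥(Z ⊓ φ.perp Z) := by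
  obtain ⟨C, hC⟩ := (Z ⊓ φ.perp Z).exists_isCompl
  have h1 : (Z ⊓ φ.perp Z) ⊔ C ⊓ φ.perp Z = φ.perp Z := by rw [← sup_inf_assoc_of_le _ inf_le_right, hC.sup_eq_top, top_inf_eq]
  refine ⟨C ⊓ φ.perp Z, φ.nondegOn_iff_disjoint.2 (Submodule.disjoint_def.2 fun w hw hw' => ?_), inf_le_right, ?_⟩
  · refine Submodule.disjoint_def.1 hC.disjoint w ⟨?_, hw.2⟩ hw.1
    rw [← φ.perp_perp Z, ← h1, φ.perp_sup]
    exact ⟨φ.perp_anti inf_le_left hw.2, hw'⟩
  · have := rank_sup (Z ⊓ φ.perp Z) (C ⊓ φ.perp Z)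
    have := φ.finrank_perp Z
    rw [h1] at *; omega

theorem adj_E (hs : φ.Std) (Z : Submodule F V) (hd : finrank F Z + finrank F ↥(Z ⊓ φ.perp Z) + 2 ≤ finrank F V) (g : φ.Isom) :
    ∃ k ∈ φ.E, ∀ z ∈ Z, k • z = g • z := by
  obtain ⟨W, h1, h2, h3⟩ := ex_nondeg φ Z
  obtain ⟨r, h4, h5⟩ := hs.adj W h1 (by omega) g
  exact ⟨_, h5, fun z hz => by rw [mul_smul, show r • z = z from h4 z (φ.le_perp_comm.1 h2 hz)]⟩

theorem witt_E (hs : φ.Std) (U : Submodule F V) {u v : V} (hu : u ∉ U) (hv : v ∉ U) (hB : ∀ h ∈ U, φ.B h u = φ.B h v)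
    (hQ : φ.Q u = φ.Q v) (hd : finrank F ↥(U ⊔ F ∙ u) + finrank F ↥((U ⊔ F ∙ u) ⊓ φ.perp (U ⊔ F ∙ u)) + 2 ≤ finrank F V) :
    ∃ g ∈ φ.E, (∀ h ∈ U, g • h = h) ∧ g • u = v := by
  obtain ⟨g, -, h1, h2⟩ := φ.witt_point φ.hasElem_top U hu hv hB hQ
  obtain ⟨k, h3, h4⟩ := adj_E hs _ hd g
  exact ⟨k, h3, fun h hh => (h4 h (Submodule.mem_sup_left hh)).trans (h1 h hh),
    (h4 u (Submodule.mem_sup_right (Submodule.mem_span_singleton_self u))).trans h2⟩

theorem witt_E' (hs : φ.Std) (U : Submodule F V) {u v : V} (hu : u ∉ U) (hv : v ∉ U) (hB : ∀ h ∈ U, φ.B h u = φ.B h v)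
    (hQ : φ.Q u = φ.Q v) (hd : 2 * finrank F U + 4 ≤ finrank F V) : ∃ g ∈ φ.E, (∀ h ∈ U, g • h = h) ∧ g • u = v :=
  witt_E hs U hu hv hB hQ (by
    have := Submodule.finrank_mono (inf_le_left (a := U ⊔ F ∙ u) (b := φ.perp (U ⊔ F ∙ u)))
    have := finrank_sup_singleton hu; omega)

theorem ex_hyp (hs : φ.Std) (Z : Submodule F V) (hd : 2 * finrank F Z + 3 ≤ finrank F V) :
    ∃ e ∈ φ.perp Z, ∃ f ∈ φ.perp Z, φ.IsHyp e f := by
  obtain ⟨W, h1, h2, h3⟩ := ex_nondeg φ Z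
  have := Submodule.finrank_mono (inf_le_left (a := Z) (b := φ.perp Z))
  obtain ⟨e, he, f, hf, h⟩ := hs.exists_hyp_in h1 (by omega)
  exact ⟨e, h2 he, f, h2 hf, h⟩

variable (φ) in
/-- Siegel transformation of a quadratic space -/
noncomputable def sg (p w : V) : φ.Isom := φ.siegel p w (φ.Q w)

variable (hq : φ.IsQuad) {p x w w' e f y : V}
include hq

theorem sg_app (hp : φ.Q p = 0) (hw : φ.B p w = 0) (x : V) :
    sg φ p w • x = x + φ.B w x • p - φ.B p x • w - (φ.Q w * φ.B p x) • p := by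
  simpa [hq.ε_eq, sg, Isom.smul_def] using φ.siegel_apply hp hw (hq.T_eq _) x

theorem sg_fix (hp : φ.Q p = 0) (hw : φ.B p w = 0) (h1 : φ.B p x = 0) (h2 : φ.B w x = 0) : sg φ p w • x = x := by
  simp [sg_app hq hp hw, h1, h2]

theorem sg_E (hp : φ.Q p = 0) (hw : φ.B p w = 0) : sg φ p w ∈ φ.E := φ.siegel_mem_E hp hw (hq.T_eq _)

theorem sg_add (hp : φ.Q p = 0) (hw : φ.B p w = 0) (hw' : φ.B p w' = 0) : sg φ p (w + w') = sg φ p w * sg φ p w' := by
  rw [sg, sg, sg, φ.siegel_mul hp hw (hq.T_eq _) hw' (hq.T_eq _), hq.Q_add]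

theorem sg_conj (g : φ.Isom) (hp : φ.Q p = 0) (hw : φ.B p w = 0) : g * sg φ p w * g⁻¹ = sg φ (g • p) (g • w) := by
  rw [sg, sg, φ.siegel_conj g hp hw (hq.T_eq _), Q_act]; rfl

theorem sg_smul (hp : φ.Q p = 0) (hw : φ.B p w = 0) (c : F) : sg φ (c • p) w = sg φ p (c • w) := by
  rw [sg, sg, siegel_smul hp hw (hq.T_eq _), hq.σ_eq, hq.Q_smul]

theorem sg_self (hp : φ.Q p = 0) (c : F) : sg φ p (c • p) = 1 := by
  have := φ.B_self_eq_zero hp
  refine iext fun x => ?_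
  simp [sg_app hq hp (w := c • p) (by simp [this]), hq.σ_eq, hq.Q_smul, hp, smul_smul, mul_comm]

theorem sg_zero (hp : φ.Q p = 0) : sg φ p 0 = 1 := by simpa using sg_self hq hp 0

theorem sg_neg (hp : φ.Q p = 0) (hw : φ.B p w = 0) : sg φ p (-w) = (sg φ p w)⁻¹ :=
  eq_inv_of_mul_eq_one_left (by rw [← sg_add hq hp (by simp [hw]) hw, neg_add_cancel, sg_zero hq hp])

theorem sg_swap (hp : φ.Q p = 0) (hx : φ.Q x = 0) (h : φ.B p x = 0) (c : F) : sg φ p (c • x) = (sg φ x (c • p))⁻¹ := by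
  have h' := φ.B_symm_zero h
  rw [← sg_neg hq hx (by simp [h'])]
  refine iext fun y => ?_
  simp only [sg_app hq hp (w := c • x) (by simp [h]), sg_app hq hx (w := -(c • p)) (by simp [h']), hq.Q_smul, hp, hx, Q_neg, map_neg,
    LinearMap.neg_apply, hq.B_smul_left]
  module

theorem sg_add_left (hp : φ.Q p = 0) (hx : φ.Q x = 0) (h : φ.B p x = 0) (h1 : φ.B p w = 0) (h2 : φ.B x w = 0) :
    sg φ (x + p) w = sg φ x w * sg φ p (w - φ.Q w • x) := by
  have h' := φ.B_symm_zero h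
  refine iext fun y => ?_
  simp only [mul_smul, sg_app hq hp (w := w - φ.Q w • x) (by simp [h, h1]), sg_app hq hx h2,
    sg_app hq (p := x + p) (w := w) (by simp [hq.Q_add, hp, hx, h']) (by simp [h1, h2]), hq.Q_sub, hq.Q_smul, hp, hx, map_add, map_sub,
    LinearMap.add_apply, LinearMap.sub_apply, hq.B_smul_left, φ.B_smul_right, hq.B_self, h, h', h1, h2, φ.B_symm_zero h1, φ.B_symm_zero h2]
  module

theorem sg_eq_one (hp : φ.Q p = 0) (hp0 : p ≠ 0) (hw : φ.B p w = 0) (h : sg φ p w = 1) : w ∈ F ∙ p := by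
  obtain ⟨y, hy⟩ := φ.exists_B_eq_one hp0
  have := sg_app hq hp hw y
  rw [h, one_smul, hy] at this
  rw [show w = (φ.B w y - φ.Q w) • p by linear_combination (norm := module) this]
  exact mem_sp _ _

theorem sg_map {z : V} (hp : φ.Q p = 0) (hQ : φ.Q y = φ.Q z) (hB : φ.B p y = φ.B p z) (h0 : φ.B p y ≠ 0) :
    sg φ p ((φ.B p y)⁻¹ • (y - z)) • y = z := by
  obtain ⟨s, -, h1, h2⟩ := exists_siegel_map hp hQ hB h0
  rw [hq.T_eq, hq.ε_eq, one_div] at h1
  rwa [h1, hq.ε_eq, one_div] at h2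

theorem cover {Y A B : Submodule F V} (h : φ.IsHyp e f) (he : e ∈ Y) (hf : f ∈ Y) (hAB : ∀ a ∈ A, ∀ b ∈ B, φ.B a b = 0)
    (hY : ∀ y ∈ Y, φ.Q y = 0 → y ∈ A ∨ y ∈ B) : Y ≤ A ∨ Y ≤ B := by
  wlog hA : e ∈ A generalizing A B
  · exact (this (fun a ha b hb => φ.B_symm_zero (hAB b hb a ha)) (fun y h1 h2 => (hY y h1 h2).symm)
      ((hY e he h.Qe).resolve_left hA)).symm
  have hf' := (hY f hf h.Qf).resolve_right fun e' => one_ne_zero (h.Bef.symm.trans (hAB _ hA _ e'))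
  refine .inl fun y hy => ?_
  have h1 := φ.mem_perp_pair.1 (h.proj_mem y)
  generalize hv : y - (φ.ε * φ.B f y) • e - φ.B e y • f = v at h1
  have h2 : v ∈ Y := hv ▸ sub_mem (sub_mem hy (Y.smul_mem _ he)) (Y.smul_mem _ hf)
  have h3 := (hY (e + v - φ.Q v • f) (sub_mem (add_mem he h2) (Y.smul_mem _ hf)) (by
    simp [hq.Q_sub, hq.Q_add, hq.Q_smul, h.Qe, h.Qf, h.Bef, h1.1, φ.B_symm_zero h1.2])).resolve_right fun e' => by
    simpa [h.Bfe, h.Bff, h1.2, φ.ε_ne_zero] using hAB _ hf' _ e'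
  rw [show y = e + v - φ.Q v • f + (φ.ε * φ.B f y - 1) • e + (φ.B e y + φ.Q v) • f by rw [← hv]; module]
  exact add_mem (add_mem h3 (A.smul_mem _ hA)) (A.smul_mem _ hf')

theorem cone_card (Y : Submodule F V) {j : ℕ} (hj : finrank F Y + 2 + j ≤ finrank F V) (he : φ.Q e = 0) (hy : φ.B e y ≠ 0) (S : Set F)
    (hS : 0 ∉ S) {O : Set V} (h : ∀ c ∈ S, ∀ u ∈ φ.perp Y, φ.B e u = 0 → φ.B y u = 0 → c • sg φ e u • y ∈ O) :
    S.ncard * Nat.card F ^ j ≤ O.ncard := by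
  have h1 := φ.finrank_perp (Y ⊔ Submodule.span F {e, y})
  have h2 := rank_sup Y (Submodule.span F {e, y})
  have h3 := finrank_span_pair_le (F := F) e y
  refine (Nat.mul_le_mul_left _ (pow_le_card (W := φ.perp (Y ⊔ Submodule.span F {e, y})) (by omega))).trans ?_
  have h4 : ∀ u : φ.perp (Y ⊔ Submodule.span F {e, y}), u.1 ∈ φ.perp Y ∧ φ.B e u = 0 ∧ φ.B y u = 0 := fun u => by
    simpa only [φ.perp_sup, Submodule.mem_inf, φ.mem_perp_pair] using u.2
  rw [← Nat.card_coe_set_eq, ← Nat.card_prod]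
  refine Nat.card_le_card_of_injective (fun a => ⟨_, h _ a.1.2 _ (h4 a.2).1 (h4 a.2).2.1 (h4 a.2).2.2⟩) ?_
  rintro ⟨⟨c, hc⟩, u⟩ ⟨⟨d, hd⟩, v⟩ e'
  simp only [Subtype.mk.injEq, sg_app hq he (h4 _).2.1, φ.B_symm_zero (h4 _).2.2, zero_smul, add_zero] at e'
  have h5 := congrArg (φ.B e) e'
  simp only [map_sub, φ.B_smul_right, (h4 _).2.1, φ.B_self_eq_zero he, mul_zero, sub_zero, mul_left_inj' hy] at h5
  subst h5
  replace e' := smul_right_injective V (fun e => hS (e ▸ hc)) e'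
  have h5 := congrArg (φ.B y) e'
  simp only [map_sub, φ.B_smul_right, (h4 _).2.2, mul_zero, sub_zero, sub_right_inj, hq.B_comm y e, mul_left_inj' hy] at h5
  rw [h5, sub_left_inj, sub_right_inj] at e'
  rw [Subtype.ext (smul_right_injective V hy e')]

theorem orb_card (Y : Submodule F V) {j : ℕ} (hj : finrank F Y + 2 + j ≤ finrank F V) (he : φ.Q e = 0) (hy : φ.B e y ≠ 0)
    {O : Set V} (h : ∀ u ∈ φ.perp Y, φ.B e u = 0 → φ.B y u = 0 → sg φ e u • y ∈ O) : Nat.card F ^ j ≤ O.ncard := by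
  simpa using cone_card hq Y hj he hy {1} (by simp) (O := O) (by simpa using h)

theorem rot_app (h : φ.IsHyp e f) {c : F} (hc : c ≠ 0) (x : V) :
    φ.rot e f c • x = x + ((c - 1) * φ.B f x) • e + ((c⁻¹ - 1) * φ.B e x) • f := by
  simpa [hq.ε_eq, hq.σ_eq, Isom.smul_def] using φ.rot_apply h hc x

theorem mem_E (hd : 5 ≤ finrank F V) {g : φ.Isom} : g ∈ φ.E ↔ φ.dickson g = 1 ∧ φ.spinor g = 1 := by
  rw [hq.E_eq_commutator (hq.good_of_finrank (by omega)) (by omega), hq.mem_commutator_iff (hq.good_of_finrank (by omega)) (by omega)]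

theorem torus (hd : 5 ≤ finrank F V) (hp : φ.Q p = 0) (hx : φ.Q x = 0) (h : φ.B p x = 0) (h1 : φ.B p y = 0) (h2 : φ.B x y = 0)
    (h3 : p ∉ Submodule.span F {x, y}) (h4 : x ∉ Submodule.span F {p, y}) {c : F} (hc : c ≠ 0) :
    ∃ g ∈ φ.E, g • p = c⁻¹ • p ∧ g • x = c • x ∧ g • y = y ∧
      ∀ u, φ.B p u = 0 → φ.B x u = 0 → g • u - u ∈ Submodule.span F {p, x} := by
  have hg := hq.good_of_finrank (by omega)
  have h' := φ.B_symm_zero h
  obtain ⟨f, a1, a2⟩ := φ.exists_partner hp h3 (φ.mem_perp_pair.2 ⟨h', φ.B_symm_zero h1⟩)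
  obtain ⟨f', b1, b2⟩ := φ.exists_partner hx h4 (φ.mem_perp_pair.2 ⟨h, φ.B_symm_zero h2⟩)
  obtain ⟨a3, a4⟩ := φ.mem_perp_pair.1 a1
  obtain ⟨b3, b4⟩ := φ.mem_perp_pair.1 b1
  have key := fun u => (mul_smul (φ.rot p f c⁻¹) (φ.rot x f' c) u).trans
    ((congrArg _ (rot_app hq b2 hc u)).trans (rot_app hq a2 (inv_ne_zero hc) _))
  refine ⟨φ.rot p f c⁻¹ * φ.rot x f' c, (mem_E hq hd).2 ?_, ?_, ?_, ?_, fun u u1 u2 => ?_⟩
  · simp [hq.dickson_rot hg a2 (inv_ne_zero hc), hq.dickson_rot hg b2 hc, hq.spinor_rot hg a2 (inv_ne_zero hc), hq.spinor_rot hg b2 hc,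
      chi_inv]
  · simp [key, φ.B_symm_zero b3, h', a2.Bfe, a2.Bee, hq.ε_eq, sub_smul]
  · simp [key, φ.B_symm_zero a3, h, b2.Bfe, b2.Bee, hq.ε_eq, sub_smul]
  · simp [key, φ.B_symm_zero a4, φ.B_symm_zero b4, h1, h2]
  · simp only [key, u1, u2, map_add, φ.B_smul_right, h, mul_zero, zero_smul, add_zero, add_assoc, add_sub_cancel_left]
    exact add_mem (Submodule.smul_mem _ _ (mem_r p x)) (Submodule.smul_mem _ _ (mem_l p x))

end H24.MD
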