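import Cfsg.Agent.H24.MDF

/-!
# Minimal index for orthogonal groups: local analysis (namespace `H24.MD.O`)

* `AA hq S x L = {u ∈ L | sg x u ∈ S}`, `A hq H p = H ∩ Q_p`, `ix H p = [P_p : P_p ∩ H]`
* `base`, `main` : lower bounds for `ix`; `loc` : structure of `A` at an admissible pair
-/

set_option autoImplicit false
set_option linter.unusedSectionVars false

open Subgroup H20 H10 H10.Form Module

namespace H24.MD.O

variable {F V : Type*} [Field F] [Finite F] [AddCommGroup V] [Module F V] [Finite V] {φ : Form F V} [φ.Nondeg]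
  (hq : φ.IsQuad) {H S : Subgroup φ.Isom} {p x w u y : V} {L : Submodule F V}

/-- `{u ∈ L | sg x u ∈ S}` -/
def AA (S : Subgroup φ.Isom) (x : V) (L : Submodule F V) : AddSubgroup V where
  carrier := {u | u ∈ L ∧ (φ.Q x = 0 → (∀ u ∈ L, φ.B x u = 0) → sg φ x u ∈ S)}
  zero_mem' := ⟨L.zero_mem, fun h _ => by simp [sg_zero hq h]⟩
  add_mem' := fun a b => ⟨L.add_mem a.1 b.1, fun h h' => by
    rw [sg_add hq h (h' _ a.1) (h' _ b.1)]; exact mul_mem (a.2 h h') (b.2 h h')⟩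
  neg_mem' := fun a => ⟨L.neg_mem a.1, fun h h' => by rw [sg_neg hq h (h' _ a.1)]; exact inv_mem (a.2 h h')⟩

theorem mem_AA (hx : φ.Q x = 0) (hL : ∀ u ∈ L, φ.B x u = 0) : u ∈ AA hq S x L ↔ u ∈ L ∧ sg φ x u ∈ S :=
  ⟨fun h => ⟨h.1, h.2 hx hL⟩, fun h => ⟨h.1, fun _ _ => h.2⟩⟩

/-- the Siegel transformations `sg x u`, `u ∈ L` -/
noncomputable def QQ (hx : φ.Q x = 0) (hL : ∀ u ∈ L, φ.B x u = 0) : Subgroup φ.Isom :=
  (MonoidHom.mk' (fun u : Multiplicative L => sg φ x u.toAdd) fun a b => sg_add hq hx (hL _ a.toAdd.2) (hL _ b.toAdd.2)).range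

theorem mem_QQ {hx : φ.Q x = 0} {hL : ∀ u ∈ L, φ.B x u = 0} {g : φ.Isom} : g ∈ QQ hq hx hL ↔ ∃ u ∈ L, g = sg φ x u :=
  ⟨fun ⟨u, h⟩ => ⟨_, u.toAdd.2, h.symm⟩, fun ⟨u, h, e⟩ => ⟨.ofAdd ⟨u, h⟩, e.symm⟩⟩

theorem rel_QQ (hx : φ.Q x = 0) (hL : ∀ u ∈ L, φ.B x u = 0) (S : Subgroup φ.Isom) :
    S.relIndex (QQ hq hx hL) = (AA hq S x L).relIndex L.toAddSubgroup :=
  rel_hom _ S ((AA hq S x L).addSubgroupOf L.toAddSubgroup) fun a => (mem_AA hq hx hL).trans (and_iff_right a.2)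

/-- `H ∩ Q_p` -/
def A (H : Subgroup φ.Isom) (p : V) : AddSubgroup V := AA hq H p (φ.perp (F ∙ p))

theorem mem_A (hp : φ.Q p = 0) : w ∈ A hq H p ↔ φ.B p w = 0 ∧ sg φ p w ∈ H :=
  (mem_AA hq hp fun _ => φ.mem_perp_singleton.1).trans (by rw [φ.mem_perp_singleton])

theorem A_B (h : w ∈ A hq H p) : φ.B p w = 0 := φ.mem_perp_singleton.1 h.1

theorem self_A (hp : φ.Q p = 0) (c : F) : c • p ∈ A hq H p :=
  (mem_A hq hp).2 ⟨by simp [φ.B_self_eq_zero hp], by simp [sg_self hq hp]⟩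

theorem A_conj {p' : V} {g : φ.Isom} {c : F} (hp : φ.Q p = 0) (hp' : φ.Q p' = 0) (hc : c ≠ 0) (hg : g ∈ H) (h : g • p = c • p')
    (hw : w ∈ A hq H p) : c • g • w ∈ A hq H p' := by
  have h1 : φ.B p' (g • w) = 0 := by simpa [h, hq.σ_eq, hc] using (B_act g p w).trans (A_B hq hw)
  refine (mem_A hq hp').2 ⟨by simp [h1], ?_⟩
  rw [← sg_smul hq hp' h1, ← h, ← sg_conj hq g hp (A_B hq hw)]
  exact mul_mem (mul_mem hg ((mem_A hq hp).1 hw).2) (inv_mem hg)

theorem A_swap (hp : φ.Q p = 0) (hx : φ.Q x = 0) (h : φ.B p x = 0) {c : F} (hc : c • x ∈ A hq H p) : c • p ∈ A hq H x :=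
  (mem_A hq hx).2 ⟨by simp [φ.B_symm_zero h], by simpa [sg_swap hq hp hx h] using ((mem_A hq hp).1 hc).2⟩

/-- the index of `H ∩ P` in the point stabiliser `P` -/
noncomputable def ix (H : Subgroup φ.Isom) (p : V) : ℕ := H.relIndex (pt F p ⊓ φ.E)

theorem sg_tw (hp : φ.Q p = 0) (hw : φ.B p w = 0) : sg φ p w ∈ tw F p (A hq H p : Set V) :=
  ⟨1, by simp [sg_fix hq hp hw (φ.B_self_eq_zero hp) (φ.B_symm_zero hw)], fun u hu => by
    simpa [sg_app hq hp hw, A_B hq hu] using add_mem hu (self_A hq hp _)⟩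

theorem base (hp : φ.Q p = 0) (hp0 : p ≠ 0) : (tw F p (A hq H p : Set V)).relIndex (pt F p ⊓ φ.E) *
    (A hq H p).relIndex (φ.perp (F ∙ p)).toAddSubgroup ≤ ix H p := by
  rw [A, ← rel_QQ hq hp fun _ => φ.mem_perp_singleton.1]
  refine chain (fun g ⟨hg, ⟨c, hc⟩, _⟩ => ⟨c, hc, fun w => A_conj hq hp hp (pt_ne hp0 hc) hg hc⟩) fun g hg => ?_
  obtain ⟨u, hu, rfl⟩ := (mem_QQ hq).1 hg
  have := sg_tw hq (H := H) hp (φ.mem_perp_singleton.1 hu)
  exact ⟨this, ⟨_, this.choose_spec.1⟩, sg_E hq hp (φ.mem_perp_singleton.1 hu)⟩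

variable (φ) in
/-- a flag: singular point `p` on the singular line `⟨p, x⟩` -/
structure Fl (p x : V) : Prop where
  qp : φ.Q p = 0
  qx : φ.Q x = 0
  b : φ.B p x = 0
  p0 : p ≠ 0
  ne : x ∉ F ∙ p

namespace Fl
variable {hq} (h : Fl φ p x)
include h

theorem symm : Fl φ x p := by
  have x0 : x ≠ 0 := fun e => h.ne (e ▸ zero_mem _)
  refine ⟨h.qx, h.qp, φ.B_symm_zero h.b, x0, fun e => h.ne ?_⟩
  obtain ⟨c, rfl⟩ := Submodule.mem_span_singleton.1 e
  simpa [left_ne_zero_of_smul h.p0] using mem_sp (c • x) c⁻¹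

theorem rank : finrank F (Submodule.span F {p, x}) = 2 :=
  finrank_span_pair_of_li ((LinearIndependent.pair_iff' h.p0).2 fun c e => h.ne (e ▸ mem_sp p c))

theorem le : Submodule.span F {p, x} ≤ φ.perp (Submodule.span F {p, x}) :=
  ((TS.singleton h.qp).sup (TS.singleton h.qx) ((Submodule.span_singleton_le_iff_mem _ _).2 (φ.mem_perp_singleton.2 h.b))
    |>.mono (Submodule.span_insert _ _).le).le_perp

theorem card : Nat.card (Submodule.span F {p, x}) = Nat.card F ^ 2 := by rw [card_sub, h.rank]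

theorem cardL {k : ℕ} (hd : finrank F V = k + 4) : Nat.card (φ.perp (Submodule.span F {p, x})) = Nat.card F ^ (k + 2) := by
  have := φ.finrank_perp (Submodule.span F {p, x})
  rw [card_sub, show finrank F (φ.perp (Submodule.span F {p, x})) = k + 2 by have := h.rank; omega]

end Fl

variable (H p x)

/-- the image of `A ∩ x^⊥` -/
def aa : AddSubgroup V where
  carrier := {w | w ∈ φ.perp (Submodule.span F {p, x}) ∧ ∃ c : F, w + c • x ∈ A hq H p}
  zero_mem' := ⟨zero_mem _, 0, by simp⟩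
  add_mem' := fun ⟨h1, c, h2⟩ ⟨h3, d, h4⟩ => ⟨add_mem h1 h3, c + d, by convert add_mem h2 h4 using 1; module⟩
  neg_mem' := fun ⟨h1, c, h2⟩ => ⟨neg_mem h1, -c, by convert neg_mem h2 using 1; module⟩

/-- the stabiliser of `A` in `Q_x` -/
def ss : AddSubgroup V := AA hq (tw F p (A hq H p : Set V)) x (φ.perp (Submodule.span F {p, x}))

variable (φ) in
/-- elements acting on the line `⟨p, x⟩` with determinant one -/
def K1 : Subgroup φ.Isom :=
  mkSub (fun g => g ∈ φ.E ∧ ∃ c : F, g • p = c • p ∧ c • g • x - x ∈ F ∙ p) ⟨one_mem _, 1, by simp⟩ fun a b ⟨h0, c, h1, h2⟩ ⟨h5, d, h3, h4⟩ =>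
    ⟨mul_mem h0 h5, c * d, by rw [mul_smul, h3, smul_comm, h1, smul_smul, mul_comm], by
      obtain ⟨s, h4⟩ := Submodule.mem_span_singleton.1 h4
      rw [mul_smul, mul_smul, ← smul_comm a d, eq_add_of_sub_eq h4.symm, smul_add, smul_add, add_sub_assoc, smul_comm a, h1, smul_smul, smul_smul]
      exact add_mem (mem_sp _ _) h2⟩

/-- the joint stabiliser of `aa` and `ss` -/
def JJ : Subgroup φ.Isom :=
  mkSub (fun g => ∃ c : F, g • p = c • p ∧ (∀ w ∈ aa hq H p x, c • g • w ∈ aa hq H p x) ∧ ∀ u ∈ ss hq H p x, c⁻¹ • g • u ∈ ss hq H p x)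
    ⟨1, by simp⟩ fun a b ⟨c, h1, h2, h5⟩ ⟨d, h3, h4, h6⟩ => ⟨c * d, by rw [mul_smul, h3, smul_comm, h1, smul_smul, mul_comm],
      fun w hw => by rw [mul_smul, mul_smul, ← smul_comm a]; exact h2 _ (h4 w hw),
      fun w hw => by rw [mul_inv, mul_smul, mul_smul, ← smul_comm a]; exact h5 _ (h6 w hw)⟩

variable {H p x} (h : Fl φ p x)
include h

theorem mem_ss : u ∈ ss hq H p x ↔ u ∈ φ.perp (Submodule.span F {p, x}) ∧ sg φ x u ∈ tw F p (A hq H p : Set V) :=
  mem_AA hq h.qx fun _ hu => (φ.mem_perp_pair.1 hu).2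

theorem l_aa : (Submodule.span F {p, x}).toAddSubgroup ≤ aa hq H p x := fun w hw => by
  obtain ⟨a, b, rfl⟩ := Submodule.mem_span_pair.1 hw
  exact ⟨h.le hw, -b, by simpa using self_A hq h.qp a⟩

theorem l_ss : (Submodule.span F {p, x}).toAddSubgroup ≤ ss hq H p x := fun w hw => by
  obtain ⟨a, b, rfl⟩ := Submodule.mem_span_pair.1 hw
  have := φ.B_symm_zero h.b
  refine (mem_ss hq h).2 ⟨h.le hw, ?_⟩
  rw [sg_add hq h.qx (by simp [this]) (by simp [φ.B_self_eq_zero h.qx]), sg_self hq h.qx, mul_one, sg_swap hq h.qx h.qp this]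
  exact inv_mem (sg_tw hq h.qp (by simp [h.b]))

theorem ss_sub (hu : u ∈ ss hq H p x) (hw : w ∈ A hq H p) :
    φ.B u w • x - φ.B x w • u - (φ.Q u * φ.B x w) • x ∈ A hq H p := by
  obtain ⟨h1, h2⟩ := (mem_ss hq h).1 hu
  obtain ⟨h3, h4⟩ := φ.mem_perp_pair.1 h1
  have := sub_mem (tw_app (c := 1) h.p0 h2 (by simp [sg_fix hq h.qx h4 h.symm.b (φ.B_symm_zero h3)]) hw) hw
  rw [one_smul, sg_app hq h.qx h4] at this
  convert this using 1; abel

theorem ss_aa (hu : u ∈ ss hq H p x) (hw : w ∈ A hq H p) : φ.B x w • u ∈ aa hq H p x :=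
  ⟨Submodule.smul_mem _ _ hu.1, φ.Q u * φ.B x w - φ.B u w, by convert neg_mem (ss_sub hq h hu hw) using 1; module⟩

theorem ss_B (hu : u ∈ ss hq H p x) (hw : w ∈ aa hq H p x) : φ.B w u • x ∈ A hq H p := by
  obtain ⟨h1, c, h2⟩ := hw
  simpa [(φ.mem_perp_pair.1 h1).2, φ.B_self_eq_zero h.qx, φ.B_symm_zero (φ.mem_perp_pair.1 hu.1).2, hq.B_comm u w]
    using ss_sub hq h hu h2

omit hq in
theorem K1_L {g : φ.Isom} (hg : g ∈ K1 φ p x) : (∀ w ∈ Submodule.span F {p, x}, g • w ∈ Submodule.span F {p, x}) ∧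
    ∀ w ∈ φ.perp (Submodule.span F {p, x}), g • w ∈ φ.perp (Submodule.span F {p, x}) := by
  have : g ∈ φ.stab (Submodule.span F {p, x}) := φ.mem_stab_of_le fun w hw => by
    obtain ⟨-, c, h1, h2⟩ := hg
    obtain ⟨a, b, rfl⟩ := Submodule.mem_span_pair.1 hw
    change g • (a • p + b • x) ∈ _
    rw [smul_add, smul_comm g, smul_comm g, h1]
    refine add_mem (Submodule.smul_mem _ _ (Submodule.smul_mem _ _ (mem_l p x))) (Submodule.smul_mem _ _ ?_)
    rw [← Submodule.smul_mem_iff _ (pt_ne h.p0 h1), ← sub_add_cancel (c • g • x) x]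
    exact add_mem (Submodule.span_mono (by simp) h2) (mem_r p x)
  exact ⟨fun w => (this w).1, fun w => (φ.stab_le_stab_perp _ this w).1⟩

theorem tw_JJ : tw F p (A hq H p : Set V) ⊓ K1 φ p x ≤ JJ hq H p x := fun g ⟨hg, hK⟩ => by
  have hL := (K1_L h hK).2
  obtain ⟨-, c, h1, h2⟩ := hK
  obtain ⟨s, h2⟩ := Submodule.mem_span_singleton.1 h2
  have hc := pt_ne h.p0 h1
  refine ⟨c, h1, fun w ⟨h3, d, h4⟩ => ⟨Submodule.smul_mem _ _ (hL w h3), d, ?_⟩, fun u hu => ?_⟩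
  · convert sub_mem (tw_app h.p0 hg h1 h4) (self_A hq h.qp (d * s)) using 1
    rw [smul_add, smul_comm g d]; generalize g • x = y at *; generalize g • w = z; linear_combination (norm := module) d • h2
  · obtain ⟨h3, h4⟩ := (mem_ss hq h).1 hu
    have h5 := Submodule.smul_mem _ c⁻¹ (hL u h3)
    obtain ⟨h6, h7⟩ := φ.mem_perp_pair.1 h5
    obtain ⟨h8, h9⟩ := φ.mem_perp_pair.1 (hL u h3)
    have := (tw F p _).mul_mem ((tw F p _).mul_mem hg h4) ((tw F p _).inv_mem hg)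
    rw [sg_conj hq g h.qx (φ.mem_perp_pair.1 h3).2, show g • x = c⁻¹ • (x + s • p) by rw [h2, add_sub_cancel, inv_smul_smul₀ hc],
      sg_smul hq (by simp [hq.Q_add, hq.Q_smul, h.qp, h.qx, h.symm.b]) (by simp [h8, h9]),
      sg_add_left hq (by simp [hq.Q_smul, h.qp]) h.qx (by simp [h.b]) (by simp [h8]) h7, sg_smul hq h.qp (by simp [h8, h.b])] at this
    exact (mem_ss hq h).2 ⟨h5, (mul_mem_cancel_right (sg_tw hq h.qp (by simp [h8, h.b]))).1 this⟩

theorem fix_K1 {g : φ.Isom} (hg : g ∈ φ.E) (h1 : g • p = p) (h2 : g • x = x) : g ∈ K1 φ p x := ⟨hg, 1, by simp [h1, h2]⟩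

variable {k : ℕ} (hd : finrank F V = k + 4) (hk : 3 ≤ k) (hΞ : ¬ ∀ c : F, c • x ∈ A hq H p)
include hd hk hΞ

theorem main : Nat.card F * ((JJ hq H p x).relIndex (K1 φ p x) * ((ss hq H p x).relIndex (φ.perp (Submodule.span F {p, x})).toAddSubgroup *
    (aa hq H p x).relIndex (φ.perp (Submodule.span F {p, x})).toAddSubgroup) *
    (((A hq H p).map (φ.B x).toAddMonoidHom).comap (φ.B x).toAddMonoidHom).relIndex (φ.perp (F ∙ p)).toAddSubgroup) ≤ ix H p := by
  have h1 := achain (H := A hq H p) (J := ((A hq H p).map (φ.B x).toAddMonoidHom).comap (φ.B x).toAddMonoidHom)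
    (K := (φ.perp (F ∙ p)).toAddSubgroup) (N := (φ.perp (Submodule.span F {p, x})).toAddSubgroup)
    (fun w hw => ⟨w, hw.1, rfl⟩) fun w hw => ⟨⟨0, zero_mem _, by simp [(φ.mem_perp_pair.1 hw).2]⟩,
      φ.mem_perp_singleton.2 (φ.mem_perp_pair.1 hw).1⟩
  have h2 := achain (H := A hq H p) (J := aa hq H p x) (N := (Submodule.span F {p, x}).toAddSubgroup)
    (K := (φ.perp (Submodule.span F {p, x})).toAddSubgroup) (fun w hw => ⟨hw.2, 0, by simpa using hw.1⟩) (le_inf (l_aa hq h) h.le)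
  have h3 := chain (tw_JJ hq (H := H) h) (N := QQ hq h.qx fun _ hu => (φ.mem_perp_pair.1 hu).2) fun g hg => by
    obtain ⟨u, hu, rfl⟩ := (mem_QQ hq).1 hg
    obtain ⟨h3, h4⟩ := φ.mem_perp_pair.1 hu
    have h5 := sg_fix hq h.qx h4 h.symm.b (φ.B_symm_zero h3)
    have h6 : ∀ w ∈ φ.perp (Submodule.span F {p, x}), sg φ x u • w = w + φ.B u w • x := fun w hw => by
      simp [sg_app hq h.qx h4, (φ.mem_perp_pair.1 hw).2]
    exact ⟨⟨1, by simp [h5], fun w hw => by simpa [h6 w hw.1] using add_mem hw (l_aa hq h (Submodule.smul_mem _ _ (mem_r p x))),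
      fun w hw => by simpa [h6 w hw.1] using add_mem hw (l_ss hq h (Submodule.smul_mem _ _ (mem_r p x)))⟩,
      fix_K1 h (sg_E hq h.qx h4) h5 (sg_fix hq h.qx h4 (φ.B_self_eq_zero h.qx) (φ.B_symm_zero h4))⟩
  rw [rel_QQ] at h3
  have h4 := chain (H := tw F p (A hq H p : Set V)) (N := K1 φ p x) (K := (pt F p ⊓ φ.E) ⊓ stb (Submodule.span F {p, x} : Set V))
    (J := tw F p (A hq H p ∩ Submodule.span F {p, x} : Set V))
    (fun g ⟨⟨c, h1, h2⟩, _, h3⟩ => ⟨c, h1, fun w hw => ⟨h2 w hw.1, Submodule.smul_mem _ _ (h3 w hw.2)⟩⟩) fun g hg => by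
      have := (K1_L h hg).1
      obtain ⟨h0, c, h1, h2⟩ := hg
      refine ⟨⟨c, h1, fun w hw => ⟨?_, Submodule.smul_mem _ _ (this w hw.2)⟩⟩, ⟨⟨c, h1⟩, h0⟩, this⟩
      obtain ⟨a, b, rfl⟩ := Submodule.mem_span_pair.1 hw.2
      obtain ⟨s, h2⟩ := Submodule.mem_span_singleton.1 h2
      refine Set.mem_of_eq_of_mem ?_ ((A hq H p).add_mem hw.1 (self_A hq h.qp (c * a * c - a + b * s)))
      rw [smul_add, smul_comm g, smul_comm g, h1]; generalize g • x = y at *; linear_combination (norm := module) (-b) • h2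
  have h5 : Nat.card F ≤ (tw F p (A hq H p ∩ Submodule.span F {p, x} : Set V)).relIndex
      ((pt F p ⊓ φ.E) ⊓ stb (Submodule.span F {p, x} : Set V)) * (A hq H p).relIndex (Submodule.span F {p, x}).toAddSubgroup := by
    rw [← AddSubgroup.inf_relIndex_right]
    refine (scal_bound (fun c w hw => Submodule.smul_mem _ c hw) (fun e => hΞ fun c => (AddSubgroup.mem_inf.1 (e (Submodule.smul_mem _ c (mem_r p x)))).1) ?_).1
    obtain ⟨f, a1, a2⟩ := φ.exists_sep (W := F ∙ p) h.ne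
    obtain ⟨f', b1, b2⟩ := φ.exists_sep (W := F ∙ x) h.symm.ne
    have a3 := a1 p (Submodule.mem_span_singleton_self p)
    have b3 := b1 x (Submodule.mem_span_singleton_self x)
    have key : ∀ g ∈ (pt F p ⊓ φ.E) ⊓ stb (Submodule.span F {p, x} : Set V), ∃ c a b : F, g • p = c • p ∧ g • x = a • p + b • x :=
      fun g ⟨⟨⟨c, h1⟩, _⟩, h2⟩ => let ⟨a, b, e⟩ := Submodule.mem_span_pair.1 (h2 x (mem_r p x)); ⟨c, a, b, h1, e.symm⟩
    have := ncard_le_act (tw F p (A hq H p ∩ Submodule.span F {p, x} : Set V)) ((pt F p ⊓ φ.E) ⊓ stb (Submodule.span F {p, x} : Set V))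
      (fun g (y : F) => φ.B f' (g • p) * φ.B f (g • x) * y) (fun g hg g' hg' y => by
        obtain ⟨c, a, b, h1, h2⟩ := key g hg
        obtain ⟨c', a', b', h3, h4⟩ := key g' hg'
        simp [mul_smul, h1, h2, h3, h4, smul_comm g, a2, a3, b2, b3]; ring) 1 (O := {0}ᶜ)
      (S := scal F (A hq H p ⊓ (Submodule.span F {p, x}).toAddSubgroup)) (fun c hc => by
        obtain ⟨e, e1, e2⟩ := φ.exists_partner h.qp h.symm.ne (φ.mem_perp_singleton.2 h.symm.b)
        obtain ⟨g, g1, g2⟩ := adj_E (hq.std (by omega)) (Submodule.span F {p, x}) (by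
          have := Submodule.finrank_mono (inf_le_left (a := Submodule.span F {p, x}) (b := φ.perp (Submodule.span F {p, x})))
          have := h.rank; omega) (φ.rot p e c)
        have g3 : g • p = c • p := (g2 p (mem_l p x)).trans (φ.rot_apply_e e2 hc)
        have g4 : g • x = x := (g2 x (mem_r p x)).trans (φ.rot_apply_of_orth e2 hc h.b (φ.B_symm_zero (φ.mem_perp_singleton.1 e1)))
        refine ⟨g, ⟨⟨⟨c, g3⟩, g1⟩, fun w hw => ?_⟩, by simp [g3, g4, a2, b2]⟩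
        obtain ⟨a, b, rfl⟩ := Submodule.mem_span_pair.1 hw
        rw [smul_add, smul_comm g, smul_comm g, g3, g4, smul_smul]
        exact Submodule.mem_span_pair.2 ⟨_, _, rfl⟩) fun j hj hJ => by
        obtain ⟨c, a, b, h1, h2⟩ := key j hj
        have hb : b ≠ 0 := fun e => h.ne (by
          rw [e, zero_smul, add_zero, ← inv_smul_smul₀ (pt_ne h.p0 h1) p, ← h1, smul_smul, ← smul_comm, smul_left_cancel_iff] at h2
          exact h2 ▸ mem_sp _ _)
        refine ⟨by simp [h1, h2, a2, a3, b2, pt_ne h.p0 h1, hb], fun w hw => ⟨?_, Submodule.smul_mem _ _ hw.2⟩⟩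
        obtain ⟨s, t, rfl⟩ := Submodule.mem_span_pair.1 hw.2
        refine Set.mem_of_eq_of_mem ?_ ((A hq H p).add_mem (tw_app h.p0 hJ h1 hw).1 (self_A hq h.qp (c * b * s - c * s * c - c * t * a)))
        simp only [smul_add, smul_comm j, h1, h2, map_add, φ.B_smul_right, a2, a3, b2]; module
    rwa [Set.ncard_compl, Set.ncard_singleton] at this
  refine le_trans ?_ (base hq h.qp h.p0)
  have h6 := (Nat.mul_le_mul_left _ h3).trans (h4.trans (rel_mono _ inf_le_left))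
  have h7 := (Nat.mul_le_mul_left _ h2).trans h1
  refine le_trans ?_ (Nat.mul_le_mul h6 h7)
  refine (Nat.mul_le_mul_right _ h5).trans_eq ?_
  rw [ss]; ring

omit hΞ
include hq

theorem ex_e (hy : y ∈ φ.perp (Submodule.span F {p, x})) (hy' : y ∉ Submodule.span F {p, x}) :
    ∃ e ∈ φ.perp (Submodule.span F {p, x}), φ.Q e = 0 ∧ φ.B e y ≠ 0 := by
  by_contra! hc
  obtain ⟨e, he, f, hf, h1⟩ := ex_hyp (hq.std (by omega)) (Submodule.span F {p, x}) (by have := h.rank; omega)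
  have := hq.le_of_sing_mem (A := φ.perp (F ∙ y)) h1 he hf fun w h2 h3 => φ.mem_perp_singleton.2 (φ.B_symm_zero (hc w h2 h3))
  exact hy' (by simpa using φ.perp_anti this (φ.le_perp_perp _ (Submodule.mem_span_singleton_self y)))

theorem reach (hy : y ∈ φ.perp (Submodule.span F {p, x})) (hy' : y ∉ Submodule.span F {p, x}) {g : φ.Isom} (hg : g ∈ φ.E)
    (h1 : g • p = p) (h2 : g • x = x) {c : F} (hc : c ≠ 0) : ∃ j ∈ K1 φ p x, ∃ d : F, j • p = d • p ∧ d⁻¹ • j • y = c • g • y := by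
  have h3 := φ.mem_perp_pair.1 ((K1_L h (fix_K1 h hg h1 h2)).2 y hy)
  have h4 : g • y ∉ Submodule.span F {p, x} := fun e => hy' (by simpa using (K1_L h (inv_mem (fix_K1 h hg h1 h2))).1 _ e)
  have key : ∀ {p x : V}, Fl φ p x → g • y ∉ Submodule.span F {p, x} → p ∉ Submodule.span F {x, g • y} := fun {p x} h h4 e => by
    obtain ⟨a, b, e⟩ := Submodule.mem_span_pair.1 e
    by_cases hb : b = 0
    · exact h.symm.ne (by simp [← e, hb, mem_sp])
    · exact h4 ((Submodule.smul_mem_iff _ hb).1 (eq_sub_of_add_eq' e ▸ sub_mem (mem_l p x) (Submodule.smul_mem _ _ (mem_r p x))))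
  obtain ⟨t, t1, t2, t3, t4, -⟩ := torus hq (by omega) h.qp h.qx h.b h3.1 h3.2 (key h h4) (key h.symm (by rwa [Set.pair_comm])) hc
  exact ⟨t * g, ⟨mul_mem t1 hg, c⁻¹, by simp [mul_smul, h1, t2], by simp [mul_smul, h2, t3, hc]⟩, c⁻¹, by simp [mul_smul, h1, t2],
    by simp [mul_smul, t4]⟩

theorem orb1 (J : Subgroup φ.Isom) (hy : y ∈ φ.perp (Submodule.span F {p, x})) (hy' : y ∉ Submodule.span F {p, x}) {X : AddSubgroup V}
    (hX : (Submodule.span F {p, x}).toAddSubgroup ≤ X) (hJ : ∀ j ∈ K1 φ p x, j ∈ J → ∀ c : F, j • p = c • p → c⁻¹ • j • y ∈ X) :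
    {z | ∃ j ∈ K1 φ p x, ∃ c : F, j • p = c • p ∧ c⁻¹ • j • y = z}.ncard ≤ J.relIndex (K1 φ p x) * (Nat.card X - Nat.card F ^ 2) ∧
    (Nat.card F - 1) * Nat.card F ^ k ≤ J.relIndex (K1 φ p x) * (Nat.card X - Nat.card F ^ 2) := by
  have h1 := tw_ncard (·⁻¹) mul_inv J (K1 φ p x) (fun g ⟨_, c, h, _⟩ => ⟨c, h⟩) h.p0 y (fun _ h => h)
    (S := X \ Submodule.span F {p, x}) fun j hj h1 c hc => ⟨hJ j hj h1 c hc, fun e => hy' (by
      simpa using (K1_L h (inv_mem hj)).1 _ ((Submodule.smul_mem_iff _ (inv_ne_zero (pt_ne h.p0 hc))).1 e))⟩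
  rw [Set.ncard_sdiff (t := (X : Set V)) (s := (Submodule.span F {p, x} : Set V)) hX,
    show (Submodule.span F {p, x} : Set V).ncard = _ from h.card] at h1
  refine ⟨h1, le_trans ?_ h1⟩
  obtain ⟨e, e1, e2, e3⟩ := ex_e hq h hd hk hy hy'
  obtain ⟨e4, e5⟩ := φ.mem_perp_pair.1 e1
  have := cone_card hq (Submodule.span F {p, x}) (j := k) (by have := h.rank; omega) e2 e3 {0}ᶜ (by simp)
    (O := {z | ∃ j ∈ K1 φ p x, ∃ c : F, j • p = c • p ∧ c⁻¹ • j • y = z}) fun c hc u hu h2 _ =>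
    reach hq h hd hk hy hy' (sg_E hq e2 h2) (sg_fix hq e2 h2 (φ.B_symm_zero e4) (φ.B_symm_zero (φ.mem_perp_pair.1 hu).1))
      (sg_fix hq e2 h2 (φ.B_symm_zero e5) (φ.B_symm_zero (φ.mem_perp_pair.1 hu).2)) hc
  rwa [Set.ncard_compl, Set.ncard_singleton] at this

theorem orb2 {W X : Submodule F V} (hy : y ∈ W) {e : V} (e1 : e ∈ φ.perp (Submodule.span F {p, x})) (e2 : φ.Q e = 0) (e3 : φ.B e y ≠ 0)
    (hX : ∀ w ∈ W, φ.B e w = φ.B e y → φ.Q w = φ.Q y → w - y ∈ X) {j : ℕ} (hj : finrank F X + j ≤ k) :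
    Nat.card F ^ j ≤ (stb (W : Set V)).relIndex (K1 φ p x) := by
  obtain ⟨e4, e5⟩ := φ.mem_perp_pair.1 e1
  let K := ((MulAction.stabilizer φ.Isom p ⊓ MulAction.stabilizer φ.Isom x) ⊓ MulAction.stabilizer φ.Isom e) ⊓ φ.E
  have h1 := ncard_le_act (stb (W : Set V)) K (· • ·) (fun g _ g' _ => mul_smul g g') y (fun _ h => h) (S := (y + ·) '' X)
    fun g hg h1 => ⟨_, hX _ (h1 y hy) (B_fix hg.1.2 y) (Q_act _ _), by simp⟩
  have h2 := orb_card hq (Submodule.span F {p, x}) (j := k) (by have := h.rank; omega) e2 e3 (O := fun z => ∃ k ∈ K, k • y = z)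
    fun u hu h2 _ => ⟨_, ⟨⟨⟨sg_fix hq e2 h2 (φ.B_symm_zero e4) (φ.B_symm_zero (φ.mem_perp_pair.1 hu).1),
      sg_fix hq e2 h2 (φ.B_symm_zero e5) (φ.B_symm_zero (φ.mem_perp_pair.1 hu).2)⟩,
      sg_fix hq e2 h2 (φ.B_self_eq_zero e2) (φ.B_symm_zero h2)⟩, sg_E hq e2 h2⟩, rfl⟩
  have h3 := h2.trans (h1.trans (Nat.mul_le_mul (rel_mono _ fun g hg => fix_K1 h hg.2 hg.1.1.1 hg.1.1.2)
    ((Set.ncard_image_le (Set.toFinite _)).trans (card_sub X).le)))
  exact Nat.le_of_mul_le_mul_right (((pow_add _ _ _).symm.trans_le (Nat.pow_le_pow_right Nat.card_pos (by omega))).trans h3)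
    (pow_pos Nat.card_pos _)

theorem orb3 (h3 : k = 3) (hy : y ∈ φ.perp (Submodule.span F {p, x})) (hQ : φ.Q y ≠ 0) : (Nat.card F - 1) * ((Nat.card F - 1) * Nat.card F ^ 3) ≤
    2 * {z | ∃ j ∈ K1 φ p x, ∃ c : F, j • p = c • p ∧ c⁻¹ • j • y = z}.ncard := by
  subst h3
  have h2 := hq.two_ne_zero_of_odd (by rw [hd]; decide)
  have hl : ∀ w, φ.Q w ≠ 0 → w ∉ Submodule.span F {p, x} := fun w h1 e => h1 (by
    obtain ⟨a, b, rfl⟩ := Submodule.mem_span_pair.1 e
    simp [hq.Q_comb, h.qp, h.qx, h.b])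
  obtain ⟨e, he, f, hf, h1⟩ := ex_hyp (hq.std (by omega)) (Submodule.span F {p, x}) (by have := h.rank; omega)
  refine (Nat.mul_le_mul_right _ (sq_card hQ)).trans ?_
  rw [mul_assoc, mul_comm (Set.ncard _)]
  refine Nat.mul_le_mul_left _ (fiber_le (fun v => φ.Q v / φ.B e v ^ 2) ?_)
  rintro _ ⟨a, ha, rfl⟩
  have h4 : φ.B e (f + (a * a * φ.Q y) • e) = 1 := by simp [h1.Bef, h1.Bee]
  have h5 : φ.Q (f + (a * a * φ.Q y) • e) = a * a * φ.Q y := by simp [hq.Q_add, hq.Q_smul, h1.Qe, h1.Qf, h1.Bfe, hq.ε_eq]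
  have := cone_card hq (Submodule.span F {p, x}) (j := 3) (by have := h.rank; omega) h1.Qe (h4 ▸ one_ne_zero) {0}ᶜ (by simp)
    (O := {v ∈ {z | ∃ j ∈ K1 φ p x, ∃ c : F, j • p = c • p ∧ c⁻¹ • j • y = z} | φ.Q v / φ.B e v ^ 2 = a * a * φ.Q y})
    fun c hc u hu h6 _ => by
      have h7 := sg_fix hq h1.Qe h6 h1.Bee (φ.B_symm_zero h6)
      refine ⟨?_, by simp only [hq.Q_smul, Q_act, φ.B_smul_right, B_fix h7, h4, h5]; field_simp [show c ≠ 0 from hc]⟩
      have h8 := (K1_L h (fix_K1 h (sg_E hq h1.Qe h6) (sg_fix hq h1.Qe h6 (φ.B_symm_zero (φ.mem_perp_pair.1 he).1)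
        (φ.B_symm_zero (φ.mem_perp_pair.1 hu).1)) (sg_fix hq h1.Qe h6 (φ.B_symm_zero (φ.mem_perp_pair.1 he).2)
        (φ.B_symm_zero (φ.mem_perp_pair.1 hu).2)))).2 _ (add_mem hf (Submodule.smul_mem _ (a * a * φ.Q y) he))
      generalize hv : sg φ e u • (f + (a * a * φ.Q y) • e) = v at *
      have h9 : φ.Q y = φ.Q (a⁻¹ • v) := by rw [hq.Q_smul, ← hv, Q_act, h5]; field_simp
      obtain ⟨g, g1, g2, g3⟩ := witt_E (hq.std (by omega)) _ (hl y hQ) (hl _ (h9 ▸ hQ)) (fun w hw => by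
        rw [hy w hw, Submodule.smul_mem _ _ h8 w hw]) h9 (by
        have : (Submodule.span F {p, x} ⊔ F ∙ y) ⊓ φ.perp (Submodule.span F {p, x} ⊔ F ∙ y) ≤ Submodule.span F {p, x} := fun w ⟨w1, w2⟩ => by
          obtain ⟨l, hl, b, hb, rfl⟩ := Submodule.mem_sup.1 w1
          obtain ⟨b, rfl⟩ := Submodule.mem_span_singleton.1 hb
          have := w2 y (Submodule.mem_sup_right (Submodule.mem_span_singleton_self y))
          simp [φ.B_symm_zero (hy l hl), hq.B_self, h2, hQ] at this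
          simpa [this] using hl
        have := Submodule.finrank_mono this
        have := finrank_sup_singleton (hl y hQ)
        have := h.rank; omega)
      simpa [g3, smul_smul, ha] using reach hq h hd hk hy (hl y hQ) g1 (g2 p (mem_l p x)) (g2 x (mem_r p x)) (mul_ne_zero hc ha)
  rwa [Set.ncard_compl, Set.ncard_singleton] at this

theorem JJ_le : JJ hq H p x ⊓ K1 φ p x ≤ stb (Submodule.span F (ss hq H p x : Set V) : Set V) := fun g ⟨⟨c, h1, _, h2⟩, _⟩ w hw =>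
  (Submodule.span_le (p := (Submodule.span F (ss hq H p x : Set V)).comap (g.1 : V →ₗ[F] V))).2 (fun u hu =>
    (Submodule.smul_mem_iff (Submodule.span F (ss hq H p x : Set V)) (inv_ne_zero (pt_ne h.p0 h1))).1 (Submodule.subset_span (h2 u hu))) hw

theorem two_JJ {c : F} (hy : y ∈ ss hq H p x) (hc : c • y ∉ ss hq H p x) :
    (stb (Submodule.span F (ss hq H p x : Set V) : Set V)).relIndex (K1 φ p x) * 2 ≤ (JJ hq H p x).relIndex (K1 φ p x) := by
  obtain ⟨j, j1, d, j2, j3⟩ : ∃ j ∈ K1 φ p x ⊓ stb (Submodule.span F (ss hq H p x : Set V) : Set V), ∃ d : F, j • p = d • p ∧ d⁻¹ • j • y = c • y := by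
    have h3 := φ.mem_perp_pair.1 hy.1
    have h4 : y ∉ Submodule.span F {p, x} := fun e => hc (l_ss hq h (Submodule.smul_mem _ c e))
    have c0 : c ≠ 0 := fun e => hc (by simp [e])
    have key : ∀ {p x : V}, Fl φ p x → y ∉ Submodule.span F {p, x} → p ∉ Submodule.span F {x, y} := fun {p x} h h4 e => by
      obtain ⟨a, b, e⟩ := Submodule.mem_span_pair.1 e
      by_cases hb : b = 0
      · exact h.symm.ne (by simp [← e, hb, mem_sp])
      · exact h4 ((Submodule.smul_mem_iff _ hb).1 (eq_sub_of_add_eq' e ▸ sub_mem (mem_l p x) (Submodule.smul_mem _ _ (mem_r p x))))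
    obtain ⟨t, t1, t2, t3, t4, t5⟩ := torus hq (by omega) h.qp h.qx h.b h3.1 h3.2 (key h h4) (key h.symm (by rwa [Set.pair_comm])) c0
    refine ⟨t, ⟨⟨t1, c⁻¹, t2, by simp [t3, c0]⟩, fun w hw => ?_⟩, c⁻¹, t2, by simp [t4]⟩
    have := φ.mem_perp_pair.1 (Submodule.span_le.2 (fun u (hu : u ∈ ss hq H p x) => hu.1) hw)
    simpa using add_mem (Submodule.subset_span (R := F) (l_ss hq (H := H) h (t5 w this.1 this.2))) hw
  exact (Nat.mul_le_mul_left _ (two_le_rel (J := JJ hq H p x) j1 fun ⟨d', e1, _, e2⟩ => hc (by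
    rw [← j3, smul_left_injective F h.p0 (j2.symm.trans e1)]; exact e2 y hy))).trans (chain (JJ_le hq h hd hk) (by rw [inf_comm]))

theorem loc (hΞ : ¬ ∀ c : F, c • x ∈ A hq H p) (hC : ∃ w ∈ A hq H p, φ.B x w ≠ 0) (hi : ix H p < Nat.card F ^ (k + 1) * (Nat.card F + 2)) :
    ((∀ c, ∃ w ∈ A hq H p, φ.B x w = c) ∨ 2 * Nat.card F ^ (k + 1) ≤ ix H p) ∧
    ((φ.perp (Submodule.span F {p, x})).toAddSubgroup ≤ aa hq H p x ∧ ss hq H p x ≤ (Submodule.span F {p, x}).toAddSubgroup ∨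
      Nat.card F ^ (k + 2) ≤ ix H p ∧ Nat.card F ^ 4 ≤ Nat.card (aa hq H p x) ∧ Nat.card (ss hq H p x) ≤ Nat.card F ^ k ∧ k ≤ 4 ∧
        (∀ c, ∃ w ∈ A hq H p, φ.B x w = c) ∧ (k = 4 → ∀ w ∈ aa hq H p x, φ.Q w = 0)) := by
  have hm := main hq h hd hk hΞ
  have hq1 := Finite.one_lt_card (α := F)
  obtain ⟨χ, hχ1, c₀, -, hχ2⟩ := exists_char (Ξ := (A hq H p).comap (LinearMap.toSpanSingleton F V x).toAddMonoidHom) (T := ⊤)
    fun e => hΞ fun c => e (AddSubgroup.mem_top c)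
  have hχ : ∀ a : F, (∀ c, χ (c * a) = 1) → a = 0 := fun a ha => by_contra fun e => hχ2 (by simpa [e] using ha (c₀ * a⁻¹))
  let β : V →+ V →+ F := AddMonoidHom.mk' (fun w => (φ.B w).toAddMonoidHom) fun a b => by ext; simp
  let D : AddSubgroup V := ⟨⟨⟨{u | u ∈ φ.perp (Submodule.span F {p, x}) ∧ ∀ w ∈ aa hq H p x, χ (φ.B w u) = 1}, fun a b =>
    ⟨add_mem a.1 b.1, fun w hw => by rw [map_add, AddChar.map_add_eq_mul, a.2 w hw, b.2 w hw, one_mul]⟩⟩, zero_mem _, by simp⟩, fun a =>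
    ⟨neg_mem a.1, fun w hw => by rw [map_neg, AddChar.map_neg_eq_inv, a.2 w hw, inv_one]⟩⟩
  have hsD : ss hq H p x ≤ D := fun u hu => ⟨hu.1, fun w hw => hχ1 _ (ss_B hq h hu hw)⟩
  have hR : ∀ a, (∀ u ∈ φ.perp (Submodule.span F {p, x}), χ (φ.B a u) = 1) → a ∈ Submodule.span F {p, x} := fun a ha => by
    rw [← φ.perp_perp (Submodule.span F {p, x})]
    exact φ.mem_perp'.2 fun u hu => hχ _ fun c => by simpa using ha _ (Submodule.smul_mem _ c hu)
  have h1 := pair_le β χ (aa hq H p x) (Submodule.span F {p, x}).toAddSubgroup D (φ.perp (Submodule.span F {p, x})).toAddSubgroup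
    (fun u hu => hu.1) (fun a ha u hu => hu.2 a ha) fun a _ => hR a
  have h2 := acard_mul (H := aa hq H p x) (K := (φ.perp (Submodule.span F {p, x})).toAddSubgroup) fun u hu => hu.1
  have h3 := acard_mul (H := ss hq H p x) (K := (φ.perp (Submodule.span F {p, x})).toAddSubgroup) fun u hu => hu.1
  rw [show Nat.card (φ.perp (Submodule.span F {p, x})).toAddSubgroup = _ from h.cardL hd] at h1 h2 h3
  rw [show Nat.card (Submodule.span F {p, x}).toAddSubgroup = _ from h.card] at h1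
  have h4 := AddSubgroup.card_le_of_le hsD
  have hf : (∀ c, ∃ w ∈ A hq H p, φ.B x w = c) ∨
      2 ≤ (((A hq H p).map (φ.B x).toAddMonoidHom).comap (φ.B x).toAddMonoidHom).relIndex (φ.perp (F ∙ p)).toAddSubgroup := by
    refine or_iff_not_imp_left.2 fun e => ?_
    obtain ⟨c, hc⟩ := not_forall.1 e
    obtain ⟨f, a1, a2⟩ := φ.exists_sep' (W := F ∙ p) h.ne
    exact atwo_le (g := c • f) (Submodule.smul_mem _ _ a1) fun ⟨w, h1, h2⟩ => hc ⟨w, h1, by simpa [a2] using h2⟩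
  have hf0 := arel_pos (((A hq H p).map (φ.B x).toAddMonoidHom).comap (φ.B x).toAddMonoidHom) (φ.perp (F ∙ p)).toAddSubgroup
  have ht0 := rel_pos (JJ hq H p x) (K1 φ p x)
  have hW1 := (rel_anti (K1 φ p x) (JJ_le hq (H := H) h hd hk)).trans_eq (inf_relIndex_right _ _)
  have hW2 := fun {y c} => two_JJ hq (H := H) (y := y) h hd hk (c := c)
  have ho := fun {y} (hy : y ∈ ss hq H p x) hy' => orb1 hq h hd hk (JJ hq H p x) hy.1 hy' (l_ss hq h) fun j _ ⟨d, e1, _, e2⟩ c hc =>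
    smul_left_injective F h.p0 (e1.symm.trans hc) ▸ e2 y hy
  have ho' := fun {y} (hy : y ∈ D) hy' => (orb1 hq h hd hk (JJ hq H p x) hy.1 hy' ((l_ss hq h).trans hsD) fun j hj hJ c hc =>
    ⟨Submodule.smul_mem _ _ ((K1_L h hj).2 y hy.1), fun w hw => by
      obtain ⟨d, e1, e2, -⟩ := inv_mem hJ
      have := hy.2 _ (e2 w hw)
      rwa [smul_left_injective F h.p0 (e1.symm.trans (inv_pt h.p0 hc)), ← B_act j, smul_comm j, smul_inv_smul, hq.B_smul_left,
        ← φ.B_smul_right] at this⟩).2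
  generalize (JJ hq H p x).relIndex (K1 φ p x) = t at *
  generalize (ss hq H p x).relIndex (φ.perp (Submodule.span F {p, x})).toAddSubgroup = s at *
  generalize (aa hq H p x).relIndex (φ.perp (Submodule.span F {p, x})).toAddSubgroup = α at *
  generalize (((A hq H p).map (φ.B x).toAddMonoidHom).comap (φ.B x).toAddMonoidHom).relIndex (φ.perp (F ∙ p)).toAddSubgroup = f at *
  have hk0 : 0 < Nat.card F ^ k := by positivity
  have h5 : Nat.card F ^ k ≤ s * α := Nat.le_of_mul_le_mul_right (c := Nat.card F ^ (k + 2) * Nat.card F ^ 2) (by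
    calc _ = (Nat.card (ss hq H p x) * s) * (Nat.card (aa hq H p x) * α) := by rw [h2, h3]; ring
      _ = s * α * (Nat.card (aa hq H p x) * Nat.card (ss hq H p x)) := by ring
      _ ≤ _ := Nat.mul_le_mul_left _ ((Nat.mul_le_mul_left _ h4).trans h1)) (by positivity)
  have h0 : t * (s * α) * f < Nat.card F ^ k * (Nat.card F + 2) :=
    Nat.lt_of_mul_lt_mul_left (a := Nat.card F) ((hm.trans_lt hi).trans_eq (by ring))
  have h6 : ∀ {a b c}, a ≤ t → b * Nat.card F ^ k ≤ s * α → c ≤ f → a * b * c < Nat.card F + 2 := fun {a b c} a1 a2 a3 =>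
    Nat.lt_of_mul_lt_mul_left (a := Nat.card F ^ k) (lt_of_le_of_lt ((show _ = a * (b * Nat.card F ^ k) * c by ring).trans_le
      (Nat.mul_le_mul (Nat.mul_le_mul a1 a2) a3)) h0)
  have h7 : Nat.card F = 2 → 4 ≤ k := fun e => by_contra fun e' => by
    have := odd_card_iff.2 (hq.two_ne_zero_of_odd (by rw [hd, show k = 3 by omega]; decide))
    rw [e] at this; exact absurd this (by decide)
  refine ⟨hf.imp_right fun e => le_trans ?_ hm, ?_⟩
  · calc _ = Nat.card F * (1 * Nat.card F ^ k * 2) := by ring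
      _ ≤ _ := by gcongr; exact ht0
  by_cases hs : ss hq H p x ≤ (Submodule.span F {p, x}).toAddSubgroup
  · refine .inl ⟨by_contra fun e => ?_, hs⟩
    obtain ⟨ψ, a1, z, a2, a3⟩ := exists_char e
    obtain ⟨y, hy⟩ := exists_rep β χ (fun u hu => φ.eq_zero_of_B_right fun a => hχ _ fun c => by simpa [β, hq.σ_eq] using hu (c • a)) le_rfl ψ
    have a4 := ho' (y := y) ⟨fun w hw => hχ _ fun c => by
      simpa [β, hq.σ_eq] using (hy _).symm.trans (a1 _ (l_aa hq h (Submodule.smul_mem _ c hw))), fun w hw => (hy _).symm.trans (a1 _ hw)⟩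
      fun e => a3 ((hy z).trans (by simp [β, φ.B_symm_zero (a2 y e)]))
    have a5 : Nat.card D ≤ α * Nat.card F ^ 2 :=
      Nat.le_of_mul_le_mul_left (by rwa [← mul_assoc, h2]) (Nat.card_pos (α := aa hq H p x))
    have a6 : Nat.card F ^ k ≤ s := Nat.le_of_mul_le_mul_left (c := Nat.card F ^ 2) (by
      rw [← pow_add, add_comm, ← h3, ← h.card]; exact Nat.mul_le_mul_right _ (AddSubgroup.card_le_of_le hs)) (by positivity)
    have a7 := h6 le_rfl (b := α) (by rw [mul_comm]; exact Nat.mul_le_mul_right _ a6) hf0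
    replace a4 := a4.trans (Nat.mul_le_mul_left _ (Nat.sub_le_sub_right a5 _))
    obtain ⟨k, rfl⟩ := Nat.exists_eq_add_of_le' hk
    rw [← Nat.sub_one_mul, ← mul_assoc, show k + 3 = (k + 1) + 2 by ring, pow_add, ← mul_assoc, Nat.mul_sub_one t] at a4
    replace a4 := Nat.le_of_mul_le_mul_right a4 (by positivity)
    have : Nat.card F + 1 ≤ (Nat.card F - 1) * Nat.card F ^ (k + 1) := by
      by_cases e : Nat.card F = 2
      · obtain ⟨k, rfl⟩ : ∃ j, k = j + 1 := ⟨k - 1, by have := h7 e; omega⟩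
        have := Nat.one_le_two_pow (n := k)
        rw [e, pow_succ, pow_succ]; omega
      · have := Nat.mul_le_mul (show 2 ≤ Nat.card F - 1 by omega) (Nat.le_self_pow (n := k + 1) (by omega) (Nat.card F))
        omega
    omega
  right
  obtain ⟨y, hy, hy'⟩ := SetLike.not_le_iff_exists.1 hs
  have hWL : Submodule.span F (ss hq H p x : Set V) ≤ φ.perp (Submodule.span F {p, x}) := Submodule.span_le.2 fun u hu => hu.1
  have hlW : Submodule.span F {p, x} ≤ Submodule.span F (ss hq H p x : Set V) := fun u hu => Submodule.subset_span (l_ss hq h hu)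
  by_cases hiso : ∀ u ∈ ss hq H p x, ∀ v ∈ ss hq H p x, φ.B u v = 0
  · have hWW : Submodule.span F (ss hq H p x : Set V) ≤ φ.perp (Submodule.span F (ss hq H p x : Set V)) :=
      Submodule.span_le.2 fun v hv => φ.mem_perp_span.2 fun u hu => hiso u hu v hv
    have hyW : y ∈ Submodule.span F (ss hq H p x : Set V) := Submodule.subset_span hy
    have hσW : ss hq H p x ≤ (Submodule.span F (ss hq H p x : Set V)).toAddSubgroup := fun u hu => Submodule.subset_span hu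
    have hst : (∀ (c : F), ∀ u ∈ ss hq H p x, c • u ∈ ss hq H p x) → (Submodule.span F (ss hq H p x : Set V)).toAddSubgroup ≤ ss hq H p x :=
      fun e u hu => Submodule.span_induction (fun _ => id) (zero_mem _) (fun _ _ _ _ => add_mem) (fun c v _ => e c v) hu
    generalize Submodule.span F (ss hq H p x : Set V) = W at *
    have r1 := φ.finrank_perp W
    have r2 := Submodule.finrank_mono hWW
    have r3 := Submodule.finrank_lt_finrank_of_lt (hlW.lt_of_ne fun e => hy' (show y ∈ Submodule.span F {p, x} from e ▸ hyW))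
    rw [h.rank] at r3
    obtain ⟨e, e1, e2, e3⟩ := ex_e hq h hd hk hy.1 hy'
    have r4 := φ.finrank_inf_perp_singleton hyW e3
    have a1 := fun j => orb2 hq h hd hk hyW e1 e2 e3 (X := W ⊓ φ.perp (F ∙ e)) (j := j)
      fun w hw h1 _ => ⟨sub_mem hw hyW, φ.mem_perp_singleton.2 (by simp [h1])⟩
    have a2 : ¬ Nat.card F ^ 2 ≤ t := fun e => by have := h6 e ((one_mul _).trans_le h5) hf0; nlinarith
    have a3 : finrank F W = k := by
      have : ¬ finrank F W + 1 ≤ k := fun e => a2 ((a1 2 (by omega)).trans hW1)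
      omega
    have a4 := a1 1 (by omega)
    rw [pow_one] at a4
    have a5 := hf.resolve_right fun e => by have := h6 (a4.trans hW1) ((one_mul _).trans_le h5) e; omega
    have a6 : s * α < 2 * Nat.card F ^ k := not_le.1 fun e => by have := h6 (a4.trans hW1) e hf0; omega
    have a7 : ∀ (c : F), ∀ u ∈ ss hq H p x, c • u ∈ ss hq H p x := fun c u hu => by_contra fun e => by
      have := h6 ((Nat.mul_le_mul_right 2 a4).trans (hW2 hu e)) ((one_mul _).trans_le h5) hf0; omega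
    have a8 : Nat.card (ss hq H p x) = Nat.card F ^ k := by rw [le_antisymm hσW (hst a7), ← a3, ← card_sub]; rfl
    have a9 : aa hq H p x ≤ (φ.perp W).toAddSubgroup := fun w hw => φ.mem_perp'.2 fun u hu => hχ _ fun c => by
      simpa using (hsD (a7 c u (hst a7 hu))).2 w hw
    have b1 : Nat.card (φ.perp W).toAddSubgroup = Nat.card F ^ 4 := (card_sub _).trans (by rw [show finrank F (φ.perp W) = 4 by omega])
    obtain rfl : s = Nat.card F ^ 2 := Nat.eq_of_mul_eq_mul_left hk0 (by rw [← pow_add, ← h3, a8])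
    refine ⟨le_trans ?_ hm, b1 ▸ AddSubgroup.card_le_of_le (ale_of_card a9 ?_), a8.le, by omega, a5, fun e w hw => by_contra fun hw' => ?_⟩
    · calc _ = Nat.card F * (Nat.card F * Nat.card F ^ k * 1) := by ring
        _ ≤ _ := by gcongr; exacts [a4.trans hW1, hf0]
    · refine Nat.lt_of_mul_lt_mul_right (a := Nat.card F ^ k) ?_
      calc _ = Nat.card (aa hq H p x) * (Nat.card F ^ 2 * α) := by rw [b1, mul_left_comm, h2]; ring
        _ < Nat.card (aa hq H p x) * (2 * Nat.card F ^ k) := Nat.mul_lt_mul_of_pos_left a6 Nat.card_pos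
        _ = _ := by ring
    · have b2 : W = φ.perp W := Submodule.eq_of_le_of_finrank_le hWW (by omega)
      have b3 : w ∈ W := b2 ▸ a9 hw
      have b4 : (2 : F) = 0 := by simpa [hq.B_self, hw'] using hWW b3 w b3
      let W0 : Submodule F V := ⟨⟨⟨{v | v ∈ W ∧ φ.Q v = 0}, fun a b => ⟨add_mem a.1 b.1, by
        rw [hq.Q_add, a.2, b.2, hWW b.1 _ a.1]; simp⟩⟩, zero_mem _, by simp⟩, fun c v a => ⟨W.smul_mem c a.1, by simp [hq.Q_smul, a.2]⟩⟩
      have b5 := Submodule.finrank_lt_finrank_of_lt (s := W0) (t := W) (lt_of_le_of_ne (fun v hv => hv.1) fun e => hw' (e ▸ b3 : w ∈ W0).2)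
      obtain ⟨z, z1, z2, z3⟩ : ∃ z ∈ W, z ∉ Submodule.span F {p, x} ∧ ∀ e, φ.B e z ≠ 0 → finrank F ↥(W0 ⊓ φ.perp (F ∙ e)) ≤ 2 := by
        by_cases e : W0 ≤ Submodule.span F {p, x}
        · exact ⟨y, hyW, hy', fun _ _ => (Submodule.finrank_mono (inf_le_left.trans e)).trans h.rank.le⟩
        · obtain ⟨z, z1, z2⟩ := SetLike.not_le_iff_exists.1 e
          exact ⟨z, z1.1, z2, fun e he => by have := φ.finrank_inf_perp_singleton z1 he; omega⟩
      obtain ⟨e, e1, e2, e3⟩ := ex_e hq h hd hk (hWL z1) z2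
      exact a2 ((orb2 hq h hd hk z1 e1 e2 e3 (X := W0 ⊓ φ.perp (F ∙ e)) (fun v hv h1 h2 => ⟨⟨sub_mem hv z1, by
        rw [hq.Q_sub, h2, hWW z1 v hv, ← two_mul, b4]; simp⟩, φ.mem_perp_singleton.2 (by simp [h1])⟩) (by have := z3 e e3; omega)).trans hW1)
  exfalso
  push Not at hiso
  obtain ⟨u, hu, v, hv, huv⟩ := hiso
  obtain ⟨w, hw, hw'⟩ := hC
  have a1 := hf.resolve_left fun e => huv (hχ _ fun c => by
    obtain ⟨w, h1, rfl⟩ := e c
    simpa [hq.σ_eq] using (hsD hv).2 _ (ss_aa hq h hu h1))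
  obtain ⟨c, hc⟩ : ∃ c : F, c • u ∉ ss hq H p x := by
    by_contra! e
    exact huv (hχ _ fun c => by simpa [hq.σ_eq, hw', mul_assoc] using (hsD hv).2 _ (ss_aa hq h (e ((φ.B x w)⁻¹ * c)) hw))
  have a2 : 4 ≤ Nat.card F := le_trans (by
    have : 0 < (scal F (ss hq H p x)).ncard := (Set.ncard_pos).2 ⟨1, one_ne_zero, by simp⟩
    nlinarith) (scal_sq hu hc)
  have a3 : Nat.card (ss hq H p x) ≤ Nat.card (aa hq H p x) := Nat.card_le_card_of_injective (fun u => ⟨_, ss_aa hq h u.2 hw⟩)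
    fun a b e => Subtype.ext (smul_right_injective V hw' (congrArg Subtype.val e))
  have a4 := (Nat.mul_le_mul a3 h4).trans h1
  have a5 := h6 le_rfl ((one_mul _).trans_le h5) a1
  by_cases h3 : k = 3
  · obtain ⟨z, z1, z2⟩ : ∃ z ∈ ss hq H p x, φ.Q z ≠ 0 := by
      by_contra! e
      exact huv (by simpa [hq.Q_add, e u hu, e v hv] using e _ (add_mem hu hv))
    have b1 := (orb3 hq h hd hk h3 z1.1 z2).trans (Nat.mul_le_mul_left 2 (ho z1 fun e => z2 (by
      obtain ⟨a, b, rfl⟩ := Submodule.mem_span_pair.1 e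
      simp [hq.Q_comb, h.qp, h.qx, h.b])).1)
    have b2 := odd_card_iff.2 (hq.two_ne_zero_of_odd (by rw [hd, h3]; decide))
    obtain ⟨r, hr⟩ : ∃ r, Nat.card F = r + 5 := ⟨Nat.card F - 5, by obtain ⟨r, hr⟩ := b2; omega⟩
    subst h3
    rw [hr] at b1 a4 a5
    have b3 : (r + 4) * ((r + 4) * (r + 5) ^ 3) ≤ (r + 6) * Nat.card (ss hq H p x) :=
      b1.trans ((mul_assoc _ _ _).symm.trans_le (Nat.mul_le_mul (by omega) (Nat.sub_le _ _)))
    have b4 := (Nat.mul_le_mul b3 b3).trans_eq (mul_mul_mul_comm _ _ _ _) |>.trans (Nat.mul_le_mul_left _ a4)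
    have b5 : (r + 4) ^ 4 ≤ (r + 6) ^ 2 * (r + 5) := Nat.le_of_mul_le_mul_right (c := (r + 5) ^ 6) (le_of_eq_of_le (by ring) (b4.trans_eq (by ring))) (by positivity)
    nlinarith [Nat.zero_le (r ^ 4), Nat.zero_le (r ^ 3), Nat.zero_le (r ^ 2)]
  · have b1 : Nat.card (ss hq H p x) ≤ Nat.card F ^ k := Nat.mul_self_le_mul_self_iff.1 (a4.trans (by
      rw [← pow_add, ← pow_add]; exact Nat.pow_le_pow_right (by omega) (by omega)))
    have b2 := (ho hy hy').2
    have b3 : Nat.card F - 1 < t := by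
      by_contra! e
      have := Nat.le_of_mul_le_mul_left (b2.trans (Nat.mul_le_mul_right _ e)) (by omega)
      have : 0 < Nat.card F ^ 2 := by positivity
      omega
    omega

end H24.MD.O
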