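import Cfsg.Agent.H24.MDO1

/-!
# Minimal index for orthogonal groups: counting solids, the regular case (namespace `H24.MD.O`)

* `solid` : the index of the stabiliser of a totally singular subspace in dimension `8`
* `no_reg` : `G = H Q_p` with `H ∩ Q_z = 1` for all `z` is impossible
-/

set_option autoImplicit false
set_option linter.unusedSectionVars false

open Subgroup H20 H10 H10.Form Module

namespace H24.MD.O

variable {F V : Type*} [Field F] [Finite F] [AddCommGroup V] [Module F V] [Finite V] {φ : Form F V} [φ.Nondeg]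
  (hq : φ.IsQuad) {H : Subgroup φ.Isom} {p x w u y z : V} {Y U : Submodule F V}
include hq

theorem sing_step (hz : z ∈ φ.perp Y) (hz' : z ∉ Y) (hQ : φ.Q z = 0) {j : ℕ} (hj : finrank F Y + 2 + j ≤ finrank F V) :
    {v ∈ φ.perp (Y ⊔ F ∙ z) | φ.Q v = 0}.ncard + (Nat.card F - 1) * Nat.card F ^ j ≤ {v ∈ φ.perp Y | φ.Q v = 0}.ncard := by
  obtain ⟨f, h1, h2⟩ := φ.exists_partner hQ hz' hz
  have := cone_card hq Y hj hQ (h2.Bef ▸ one_ne_zero) {0}ᶜ (by simp) (O := {v | (v ∈ φ.perp Y ∧ φ.Q v = 0) ∧ φ.B z v ≠ 0})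
    fun c hc u hu h3 _ => ⟨⟨by
      rw [sg_app hq hQ h3]
      exact Submodule.smul_mem _ _ (sub_mem (sub_mem (add_mem h1 (Submodule.smul_mem _ _ hz)) (Submodule.smul_mem _ _ hu))
        (Submodule.smul_mem _ _ hz)), by simp [hq.Q_smul, h2.Qf]⟩, by
      simpa [B_fix (sg_fix hq hQ h3 h2.Bee (φ.B_symm_zero h3)), h2.Bef] using hc⟩
  rw [Set.ncard_compl, Set.ncard_singleton] at this
  refine (Nat.add_le_add_left this _).trans ?_
  rw [← Set.ncard_union_eq (Set.disjoint_left.2 fun v h h' => h'.2 (h.1 z (Submodule.mem_sup_right (Submodule.mem_span_singleton_self z))))]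
  exact Set.ncard_le_ncard (Set.union_subset (fun v h => ⟨φ.perp_anti le_sup_left h.1, h.2⟩) fun v h => h.1)

theorem idx_step (hU : φ.TS U) (hY : Y ≤ U) (hz : z ∈ U) (hz' : z ∉ Y) (hd : 2 * finrank F Y + 4 ≤ finrank F V) (h5 : 5 ≤ finrank F V)
    {Q c : ℕ} (h1 : Nat.card U ≤ Q) (h2 : Nat.card Y < Q) (h3 : c * (Q - Nat.card Y) + Nat.card Y ≤ {v ∈ φ.perp Y | φ.Q v = 0}.ncard) :
    (stb (U : Set V)).relIndex (φ.fix (Y ⊔ F ∙ z) ⊓ φ.E) * c ≤ (stb (U : Set V)).relIndex (φ.fix Y ⊓ φ.E) := by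
  have := ncard_le_mul (stb (U : Set V)) (φ.fix Y ⊓ φ.E) z (O := {v ∈ φ.perp Y | φ.Q v = 0} \ Y) (S := U \ Y)
    (fun v hv => by
      obtain ⟨g, a, b, c⟩ := witt_E' (hq.std h5) Y hz' hv.2 (fun w hw => (hU.B w (hY hw) z hz).trans (hv.1.1 w hw).symm)
        ((hU.Q z hz).trans hv.1.2.symm) hd
      exact ⟨g, ⟨b, a⟩, c⟩)
    (fun j hj hJ => ⟨hJ z hz, fun e => hz' (by
      have : j • j • z = j • z := hj.1 _ e
      rwa [smul_left_cancel _ this] at e)⟩)
    (rel_mono _ (N := φ.fix (Y ⊔ F ∙ z) ⊓ φ.E) fun g hg => ⟨hg.1 z (Submodule.mem_sup_right (Submodule.mem_span_singleton_self z)),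
      φ.fix_anti le_sup_left hg.1, hg.2⟩)
  rw [Set.ncard_sdiff (s := (Y : Set V)) (t := {v ∈ φ.perp Y | φ.Q v = 0}) fun v hv => ⟨(hU.mono hY).le_perp hv, hU.Q v (hY hv)⟩,
    Set.ncard_sdiff (s := (Y : Set V)) hY] at this
  refine Nat.le_of_mul_le_mul_right (c := Q - Nat.card Y) ?_ (by omega)
  rw [mul_assoc]
  exact (Nat.mul_le_mul_left _ (Nat.le_sub_of_add_le h3)).trans (this.trans (Nat.mul_le_mul_left _ (Nat.sub_le_sub_right h1 _)))

theorem solid (hd : finrank F V = 8) (hT : φ.HasTS 4) (hU : φ.TS U) {a b c : V} (ha : a ∈ U) (hb : b ∈ U) (hc : c ∈ U) (ha' : a ≠ 0)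
    (hb' : b ∉ F ∙ a) (hc' : c ∉ (F ∙ a) ⊔ F ∙ b) :
    (Nat.card F + 1) * (Nat.card F ^ 2 + 1) ≤ (stb (U : Set V)).relIndex (φ.fix (F ∙ a) ⊓ φ.E) ∧
      (Nat.card F + 1) * (Nat.card F ^ 2 + 1) * (Nat.card F ^ 3 + 1) ≤ (stb (U : Set V)).relIndex φ.E := by
  obtain ⟨M', h1, h2⟩ := hT
  have r0 := hU.finrank_le
  obtain ⟨M, h3, h4, h5⟩ := hU.exists_ge h1 (by omega)
  have r1 := finrank_span_singleton (K := F) ha'
  have r2 := finrank_sup_singleton hb'
  have r3 := finrank_sup_singleton hc'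
  have l1 := (Submodule.span_singleton_le_iff_mem _ _).2 ha
  have l2 := sup_le l1 ((Submodule.span_singleton_le_iff_mem _ _).2 hb)
  have l3 := sup_le l2 ((Submodule.span_singleton_le_iff_mem _ _).2 hc)
  obtain ⟨d, hd1, hd2⟩ := SetLike.exists_of_lt (Submodule.lt_of_le_of_finrank_lt_finrank (l3.trans h4) (by omega))
  have n4 : Nat.card F ^ 4 ≤ {v ∈ φ.perp ((((F ∙ a) ⊔ F ∙ b) ⊔ F ∙ c) ⊔ F ∙ d) | φ.Q v = 0}.ncard :=
    (pow_le_card (W := M) (by omega)).trans (Set.ncard_le_ncard (s := (M : Set V)) fun v hv => ⟨φ.perp_anti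
      (sup_le (l3.trans h4) ((Submodule.span_singleton_le_iff_mem _ _).2 hd1)) (h3.le_perp hv), h3.Q v hv⟩)
  have n3 := sing_step hq (φ.perp_anti (l3.trans h4) (h3.le_perp hd1)) hd2 (h3.Q d hd1) (j := 3) (by omega)
  have n2 := sing_step hq (φ.perp_anti l2 (hU.le_perp hc)) hc' (hU.Q c hc) (j := 4) (by omega)
  have n1 := sing_step hq (φ.perp_anti l1 (hU.le_perp hb)) hb' (hU.Q b hb) (j := 5) (by omega)
  have n0 := sing_step hq (Y := ⊥) (by simp) (by simpa using ha') (hU.Q a ha) (j := 6) (by simp; omega)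
  have u := card_le_pow (W := U) (j := 4) (by omega)
  have hq1 := Finite.one_lt_card (α := F)
  have key : ∀ {j n c}, j < 4 → c * Nat.card F ^ 4 + Nat.card F ^ j ≤ n + c * Nat.card F ^ j →
      Nat.card F ^ j < Nat.card F ^ 4 ∧ c * (Nat.card F ^ 4 - Nat.card F ^ j) + Nat.card F ^ j ≤ n := fun {j n c} h1 h2 => by
    have := Nat.pow_lt_pow_right hq1 h1
    have := Nat.mul_le_mul_left c this.le
    rw [Nat.mul_sub]; omega
  rw [bot_sup_eq] at n0
  obtain ⟨r, hr⟩ : ∃ r, Nat.card F = r + 1 := ⟨Nat.card F - 1, by omega⟩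
  have e1 : Nat.card F - 1 = r := by omega
  rw [e1] at n0 n1 n2 n3
  have i2 := key (j := 2) (c := Nat.card F + 1) (by omega) (n := {v ∈ φ.perp ((F ∙ a) ⊔ F ∙ b) | φ.Q v = 0}.ncard) (by rw [hr] at n0 n1 n2 n3 n4 ⊢; linarith)
  have i1 := key (j := 1) (c := Nat.card F ^ 2 + 1) (by omega) (n := {v ∈ φ.perp (F ∙ a) | φ.Q v = 0}.ncard) (by rw [hr] at n0 n1 n2 n3 n4 ⊢; linarith)
  have i0 := key (j := 0) (c := Nat.card F ^ 3 + 1) (by omega) (n := {v ∈ φ.perp ⊥ | φ.Q v = 0}.ncard) (by rw [hr] at n0 n1 n2 n3 n4 ⊢; linarith)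
  rw [← show Nat.card ↥((F ∙ a) ⊔ F ∙ b) = Nat.card F ^ 2 by rw [card_sub, r2, r1]] at i2
  rw [← show Nat.card ↥(F ∙ a) = Nat.card F ^ 1 by rw [card_sub, r1]] at i1
  rw [← show Nat.card (⊥ : Submodule F V) = Nat.card F ^ 0 by rw [card_sub, finrank_bot]] at i0
  have j2 := (Nat.le_mul_of_pos_left _ (rel_pos _ _)).trans (idx_step hq hU l2 hc hc' (by omega) (by omega) u i2.1 i2.2)
  have j1 := (Nat.mul_le_mul_right _ j2).trans (idx_step hq hU l1 hb hb' (by omega) (by omega) u i1.1 i1.2)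
  have j0 := idx_step hq hU bot_le ha (by simpa using ha') (by simp; omega) (by omega) u i0.1 i0.2
  rw [bot_sup_eq] at j0
  exact ⟨j1, ((Nat.mul_le_mul_right _ j1).trans j0).trans (rel_mono _ inf_le_right)⟩

theorem ex_out (h : Fl φ p x) (hd : 7 ≤ finrank F V) {a b : V} (a1 : φ.B p a = 0) (a2 : φ.B x a = 0) (b1 : φ.B p b = 0) (b2 : φ.B x b = 0)
    (hG : φ.B a a * φ.B b b - φ.B a b * φ.B b a ≠ 0) : ∃ v, φ.B p v = 0 ∧ φ.B x v = 0 ∧ φ.B a v = 0 ∧ φ.B b v = 0 ∧ φ.Q v ≠ 0 ∧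
      v ∉ Submodule.span F {p, x} ⊔ Submodule.span F {a, b} := by
  obtain ⟨W, w1, w2, w3⟩ := ex_nondeg φ (Submodule.span F {p, x} ⊔ Submodule.span F {a, b})
  have l1 : (Submodule.span F {p, x} ⊔ Submodule.span F {a, b}) ⊓ φ.perp (Submodule.span F {p, x} ⊔ Submodule.span F {a, b}) ≤
      Submodule.span F {p, x} := fun y ⟨y1, y2⟩ => by
    obtain ⟨l, hl, m, hm, rfl⟩ := Submodule.mem_sup.1 y1
    rw [Submodule.disjoint_def.1 (φ.nondegOn_iff_disjoint.1 (φ.nondegOn_pair hG)) m hm fun z hz => by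
      simpa [φ.B_symm_zero (Submodule.span_le.2 (Set.pair_subset (φ.mem_perp_pair.2 ⟨a1, a2⟩) (φ.mem_perp_pair.2 ⟨b1, b2⟩)) hz l hl)]
        using y2 z (Submodule.mem_sup_right hz), add_zero]
    exact hl
  obtain ⟨v, v1, v2⟩ := w1.exists_Q_ne_zero hq.exists_T fun e' => by
    have := Submodule.finrank_mono l1
    have := rank_sup (Submodule.span F {p, x}) (Submodule.span F {a, b})
    have := h.rank; have := finrank_span_pair_le (F := F) a b
    rw [e', finrank_bot] at w3; omega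
  have v3 := w2 v1
  simp only [φ.perp_sup, Submodule.mem_inf, φ.mem_perp_pair] at v3
  refine ⟨v, v3.1.1, v3.1.2, v3.2.1, v3.2.2, v2, fun e => v2 ?_⟩
  obtain ⟨a, b, rfl⟩ := Submodule.mem_span_pair.1 (l1 ⟨e, w2 v1⟩)
  simp [hq.Q_comb, h.qp, h.qx, h.b]

section Reg

variable (H p x) in
/-- `sg x u * sg p w ∈ H` -/
structure R (u w : V) : Prop where
  pu : φ.B p u = 0
  xu : φ.B x u = 0
  pw : φ.B p w = 0
  mem : sg φ x u * sg φ p w ∈ H

variable {w' u' : V} (h : Fl φ p x) (hr : ∀ z, φ.Q z = 0 → z ≠ 0 → ∀ w ∈ A hq H z, w ∈ F ∙ z)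
  (hs : ∀ g ∈ φ.E, ∃ w, φ.B p w = 0 ∧ g * sg φ p w ∈ H)
include h

theorem R.add (a : R H p x u w) (b : R H p x u' w') : R H p x (u + u') (sg φ x (-u') • w + w') := by
  have h1 : sg φ x (-u') • p = p := sg_fix hq h.qx (by simp [b.xu]) h.symm.b (by simp [φ.B_symm_zero b.pu])
  refine ⟨by simp [a.pu, b.pu], by simp [a.xu, b.xu], by simp [B_fix h1, a.pw, b.pw], ?_⟩
  have := sg_conj hq (sg φ x (-u')) h.qp a.pw
  rw [h1] at this
  rw [sg_add hq h.qx a.xu b.xu, sg_add hq h.qp (by simp [B_fix h1, a.pw]) b.pw, ← this, sg_neg hq h.qx b.xu]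
  convert mul_mem a.mem b.mem using 1; group

include hr

theorem R.uniq (a : R H p x u w) (b : R H p x u w') : w' - w ∈ F ∙ p := by
  refine hr p h.qp h.p0 _ ((mem_A hq h.qp).2 ⟨by simp [a.pw, b.pw], ?_⟩)
  rw [sub_eq_neg_add, sg_add hq h.qp (by simp [a.pw]) b.pw, sg_neg hq h.qp a.pw]
  convert mul_mem (inv_mem a.mem) b.mem using 1; group

theorem R.eig (a : R H p x u w) {c : F} (hc : w - c • u ∈ Submodule.span F {p, x}) : u ∈ Submodule.span F {p, x} := by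
  obtain ⟨s, t, e⟩ := Submodule.mem_span_pair.1 hc
  have b := h.symm.b
  have q1 : φ.Q (x + c • p) = 0 := by simp [hq.Q_add, hq.Q_smul, h.qp, h.qx, b]
  have b1 : φ.B (x + c • p) (u - (t + c * φ.Q u) • p) = 0 := by simp [a.pu, a.xu, b, φ.B_self_eq_zero h.qp]
  obtain ⟨d, e'⟩ := Submodule.mem_span_singleton.1 (hr _ q1 (fun e => h.ne (by rw [eq_neg_of_add_eq_zero_left e]; exact neg_mem (mem_sp _ _)))
    _ ((mem_A hq q1).2 ⟨b1, by
      convert a.mem using 1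
      refine iext fun y => ?_
      rw [eq_add_of_sub_eq e.symm]
      simp only [mul_smul, sg_app hq q1 b1, sg_app hq h.qx a.xu, sg_app hq h.qp (w := s • p + t • x + c • u)
        (by simp [a.pu, h.b, φ.B_self_eq_zero h.qp]), hq.Q_add, hq.Q_sub, hq.Q_smul, map_add, map_sub, LinearMap.add_apply,
        LinearMap.sub_apply, hq.B_smul_left, φ.B_smul_right, hq.B_self, h.qp, h.qx, h.b, b, a.pu, a.xu, φ.B_symm_zero a.pu, φ.B_symm_zero a.xu]
      module⟩))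
  exact Submodule.mem_span_pair.2 ⟨d * c + t + c * φ.Q u, d, by linear_combination (norm := module) e'⟩

omit hr in
include hs in
theorem R.inv {g : φ.Isom} (hg : g ∈ φ.E) (h1 : g • p = p) (h2 : g • x = x) :
    ∃ μ : F, ∀ u w, R H p x u w → ∃ ν : F, R H p x (g • u) (g • w + μ • g • u + ν • x) := by
  obtain ⟨v, hv, hk⟩ := hs g hg
  refine ⟨φ.B v x, fun u w a => ⟨-(φ.B v u + φ.B v x * φ.Q u), ?_⟩⟩
  have b1 : φ.B p (g • u) = 0 := by rw [B_fix h1, a.pu]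
  have b2 : φ.B x (g • u) = 0 := by rw [B_fix h2, a.xu]
  have b3 : φ.B p (g • w) = 0 := by rw [B_fix h1, a.pw]
  have b4 := φ.B_self_eq_zero h.qp
  have b := h.symm.b
  refine ⟨b1, b2, by simp [b1, b3, h.b], ?_⟩
  have := mul_mem (mul_mem hk a.mem) (inv_mem hk)
  rw [← conj_mul, sg_conj hq _ h.qx a.xu, sg_conj hq _ h.qp a.pw] at this
  simp only [mul_smul, sg_app hq h.qp hv, h.b, a.pu, a.pw, b4, φ.B_symm_zero hv, mul_zero, zero_smul, sub_zero, add_zero, smul_add,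
    smul_comm g, h1, h2] at this
  convert this using 1
  refine iext fun y => ?_
  have b5 := Q_act g u
  generalize g • u = u₁ at *
  generalize g • w = w₁ at *
  simp only [mul_smul, sg_app hq h.qx b2, sg_app hq h.qp (w := w₁ + φ.B v w • p) (by simp [b3, b4]),
    sg_app hq h.qp (w := w₁ + φ.B v x • u₁ + -(φ.B v u + φ.B v x * φ.Q u) • x) (by simp [b1, b3, h.b]),
    sg_app hq (p := x + φ.B v x • p) (w := u₁ + φ.B v u • p) (by simp [hq.Q_add, hq.Q_smul, h.qp, h.qx, b]) (by simp [b1, b2, b, b4]),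
    hq.Q_add, hq.Q_sub, hq.Q_smul, map_add, map_sub, LinearMap.add_apply, LinearMap.sub_apply, hq.B_smul_left, φ.B_smul_right, hq.B_self,
    h.qp, h.qx, h.b, b, b1, b2, b3, b5, φ.B_symm_zero b1, φ.B_symm_zero b2, φ.B_symm_zero b3, hq.B_comm w₁ u₁, hq.B_comm w₁ x]
  module

include hs

omit hr in
theorem R.ex (h1 : φ.B p u = 0) (h2 : φ.B x u = 0) : ∃ w, R H p x u w :=
  let ⟨w, a, b⟩ := hs _ (sg_E hq h.qx h2); ⟨w, h1, h2, a, b⟩

theorem R.lam (hd : 7 ≤ finrank F V) (a : R H p x u w) : φ.B x w = 0 := by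
  obtain ⟨v, -, v1, v2⟩ := φ.exists_orth ⊤ (Submodule.span F {p, x} ⊔ F ∙ u) [p, x] (by
    have := rank_sup (Submodule.span F {p, x}) (F ∙ u)
    have := finrank_span_singleton_le (F := F) u
    have := h.rank; simp; omega)
  obtain ⟨w', b⟩ := R.ex hq h hs (v2 p (by simp)) (v2 x (by simp))
  have := (a.add hq h b).uniq hq h hr (add_comm v u ▸ b.add hq h a)
  by_contra e
  refine v1 ((Submodule.smul_mem_iff _ e).1 ?_)
  simp only [sg_app hq h.qx (show φ.B x (-u) = 0 by simp [a.xu]), sg_app hq h.qx (show φ.B x (-v) = 0 by simp [b.xu])] at this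
  have h1 : ∀ c : F, c • x ∈ Submodule.span F {p, x} ⊔ F ∙ u := fun c => Submodule.mem_sup_left (Submodule.smul_mem _ _ (mem_r p x))
  convert sub_mem (add_mem (h1 (φ.B (-u) w' - φ.Q (-u) * φ.B x w' - φ.B (-v) w + φ.Q (-v) * φ.B x w))
    (Submodule.mem_sup_right (mem_sp u (φ.B x w')))) (Submodule.mem_sup_left (Submodule.span_mono (by simp) this)) using 1
  module

theorem R.refl (hd : 7 ≤ finrank F V) {a b : V} (a1 : R H p x a w) (b1 : φ.B p b = 0) (b2 : φ.B x b = 0) (hQ : φ.Q a ≠ 0)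
    (hab : φ.Q a = φ.Q b) (hG : φ.B a a * φ.B b b - φ.B a b * φ.B b a ≠ 0) : w ∈ Submodule.span F {p, x} ⊔ Submodule.span F {a, b} := by
  obtain ⟨v, v1, v2, v3, v4, -, v5⟩ := ex_out hq h hd a1.pu a1.xu b1 b2 hG
  have h6 : a ∉ Submodule.span F {p, x} ⊔ F ∙ b := fun e => hG (by
    obtain ⟨l, hl, m, hm, e⟩ := Submodule.mem_sup.1 e
    obtain ⟨s, rfl⟩ := Submodule.mem_span_singleton.1 hm
    have c1 := φ.B_symm_zero (φ.mem_perp_pair.2 ⟨a1.pu, a1.xu⟩ l hl)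
    have c2 := φ.B_symm_zero (φ.mem_perp_pair.2 ⟨b1, b2⟩ l hl)
    have c3 := congrArg (φ.B a) e
    have c4 := congrArg (φ.B b) e
    simp only [map_add, c1, c2, φ.B_smul_right, zero_add] at c3 c4
    rw [← c3, ← c4]; ring)
  have hg := hq.good_of_finrank (by omega)
  have key : ∀ y, (φ.refl a * φ.refl b) • y = y + (-(φ.Q b)⁻¹ * φ.B b y) • b + (-(φ.Q a)⁻¹ * φ.B a (y + (-(φ.Q b)⁻¹ * φ.B b y) • b)) • a :=
    fun y => (congrArg (φ.refl a • ·) (hq.refl_apply b y)).trans (hq.refl_apply a _)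
  have k2 : ∀ y, (φ.refl a * φ.refl b) • y - y ∈ Submodule.span F {p, x} ⊔ Submodule.span F {a, b} := fun y => by
    rw [key, add_assoc, add_sub_cancel_left]
    exact Submodule.mem_sup_right (add_mem (Submodule.smul_mem _ _ (mem_r a b)) (Submodule.smul_mem _ _ (mem_l a b)))
  have k3 : ∀ c : F, c • x ∈ Submodule.span F {p, x} ⊔ Submodule.span F {a, b} := fun c =>
    Submodule.mem_sup_left (Submodule.smul_mem _ _ (mem_r p x))
  have k4 : ∀ y ∈ F ∙ p, y ∈ Submodule.span F {p, x} ⊔ Submodule.span F {a, b} := fun y hy =>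
    Submodule.mem_sup_left (Submodule.span_mono (by simp) hy)
  obtain ⟨μ, hμ⟩ := R.inv hq h hs (g := φ.refl a * φ.refl b) ((mem_E hq (by omega)).2 (by
    simp [hq.dickson_refl hg hQ, hq.dickson_refl hg (hab ▸ hQ), hq.spinor_refl hg hQ, hq.spinor_refl hg (hab ▸ hQ), hab]))
    (by simp [key, φ.B_symm_zero a1.pu, φ.B_symm_zero b1]) (by simp [key, φ.B_symm_zero a1.xu, φ.B_symm_zero b2])
  obtain ⟨z, hz⟩ := R.ex hq h hs v1 v2
  obtain ⟨ν, h1⟩ := hμ _ _ hz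
  rw [show (φ.refl a * φ.refl b) • v = v by simp [key, v3, v4]] at h1
  obtain rfl : μ = 0 := by_contra fun e => v5 ((Submodule.smul_mem_iff _ e).1 (by
    convert sub_mem (sub_mem (k4 _ (hz.uniq hq h hr h1)) (k2 z)) (k3 ν) using 1; abel))
  obtain ⟨u, u1, u2⟩ := φ.exists_sep' h6
  have u3 := u1 p (Submodule.mem_sup_left (mem_l p x))
  have u4 := u1 x (Submodule.mem_sup_left (mem_r p x))
  have u5 := u1 b (Submodule.mem_sup_right (Submodule.mem_span_singleton_self b))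
  obtain ⟨z, hz⟩ := R.ex hq h hs (u := φ.Q a • u) (by simp [u3]) (by simp [u4])
  obtain ⟨ν, h1⟩ := hμ _ _ hz
  have h2 := a1.add hq h h1
  rw [show a + (φ.refl a * φ.refl b) • φ.Q a • u = φ.Q a • u by simp [key, u2, u5, hQ],
    sg_app hq h.qx (by simp [h1.xu]), a1.lam hq h hr hs hd] at h2
  convert sub_mem (sub_mem (sub_mem (k4 _ (hz.uniq hq h hr h2)) (k2 z)) (k3 ν)) (k3 (φ.B (-((φ.refl a * φ.refl b) • φ.Q a • u)) w)) using 1
  simp only [zero_smul, mul_zero]; abel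

theorem no_reg (hd : 7 ≤ finrank F V) : False := by
  have hS := hq.std (by omega)
  obtain ⟨e, he, f, hf, h1⟩ := ex_hyp hS (Submodule.span F {p, x}) (by have := h.rank; omega)
  rw [φ.mem_perp_pair] at he hf
  obtain ⟨v, v3, v4, v5, v6, v2, -⟩ := ex_out hq h hd he.1 he.2 hf.1 hf.2 h1.gram
  obtain ⟨c, c0, c1⟩ : ∃ c : F, c ≠ 0 ∧ 4 * c ≠ φ.Q v := by
    by_cases e : 4 * φ.Q v = φ.Q v
    · exact ⟨-φ.Q v, by simpa, fun e' => v2 (by linear_combination 2 * e + e')⟩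
    · exact ⟨_, v2, e⟩
  have e1 := h1.Bef
  have e2 := h1.Bfe.trans hq.ε_eq
  have qa : φ.Q (e + c • f) = c := by simp [hq.Q_add, hq.Q_smul, h1.Qe, h1.Qf, e1]
  obtain ⟨w, a1⟩ := R.ex hq h hs (u := e + c • f) (by simp [he.1, hf.1]) (by simp [he.2, hf.2])
  have hl : ∀ {l y}, l ∈ Submodule.span F {p, x} → φ.B p y = 0 → φ.B x y = 0 → φ.B y l = 0 := fun hl a b =>
    φ.B_symm_zero (φ.mem_perp_pair.2 ⟨a, b⟩ _ hl)
  have key : ∀ v, φ.B p v = 0 → φ.B x v = 0 → φ.B e v = 0 → φ.B f v = 0 → φ.Q v ≠ 0 → 4 * c ≠ φ.Q v →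
      ∃ l ∈ Submodule.span F {p, x}, ∃ s t : F, w = l + s • (e + c • f) + t • (v - φ.Q v • f) := fun v v3 v4 v5 v6 v2 c1 => by
    have qb : φ.Q (e + c • f) = φ.Q (e + c • f + (v - φ.Q v • f)) := by
      rw [hq.Q_add (e + c • f), hq.Q_sub]; simp [hq.Q_smul, h1.Qf, φ.B_symm_zero v6, e1, v5, v6, h1.Bff, hq.σ_eq]
    obtain ⟨l, h2, m, h3, e'⟩ := Submodule.mem_sup.1 (a1.refl hq h hr hs hd (b := e + c • f + (v - φ.Q v • f)) (by simp [he.1, hf.1, v3])
      (by simp [he.2, hf.2, v4]) (qa.symm ▸ c0) qb (by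
        rw [hq.B_comm (_ + _ + _) (e + c • f), hq.B_self, hq.B_self, ← qb, map_add (φ.B _), hq.B_self, qa]
        simp only [map_add, map_sub, LinearMap.add_apply, hq.B_smul_left, φ.B_smul_right, v5, v6, e1, h1.Bff]
        exact fun e => mul_ne_zero v2 (sub_ne_zero.2 c1) (by linear_combination e)))
    obtain ⟨s, t, rfl⟩ := Submodule.mem_span_pair.1 h3
    exact ⟨l, h2, s + t, t, by rw [← e']; module⟩
  obtain ⟨l, h2, s, t, e'⟩ := key v v3 v4 v5 v6 v2 c1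
  obtain rfl : t = 0 := by
    by_cases h3 : (2 : F) = 0
    · have h4 : ∀ y : V, y + y = 0 := fun y => by rw [← two_smul F, h3, zero_smul]
      have h5 := a1.add hq h a1
      rw [h4, sg_app hq h.qx (by simp [-neg_add_rev, a1.xu]), a1.lam hq h hr hs hd] at h5
      have h6 := R.uniq hq h hr (w := 0) ⟨by simp, by simp, by simp, by simp [sg_zero hq h.qp, sg_zero hq h.qx]⟩ h5
      have h7 : φ.B (e + c • f) w = 0 := by_contra fun e' => h.ne ((Submodule.smul_mem_iff _ e').1 (by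
        convert neg_mem h6 using 1
        rw [map_neg, LinearMap.neg_apply]; linear_combination (norm := module) h4 w))
      rw [e', map_add, map_add, hl h2 a1.pu a1.xu, φ.B_smul_right, hq.B_self, h3] at h7
      simpa [v5, v6, e1, h1.Bff, v2] using h7
    · obtain ⟨l', h4, s', t', e''⟩ := key (-v) (by simp [v3]) (by simp [v4]) (by simp [v5]) (by simp [v6]) (by simpa) (by simpa)
      have a2 := congrArg (φ.B v) (e'.symm.trans e'')
      have a3 := congrArg (φ.B e) (e'.symm.trans e'')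
      have a4 := congrArg (φ.B f) (e'.symm.trans e'')
      simp only [map_add, map_sub, map_neg, φ.B_smul_right, hl h2 v3 v4, hl h4 v3 v4, hl h2 he.1 he.2, hl h4 he.1 he.2, hl h2 hf.1 hf.2,
        hl h4 hf.1 hf.2, v5, v6, φ.B_symm_zero v5, φ.B_symm_zero v6, e1, e2, h1.Bee, h1.Bff, hq.B_self v, Q_neg] at a2 a3 a4
      exact (mul_eq_zero.1 (show t * (2 * 2 * φ.Q v) = 0 by linear_combination a2 - 2 * a3 + 2 * c * a4)).resolve_right
        (mul_ne_zero (mul_ne_zero h3 h3) v2)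
  obtain ⟨a, b, e''⟩ := Submodule.mem_span_pair.1 (a1.eig hq h hr (c := s) (by simpa [e'] using h2))
  exact c0 (by rw [← qa, ← e'']; simp [hq.Q_comb, h.qp, h.qx, h.b])

end Reg

end H24.MD.O
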