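import Cfsg.Agent.H24.MDO2

/-!
# Minimal index for orthogonal groups of dimension at least `7` (namespace `H24.MD.O`)

* `Fu` (`Q_p ≤ H`), `Rg` (`Q_p ∩ H = 1`), `min_index`
-/

set_option autoImplicit false
set_option linter.unusedSectionVars false

open Subgroup H20 H10 H10.Form Module

namespace H24.MD.O

variable {F V : Type*} [Field F] [Finite F] [AddCommGroup V] [Module F V] [Finite V] {φ : Form F V} [φ.Nondeg]
  (hq : φ.IsQuad) {H : Subgroup φ.Isom} {p x w u y z : V}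

variable (H p) in
/-- `Q_p ≤ H` -/
def Fu : Prop := ∀ w, φ.B p w = 0 → w ∈ A hq H p
variable (H p) in
/-- `Q_p ∩ H = 1` -/
def Rg : Prop := ∀ w ∈ A hq H p, w ∈ F ∙ p

theorem Fu.full (h : Fu hq H p) (hp : φ.Q p = 0) : φ.Full H p := fun w s h1 h2 => by
  rw [← hq.T_eq s, h2]; exact ((mem_A hq hp).1 (h w h1)).2

theorem Fu.conj {g : φ.Isom} {c : F} (h : Fu hq H p) (hp : φ.Q p = 0) (hz : φ.Q z = 0) (hc : c ≠ 0) (hg : g ∈ H) (e : g • p = c • z) :
    Fu hq H z := fun w hw => by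
  simpa [smul_comm g, hc] using A_conj hq hp hz hc hg e (h (c⁻¹ • g⁻¹ • w) (by rw [φ.B_smul_right, ← B_act g, e]; simp [hw]))

theorem Rg.conj {g : φ.Isom} {c : F} (h : Rg hq H z) (hp : φ.Q p = 0) (hz : φ.Q z = 0) (hc : c ≠ 0) (hg : g ∈ H) (e : g • p = c • z) :
    Rg hq H p := fun w hw => by
  obtain ⟨d, hd⟩ := Submodule.mem_span_singleton.1 (h _ (A_conj hq hp hz hc hg e hw))
  rw [← inv_smul_smul₀ hc z, ← e, smul_smul, ← smul_comm g, ← smul_comm g, smul_left_cancel_iff] at hd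
  exact (Submodule.smul_mem_iff _ hc).1 (hd ▸ mem_sp _ _)

theorem ex_adm (hp : φ.Q p = 0) (hp0 : p ≠ 0) (Z : Submodule F V) (hZ : p ∈ Z) (hd : 2 * finrank F Z + 3 ≤ finrank F V)
    (h1 : ¬ ∀ w ∈ φ.perp Z, w ∈ A hq H p) (h2 : ¬ ∀ w ∈ A hq H p, w ∈ Z) :
    ∃ x ∈ φ.perp Z, Fl φ p x ∧ (¬ ∀ c : F, c • x ∈ A hq H p) ∧ ∃ w ∈ A hq H p, φ.B x w ≠ 0 := by
  by_contra! hc
  have := finrank_span_singleton (K := F) hp0
  have := Submodule.finrank_mono ((Submodule.span_singleton_le_iff_mem _ _).2 hZ)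
  obtain ⟨e, he, f, hf, h⟩ := ex_hyp (hq.std (by omega)) Z hd
  let W : Submodule F V := ⟨⟨⟨{w | ∀ c : F, c • w ∈ A hq H p}, fun a b c => by rw [smul_add]; exact add_mem (a c) (b c)⟩, by simp⟩,
    fun c w a d => by rw [smul_smul]; exact a _⟩
  rcases cover hq (A := W) (B := φ.perp (Submodule.span F (A hq H p : Set V))) h he hf
    (fun a ha b hb => hb a (Submodule.subset_span (by simpa using ha 1))) (fun y h3 h4 => or_iff_not_imp_left.2 fun h5 =>
      φ.mem_perp_span.2 fun w hw => φ.B_symm_zero (hc y h3 ⟨hp, h4, h3 p hZ, hp0, fun e => h5 fun c => by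
        obtain ⟨d, rfl⟩ := Submodule.mem_span_singleton.1 e
        rw [smul_smul]; exact self_A hq hp _⟩ (not_forall.1 h5) w hw)) with h6 | h6
  · exact h1 fun w a => by simpa using h6 a 1
  · exact h2 fun w a => φ.perp_le_perp_iff.1 h6 (Submodule.subset_span a)

theorem card_aa (h : Fl φ p x) (hC : ∀ c, ∃ w ∈ A hq H p, φ.B x w = c) : Nat.card (aa hq H p x) ≤ Nat.card (A hq H p) := by
  choose f h1 h2 using hC
  refine Nat.card_le_card_of_injective (fun a => ⟨_, add_mem a.2.2.choose_spec (h1 a.2.2.choose)⟩) fun a b e => ?_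
  replace e := congrArg Subtype.val e
  have := congrArg (φ.B x) e
  simp only [map_add, φ.B_smul_right, h2, φ.B_self_eq_zero h.qx, (φ.mem_perp_pair.1 a.2.1).2, (φ.mem_perp_pair.1 b.2.1).2] at this
  simp only [mul_zero, add_zero, zero_add] at this
  simpa [this] using e

theorem A_ss (h : Fl φ p x) (hw : w ∈ A hq H x) (h1 : φ.B p w = 0) : w ∈ ss hq H p x := by
  have h2 := sg_fix hq h.qx (A_B hq hw) h.symm.b (φ.B_symm_zero h1)
  exact (mem_ss hq h).2 ⟨φ.mem_perp_pair.2 ⟨h1, A_B hq hw⟩, 1, by simp [h2], fun u =>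
    A_conj hq h.qp h.qp one_ne_zero ((mem_A hq h.qx).1 hw).2 (by simp [h2])⟩

theorem aa_ss (h : Fl φ p x) : aa hq H x p ≤ ss hq H p x := fun w ⟨h1, c, h2⟩ => by
  simpa using sub_mem (A_ss hq h h2 (by simp [(φ.mem_perp_pair.1 h1).2, φ.B_self_eq_zero h.qp]))
    (l_ss hq h (Submodule.smul_mem _ c (mem_l p x)))

theorem ix_le (p : V) : ix H p ≤ H.relIndex φ.E := rel_mono _ inf_le_right

variable {k : ℕ} (hd : finrank F V = k + 4) (hk : 3 ≤ k)
include hd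

theorem card_A (hp0 : p ≠ 0) : Nat.card (A hq H p) * (A hq H p).relIndex (φ.perp (F ∙ p)).toAddSubgroup = Nat.card F ^ (k + 3) := by
  have := φ.finrank_perp (F ∙ p)
  rw [finrank_span_singleton hp0] at this
  rw [acard_mul (H := A hq H p) fun w hw => hw.1, ← show finrank F (φ.perp (F ∙ p)) = k + 3 by omega, ← card_sub]; rfl

theorem Rg.rel (h : Rg hq H p) (hp0 : p ≠ 0) : Nat.card F ^ (k + 2) ≤ (A hq H p).relIndex (φ.perp (F ∙ p)).toAddSubgroup := by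
  have : Nat.card (A hq H p) ≤ Nat.card F ^ 1 := (AddSubgroup.card_le_of_le (K := (F ∙ p).toAddSubgroup) h).trans
    (card_le_pow (finrank_span_singleton_le p))
  refine Nat.le_of_mul_le_mul_left (c := Nat.card F ^ 1) ?_ (pow_pos Nat.card_pos _)
  rw [← pow_add, show 1 + (k + 2) = k + 3 by ring, ← card_A hq hd hp0]
  exact Nat.mul_le_mul_right _ this

theorem Rg.ix (h : Rg hq H p) (hp : φ.Q p = 0) (hp0 : p ≠ 0) : Nat.card F ^ (k + 2) ≤ ix H p :=
  ((h.rel hq hd hp0).trans (Nat.le_mul_of_pos_left _ (rel_pos _ _))).trans (base hq hp hp0)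

include hk hq

theorem sum_ix (hp : φ.Q p = 0) (hp0 : p ≠ 0) (hz : φ.Q z = 0) (hz0 : z ≠ 0) :
    (∃ g ∈ H, ∃ c : F, c ≠ 0 ∧ g • p = c • z) ∨ ix H p + ix H z ≤ H.relIndex φ.E := by
  obtain ⟨g, hg, rfl⟩ := (hq.big (by omega)).exists_E_map_sing hp hp0 hz hz0
  exact or_iff_not_imp_left.2 fun h => pt_add hp0 hg fun j hj c e => h ⟨j, hj, c, fun h0 =>
    hp0 ((smul_eq_zero_iff_eq j).1 (by simpa [h0] using e)), e⟩

variable (hm : H.relIndex φ.E < Nat.card F ^ k * (Nat.card F ^ 2 + Nat.card F + 2))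
include hm

theorem ix_lt (p : V) : ix H p < Nat.card F ^ (k + 1) * (Nat.card F + 2) := by
  refine ((ix_le p).trans_lt hm).trans_le ?_
  rw [pow_succ _ k, mul_assoc]
  have := Finite.one_lt_card (α := F)
  exact Nat.mul_le_mul_left _ (by nlinarith)

theorem big (h : Fl φ p x) (hΞ : ¬ ∀ c : F, c • x ∈ A hq H p) (hC : ∃ w ∈ A hq H p, φ.B x w ≠ 0) :
    Nat.card F ^ 4 ≤ Nat.card (aa hq H p x) :=
  (loc hq h hd hk hΞ hC (ix_lt hq hd hk hm p)).2.elim (fun e => ((Nat.pow_le_pow_right Nat.card_pos (by omega)).trans_eq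
    (h.cardL hd).symm).trans (AddSubgroup.card_le_of_le e.1)) fun e => e.2.1

theorem adm (hp : φ.Q p = 0) (hp0 : p ≠ 0) (h1 : ¬ Fu hq H p) (h2 : ¬ Rg hq H p) :
    ∃ x, Fl φ p x ∧ (¬ ∀ c : F, c • x ∈ A hq H p) ∧ ∃ w ∈ A hq H p, φ.B x w ≠ 0 :=
  let ⟨x, _, h⟩ := ex_adm hq hp hp0 (F ∙ p) (Submodule.mem_span_singleton_self p) (by rw [finrank_span_singleton hp0]; omega)
    (fun e => h1 fun w hw => e w (φ.mem_perp_singleton.2 hw)) h2; ⟨x, h⟩

theorem reg_of (h : Fl φ p x) (hΞ : ¬ ∀ c : F, c • x ∈ A hq H p) (hs : ss hq H p x ≤ (Submodule.span F {p, x}).toAddSubgroup) :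
    Rg hq H x := by
  by_contra hr
  have hq1 := Finite.one_lt_card (α := F)
  have h1 : ¬ ∀ c : F, c • p ∈ A hq H x := fun e => hΞ fun c => A_swap hq h.qx h.qp h.symm.b (e c)
  by_cases hC : ∃ w ∈ A hq H x, φ.B p w ≠ 0
  · have := (big hq hd hk hm h.symm h1 hC).trans ((AddSubgroup.card_le_of_le ((aa_ss hq h).trans hs)).trans_eq h.card)
    rw [Nat.pow_le_pow_iff_right hq1] at this; omega
  push Not at hC
  obtain ⟨y, a, b, c⟩ := adm hq hd hk hm h.qx h.symm.p0 (fun e => h1 fun c => e _ (by simp [h.symm.b])) hr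
  have := (big hq hd hk hm a b c).trans ((AddSubgroup.card_le_of_le (H := aa hq H x y) (K := (Submodule.span F {p, x} ⊔ F ∙ y).toAddSubgroup)
    fun w ⟨_, c, h2⟩ => by
      simpa using sub_mem (Submodule.mem_sup_left (hs (A_ss hq h h2 (hC _ h2)))) (Submodule.mem_sup_right (mem_sp y c))).trans
    (card_le_pow (j := 3) ((rank_sup _ _).trans (by have := h.rank; have := finrank_span_singleton_le (F := F) y; omega))))
  rw [Nat.pow_le_pow_iff_right hq1] at this; omega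

section NoReg

variable (hr : ∀ z, φ.Q z = 0 → z ≠ 0 → ¬ Rg hq H z)
include hr

theorem exc (h : Fl φ p x) (hΞ : ¬ ∀ c : F, c • x ∈ A hq H p) (hC : ∃ w ∈ A hq H p, φ.B x w ≠ 0) :
    Nat.card F ^ 4 ≤ Nat.card (A hq H p) ∧ Nat.card (ss hq H p x) ≤ Nat.card F ^ k ∧ k ≤ 4 ∧ (k = 4 → ∀ w ∈ aa hq H p x, φ.Q w = 0) := by
  obtain ⟨-, a, b, c, d, e⟩ := (loc hq h hd hk hΞ hC (ix_lt hq hd hk hm p)).2.resolve_left fun e =>
    hr x h.qx h.symm.p0 (reg_of hq hd hk hm h hΞ e.2)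
  exact ⟨a.trans (card_aa hq h d), b, c, e⟩

theorem solid_A (hp : φ.Q p = 0) (hp0 : p ≠ 0) (h1 : ¬ Fu hq H p) :
    k = 4 ∧ ∃ M : Submodule F V, φ.TS M ∧ finrank F M = 4 ∧ ∀ w, w ∈ A hq H p ↔ w ∈ M := by
  have hq1 := Finite.one_lt_card (α := F)
  obtain ⟨x, h, hΞ, hC⟩ := adm hq hd hk hm hp hp0 h1 (hr p hp hp0)
  obtain ⟨a1, a2, a3, a4⟩ := exc hq hd hk hm hr h hΞ hC
  obtain rfl : k = 4 := by
    by_contra e
    have h1 : ¬ ∀ c : F, c • p ∈ A hq H x := fun e => hΞ fun c => A_swap hq h.qx h.qp h.symm.b (e c)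
    suffices Nat.card F ^ 4 ≤ Nat.card (ss hq H p x) by
      have := (Nat.pow_le_pow_iff_right hq1).1 (this.trans a2); omega
    by_cases hC : ∃ w ∈ A hq H x, φ.B p w ≠ 0
    · exact (big hq hd hk hm h.symm h1 hC).trans (AddSubgroup.card_le_of_le (aa_ss hq h))
    push Not at hC
    obtain ⟨y, a, b, c⟩ := adm hq hd hk hm h.qx h.symm.p0 (fun e => h1 fun c => e _ (by simp [h.symm.b])) (hr x h.qx h.symm.p0)
    exact (exc hq hd hk hm hr a b c).1.trans (AddSubgroup.card_le_of_le fun w hw => A_ss hq h hw (hC w hw))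
  have hQ : ∀ w ∈ A hq H p, φ.Q w = 0 := fun w hw => by
    have r := finrank_span_pair_le (F := F) p w
    obtain ⟨y, b1, b2, b3, b4⟩ := ex_adm hq (H := H) hp hp0 (Submodule.span F {p, w}) (mem_l p w) (by omega) (fun e => by
      have := (hq.ts (W := φ.perp (Submodule.span F {p, w} ⊔ F ∙ x)) fun v hv => by
        rw [φ.perp_sup] at hv
        exact a4 rfl v ⟨φ.mem_perp_pair.2 ⟨hv.1 p (mem_l p w), φ.mem_perp_singleton.1 hv.2⟩, 0, by simpa using e v hv.1⟩).finrank_le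
      have := φ.finrank_perp (Submodule.span F {p, w} ⊔ F ∙ x)
      have := rank_sup (Submodule.span F {p, w}) (F ∙ x)
      have := finrank_span_singleton_le (F := F) x
      omega) fun e => by
      have := a1.trans ((AddSubgroup.card_le_of_le (K := (Submodule.span F {p, w}).toAddSubgroup) e).trans (card_le_pow r))
      rw [Nat.pow_le_pow_iff_right hq1] at this; omega
    exact (exc hq hd hk hm hr b2 b3 b4).2.2.2 rfl w ⟨φ.mem_perp_pair.2 ⟨A_B hq hw, φ.B_symm_zero (b1 w (mem_r p w))⟩, 0, by simpa⟩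
  have hB : ∀ u ∈ A hq H p, ∀ v ∈ A hq H p, φ.B u v = 0 := fun u hu v hv => by
    simpa [hq.Q_add, hQ u hu, hQ v hv] using hQ _ (add_mem hu hv)
  have hB' : Submodule.span F (A hq H p : Set V) ≤ φ.perp (Submodule.span F (A hq H p : Set V)) :=
    Submodule.span_le.2 fun v hv => φ.mem_perp_span.2 fun u hu => hB u hu v hv
  have hT : φ.TS (Submodule.span F (A hq H p : Set V)) := hq.ts fun v hv => Submodule.span_induction hQ φ.Q_zero
    (fun a b ha hb h1 h2 => by rw [hq.Q_add, h1, h2, hB' hb a ha]; simp) (fun c a _ h => by simp [hq.Q_smul, h]) hv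
  have l1 : A hq H p ≤ (Submodule.span F (A hq H p : Set V)).toAddSubgroup := fun u hu => Submodule.subset_span hu
  have r1 := hT.finrank_le
  have r2 := (Nat.pow_le_pow_iff_right hq1).1 ((a1.trans (AddSubgroup.card_le_of_le l1)).trans_eq (card_sub _))
  exact ⟨rfl, _, hT, by omega, fun w => ⟨fun h => l1 h, fun h => ale_of_card l1 (((card_le_pow (j := 4) (by omega)).trans a1).trans_lt
    (by have := Nat.card_pos (α := A hq H p); omega)) h⟩⟩

omit hm hr hk hd hq in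
theorem ex_flag {M : Submodule F V} {j : ℕ} (hM : j < finrank F M) (Z : Submodule F V) (hZ : finrank F Z ≤ j) : ∃ b ∈ M, b ∉ Z :=
  SetLike.not_le_iff_exists.1 fun e => by have := Submodule.finrank_mono e; omega

theorem noReg (hE : H ≤ φ.E) (hH : ¬ φ.E ≤ H) {b : ℕ} (h8 : k = 4 → φ.HasTS 4 →
    b ≤ (Nat.card F + 1) * (Nat.card F ^ 2 + 1) * Nat.card F ^ 3 ∨
      4 ≤ Nat.card F ∧ b ≤ (Nat.card F + 1) * (Nat.card F ^ 2 + 1) * (Nat.card F ^ 3 + 1)) : b ≤ H.relIndex φ.E := by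
  obtain ⟨p, hp, h1⟩ : ∃ p, φ.Q p = 0 ∧ ¬ Fu hq H p := by
    by_contra! e; exact hH (E_le_iff.2 fun p hp => (e p hp).full hq hp)
  have hp0 : p ≠ 0 := fun e => h1 fun w _ => (mem_A hq hp).2 ⟨by simp [e], by simp [e, sg, siegel_zero_left (hq.T_eq _)]⟩
  obtain ⟨rfl, M, m1, m2, m3⟩ := solid_A hq hd hk hm hr hp hp0 h1
  have hT : φ.HasTS 4 := ⟨M, m1, m2⟩
  have hpM : p ∈ M := (m3 p).1 (by simpa using self_A hq hp 1)
  have r1 := finrank_span_singleton (K := F) hp0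
  obtain ⟨x, x1, x2⟩ := ex_flag (M := M) (j := 1) (by omega) (F ∙ p) r1.le
  obtain ⟨y, y1, y2⟩ := ex_flag (M := M) (j := 2) (by omega) ((F ∙ p) ⊔ F ∙ x) (by rw [finrank_sup_singleton x2, r1])
  have s1 := ((solid hq hd hT m1 hpM x1 y1 hp0 x2 y2).1.trans (rel_mono _ (K := pt F p ⊓ φ.E) fun g hg =>
    ⟨⟨1, (hg.1 p (Submodule.mem_span_singleton_self p)).trans (one_smul F p).symm⟩, hg.2⟩))
  have hL : ∀ u ∈ φ.perp (F ∙ p), φ.B p u = 0 := fun _ => φ.mem_perp_singleton.1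
  have s2 := (Nat.mul_le_mul_right _ s1).trans ((chain (H := H) (J := stb (M : Set V)) (K := pt F p ⊓ φ.E) (N := stb (M : Set V) ⊓ (pt F p ⊓ φ.E)) (fun g ⟨hg, ⟨c, hc⟩, _⟩ w hw =>
    (M.smul_mem_iff (pt_ne hp0 hc)).1 ((m3 _).1 (A_conj hq hp hp (pt_ne hp0 hc) hg hc ((m3 w).2 hw)))) le_rfl).trans (ix_le p))
  have l1 : QQ hq hp hL ≤ stb (M : Set V) ⊓ (pt F p ⊓ φ.E) := fun g hg => by
    obtain ⟨u, hu, rfl⟩ := (mem_QQ hq).1 hg
    exact ⟨fun w hw => by simpa [sg_app hq hp (hL u hu), m1.B p hpM w hw] using add_mem hw (M.smul_mem _ hpM),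
      ⟨1, by simp [sg_fix hq hp (hL u hu) (φ.B_self_eq_zero hp) (φ.B_symm_zero (hL u hu))]⟩, sg_E hq hp (hL u hu)⟩
  have s3 : H.relIndex (QQ hq hp hL) = Nat.card F ^ 3 := by
    have := card_A hq (H := H) hd hp0
    rw [show Nat.card (A hq H p) = Nat.card F ^ 4 by rw [← m2, ← card_sub]; exact Nat.card_congr (Equiv.subtypeEquivRight m3),
      pow_add, A, ← rel_QQ hq hp hL] at this
    exact Nat.eq_of_mul_eq_mul_left (pow_pos Nat.card_pos _) this
  rcases h8 rfl hT with h8 | ⟨h4, h8⟩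
  · exact h8.trans ((Nat.mul_le_mul_left _ (s3 ▸ rel_mono _ l1)).trans s2)
  refine h8.trans ?_
  by_cases hS : ∀ g ∈ stb (M : Set V) ⊓ (pt F p ⊓ φ.E), ∃ j ∈ QQ hq hp hL, g * j ∈ H
  swap
  · push Not at hS
    obtain ⟨g, g1, g2⟩ := hS
    have s4 := add_le l1 g1 g2
    have : QQ hq hp hL ≤ cj g (QQ hq hp hL) := fun j hj => by
      obtain ⟨u, hu, rfl⟩ := (mem_QQ hq).1 hj
      obtain ⟨c, hc⟩ := (pt F p).inv_mem g1.2.1
      have : φ.B p (g⁻¹ • u) = 0 := by simpa [hc, hq.σ_eq, pt_ne hp0 hc] using (B_act g⁻¹ p u).trans (hL u hu)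
      refine mem_cj.2 ((mem_QQ hq).2 ⟨c • g⁻¹ • u, φ.mem_perp_singleton.2 (by simp [this]), ?_⟩)
      simpa [hc, sg_smul hq hp this] using sg_conj hq g⁻¹ hp (hL u hu)
    have := rel_mono H this
    have : 0 < Nat.card F ^ 3 := pow_pos Nat.card_pos _
    exact (Nat.mul_le_mul_left _ (by omega)).trans s2
  obtain ⟨c, c0, c1⟩ : ∃ c : F, c ≠ 0 ∧ c * c ≠ 1 := by
    by_contra! e
    have : (Set.univ : Set F).ncard ≤ ({0, 1, -1} : Set F).ncard := Set.ncard_le_ncard fun c _ => by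
      by_cases h : c = 0
      exacts [by simp [h], by simpa [h] using mul_self_eq_one_iff.1 (e c h)]
    have := this.trans (Set.ncard_insert_le _ _ |>.trans (Nat.succ_le_succ (Set.ncard_insert_le _ _)))
    rw [Set.ncard_univ, Set.ncard_singleton] at this; omega
  have c2 := mul_ne_zero c0 c0
  have hg := hq.good_of_finrank (by omega)
  have hE' : ∀ {f}, φ.IsHyp p f → φ.rot p f (c * c) ∈ φ.E := fun h =>
    (mem_E hq (by omega)).2 ⟨hq.dickson_rot hg h c2, by rw [hq.spinor_rot hg h c2, chi_mul_self]⟩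
  obtain ⟨f, hf, hfH⟩ : ∃ f, φ.IsHyp p f ∧ φ.rot p f (c * c) ∈ H := by
    obtain ⟨f, hf⟩ := φ.exists_hyp hp hp0
    obtain ⟨_, hj, h2⟩ := hS (φ.rot p f (c * c)) ⟨fun w hw => by
      simpa [rot_app hq hf c2, m1.B p hpM w hw] using add_mem hw (M.smul_mem _ hpM), ⟨_, φ.rot_apply_e hf c2⟩, hE' hf⟩
    obtain ⟨u, hu, rfl⟩ := (mem_QQ hq).1 hj
    have c3 : (c * c)⁻¹ - 1 ≠ 0 := sub_ne_zero.2 fun e => c1 (inv_eq_one.1 e)
    obtain ⟨u, rfl⟩ : ∃ v, u = ((c * c)⁻¹ - 1) • v := ⟨_, (smul_inv_smul₀ c3 u).symm⟩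
    have h3 : φ.B p u = 0 := by simpa [-mul_inv_rev, c3] using hL _ hu
    have h4 := sg_fix hq hp h3 hf.Bee (φ.B_symm_zero h3)
    have h5 := φ.rot_conj (sg φ p u) hf c2
    have h6 := hf.map (sg φ p u)
    rw [show (sg φ p u).1 p = p from h4] at h5 h6
    refine ⟨_, h6, h5 ▸ ?_⟩
    convert h2 using 1
    rw [← sg_neg hq hp h3]
    refine iext fun y => ?_
    simp only [mul_smul, sg_app hq hp h3, sg_app hq hp (hL _ hu), sg_app hq hp (show φ.B p (-u) = 0 by simp [h3]),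
      rot_app hq hf c2, map_add, map_sub, map_neg, LinearMap.neg_apply, φ.B_smul_right, hq.B_smul_left, hq.Q_smul, Q_neg, hf.Bee, hf.Bef, hf.Bff,
      hf.Bfe, hq.ε_eq, h3, φ.B_symm_zero h3, hq.B_self u, hq.B_comm u f]
    match_scalars <;> field_simp <;> ring
  have hfp : φ.B f p = 1 := hf.Bfe.trans hq.ε_eq
  have key : ∀ z ∈ M, φ.B f z = 0 → ∀ u, φ.B p u = 0 → φ.B f u = 0 → φ.B z u = 0 → sg φ z u ∈ H := fun z z1 z2 u u1 u2 u3 => by
    have z3 := m1.Q z z1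
    have z4 := m1.B p hpM z z1
    have z5 := sg_fix hq z3 u3 (φ.B_symm_zero z4) (φ.B_symm_zero u1)
    obtain ⟨_, hj, h2⟩ := hS (sg φ z u) ⟨fun w hw => by
      simpa [sg_app hq z3 u3, m1.B z z1 w hw] using add_mem hw (M.smul_mem _ z1), ⟨1, by simp [z5]⟩, sg_E hq z3 u3⟩
    obtain ⟨v, hv, rfl⟩ := (mem_QQ hq).1 hj
    have h3 := mul_mem (inv_mem h2) (mul_mem (mul_mem hfH h2) (inv_mem hfH))
    rw [← conj_mul, sg_conj hq _ z3 u3, sg_conj hq _ hp (hL v hv)] at h3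
    simp only [rot_app hq hf c2, z2, z4, u1, u2, hL v hv, hfp, hf.Bee, mul_zero, zero_smul, add_zero, mul_one, mul_inv_rev, mul_assoc,
      inv_mul_cancel_left] at h3
    rw [show p + (c * c - 1) • p = (c * c) • p by module, sg_smul hq hp (by simp [hL v hv, hf.Bee]), ← sg_neg hq hp (hL v hv),
      ← sg_add hq hp (by simp [hL v hv]) (by simp [hL v hv, hf.Bee])] at h3
    have h4 := sub_mem ((m3 _).1 ((mem_A hq hp).2 ⟨by simp [hL v hv, hf.Bee], h3⟩)) (M.smul_mem (c * c * ((c * c - 1) * φ.B f v)) hpM)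
    rw [show -v + (c * c) • (v + ((c * c - 1) * φ.B f v) • p) - (c * c * ((c * c - 1) * φ.B f v)) • p = (c * c - 1) • v by module,
      M.smul_mem_iff (sub_ne_zero.2 c1)] at h4
    exact (mul_mem_cancel_right ((mem_A hq hp).1 ((m3 v).2 h4)).2).1 h2
  have hfA : ∀ z ∈ M, φ.B f z = 0 → z ∈ A hq H f := fun z z1 z2 => by
    by_cases h2 : Fu hq H f
    · exact h2 z z2
    obtain ⟨-, M', n1, n2, n3⟩ := solid_A hq hd hk hm hr hf.Qf hf.f_ne_zero h2
    rw [n3, ← n1.perp_eq (by omega)]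
    intro y hy
    by_contra h3
    have z3 := m1.Q z z1
    have hfM : f ∈ M' := (n3 f).1 (by simpa using self_A hq hf.Qf 1)
    obtain ⟨W, w1, w2, w3⟩ := ex_nondeg φ (Submodule.span F {p, f} ⊔ F ∙ z)
    obtain ⟨u, u1, u2⟩ := w1.exists_Q_ne_zero hq.exists_T fun e => by
      have := Submodule.finrank_mono (inf_le_left (a := Submodule.span F {p, f} ⊔ F ∙ z) (b := φ.perp (Submodule.span F {p, f} ⊔ F ∙ z)))
      have := rank_sup (Submodule.span F {p, f}) (F ∙ z)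
      have := hf.finrank_span; have := finrank_span_singleton_le (F := F) z
      rw [e, finrank_bot] at w3; omega
    have u3 := w2 u1
    simp only [φ.perp_sup, Submodule.mem_inf, φ.mem_perp_pair, φ.mem_perp_singleton] at u3
    have h4 := sub_mem ((n3 _).1 (A_conj hq hf.Qf hf.Qf one_ne_zero (key z z1 z2 u u3.1.1 u3.1.2 u3.2) (by
      simp [sg_fix hq z3 u3.2 (φ.B_symm_zero z2) (φ.B_symm_zero u3.1.2)]) ((n3 y).2 hy))) hy
    rw [one_smul, sg_app hq z3 u3.2, show ∀ a b c : V, y + a - b - c - y = (a - c) - b from fun a b c => by abel, ← sub_smul] at h4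
    simpa [hq.Q_sub, hq.Q_smul, z3, u3.2, u2, hq.B_comm z y, h3] using n1.Q _ h4
  have hFu : ∀ z ∈ M ⊓ φ.perp (F ∙ f), Fu hq H z := fun z ⟨z1, z2⟩ u hu => by
    have z3 := m1.Q z z1
    have z4 := m1.B p hpM z z1
    replace z2 := φ.mem_perp_singleton.1 z2
    have h2 := φ.mem_perp_pair.1 (hf.proj_mem u)
    have h4 : φ.B z (u - (φ.ε * φ.B f u) • p - φ.B p u • f) = 0 := by simp [hu, φ.B_symm_zero z2, φ.B_symm_zero z4]
    have h3 := (mem_A hq z3).2 ⟨h4, key z z1 z2 _ h2.1 h2.2 h4⟩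
    simpa using add_mem (add_mem h3 (A_swap hq hf.Qf z3 z2 (hfA _ (M.smul_mem (φ.B p u) z1) (by simp [z2]))))
      (A_swap hq hp z3 z4 ((m3 _).2 (M.smul_mem (φ.ε * φ.B f u) z1)))
  let D : Set V := {z | φ.Q z = 0 ∧ Fu hq H z}
  have hB' : Submodule.span F D ≤ φ.perp (Submodule.span F D) := Submodule.span_le.2 fun v hv => φ.mem_perp_span.2 fun u hu =>
    by_contra fun e => hH (E_le_of_full (hu.2.full hq hu.1) hu.1 (hv.2.full hq hv.1) hv.1 e)
  have hT' : φ.TS (Submodule.span F D) := hq.ts fun v hv => Submodule.span_induction (fun _ h => h.1) φ.Q_zero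
    (fun a b ha hb h1 h2 => by rw [hq.Q_add, h1, h2, hB' hb a ha]; simp) (fun c a _ h => by simp [hq.Q_smul, h]) hv
  have r2 := φ.finrank_inf_perp_singleton hpM (hfp ▸ one_ne_zero)
  have l2 : M ⊓ φ.perp (F ∙ f) ≤ Submodule.span F D := fun z hz => Submodule.subset_span ⟨m1.Q z hz.1, hFu z hz⟩
  obtain ⟨a, a1, a2⟩ := ex_flag (M := M ⊓ φ.perp (F ∙ f)) (j := 0) (by omega) ⊥ (by simp)
  have r3 := finrank_span_singleton (K := F) (v := a) (by simpa using a2)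
  obtain ⟨b, b1, b2⟩ := ex_flag (M := M ⊓ φ.perp (F ∙ f)) (j := 1) (by omega) (F ∙ a) r3.le
  obtain ⟨d, d1, d2⟩ := ex_flag (M := M ⊓ φ.perp (F ∙ f)) (j := 2) (by omega) ((F ∙ a) ⊔ F ∙ b) (by rw [finrank_sup_singleton b2, r3])
  refine (solid hq hd hT hT' (l2 a1) (l2 b1) (l2 d1) (by simpa using a2) b2 d2).2.trans (rel_anti _ fun g hg w hw => ?_)
  exact (Submodule.span_le (p := (Submodule.span F D).comap (g.1 : V →ₗ[F] V))).2 (fun u hu => Submodule.subset_span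
    ⟨(Q_act g u).trans hu.1, hu.2.conj hq hu.1 ((Q_act g u).trans hu.1) one_ne_zero hg (one_smul _ _).symm⟩) hw

end NoReg

theorem hyp {r : V} (hr : φ.Q r = 0) (hr0 : r ≠ 0) (hR : Rg hq H r) (hp : φ.Q p = 0) (hp0 : p ≠ 0) (h1 : ¬ Fu hq H p) (h2 : ¬ Rg hq H p) :
    ∃ v, φ.B p v = 0 ∧ (∀ w, φ.B p w = 0 → φ.B v w = 0 → w ∈ A hq H p) ∧ v ∉ F ∙ p ∧
      ∀ y, φ.Q y = 0 → y ≠ 0 → φ.B p y = 0 → (Rg hq H y ↔ φ.B v y ≠ 0) := by
  have hq1 := Finite.one_lt_card (α := F)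
  have hi : ix H p < 2 * Nat.card F ^ (k + 1) := by
    have := (sum_ix hq hd hk hp hp0 hr hr0).resolve_left fun ⟨g, hg, c, hc, e⟩ => h2 (hR.conj hq hp hr hc hg e)
    have := hR.ix hq hd hr hr0
    have := Nat.mul_le_mul_left (Nat.card F ^ k) hq1
    simp only [pow_succ] at *; nlinarith
  have key : ∀ x, Fl φ p x → (¬ ∀ c : F, c • x ∈ A hq H p) → (∃ w ∈ A hq H p, φ.B x w ≠ 0) →
      Rg hq H x ∧ ∀ w, φ.B p w = 0 → ∃ c : F, w + c • x ∈ A hq H p := fun x h hΞ hC => by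
    obtain ⟨a, b⟩ := loc hq h hd hk hΞ hC (ix_lt hq hd hk hm p)
    replace b := b.resolve_right fun e => by
      have := e.1; have := Nat.mul_le_mul_left (Nat.card F ^ (k + 1)) hq1
      rw [pow_succ _ (k + 1)] at *; omega
    refine ⟨reg_of hq hd hk hm h hΞ b.2, fun w hw => ?_⟩
    obtain ⟨u, u1, u2⟩ := a.resolve_right hi.not_ge (φ.B x w)
    obtain ⟨-, c, hc⟩ := b.1 (φ.mem_perp_pair.2 ⟨show φ.B p (w - u) = 0 by simp [hw, A_B hq u1], by simp [u2]⟩)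
    exact ⟨c, by convert add_mem hc u1 using 1; abel⟩
  obtain ⟨x, h, hΞ, hC⟩ := adm hq hd hk hm hp hp0 h1 h2
  obtain ⟨v, v1, v2, v3⟩ : ∃ v, φ.B p v = 0 ∧ v ∉ F ∙ p ∧ ∀ w ∈ A hq H p, φ.B v w = 0 := by
    by_cases hx : ∃ y, Fl φ p y ∧ ∀ w ∈ A hq H p, φ.B y w = 0
    · exact let ⟨y, a, b⟩ := hx; ⟨y, a.b, a.ne, b⟩
    push Not at hx
    have hs : ∀ e ∈ A hq H p, φ.Q e = 0 → ∀ c : F, c • e ∈ A hq H p := fun e he hQ => by
      by_cases h3 : e ∈ F ∙ p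
      · obtain ⟨d, rfl⟩ := Submodule.mem_span_singleton.1 h3
        exact fun c => by rw [smul_smul]; exact self_A hq hp _
      have f : Fl φ p e := ⟨hp, hQ, A_B hq he, hp0, h3⟩
      by_contra h4
      exact f.symm.ne ((key e f h4 (hx e f)).1 p (by simpa using A_swap hq hp hQ f.b (c := 1) (by simpa using he)))
    obtain ⟨y, -, y1, y2, y3⟩ := (hq.std (by omega)).exists_sing_orth ⊤ (Submodule.span F {p, x}) [p, x] (by simp [h.rank]; omega)
    obtain ⟨c, hc⟩ := (key x h hΞ hC).2 y (y3 p (by simp))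
    have e1 : φ.Q (y + c • x) = 0 := by simp [hq.Q_add, hq.Q_smul, y2, h.qx, φ.B_symm_zero (y3 x (by simp))]
    obtain ⟨w, w1, w2⟩ := hx _ ⟨hp, e1, A_B hq hc, hp0, fun e => y1 (by
      simpa using sub_mem (Submodule.span_mono (by simp) e) (Submodule.smul_mem _ c (mem_r p x)))⟩
    generalize y + c • x = e at *
    have h3 : ∀ u ∈ A hq H p, φ.B e u ≠ 0 → ∀ d : F, d • u ∈ A hq H p := fun u hu h3 d => by
      simpa [smul_sub, smul_smul] using add_mem (hs _ (sub_mem hu (hs e hc e1 (φ.Q u / φ.B e u))) (by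
        simp [hq.Q_sub, hq.Q_smul, e1, hq.B_comm u e, h3]) d) (hs e hc e1 (d * (φ.Q u / φ.B e u)))
    let W : Submodule F V := ⟨(A hq H p).toAddSubmonoid, fun d u hu => by
      by_cases h4 : φ.B e u = 0
      · simpa using sub_mem (h3 _ (add_mem hu w1) (by simpa [h4]) d) (h3 w w1 w2 d)
      · exact h3 u hu h4 d⟩
    obtain ⟨u, u1, u2⟩ : ∃ u, φ.B p u = 0 ∧ u ∉ W := by by_contra! e; exact h1 e
    obtain ⟨v, v1, v2⟩ := φ.exists_sep u2
    refine ⟨v, φ.B_symm_zero (v1 p (show p ∈ A hq H p by simpa using self_A hq (H := H) hp 1)), fun e => ?_, v1⟩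
    obtain ⟨d, rfl⟩ := Submodule.mem_span_singleton.1 e
    simp [u1] at v2
  have v4 : ∀ w, φ.B p w = 0 → φ.B v w = 0 → w ∈ A hq H p := fun w w1 w2 => by
    obtain ⟨c, hc⟩ := (key x h hΞ hC).2 w w1
    have : φ.B v x ≠ 0 := fun e => v2 (by
      rw [← φ.perp_perp (F ∙ p)]
      refine φ.mem_perp'.2 fun u hu => ?_
      obtain ⟨d, hd⟩ := (key x h hΞ hC).2 u (φ.mem_perp_singleton.1 hu)
      simpa [e] using v3 _ hd)
    have h3 : c = 0 := by simpa [w2, this] using v3 _ hc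
    simpa [h3] using hc
  refine ⟨v, v1, v4, v2, fun y y1 y0 y2 => ⟨fun hy e => ?_, fun e => ?_⟩⟩
  · obtain ⟨c, rfl⟩ := Submodule.mem_span_singleton.1 (hy p (by simpa using A_swap hq hp y1 y2 (c := 1) (by simpa using v4 y y2 e)))
    exact h2 (hy.conj hq hp y1 (left_ne_zero_of_smul hp0) (one_mem H) (one_smul _ _))
  · refine (key y ⟨hp, y1, y2, hp0, fun e' => e ?_⟩ (fun e' => e (v3 y (by simpa using e' 1))) ?_).1
    · obtain ⟨d, rfl⟩ := Submodule.mem_span_singleton.1 e'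
      simp [φ.B_symm_zero v1]
    · by_contra! h3
      obtain ⟨a, b, rfl⟩ := Submodule.mem_span_pair.1 (φ.perp_perp (Submodule.span F {p, v}) ▸ φ.mem_perp'.2 fun u hu =>
        h3 u (v4 u (φ.mem_perp_pair.1 hu).1 (φ.mem_perp_pair.1 hu).2) : y ∈ Submodule.span F {p, v})
      simp [hq.Q_comb, hp, v1] at y1
      exact e (by rcases y1 with y1 | y1 <;> simp [φ.B_symm_zero v1, hq.B_self, y1])

omit hm in
theorem min_index (hE : H ≤ φ.E) (hH : ¬ φ.E ≤ H) {b : ℕ} (hpt : ∀ v : V, v ≠ 0 → b ≤ (pt F v).relIndex φ.E)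
    (hb : b ≤ Nat.card F ^ k * (Nat.card F ^ 2 + Nat.card F + 2)) (h8 : k = 4 → φ.HasTS 4 →
      b ≤ (Nat.card F + 1) * (Nat.card F ^ 2 + 1) * Nat.card F ^ 3 ∨
        4 ≤ Nat.card F ∧ b ≤ (Nat.card F + 1) * (Nat.card F ^ 2 + 1) * (Nat.card F ^ 3 + 1)) : b ≤ H.relIndex φ.E := by
  by_contra! h0
  have hm := h0.trans_le hb
  have hq1 := Finite.one_lt_card (α := F)
  have hS := hq.std (by omega)
  by_cases hr : ∀ z, φ.Q z = 0 → z ≠ 0 → ¬ Rg hq H z
  · exact (noReg hq hd hk hm hr hE hH h8).not_gt h0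
  push Not at hr
  obtain ⟨r, hr, hr0, hR⟩ := hr
  have hc : ∀ y ∈ cone F H r, φ.Q y = 0 ∧ y ≠ 0 ∧ Rg hq H y := by
    rintro _ ⟨c, hc, g, hg, rfl⟩
    have : φ.Q (c • g • r) = 0 := by simp [hq.Q_smul, hr]
    exact ⟨this, smul_ne_zero hc fun e => hr0 ((smul_eq_zero_iff_eq g).1 e),
      hR.conj hq this hr hc (inv_mem hg) (by rw [smul_comm, inv_smul_smul])⟩
  have fin : ∀ S : Set V, (∀ y, φ.Q y = 0 → y ≠ 0 → Rg hq H y → y ∈ S) → ¬ S.ncard ≤ Nat.card F ^ (k + 2) * (Nat.card F - 1) :=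
    fun S h1 h2 => (((hpt r hr0).trans (pt_frac hr0 hE (((Set.ncard_le_ncard fun y hy => h1 y (hc y hy).1 (hc y hy).2.1 (hc y hy).2.2).trans
      h2).trans (Nat.mul_le_mul_right _ (hR.ix hq hd hr hr0)))))).not_gt h0
  by_cases hF : ∃ p, φ.Q p = 0 ∧ p ≠ 0 ∧ Fu hq H p
  · obtain ⟨p, hp, hp0, hF⟩ := hF
    obtain ⟨f, hf⟩ := φ.exists_hyp hp hp0
    refine fin {y | φ.Q y = 0 ∧ φ.B p y ≠ 0} (fun y y1 y0 y2 => ⟨y1, fun e => ?_⟩) ?_
    · obtain ⟨c, rfl⟩ := Submodule.mem_span_singleton.1 (y2 p (by simpa using A_swap hq hp y1 e (c := 1) (by simpa using hF y e)))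
      obtain ⟨w, -, w1, w2⟩ := φ.exists_orth ⊤ (F ∙ y) [y] (by simp [finrank_span_singleton y0]; omega)
      exact w1 (y2 w (hF.conj hq hp y1 (left_ne_zero_of_smul hp0) (one_mem H) (one_smul _ _) w (w2 y (by simp))))
    · have := hf.finrank_perp
      rw [← show finrank F (φ.perp (Submodule.span F {p, f})) = k + 2 by omega, ← card_sub, ← Nat.card_units, ← Nat.card_prod]
      refine Nat.card_le_card_of_injective (fun y => (⟨_, hf.proj_mem y.1⟩, Units.mk0 _ y.2.2)) fun y z e => Subtype.ext ?_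
      simp only [Prod.mk.injEq, Subtype.mk.injEq, Units.mk0_inj] at e
      have key : ∀ y, φ.Q y = 0 → φ.Q (y - (φ.ε * φ.B f y) • p - φ.B p y • f) = -(φ.B f y * φ.B p y) := fun y hy => by
        simp [hq.Q_sub, hq.Q_smul, hy, hp, hf.Qf, hq.ε_eq, hq.σ_eq, hf.Bef, hq.B_comm y]
      have h1 := key y y.2.1
      rw [e.1, key z z.2.1, e.2, neg_inj, mul_left_inj' z.2.2] at h1
      simpa [h1, e.2] using e.1
  push Not at hF
  by_cases hD : ∀ z, φ.Q z = 0 → z ≠ 0 → Rg hq H z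
  · obtain ⟨x, -, x1, x2, x3⟩ := hS.exists_sing_orth ⊤ (F ∙ r) [r] (by simp [finrank_span_singleton hr0]; omega)
    have hL : ∀ u ∈ φ.perp (F ∙ r), φ.B r u = 0 := fun _ => φ.mem_perp_singleton.1
    refine no_reg hq ⟨hr, x2, x3 r (by simp), hr0, x1⟩ hD (fun g hg => ?_) (by omega)
    obtain ⟨_, h1, h2⟩ := of_semiregular (H := H) (P := QQ hq hr hL) (E := φ.E) (fun g hg => by
      obtain ⟨u, hu, rfl⟩ := (mem_QQ hq).1 hg; exact sg_E hq hr (hL u hu)) (fun g _ => eq_bot_iff.2 (by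
        rintro _ ⟨h1, _, h2, rfl⟩
        obtain ⟨u, hu, rfl⟩ := (mem_QQ hq).1 h2
        have h3 : (MulAut.conj g).toMonoidHom (sg φ r u) = _ := sg_conj hq g hr (hL u hu)
        have h4 : φ.Q (g • r) = 0 := by simp [hr]
        rw [h3] at h1 ⊢
        obtain ⟨c, hc⟩ := Submodule.mem_span_singleton.1 (hD _ h4 (fun e => hr0 ((smul_eq_zero_iff_eq g).1 e)) _
          ((mem_A hq h4).2 ⟨by simp [hL u hu], h1⟩))
        rw [← hc, sg_self hq h4]; exact one_mem _)) (by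
        have := (hR.rel hq hd hr0).trans_eq (rel_QQ hq hr hL H).symm
        have := (rel_anti (QQ hq hr hL) (bot_le (a := H))).trans_eq (relIndex_bot_left _)
        have := Nat.mul_le_mul_left (Nat.card F ^ k) (show Nat.card F ^ 2 + Nat.card F + 2 ≤ 2 * Nat.card F ^ 2 by nlinarith)
        rw [pow_add] at *; linarith) hg
    obtain ⟨u, hu, rfl⟩ := (mem_QQ hq).1 h1
    exact ⟨u, hL u hu, h2⟩
  push Not at hD
  have hy := fun {p} hp hp0 => hyp hq hd hk hm hr hr0 hR (p := p) hp hp0 (hF p hp hp0)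
  obtain ⟨p, z, hz, hp, hz'⟩ : ∃ p z, φ.IsHyp p z ∧ ¬ Rg hq H p ∧ ¬ Rg hq H z := by
    obtain ⟨p, hp, hp0, h⟩ := hD
    obtain ⟨v, -, -, -, h1⟩ := hy hp hp0 h
    obtain ⟨e, he, f, hf, h2⟩ := ex_hyp hS (Submodule.span F {p, v}) (by have := finrank_span_pair_le (F := F) p v; omega)
    rw [φ.mem_perp_pair] at he hf
    exact ⟨e, f, h2, fun a => (h1 e h2.Qe h2.e_ne_zero he.1).1 a he.2, fun a => (h1 f h2.Qf h2.f_ne_zero hf.1).1 a hf.2⟩
  obtain ⟨v, v0, v1, v2, v3, v4⟩ : ∃ v, φ.B z v = 0 ∧ φ.B p v = 0 ∧ (∀ w, φ.B p w = 0 → φ.B v w = 0 → w ∈ A hq H p) ∧ v ∉ F ∙ p ∧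
      ∀ y, φ.Q y = 0 → y ≠ 0 → φ.B p y = 0 → (Rg hq H y ↔ φ.B v y ≠ 0) := by
    obtain ⟨v, v1, v2, v3, v4⟩ := hy hz.Qe hz.e_ne_zero hp
    exact ⟨v - φ.B z v • p, by simp [hz.Bfe, hq.ε_eq], by simp [v1, hz.Bee], fun w a b => v2 w a (by simpa [a] using b),
      fun e => v3 (by simpa using add_mem e (mem_sp p (φ.B z v))), fun y a b c => by simpa [c] using v4 y a b c⟩
  have hv0 : v ≠ 0 := fun e => v3 (e ▸ zero_mem _)
  obtain ⟨s, s1, s2, s3⟩ : ∃ s, φ.Q s = 0 ∧ Rg hq H s ∧ φ.B p s = 1 := by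
    by_contra! e
    refine fin ((φ.perp (F ∙ p) : Set V) \ φ.perp (Submodule.span F {p, v})) (fun y y1 y0 y2 => ?_) ?_
    · have : φ.B p y = 0 := by_contra fun e' => e ((φ.B p y)⁻¹ • y) (by simp [hq.Q_smul, y1])
        (y2.conj hq (by simp [hq.Q_smul, y1]) y1 (inv_ne_zero e') (one_mem H) (one_smul _ _)) (by simp [e'])
      exact ⟨φ.mem_perp_singleton.2 this, fun e' => (v4 y y1 y0 this).1 y2 (φ.mem_perp_pair.1 e').2⟩
    · have r1 := φ.finrank_perp (F ∙ p)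
      have r2 := φ.finrank_perp (Submodule.span F {p, v})
      have r3 := finrank_span_pair_le (F := F) p v
      rw [finrank_span_singleton hz.e_ne_zero] at r1
      rw [Set.ncard_sdiff (φ.perp_anti (Submodule.span_mono (by simp))), Nat.mul_sub_one, ← pow_succ]
      exact (Nat.sub_le_sub_left (pow_le_card (by omega)) _).trans (Nat.sub_le_sub_right (card_le_pow (by omega)) _)
  have hDv : ∀ y, φ.Q y = 0 → y ≠ 0 → ¬ Rg hq H y → φ.B v y = 0 := fun y y1 y0 y2 => by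
    obtain ⟨x, -, x0, x1, x2⟩ := hS.exists_sing_orth ⊤ ⊥ [p, z, v, y] (by simp; omega)
    replace x0 : x ≠ 0 := by simpa using x0
    have x3 := φ.B_symm_zero (x2 p (by simp))
    have x4 := φ.B_symm_zero (x2 z (by simp))
    obtain ⟨u, -, -, -, u1⟩ := hy x1 x0 fun e => (v4 x x1 x0 (x2 p (by simp))).1 e (x2 v (by simp))
    have u2 : ∀ y, φ.Q y = 0 → y ≠ 0 → φ.B x y = 0 → ¬ Rg hq H y → φ.B u y = 0 := fun y a b c d => by_contra fun e => d ((u1 y a b c).2 e)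
    have u3 := u2 p hz.Qe hz.e_ne_zero x3 hp
    have u4 := u2 z hz.Qf hz.f_ne_zero x4 hz'
    have h1 := φ.mem_perp_pair.1 (hz.proj_mem y)
    generalize hw : y - (φ.ε * φ.B z y) • p - φ.B p y • z = w at h1
    have h2 : φ.B x w = 0 := by simp [← hw, x3, x4, φ.B_symm_zero (x2 y (by simp))]
    have h3 : φ.B u w = 0 := by simp [← hw, u3, u4, u2 y y1 y0 (φ.B_symm_zero (x2 y (by simp))) y2]
    have h4 : φ.B v w = φ.B v y := by simp [← hw, φ.B_symm_zero v0, φ.B_symm_zero v1]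
    by_contra h5
    generalize hw' : (φ.B v s / φ.B v y) • w = w' at *
    have a1 : φ.B p (z + w' - φ.Q w' • p) = 1 := by simp [← hw', h1.1, hz.Bef, hz.Bee]
    have a2 : φ.Q (z + w' - φ.Q w' • p) = 0 := by
      rw [hq.Q_sub, hq.Q_add]; simp [← hw', hq.Q_smul, hz.Qe, hz.Qf, h1.2, hz.Bfe, hq.ε_eq, φ.B_symm_zero h1.1]
    have a3 := sg_map hq hz.Qe (a2.trans s1.symm) (a1.trans s3.symm) (a1 ▸ one_ne_zero)
    rw [a1, inv_one, one_smul] at a3
    refine (u1 _ a2 (fun e => by simp [e] at a1) (by simp [← hw', h2, x3, x4])).1 (s2.conj hq a2 s1 one_ne_zero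
      ((mem_A hq hz.Qe).1 (v2 _ (by simp [a1, s3]) ?_)).2 (a3.trans (one_smul _ _).symm)) (by simp [← hw', h3, u3, u4])
    simp [← hw', h4, h5, φ.B_symm_zero v0, φ.B_symm_zero v1]
  refine ((hpt v hv0).trans (rel_anti _ fun g hg => ?_)).not_gt h0
  have hg' : ∀ y, φ.Q y = 0 → y ≠ 0 → ¬ Rg hq H y → φ.B (g • v) y = 0 := fun y a b c => by
    rw [← B_act g⁻¹, inv_smul_smul]
    exact hDv _ (by simp [a]) (fun e => b ((smul_eq_zero_iff_eq _).1 e)) fun e =>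
      c (e.conj hq a (by simp [a]) one_ne_zero (inv_mem hg) (one_smul _ _).symm)
  obtain ⟨e, he, f, hf, h2⟩ := ex_hyp hS (Submodule.span F {p, v}) (by have := finrank_span_pair_le (F := F) p v; omega)
  obtain ⟨a, c, e'⟩ := Submodule.mem_span_pair.1 (φ.perp_le_perp_iff.1 (hq.le_of_sing_mem (A := φ.perp (F ∙ g • v)) h2 he hf fun y y1 y2 =>
    φ.mem_perp_singleton.2 ((em (y = 0)).elim (fun h => by simp [h]) fun h => hg' y y2 h fun e =>
      (v4 y y2 h (φ.mem_perp_pair.1 y1).1).1 e (φ.mem_perp_pair.1 y1).2)) (Submodule.mem_span_singleton_self _))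
  have : a = 0 := by simpa [← e', hz.Bef, φ.B_symm_zero v0] using hg' z hz.Qf hz.f_ne_zero hz'
  exact ⟨c, by simp [← e', this]⟩

end H24.MD.O
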