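import Cfsg.Agent.H24.MDO3
import Cfsg.Agent.H24.Wall3

/-!
# Minimal degree of the orthogonal groups: point counts and transfer to `POmega` (namespace `H24.MD`)

* `bridge` (transfer to `E ⧸ Z(E)`), `pt_sing`, `O.final`, `O.cnt_odd_ge`, `O.cnt_odd_eq`, `O.cnt_even_ge`
-/

set_option autoImplicit false
set_option linter.unusedSectionVars false

open Subgroup H20 H10 H10.Form Module

namespace H24.MD

theorem bridge {G G' : Type*} [Group G] [Finite G] [Group G'] {E P : Subgroup G} (e : G' ≃* E ⧸ center E) {b : ℕ}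
    (h : ∀ H ≤ E, ¬ E ≤ H → b ≤ H.relIndex E) (hP : center E ≤ P.subgroupOf E) (hb : P.relIndex E = b) :
    (∀ H : Subgroup G', H ≠ ⊤ → b ≤ H.index) ∧ ∃ H : Subgroup G', H.index = b := by
  obtain ⟨h1, H, h2⟩ := quot_min (G := E) (fun H hH => by
    have := h (H.map E.subtype) (map_subtype_le H) fun hE => hH (eq_top_iff.2 fun x _ => by
      obtain ⟨y, hy, e⟩ := hE x.2; exact Subtype.ext e ▸ hy)
    rwa [relIndex, subgroupOf, comap_map_eq_self_of_injective E.subtype_injective] at this) hP hb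
  refine ⟨fun H hH => ?_, H.comap (e : G' →* _), (index_comap_of_surjective _ e.surjective).trans h2⟩
  rw [← index_comap_of_surjective H (f := e.symm.toMonoidHom) e.symm.surjective]
  exact h1 _ fun h => hH (comap_injective (f := e.symm.toMonoidHom) e.symm.surjective h)

variable {F V : Type*} [Field F] [Finite F] [AddCommGroup V] [Module F V] [Finite V] {φ : Form F V} [φ.Nondeg] {v : V}

theorem pt_sing (h : ∀ z, φ.Q z = 0 → z ≠ 0 → ∃ g ∈ φ.E, g • v = z) (hv : φ.Q v = 0) (hv0 : v ≠ 0) :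
    (pt F v).relIndex φ.E * (Nat.card F - 1) + 1 = φ.cnt 0 := by
  rw [pt_index _ hv0, ← card_sing_add_one]
  congr 1
  refine congrArg Set.ncard (Set.ext (b := {v | v ≠ 0 ∧ φ.Q v = 0}) fun y =>
    ⟨?_, fun hy => ⟨1, one_ne_zero, by simpa [eq_comm] using h y hy.2 hy.1⟩⟩)
  rintro ⟨c, hc, k, -, rfl⟩
  exact ⟨smul_ne_zero hc fun e => hv0 ((smul_eq_zero_iff_eq k).1 e), φ.Q_smul_of_sing (by simp [hv]) _⟩

theorem pt_nonsing (h : ∀ z, φ.Q z = φ.Q v → ∃ g ∈ φ.E, g • v = z) (hv0 : v ≠ 0) :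
    φ.cnt (φ.Q v) ≤ (pt F v).relIndex φ.E * (Nat.card F - 1) := by
  rw [pt_index _ hv0]
  exact Set.ncard_le_ncard (s := {z | φ.Q z = φ.Q v}) fun y hy => ⟨1, one_ne_zero, by simpa [eq_comm] using h y hy⟩

namespace O

theorem cnt_odd_ge (hq : φ.IsQuad) {m : ℕ} (hn : finrank F V = 2 * m + 1) (c : F) : Nat.card F ^ (2 * m) ≤ φ.cnt c + Nat.card F ^ m :=
  hyp_induction 1 (fun m _ _ _ φ => Nat.card F ^ (2 * m) ≤ φ.cnt c + Nat.card F ^ m) (by simp) (fun m V _ _ _ φ _ hq hn e f h H => by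
    have := Nat.mul_le_mul_left (Nat.card F) H
    obtain ⟨q, h1⟩ : ∃ q, Nat.card F = q + 1 := ⟨_, (Nat.succ_pred_eq_of_pos Nat.card_pos).symm⟩
    rw [hq.cnt_of_hyp h, hn, show 2 * (m + 1) + 1 - 2 = 2 * m + 1 by omega]
    rw [h1] at this ⊢; rw [Nat.add_sub_cancel]; ring_nf at this ⊢; omega) le_rfl m V φ hq hn

theorem cnt_odd_eq (hq : φ.IsQuad) {m : ℕ} (hn : finrank F V = 2 * m + 1) : ∃ c, c ≠ 0 ∧ φ.cnt c + Nat.card F ^ m = Nat.card F ^ (2 * m) :=
  hyp_induction 1 (fun m _ _ _ φ => ∃ c, c ≠ 0 ∧ φ.cnt c + Nat.card F ^ m = Nat.card F ^ (2 * m)) (fun V _ _ _ φ _ hq hn => by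
    have := Module.finite_of_finite F (M := V)
    have := Module.nontrivial_of_finrank_pos (R := F) (M := V) (by omega)
    obtain ⟨v, hv⟩ := exists_ne (0 : V)
    obtain ⟨c, hc⟩ : ∃ c, ∀ v, φ.Q v ≠ c := by
      by_contra! h
      have := (Function.Surjective.bijective_of_nat_card_le h (by rw [Module.natCard_eq_pow_finrank (K := F), hn, pow_one])).1 (φ.Q_neg v)
      exact hv ((smul_eq_zero.1 (show (2 : F) • v = 0 by rw [two_smul, ← eq_neg_iff_add_eq_zero, this])).resolve_left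
        (hq.two_ne_zero_of_odd (by simp [hn])))
    exact ⟨c, fun e => hc 0 (by simp [e]), by simp [cnt, hc]⟩) (fun m V _ _ _ φ _ hq hn e f h ⟨c, hc, H⟩ => ⟨c, hc, by
    have := congrArg (Nat.card F * ·) H
    obtain ⟨q, h1⟩ : ∃ q, Nat.card F = q + 1 := ⟨_, (Nat.succ_pred_eq_of_pos Nat.card_pos).symm⟩
    rw [hq.cnt_of_hyp h, hn, show 2 * (m + 1) + 1 - 2 = 2 * m + 1 by omega]
    rw [h1] at this ⊢; rw [Nat.add_sub_cancel]; ring_nf at this ⊢; omega⟩) le_rfl m V φ hq hn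

theorem cnt_even_ge (hq : φ.IsQuad) {m : ℕ} (hn : finrank F V = 2 * m + 2) {c : F} (hc : c ≠ 0) :
    Nat.card F ^ (2 * m + 1) ≤ φ.cnt c + Nat.card F ^ m :=
  hyp_induction 2 (fun m _ _ _ φ => Nat.card F ^ (2 * m + 1) ≤ φ.cnt c + Nat.card F ^ m) (fun V _ _ _ φ _ hq hn => by
    by_cases ha : ∀ v, φ.Q v = 0 → v = 0
    · simp [hq.cnt_of_aniso_two hn ha hc]; omega
    · push Not at ha
      obtain ⟨v, h1, h2⟩ := ha
      obtain ⟨f, hf⟩ := φ.exists_hyp h1 h2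
      simp [hq.cnt_of_hyp hf, hn]; omega) (fun m V _ _ _ φ _ hq hn e f h H => by
    have := Nat.mul_le_mul_left (Nat.card F) H
    obtain ⟨q, h1⟩ : ∃ q, Nat.card F = q + 1 := ⟨_, (Nat.succ_pred_eq_of_pos Nat.card_pos).symm⟩
    rw [hq.cnt_of_hyp h, hn, show 2 * (m + 1) + 2 - 2 = 2 * m + 2 by omega]
    rw [h1] at this ⊢; rw [Nat.add_sub_cancel]; ring_nf at this ⊢; omega) (by omega) m V φ hq hn

theorem final {ι : Type} [Fintype ι] [DecidableEq ι] (Q : QuadraticForm F (ι → F)) [(Form.ofQuad Q).Nondeg] {k b : ℕ}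
    (hd : Fintype.card ι = k + 4) (hk : 3 ≤ k) (h0 : b * (Nat.card F - 1) + 1 ≤ (Form.ofQuad Q).cnt 0)
    (h1 : ∀ c, c ≠ 0 → b * (Nat.card F - 1) ≤ (Form.ofQuad Q).cnt c ∨ b * 2 ≤ (Form.ofQuad Q).cnt c)
    (hb : b * (Nat.card F - 1) ≤ Nat.card F ^ (k + 3) + Nat.card F ^ k * (Nat.card F - 2))
    (h8 : k = 4 → (Form.ofQuad Q).HasTS 4 → b ≤ (Nat.card F + 1) * (Nat.card F ^ 2 + 1) * Nat.card F ^ 3 ∨
        4 ≤ Nat.card F ∧ b ≤ (Nat.card F + 1) * (Nat.card F ^ 2 + 1) * (Nat.card F ^ 3 + 1))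
    (he : b * (Nat.card F - 1) + 1 = (Form.ofQuad Q).cnt 0 ∨ Nat.card F ≤ 3 ∧ ∃ c, c ≠ 0 ∧ b * (Nat.card F - 1) = (Form.ofQuad Q).cnt c) :
    (∀ H : Subgroup (Cfsg.POmega F Q), H ≠ ⊤ → b ≤ H.index) ∧ ∃ H : Subgroup (Cfsg.POmega F Q), H.index = b := by
  have e := pOmegaEquiv (isometryEquiv Q)
  have hq := isQuad_ofQuad Q
  replace hd : finrank F (ι → F) = k + 4 := by simpa using hd
  generalize Form.ofQuad Q = φ at *
  have hq1 := Finite.one_lt_card (α := F)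
  obtain ⟨p, f, hf⟩ := hq.exists_hyp_of_three_le (by omega)
  have tr : ∀ v z, v ≠ 0 → z ≠ 0 → φ.Q z = φ.Q v → ∃ g ∈ φ.E, g • v = z := fun v z a b c => (hq.big (by omega)).exists_E_map hf a b c.symm
  have tr' : ∀ v, φ.Q v ≠ 0 → ∀ z, φ.Q z = φ.Q v → ∃ g ∈ φ.E, g • v = z := fun v a z c =>
    tr v z (fun e => a (by simp [e])) (fun e => a (by simp [← c, e])) c
  have ps := fun v a b => pt_sing (φ := φ) (v := v) (fun z c d => tr v z b d (c.trans a.symm)) a b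
  rw [← hq.E_eq_commutator (hq.good_of_finrank (by omega)) (by omega)] at e
  have key : ∀ v : ι → F, (pt F v).relIndex φ.E = b → _ := fun v => bridge e (P := pt F v) (fun H h2 h3 => min_index hq hd hk h2 h3 (fun v hv => ?_) ?_ h8)
    fun g hg => ?_
  · obtain he | ⟨h3, c, hc, he⟩ := he
    · exact key p (Nat.eq_of_mul_eq_mul_right (by omega) (Nat.succ_injective ((ps p hf.Qe hf.e_ne_zero).trans he.symm)))
    obtain ⟨v, -, rfl⟩ := hq.exists_Q_eq φ.nondegOn_top (by rw [finrank_top]; omega) c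
    refine key v (Nat.eq_of_mul_eq_mul_right (show 0 < Nat.card F - 1 by omega) ?_)
    rw [he, pt_index _ fun e => hc (by simp [e])]
    refine congrArg Set.ncard (Set.ext (b := {z | φ.Q z = φ.Q v}) fun y =>
      ⟨?_, fun hy => ⟨1, one_ne_zero, by simpa [eq_comm] using tr' v hc y hy⟩⟩)
    rintro ⟨c, hc, k, -, rfl⟩
    have := Fintype.ofFinite F
    have h4 := FiniteField.pow_card_sub_one_eq_one c hc
    rw [← Nat.card_eq_fintype_card] at h4
    have : c * c = 1 := by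
      rcases (by omega : Nat.card F = 2 ∨ Nat.card F = 3) with e | e <;> rw [e] at h4
      · simp [show c = 1 by simpa using h4]
      · exact sq c ▸ h4
    simp [hq.Q_smul, this]
  · by_cases h4 : φ.Q v = 0
    · exact Nat.le_of_mul_le_mul_right (Nat.le_of_succ_le_succ (h0.trans_eq (ps v h4 hv).symm)) (by omega)
    obtain h5 | h5 := h1 _ h4
    · exact Nat.le_of_mul_le_mul_right (h5.trans (pt_nonsing (tr' v h4) hv)) (by omega)
    refine Nat.le_of_mul_le_mul_right (h5.trans ((ncard_le_act (pt F v) φ.E (· • ·) (fun _ _ _ _ => mul_smul _ _) v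
      (O := {z | φ.Q z = φ.Q v}) (S := {v, -v}) (tr' v h4) ?_).trans (Nat.mul_le_mul_left _ ((Set.ncard_insert_le _ _).trans_eq (by simp))))) two_pos
    rintro j - ⟨c, hc⟩
    have := Q_act j v
    rw [hc, hq.Q_smul, mul_eq_right₀ h4, mul_self_eq_one_iff] at this
    rcases this with rfl | rfl <;> simp [hc]
  · refine Nat.le_of_mul_le_mul_right (hb.trans_eq ?_) (show 0 < Nat.card F - 1 by omega)
    obtain ⟨q, h1⟩ : ∃ q, Nat.card F = q + 2 := ⟨Nat.card F - 2, by omega⟩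
    simp only [h1, Nat.add_sub_cancel, show q + 2 - 1 = q + 1 from rfl]; ring
  · obtain ⟨c, hc⟩ := (mem_center_E_iff ((hq.big (by omega)).conn hf) hf).1 hg
    exact ⟨c, hc v⟩

end O

end H24.MD
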