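import Cfsg.Agent.H24.MD1
import Cfsg.Agent.L.SLRep

/-!
# Minimal index of a proper subgroup of `SL_n(q)` (namespace `H24.MD.SL`)

* `no_reg` : a subgroup `H` with `G = H Q_e` for all points `e` contains a transvection
* `min_index`
-/

set_option autoImplicit false
set_option linter.unusedSectionVars false

open Subgroup H20 L.SR Matrix Module

namespace H24.MD.SL

variable {ι : Type} [Fintype ι] [DecidableEq ι] {F : Type*} [Field F] [Finite F]

local notation "G" => Matrix.SpecialLinearGroup ι F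

theorem ex_notMem {k : ℕ} (w : Fin k → ι → F) (h : k < Fintype.card ι) : ∃ y, y ∉ Submodule.span F (Set.range w) := by
  by_contra! hc
  have := finrank_range_le_card (R := F) w
  rw [Set.finrank, Submodule.eq_top_iff'.2 hc] at this
  simp at this; omega

theorem ex_dot {k : ℕ} (w : Fin k → ι → F) {y : ι → F} (h : y ∉ Submodule.span F (Set.range w)) :
    ∃ φ : ι → F, φ ⬝ᵥ y = 1 ∧ ∀ i, φ ⬝ᵥ w i = 0 := by
  obtain ⟨φ, h1, h2⟩ := H09.exists_dot_eq_one h
  exact ⟨φ, h1, fun i => h2 _ (Submodule.subset_span ⟨i, rfl⟩)⟩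

theorem ex_one {γ : ι → F} (h : γ ≠ 0) : ∃ y, γ ⬝ᵥ y = 1 := by
  obtain ⟨y, h1, -⟩ := H09.exists_dot_eq_one (W := ⊥) (u := γ) (by simpa using h)
  exact ⟨y, by rwa [dotProduct_comm]⟩

section Reg

variable {H : Subgroup (Matrix.SpecialLinearGroup ι F)} {e x : ι → F}

/-- `tvS x γ * tvS e φ ∈ H` -/
structure R (H : Subgroup G) (e x γ φ : ι → F) : Prop where
  e0 : γ ⬝ᵥ e = 0
  x0 : γ ⬝ᵥ x = 0
  p0 : φ ⬝ᵥ e = 0
  mem : tvS x γ * tvS e φ ∈ H

theorem R.add {γ φ γ' φ' : ι → F} (h : R H e x γ φ) (h' : R H e x γ' φ') : R H e x (γ + γ') (φ + φ' + (φ ⬝ᵥ x) • γ') := by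
  have h1 : (γ + γ') ⬝ᵥ x = 0 := by simp [h.x0, h'.x0]
  have h2 : (φ + φ' + (φ ⬝ᵥ x) • γ') ⬝ᵥ e = 0 := by simp [h.p0, h'.p0, h'.e0]
  refine ⟨by simp [h.e0, h'.e0], h1, h2, ?_⟩
  convert mul_mem h.mem h'.mem using 1
  refine sl_ext fun y => ?_
  simp only [mul_smul, tvS_smul h1, tvS_smul h2, tvS_smul h.x0, tvS_smul h.p0, tvS_smul h'.x0, tvS_smul h'.p0, dotProduct_add,
    dotProduct_smul, add_dotProduct, smul_dotProduct, h.e0, h.x0, h.p0, h'.e0, h'.x0, h'.p0, smul_eq_mul]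
  module

variable (hr : ∀ v φ : ι → F, v ≠ 0 → φ ⬝ᵥ v = 0 → tvS v φ ∈ H → φ = 0) (he : e ≠ 0) (hx : x ∉ F ∙ e)
  (hs : ∀ g : Matrix.SpecialLinearGroup ι F, ∃ ψ, ψ ⬝ᵥ e = 0 ∧ g * tvS e ψ ∈ H)
include hr he

theorem R.uniq {γ φ φ' : ι → F} (h : R H e x γ φ) (h' : R H e x γ φ') : φ = φ' := by
  have h1 : (φ' - φ) ⬝ᵥ e = 0 := by simp [h.p0, h'.p0]
  refine (sub_eq_zero.1 (hr _ _ he h1 ?_)).symm
  have := mul_mem (inv_mem h.mem) h'.mem
  rwa [show φ' = φ + (φ' - φ) by abel, tvS_add h.p0 h1, ← mul_assoc (tvS x γ), inv_mul_cancel_left] at this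

omit hr he in
include hs in
theorem R.inv {g : G} {b : F} (h1 : g • e = e) (h2 : g • x = b • x) :
    ∃ l : F, ∀ γ φ, R H e x γ φ → R H e x (b • cov g γ) (cov g φ + l • cov g γ) := by
  obtain ⟨ψ, hψ, hk⟩ := hs g
  refine ⟨ψ ⬝ᵥ x, fun γ φ h => ?_⟩
  have e0 : ∀ θ, θ ⬝ᵥ e = 0 → cov g θ ⬝ᵥ e = 0 := fun θ h => by rw [← h, ← cov_dot_smul g θ, h1]
  have x0 : (b • cov g γ) ⬝ᵥ x = 0 := by rw [← h.x0, ← cov_dot_smul g γ, h2]; simp
  have c0 : ∀ θ, θ ⬝ᵥ e = 0 → cov (g * tvS e ψ) θ = cov g θ := fun θ h => dot_ext fun y => by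
    obtain ⟨y, rfl⟩ := MulAction.surjective (g * tvS e ψ) y
    simp only
    rw [cov_dot_smul, mul_smul, cov_dot_smul, tvS_smul hψ]; simp [h]
  have p0 : (cov g φ + (ψ ⬝ᵥ x) • cov g γ) ⬝ᵥ e = 0 := by simp [e0 _ h.e0, e0 _ h.p0]
  refine ⟨by simp [e0 _ h.e0], x0, p0, ?_⟩
  have := mul_mem (mul_mem hk h.mem) (inv_mem hk)
  rw [← conj_mul, tvS_conj _ h.x0, tvS_conj _ h.p0, c0 _ h.e0, c0 _ h.p0, mul_smul, mul_smul, tvS_smul hψ, tvS_smul hψ, hψ,
    zero_smul, add_zero, smul_add, smul_smul', h1, h2, tvS_add_left (by simpa using x0) (by simp [e0 _ h.e0]),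
    tvS_smul_left _ (e0 _ h.e0), mul_assoc, ← tvS_add (by simp [e0 _ h.e0]) (e0 _ h.p0), add_comm] at this
  convert this using 2
  refine sl_ext fun y => ?_
  rw [tvS_smul x0, tvS_smul (by simpa using x0)]; simp [mul_smul, smul_comm b]

include hx hs

theorem R.zero {γ φ : ι → F} (h : R H e x γ φ) (hγ : γ ≠ 0) : φ ⬝ᵥ x = 0 := by
  by_cases h2 : (2 : F) = 0
  · have h0 : ∀ θ : ι → F, θ + θ = 0 := fun θ => by rw [← two_smul F, h2, zero_smul]
    have := h.add h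
    rw [h0, h0, zero_add] at this
    simpa [hγ] using this.uniq hr he (φ' := 0) ⟨by simp, by simp, by simp, by simp [tvS_zero]⟩
  obtain ⟨y, hy⟩ := ex_one hγ
  obtain ⟨η, h3, h4⟩ := ex_dot ![e, y] (y := x) fun hc => by
    obtain ⟨b, a, rfl⟩ := Submodule.mem_span_pair.1 (by simpa using hc)
    have := h.x0
    simp only [dotProduct_add, dotProduct_smul, h.e0, hy, smul_eq_mul, mul_zero, add_zero, mul_one] at this
    exact hx (by rw [this, zero_smul, zero_add]; exact Submodule.smul_mem _ _ (Submodule.mem_span_singleton_self e))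
  have h5 : η ⬝ᵥ e = 0 := h4 0
  have h6 : η ⬝ᵥ y = 0 := h4 1
  have hw : ∀ z, (tvS x γ * tvS y (-η) * tvS x γ) • z = z + (γ ⬝ᵥ z - η ⬝ᵥ z) • x - (γ ⬝ᵥ z + η ⬝ᵥ z) • y := fun z => by
    simp only [mul_smul, tvS_smul h.x0, tvS_smul (show (-η) ⬝ᵥ y = 0 by simp [h6]), dotProduct_add, dotProduct_smul, neg_dotProduct,
      h.x0, h3, hy, smul_eq_mul]
    module
  generalize tvS x γ * tvS y (-η) * tvS x γ = w at hw
  have hg : (w * w) • x = (-1 : F) • x := by
    simp only [mul_smul, hw, dotProduct_add, dotProduct_sub, dotProduct_smul, h.x0, h3, hy, h6, smul_eq_mul]; module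
  obtain ⟨l, hl⟩ := R.inv hs (g := w * w) (by simp [mul_smul, hw, h.e0, h5]) hg
  have h7 : cov (w * w) γ = -γ := dot_ext fun z => by
    obtain ⟨z, rfl⟩ := MulAction.surjective (w * w) z
    simp only
    rw [cov_dot_smul]
    simp only [mul_smul, hw, dotProduct_add, dotProduct_sub, dotProduct_smul, neg_dotProduct, h.x0, h3, hy, h6, smul_eq_mul]; ring
  have h8 := hl _ _ h
  rw [h7, neg_one_smul, neg_neg] at h8
  have h9 := cov_dot_smul (w * w) φ x
  have h10 := congrArg (· ⬝ᵥ x) (h8.uniq hr he h)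
  simp only [hg, dotProduct_smul, add_dotProduct, smul_dotProduct, neg_dotProduct, h.x0, smul_eq_mul] at h9 h10
  exact (mul_eq_zero.1 (by linear_combination -h9 - h10 : 2 * (φ ⬝ᵥ x) = 0)).resolve_left h2

theorem R.key {γ φ : ι → F} (h : R H e x γ φ) (hγ : γ ≠ 0) : ∃ w, γ ⬝ᵥ w = 0 ∧ φ ⬝ᵥ w = 1 ∧ ∀ (c : F) δ θ, R H e x δ θ →
    R H e x (δ - (c * δ ⬝ᵥ w) • γ) (θ - (c * θ ⬝ᵥ w) • γ + c • (δ - (c * δ ⬝ᵥ w) • γ)) := by
  obtain ⟨w, h1, h2⟩ := ex_dot ![γ] (y := φ) fun hc => by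
    obtain ⟨c, rfl⟩ := Submodule.mem_span_singleton.1 (by simpa using hc)
    have := h.mem
    rw [← tvS_smul_left _ h.e0, ← tvS_add_left h.x0 (by simp [h.e0])] at this
    exact hγ (hr _ _ (fun e' => hx (by rw [eq_neg_of_add_eq_zero_left e']; simp [Submodule.smul_mem])) (by simp [h.e0, h.x0]) this)
  have h3 : γ ⬝ᵥ w = 0 := by rw [dotProduct_comm]; exact h2 0
  rw [dotProduct_comm] at h1
  refine ⟨w, h3, h1, fun c => ?_⟩
  have h4 : γ ⬝ᵥ (c • w) = 0 := by simp [h3]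
  have h5 : ∀ δ, cov (tvS (c • w) γ) δ = δ - (c * δ ⬝ᵥ w) • γ := fun δ => dot_ext fun z => by
    obtain ⟨z, rfl⟩ := MulAction.surjective (tvS (c • w) γ) z
    simp only
    rw [cov_dot_smul, tvS_smul h4]; simp [h3]; ring
  obtain ⟨l, hl⟩ := R.inv hs (x := x) (g := tvS (c • w) γ) (b := 1) (by simp [tvS_smul h4, h.e0]) (by simp [tvS_smul h4, h.x0])
  simp only [h5, one_smul] at hl
  have h6 := hl _ _ h
  simp only [h3, h1, mul_zero, zero_smul, sub_zero, mul_one] at h6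
  have h7 : (l - c) • γ = 0 := by linear_combination (norm := module) h6.uniq hr he h
  rwa [sub_eq_zero.1 ((smul_eq_zero.1 h7).resolve_right hγ)] at hl

theorem R.ex {γ : ι → F} (h1 : γ ⬝ᵥ e = 0) (h2 : γ ⬝ᵥ x = 0) : ∃ φ, R H e x γ φ :=
  let ⟨φ, h3, h4⟩ := hs (tvS x γ); ⟨φ, h1, h2, h3, h4⟩

theorem R.smul {γ φ : ι → F} (h : R H e x γ φ) (hγ : γ ≠ 0) (c : F) : (2 : F) = 0 ∧ R H e x (c • γ) (c • φ + (c + c ^ 2) • γ) := by
  obtain ⟨w, h1, h2, h3⟩ := h.key hr he hx hs hγ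
  have hφ := h.zero hr he hx hs hγ
  obtain ⟨θ, h4⟩ := R.ex hr he hx hs h.p0 hφ
  have key : ∀ c : F, R H e x (c • γ) (-c • φ + (c * θ ⬝ᵥ w + c ^ 2) • γ) := fun c => by
    obtain ⟨ψ, h5⟩ := R.ex hr he hx hs (γ := c • γ) (by simp [h.e0]) (by simp [h.x0])
    have h6 := h5.add (h3 c _ _ h4)
    have h7 : ψ ⬝ᵥ x = 0 := by
      by_cases hc : c = 0
      · rw [h5.uniq hr he (φ' := 0) ⟨h5.e0, h5.x0, by simp, by simp [hc, tvS_zero]⟩, zero_dotProduct]
      exact h5.zero hr he hx hs (smul_ne_zero hc hγ)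
    rw [h2, mul_one, add_sub_cancel, h7] at h6
    convert h5 using 1
    linear_combination (norm := module) -h6.uniq hr he h4
  have h5 := key 1
  rw [one_smul] at h5
  have h6 := h5.uniq hr he h
  have h7 := congrArg (· ⬝ᵥ w) h6
  simp only [add_dotProduct, smul_dotProduct, h1, h2, smul_eq_mul] at h7
  have h8 : (2 : F) = 0 := by linear_combination -h7
  have h9 : (θ ⬝ᵥ w + 1) • γ = 0 := by linear_combination (norm := module) h6 + h8 • φ
  refine ⟨h8, ?_⟩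
  convert key c using 1
  rw [eq_neg_of_add_eq_zero_left ((smul_eq_zero.1 h9).resolve_right hγ)]
  linear_combination (norm := module) h8 • c • φ + h8 • c • γ

theorem no_reg' (hn : 3 ≤ Fintype.card ι) (h4 : ¬ (Fintype.card ι = 4 ∧ Nat.card F = 2)) : False := by
  obtain ⟨y, hy⟩ := ex_notMem ![e, x] hn
  obtain ⟨γ, h1, h2⟩ := ex_dot _ hy
  have hγ : γ ≠ 0 := fun e' => by simp [e'] at h1
  obtain ⟨φ, h⟩ := R.ex hr he hx hs (h2 0) (h2 1)
  obtain ⟨w, h5, h6, h7⟩ := h.key hr he hx hs hγ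
  have hφ := h.zero hr he hx hs hγ
  have hn4 : 4 ≤ Fintype.card ι := by
    have : LinearIndependent F ![e, x, w, y] := Fintype.linearIndependent_iff.2 fun g hg => by
      have a1 := congrArg (γ ⬝ᵥ ·) hg
      have a2 := congrArg (φ ⬝ᵥ ·) hg
      simp [Fin.sum_univ_four, h.e0, h.x0, h.p0, hφ, h1, h5, h6] at a1 a2 hg
      simp [a1] at a2 hg
      simp [a2] at hg
      obtain ⟨a3, a4⟩ := LinearIndependent.pair_iff.1 ((LinearIndependent.pair_iff' he).2 fun c e' => hx (by rw [← e']; simp [Submodule.smul_mem])) _ _ hg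
      intro i; fin_cases i <;> assumption
    simpa using this.fintype_card_le_finrank
  by_cases h5n : 5 ≤ Fintype.card ι
  · obtain ⟨z, hz⟩ := ex_notMem ![e, x, w, y] h5n
    obtain ⟨δ, d1, d2⟩ := ex_dot _ hz
    obtain ⟨θ, d3⟩ := R.ex hr he hx hs (d2 0) (d2 1)
    have d4 := h7 1 _ _ d3
    have d5 : δ ⬝ᵥ w = 0 := d2 2
    have d6 : δ ⬝ᵥ y = 0 := d2 3
    simp only [d5, mul_zero, zero_smul, sub_zero, one_mul, one_smul] at d4
    have d7 : δ = (θ ⬝ᵥ w) • γ := by linear_combination (norm := module) d4.uniq hr he d3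
    rw [d7] at d6 d1
    simp [h1] at d6; simp [d6] at d1
  obtain ⟨c, c0, c1⟩ : ∃ c : F, c ≠ 0 ∧ c ≠ 1 := by
    by_contra! hc
    have : (Set.univ : Set F).ncard ≤ ({0, 1} : Set F).ncard := Set.ncard_le_ncard fun c _ => by by_cases c = 0 <;> simp_all
    rw [Set.ncard_univ, Set.ncard_pair zero_ne_one] at this
    have := Finite.one_lt_card (α := F)
    exact h4 ⟨by omega, by omega⟩
  obtain ⟨h8, h9⟩ := h.smul hr he hx hs hγ c
  have a1 := (h9.smul hr he hx hs (smul_ne_zero c0 hγ) c).2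
  rw [smul_smul] at a1
  have a2 : (c ^ 2 * (c - 1) ^ 2) • γ = 0 := by
    linear_combination (norm := module) (h.smul hr he hx hs hγ (c * c)).2.uniq hr he a1 + h8 • c ^ 2 • γ
  simp [hγ, c0, sub_eq_zero, c1] at a2

end Reg

theorem mem_sp (v : ι → F) (c : F) : c • v ∈ F ∙ v := Submodule.smul_mem _ _ (Submodule.mem_span_singleton_self v)

/-- the transvections with centre `v` -/
noncomputable def qh (v : ι → F) : Multiplicative (Kd v) →* G :=
  MonoidHom.mk' (fun φ => tvS v φ.toAdd.1) fun a b => tvS_add (Kd.dot _) (Kd.dot _)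

theorem mem_qh {v : ι → F} {g : G} : g ∈ (qh v).range ↔ ∃ φ, φ ⬝ᵥ v = 0 ∧ g = tvS v φ :=
  ⟨fun ⟨φ, h⟩ => ⟨_, Kd.dot φ.toAdd, h.symm⟩, fun ⟨φ, h, e⟩ => ⟨.ofAdd ⟨φ, mem_Kd.2 h⟩, e.symm⟩⟩

theorem card_Kd {v : ι → F} (hv : v ≠ 0) : Nat.card (Kd v) = Nat.card F ^ (Fintype.card ι - 1) := by
  rw [← finrank_Kd hv, Module.natCard_eq_pow_finrank (K := F)]

theorem card_qh {v : ι → F} (hv : v ≠ 0) : Nat.card (qh v).range = Nat.card F ^ (Fintype.card ι - 1) := by
  rw [← card_Kd hv, ← Nat.card_congr (MonoidHom.ofInjective ((injective_iff_map_eq_one (qh v)).2 fun a h =>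
    Multiplicative.toAdd.injective (Subtype.ext ((tvS_eq_one (Kd.dot a.toAdd) h).resolve_left hv)))).toEquiv]; rfl

theorem qh_le (v : ι → F) : (qh v).range ≤ MulAction.stabilizer G v := fun g hg => by
  obtain ⟨φ, h, rfl⟩ := mem_qh.1 hg
  simp [tvS_smul h, h]

theorem st_le (v : ι → F) : MulAction.stabilizer G v ≤ pt F v := fun g hg => ⟨1, by simpa using hg⟩

variable (H : Subgroup (Matrix.SpecialLinearGroup ι F))

/-- `H ∩ Q_v` -/
noncomputable def A (v : ι → F) : AddSubgroup (ι → F) := (H.comap (qh v)).toAddSubgroup'.map (Kd v).subtype.toAddMonoidHom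

/-- the annihilator of `A v` -/
def L (v : ι → F) : Submodule F (ι → F) where
  carrier := {w | ∀ φ ∈ A H v, φ ⬝ᵥ w = 0}
  add_mem' := fun h h' φ hφ => by simp [h φ hφ, h' φ hφ]
  zero_mem' := by simp
  smul_mem' := fun c w h φ hφ => by simp [h φ hφ]

variable {H}

theorem mem_A {v φ : ι → F} : φ ∈ A H v ↔ φ ⬝ᵥ v = 0 ∧ tvS v φ ∈ H :=
  ⟨fun ⟨ψ, h, e⟩ => e ▸ ⟨Kd.dot ψ, h⟩, fun ⟨h, e⟩ => ⟨⟨φ, mem_Kd.2 h⟩, e, rfl⟩⟩

theorem A_conj {v w φ : ι → F} {g : G} {c : F} (hg : g ∈ H) (h : g • v = c • w) (hφ : φ ∈ A H v) : c • cov g φ ∈ A H w := by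
  have h1 : cov g φ ⬝ᵥ (c • w) = 0 := by rw [← h, cov_dot_smul, (mem_A.1 hφ).1]
  refine mem_A.2 ⟨by simpa using h1, ?_⟩
  have := mul_mem (mul_mem hg (mem_A.1 hφ).2) (inv_mem hg)
  rw [tvS_conj _ (mem_A.1 hφ).1, h] at this
  convert this using 1
  refine sl_ext fun y => ?_
  rw [tvS_smul h1, tvS_smul (by simpa using h1)]; simp [mul_smul, smul_comm c]

theorem A_conj' {v w φ : ι → F} {g : G} {c : F} (hv : v ≠ 0) (hg : g ∈ H) (h : g • v = c • w) (hφ : φ ∈ A H w) :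
    ∃ ψ ∈ A H v, ∀ y, φ ⬝ᵥ (g • y) = c * ψ ⬝ᵥ y := by
  have hc : c ≠ 0 := by rintro rfl; exact hv ((smul_eq_zero_iff_eq g).1 (by simpa using h))
  refine ⟨_, A_conj (c := c⁻¹) (inv_mem hg) (by rw [inv_smul_eq_iff, smul_comm, h, inv_smul_smul₀ hc]) hφ, fun y => ?_⟩
  simp [cov_dot, hc]

theorem L_conj {v w y : ι → F} {g : G} {c : F} (hv : v ≠ 0) (hg : g ∈ H) (h : g • v = c • w) (hy : y ∈ L H v) : g • y ∈ L H w :=
  fun φ hφ => let ⟨ψ, h1, h2⟩ := A_conj' hv hg h hφ; by rw [h2, hy _ h1, mul_zero]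

theorem card_A {v : ι → F} (hv : v ≠ 0) : Nat.card (A H v) * H.relIndex (qh v).range = Nat.card F ^ (Fintype.card ι - 1) := by
  rw [rel_hom (qh v) H (H.comap (qh v)).toAddSubgroup' fun _ => Iff.rfl, ← card_Kd hv, A,
    AddSubgroup.card_map_of_injective (Kd v).injective_subtype, AddSubgroup.card_mul_index]

theorem ncard_sp {v : ι → F} (hv : v ≠ 0) : ((F ∙ v : Submodule F _) : Set (ι → F)).ncard = Nat.card F :=
  (Nat.card_congr (LinearEquiv.toSpanNonzeroSingleton F _ v hv).toEquiv).symm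

theorem two_le {k N : ℕ} (hN : N * (Nat.card F - 1) + 1 = Nat.card F ^ k) : Nat.card F ^ k + N + 1 ≤ 2 * Nat.card F ^ k := by
  have := Nat.le_mul_of_pos_right N (Nat.sub_pos_of_lt (Finite.one_lt_card (α := F)))
  omega

variable {k N : ℕ} (hk : Fintype.card ι = k + 1) (h2 : 2 ≤ k) (hN : N * (Nat.card F - 1) + 1 = Nat.card F ^ k)
include hk h2 hN

theorem tri {v : ι → F} (hv : v ≠ 0) (hf : ¬ ∀ φ, φ ⬝ᵥ v = 0 → φ ∈ A H v) :
    Nat.card F ^ k ≤ H.relIndex (pt F v) ∧ (A H v = ⊥ ∨ Nat.card F ^ k + N ≤ H.relIndex (pt F v) ∨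
      Nat.card F ^ k + N ≤ H.relIndex (pt F v) + 1 ∧ ∃ x ∉ F ∙ v, L H v = Submodule.span F {v, x} ∧
        ∀ φ, φ ⬝ᵥ v = 0 → φ ⬝ᵥ x = 0 → φ ∈ A H v) := by
  obtain ⟨χ, hχ⟩ := exists_prim (F := F)
  let β : (ι → F) →+ (ι → F) →+ F := AddMonoidHom.mk' (fun φ => AddMonoidHom.mk' (φ ⬝ᵥ ·) (dotProduct_add φ))
    fun a b => AddMonoidHom.ext (add_dotProduct a b)
  have hβ : ∀ φ : ι → F, (∀ u, χ (φ ⬝ᵥ u) = 1) → φ = 0 := fun φ h => by_contra fun e => by
    obtain ⟨y, hy⟩ := ex_one e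
    exact one_ne_zero (hχ 1 fun c => by simpa [hy] using h (c • y))
  let B : AddSubgroup (ι → F) := ⟨⟨⟨{w | ∀ φ ∈ A H v, χ (φ ⬝ᵥ w) = 1}, fun h h' φ hφ => by
    rw [dotProduct_add, AddChar.map_add_eq_mul, h φ hφ, h' φ hφ, one_mul]⟩, by simp⟩, fun h φ hφ => by
    rw [dotProduct_neg, AddChar.map_neg_eq_inv, h φ hφ, inv_one]⟩
  have hrep : ∀ T : AddSubgroup (ι → F), ¬ T ≤ A H v → ∃ w ∈ B, ∃ φ ∈ T, χ (φ ⬝ᵥ w) ≠ 1 := fun T hT => by
    obtain ⟨ψ, h1, φ, h2, h3⟩ := exists_char hT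
    obtain ⟨w, hw⟩ := exists_rep β χ (fun u h => hβ u fun a => by rw [dotProduct_comm]; exact h a) le_rfl ψ
    exact ⟨w, fun φ hφ => (hw φ).symm.trans (h1 φ hφ), φ, h2, fun e => h3 ((hw φ).trans e)⟩
  have hLB : ∀ w ∈ L H v, w ∈ B := fun w h φ hφ => by rw [h φ hφ, AddChar.map_zero_eq_one]
  have hvL : (F ∙ v) ≤ L H v := (Submodule.span_singleton_le_iff_mem _ _).2 fun φ hφ => (mem_A.1 hφ).1
  obtain ⟨w, hw, hw'⟩ : ∃ w ∈ B, w ∉ F ∙ v := by
    obtain ⟨w, h1, φ, h2, h3⟩ := hrep (Kd v).toAddSubgroup fun e => hf fun φ h => e (mem_Kd.2 h)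
    refine ⟨w, h1, fun e => h3 ?_⟩
    obtain ⟨c, rfl⟩ := Submodule.mem_span_singleton.1 e
    simp [mem_Kd.1 h2]
  have h1 := pair_le β χ (A H v) ⊥ B ⊤ le_top (fun a ha u hu => hu a ha) fun a _ h => hβ a fun u => h u trivial
  rw [AddSubgroup.card_bot, mul_one, AddSubgroup.card_top, Nat.card_fun, Nat.card_eq_fintype_card (α := ι), hk, pow_succ] at h1
  have h3 := card_A (H := H) hv
  rw [hk, Nat.add_sub_cancel] at h3
  have h4 : (stb (B : Set (ι → F))).relIndex (MulAction.stabilizer G v) * H.relIndex (qh v).range ≤ H.relIndex (pt F v) :=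
    (chain (fun g ⟨hg, hc⟩ y hy φ hφ => by
      obtain ⟨ψ, h1, h2⟩ := A_conj' (c := 1) hv hg (by simpa using hc) hφ
      rw [h2, one_mul, hy _ h1]) (le_inf (fun g hg y hy φ hφ => by
      obtain ⟨ψ, h, rfl⟩ := mem_qh.1 hg
      simpa [tvS_smul h, (mem_A.1 hφ).1] using hy φ hφ) (qh_le v))).trans (rel_mono _ (st_le v))
  have hq := Finite.one_lt_card (α := F)
  have h5 : ∀ w ∈ B, w ∉ F ∙ v → ∀ c ≤ (stb (B : Set (ι → F))).relIndex (MulAction.stabilizer G w ⊓ MulAction.stabilizer G v),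
      c * (Nat.card F ^ k * Nat.card F - Nat.card F) ≤
        (stb (B : Set (ι → F))).relIndex (MulAction.stabilizer G v) * (Nat.card B - Nat.card F) := fun w hw hw' c hc => by
    have := ncard_le_mul _ _ w (O := ((F ∙ v : Submodule F _) : Set (ι → F))ᶜ) (S := B \ (F ∙ v : Submodule F _)) (fun z hz =>
      let ⟨g, h1, h2⟩ := exists_map_pair (by omega) hv hw' hv hz; ⟨g, h1, h2⟩) (fun j hj hB => ⟨mem_stb.1 hB w hw, fun e => hw' (by
        obtain ⟨c, e⟩ := Submodule.mem_span_singleton.1 e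
        rw [← MulAction.mem_stabilizer_iff.1 hj, ← smul_comm, smul_left_cancel_iff] at e
        exact e ▸ mem_sp v c)⟩) hc
    rwa [Set.ncard_compl, Set.ncard_sdiff fun y hy => hLB _ (hvL hy), ncard_sp hv, Nat.card_fun, Nat.card_eq_fintype_card (α := ι),
      hk, pow_succ] at this
  have h6 := h5 w hw hw' 1 (rel_pos _ _)
  have h7 : Nat.card B ≤ H.relIndex (qh v).range * Nat.card F :=
    Nat.le_of_mul_le_mul_left (by rwa [← mul_assoc, h3]) (Nat.card_pos (α := A H v))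
  have ht := rel_pos (stb (B : Set (ι → F))) (MulAction.stabilizer G v)
  have hr := rel_pos H (qh v).range
  have hN2 := two_le hN
  generalize (stb (B : Set (ι → F))).relIndex (MulAction.stabilizer G v) = t at *
  generalize H.relIndex (qh v).range = r at *
  have h8 : ∀ c, c * (Nat.card F ^ k * Nat.card F - Nat.card F) ≤ t * (Nat.card B - Nat.card F) →
      c * (Nat.card F ^ k - 1) + t ≤ H.relIndex (pt F v) := fun c hc => by
    have := hc.trans (Nat.mul_le_mul_left t (Nat.sub_le_sub_right h7 _))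
    rw [← Nat.sub_one_mul, ← Nat.sub_one_mul, ← mul_assoc, ← mul_assoc] at this
    have := Nat.le_of_mul_le_mul_right this (by omega)
    obtain ⟨r, rfl⟩ := Nat.exists_eq_add_of_le' hr
    rw [Nat.add_sub_cancel] at this; linarith
  have h9 := h8 1 h6
  refine ⟨by omega, or_iff_not_imp_left.2 fun hA => ?_⟩
  obtain ⟨w, hw, hw', y, hy, hz, hl⟩ : ∃ w ∈ B, w ∉ F ∙ v ∧ ∃ y ∉ B, (∀ z ∈ B, z ∈ Submodule.span F (Set.range ![v, w, y]) →
      z ∈ Submodule.span F {v, w}) ∧ (y ∈ Submodule.span F {v, w} ∨ ∀ (c : F), ∀ z ∈ B, c • z ∈ B) := by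
    by_cases hs : ∀ (c : F), ∀ z ∈ B, c • z ∈ B
    · obtain ⟨y, hy⟩ : ∃ y, y ∉ B := by
        by_contra! h; exact hA (eq_bot_iff.2 fun φ hφ => hβ φ fun u => h u φ hφ)
      refine ⟨w, hw, hw', y, hy, fun z hz h => ?_, .inr hs⟩
      obtain ⟨c, rfl⟩ := (Submodule.mem_span_range_iff_exists_fun F).1 h
      simp only [Fin.sum_univ_three, cons_val] at hz ⊢
      by_cases h2 : c 2 = 0
      · simp [h2, Submodule.mem_span_pair]
      · exact (hy (by simpa [h2] using hs (c 2)⁻¹ _ (sub_mem hz (add_mem (hLB _ (hvL (mem_sp v (c 0)))) (hs (c 1) _ hw))))).elim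
    · push Not at hs
      obtain ⟨c, w, hw, h⟩ := hs
      have : c • w ∈ Submodule.span F {v, w} := Submodule.smul_mem _ _ (Submodule.subset_span (by simp))
      refine ⟨w, hw, fun e => h (hLB _ (hvL (Submodule.smul_mem _ _ e))), _, h, fun z _ h => Submodule.span_le.2 ?_ h, .inl this⟩
      rintro _ ⟨i, rfl⟩; fin_cases i
      exacts [Submodule.subset_span (by simp), Submodule.subset_span (by simp), this]
  by_cases hB : ∀ z ∈ B, z ∈ Submodule.span F {v, w}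
  · have hc : (Submodule.span F {v, w} : Set (ι → F)).ncard ≤ Nat.card F * Nat.card F := by
      rw [← Nat.card_prod, ← Set.ncard_univ]
      refine le_trans (Set.ncard_le_ncard fun z hz => ?_) (Set.ncard_image_le (f := fun c : F × F => c.1 • v + c.2 • w))
      exact let ⟨a, b, e⟩ := Submodule.mem_span_pair.1 hz; ⟨(a, b), trivial, e⟩
    have hN3 : Nat.card F ^ k * Nat.card F - Nat.card F = N * (Nat.card F * Nat.card F - Nat.card F) := by
      rw [← hN, ← Nat.sub_one_mul, ← Nat.sub_one_mul, Nat.add_sub_cancel, mul_assoc]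
    have hq2 : Nat.card F < Nat.card F * Nat.card F := by nlinarith
    rw [hN3, one_mul] at h6
    rcases hl with hl | hl
    · have : Nat.card B < _ := (Set.ncard_lt_ncard (s := (B : Set (ι → F))) ⟨hB, fun e => hy (e hl)⟩).trans_le hc
      have : N < t := by
        by_contra! h
        have h0 : 0 < N := by
          rcases N with _ | N
          · have := Nat.one_lt_pow (n := k) (by omega) hq; omega
          · omega
        have := h6.trans (Nat.mul_le_mul_right _ h)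
        have := Nat.le_of_mul_le_mul_left this h0
        omega
      left; omega
    · have : Nat.card B ≤ _ := (Set.ncard_le_ncard (s := (B : Set (ι → F))) hB).trans hc
      have := Nat.le_of_mul_le_mul_right (h6.trans (Nat.mul_le_mul_left t (Nat.sub_le_sub_right this _))) (by omega)
      refine .inr ⟨by omega, w, hw', le_antisymm (fun z hz => hB z (hLB z hz)) (Submodule.span_le.2 ?_), fun φ h1 h2 => by_contra fun e => ?_⟩
      · rintro _ (rfl | rfl)
        exacts [hvL (Submodule.mem_span_singleton_self _), fun φ hφ => hχ _ fun c => by simpa using hl c _ hw φ hφ]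
      · obtain ⟨z, h3, ψ, h4, h5⟩ := hrep (AddSubgroup.zmultiples φ) (by simpa using e)
        obtain ⟨a, b, rfl⟩ := Submodule.mem_span_pair.1 (hB z h3)
        obtain ⟨j, rfl⟩ := AddSubgroup.mem_zmultiples_iff.1 h4
        simp [smul_dotProduct, h1, h2, -zsmul_eq_mul] at h5
  · push Not at hB
    obtain ⟨z, h1, h2⟩ := hB
    obtain ⟨φ, a1, a2⟩ := ex_dot _ fun e => h2 (hz z h1 e)
    have a3 : φ ⬝ᵥ y = 0 := a2 2
    have := h8 2 (h5 w hw hw' 2 (two_le_rel (g := tvS y φ) ⟨by simp [tvS_smul a3, show φ ⬝ᵥ w = 0 from a2 1],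
      by simp [tvS_smul a3, show φ ⬝ᵥ v = 0 from a2 0]⟩ fun e => hy (by simpa [tvS_smul a3, a1] using sub_mem (e z h1) h1)))
    left; omega

omit hN in
theorem cone_top {v : ι → F} (hv : v ≠ 0) : cone F (⊤ : Subgroup G) v = {0}ᶜ := by
  refine Set.ext fun y => ⟨?_, fun hy => ?_⟩
  · rintro ⟨c, hc, g, -, rfl⟩
    exact smul_ne_zero hc fun e => hv ((smul_eq_zero_iff_eq g).1 e)
  · obtain ⟨g, h, -⟩ := exists_map (ι := ι) (F := F) ⊥ (by simp; omega) (x := v) (y := y) (by simpa) (by simpa)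
    exact ⟨1, one_ne_zero, g, trivial, by simp [h]⟩

theorem index_pt {v : ι → F} (hv : v ≠ 0) : (pt F v : Subgroup G).index = Nat.card F ^ k + N := by
  have := pt_index (F := F) (⊤ : Subgroup G) hv
  have hq := Finite.one_lt_card (α := F)
  rw [relIndex_top_right, cone_top hk h2 hv, Set.ncard_compl, Set.ncard_singleton, Nat.card_fun, Nat.card_eq_fintype_card (α := ι), hk, pow_succ] at this
  refine Nat.eq_of_mul_eq_mul_right (m := Nat.card F - 1) (by omega) ?_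
  rw [this, add_mul, Nat.mul_sub_one]
  have := Nat.le_mul_of_pos_right (Nat.card F ^ k) (show 0 < Nat.card F by omega)
  omega

theorem min_index (h4 : ¬ (k = 3 ∧ Nat.card F = 2)) (hH : H ≠ ⊤) : Nat.card F ^ k + N ≤ H.index := by
  by_contra! hm
  have hN2 := two_le hN
  have hq := Finite.one_lt_card (α := F)
  let Fl : (ι → F) → Prop := fun v => ∀ φ, φ ⬝ᵥ v = 0 → φ ∈ A H v
  have hFl : ∀ {v w : ι → F} {g : G} {c : F}, g ∈ H → c ≠ 0 → g • v = c • w → Fl v → Fl w := fun {v w g c} hg hc h hv φ hφ => by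
    simpa [cov_dot, hc, show ∀ θ, cov g (c⁻¹ • θ) = c⁻¹ • cov g θ from fun θ => dot_ext fun y => by simp [cov_dot], cov_cov_inv]
      using A_conj hg h (hv (c⁻¹ • cov g⁻¹ φ) (by simp [cov_dot, h, hφ]))
  have hsum : ∀ {v w : ι → F}, v ≠ 0 → w ≠ 0 → (∃ g ∈ H, ∃ c : F, g • v = c • w) ∨ H.relIndex (pt F v) + H.relIndex (pt F w) ≤ H.index :=
    fun {v w} hv hw => by
      obtain ⟨c, hc, g, -, rfl⟩ : w ∈ cone F (⊤ : Subgroup G) v := by rw [cone_top hk h2 hv]; exact hw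
      refine or_iff_not_imp_left.2 fun h => ?_
      simpa [pt_smul hc] using pt_add (F := F) (H := H) (E := ⊤) hv (g := g) trivial fun j hj d e => h ⟨j, hj, d * c⁻¹, by simp [e, smul_smul, hc]⟩
  have hne : ∀ {v w : ι → F} {g : G} {c : F}, v ≠ 0 → g • v = c • w → c ≠ 0 := fun {v w g c} hv h hc =>
    hv ((smul_eq_zero_iff_eq g).1 (by simpa [hc] using h))
  have horb : ∀ {v w : ι → F}, v ≠ 0 → w ≠ 0 → ¬ Fl v → ¬ Fl w → ∃ g ∈ H, ∃ c : F, g • v = c • w := fun hv hw h1 h2' =>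
    (hsum hv hw).resolve_right fun h => by
      have := (tri hk h2 hN hv h1).1; have := (tri hk h2 hN hw h2').1; omega
  obtain ⟨p, hp⟩ : ∃ p, ¬ Fl p := by
    by_contra! h; exact hH (eq_top_of_tvS fun v φ hφ => (mem_A.1 (h v φ hφ)).2)
  have hF0 : Fl 0 := fun φ h => mem_A.2 ⟨h, by simp [tvS_zero_left]⟩
  have hp0 : p ≠ 0 := fun e => hp (e ▸ hF0)
  have hreg : ∀ {v w : ι → F}, v ≠ 0 → w ≠ 0 → ¬ Fl v → ¬ Fl w → A H v = ⊥ → A H w = ⊥ := fun hv hw h1 h2 h => by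
    obtain ⟨g, hg, c, e⟩ := horb hw hv h2 h1
    refine eq_bot_iff.2 fun φ hφ => dot_ext fun y => ?_
    have := A_conj hg e hφ
    rw [h, AddSubgroup.mem_bot, smul_eq_zero, or_iff_right (hne hw e)] at this
    rw [← cov_dot_smul g, this]; simp
  have hle : ∀ v : ι → F, H.relIndex (pt F v) ≤ H.index := fun v => by simpa using rel_mono H (le_top (a := pt F v))
  by_cases hA : A H p = ⊥
  · by_cases hU : ∀ v ≠ 0, ¬ Fl v
    · obtain ⟨x, hx⟩ := ex_notMem ![p] (by omega)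
      have hr : ∀ v φ : ι → F, v ≠ 0 → φ ⬝ᵥ v = 0 → tvS v φ ∈ H → φ = 0 := fun v φ hv h1 h2 => by
        simpa [hreg hp0 hv hp (hU v hv) hA] using mem_A.2 ⟨h1, h2⟩
      refine no_reg' hr hp0 (x := x) (by simpa using hx) (fun g => ?_) (by omega) fun h => h4 ⟨by omega, h.2⟩
      obtain ⟨_, ⟨φ, rfl⟩, h⟩ := of_semiregular (H := H) (P := (qh p).range) le_top (fun g _ => eq_bot_iff.2 (by
        rintro _ ⟨h1, _, ⟨φ, rfl⟩, rfl⟩
        have h3 : (MulAut.conj g).toMonoidHom (qh p φ) = _ := tvS_conj g (Kd.dot φ.toAdd)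
        rw [h3] at h1 ⊢
        rw [hr _ _ (fun e => hp0 ((smul_eq_zero_iff_eq g).1 e)) (by rw [cov_dot_smul, Kd.dot]) h1, tvS_zero]; exact one_mem _))
        (by rw [card_qh hp0, hk, relIndex_top_right, Nat.add_sub_cancel]; omega) (mem_top g)
      exact ⟨_, Kd.dot φ.toAdd, h⟩
    push Not at hU
    obtain ⟨u, hu0, hu⟩ := hU
    let U : Submodule F (ι → F) :=
      { carrier := {v | Fl v}
        zero_mem' := hF0
        smul_mem' := fun c v h => by
          by_cases hc : c = 0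
          exacts [by simpa [hc] using hF0, hFl (g := 1) (one_mem H) (inv_ne_zero hc) (by simp [hc]) h]
        add_mem' := fun {v w} hv hw => by
          by_cases h : w ∈ F ∙ v
          · obtain ⟨c, rfl⟩ := Submodule.mem_span_singleton.1 h
            by_cases hc : 1 + c = 0
            exacts [by rw [show v + c • v = 0 by linear_combination (norm := module) hc • v]; exact hF0,
              hFl (g := 1) (one_mem H) (inv_ne_zero hc) (by rw [show v + c • v = (1 + c) • v by module]; simp [hc]) hv]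
          · obtain ⟨φ, h1, h2⟩ := H09.exists_dot_eq_one h
            have h3 := h2 v (Submodule.mem_span_singleton_self v)
            exact hFl (c := 1) (mem_A.1 (hv φ h3)).2 one_ne_zero (by simp [tvS_smul h3, h1, add_comm]) hw }
    have hup : u ∉ F ∙ p := fun e => by
      obtain ⟨c, rfl⟩ := Submodule.mem_span_singleton.1 e
      exact hp (hFl (g := 1) (one_mem H) (left_ne_zero_of_smul hu0) (by simp) hu)
    have hr : H.relIndex (qh p).range = Nat.card F ^ k := by simpa [hA, hk] using card_A (H := H) hp0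
    have hi : (stb ((U ⊔ F ∙ p : Submodule F _) : Set (ι → F))).relIndex (pt F p) * Nat.card F ^ k ≤ H.relIndex (pt F p) :=
      hr ▸ chain (H := H) (K := pt F p) (J := stb ((U ⊔ F ∙ p : Submodule F _) : Set (ι → F))) (N := (qh p).range) (fun g ⟨hg, c, hc⟩ y hy => by
        obtain ⟨a, ha, b, hb, rfl⟩ := Submodule.mem_sup.1 hy
        obtain ⟨d, rfl⟩ := Submodule.mem_span_singleton.1 hb
        rw [smul_add, smul_comm, hc, smul_smul]
        exact Submodule.add_mem_sup (hFl (c := 1) hg one_ne_zero (by simp) ha) (mem_sp _ _)) (le_inf (fun g hg y hy => by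
        obtain ⟨ψ, h, rfl⟩ := mem_qh.1 hg
        rw [tvS_smul h]; exact add_mem hy (Submodule.mem_sup_right (mem_sp _ _))) ((qh_le p).trans (st_le p)))
    by_cases hT : U ⊔ F ∙ p = ⊤
    · have h1 : Nat.card F ^ k * Nat.card F ≤ Nat.card U * Nat.card F := by
        rw [← Nat.card_prod, ← pow_succ, ← hk, ← Nat.card_eq_fintype_card, ← Nat.card_fun]
        refine Nat.card_le_card_of_surjective (fun c : U × F => c.1.1 + c.2 • p) fun y => ?_
        obtain ⟨a, ha, b, hb, rfl⟩ := Submodule.mem_sup.1 (hT ▸ Submodule.mem_top (x := y))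
        obtain ⟨d, rfl⟩ := Submodule.mem_span_singleton.1 hb
        exact ⟨(⟨a, ha⟩, d), rfl⟩
      have h3 := pt_frac (F := F) (H := H) (E := ⊤) hp0 le_top ((Set.ncard_le_ncard (t := (U : Set (ι → F))ᶜ) (by
        rintro _ ⟨c, hc, g, hg, rfl⟩ h
        exact hp (hFl (inv_mem hg) hc (by rw [smul_comm, inv_smul_smul]) h))).trans (by
        rw [Set.ncard_compl, Nat.card_fun, Nat.card_eq_fintype_card (α := ι), hk, pow_succ, inf_top_eq]
        have := Nat.le_of_mul_le_mul_right h1 (by omega)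
        refine le_trans ?_ (Nat.mul_le_mul_right _ (tri hk h2 hN hp0 hp).1)
        rw [Nat.mul_sub_one]; exact Nat.sub_le_sub_left this _))
      rw [relIndex_top_right, relIndex_top_right, index_pt hk h2 hN hp0] at h3
      omega
    · obtain ⟨y, hy⟩ : ∃ y, y ∉ U ⊔ F ∙ p := by by_contra! h; exact hT (Submodule.eq_top_iff'.2 h)
      obtain ⟨g, h1, h3⟩ := exists_map_pair (by omega) hp0 hup hp0 fun e => hy (Submodule.mem_sup_right e)
      have := Nat.mul_le_mul_right (Nat.card F ^ k) (two_le_rel (J := stb ((U ⊔ F ∙ p : Submodule F _) : Set (ι → F))) (st_le p h1)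
        fun e => hy (h3 ▸ e u (Submodule.mem_sup_left hu)))
      have := hle p
      omega
  have hall : ∀ v ≠ 0, ∃ x ∉ F ∙ v, L H v = Submodule.span F {v, x} ∧ ∀ φ, φ ⬝ᵥ v = 0 → φ ⬝ᵥ x = 0 → φ ∈ A H v := fun v hv => by
    have hv' : ¬ Fl v := fun h => by
      rcases hsum hv hp0 with ⟨g, hg, c, e⟩ | h1
      · exact hp (hFl hg (hne hv e) e h)
      · have := (tri hk h2 hN hp0 hp).2.resolve_left hA
        have := rel_pos H (pt F v); omega
    have := hle v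
    exact (((tri hk h2 hN hv hv').2.resolve_left fun e => hA (hreg hv hp0 hv' hp e)).resolve_left (by omega)).2
  have key : ∀ p ≠ 0, ∀ y ≠ 0, ∀ z ∈ L H y, z ∈ L H p ⊔ F ∙ y := fun p hp y hy z hz => by
    by_contra h
    obtain ⟨x, -, h1, h2⟩ := hall p hp
    obtain ⟨x', -, h1', -⟩ := hall y hy
    obtain ⟨φ, h3, h5⟩ := H09.exists_dot_eq_one h
    have h6 : ∀ w ∈ ({p, x} : Set (ι → F)), φ ⬝ᵥ w = 0 := fun w hw => h5 w (Submodule.mem_sup_left (h1 ▸ Submodule.subset_span hw))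
    have h7 := h6 p (by simp)
    have h8 := h5 y (Submodule.mem_sup_right (Submodule.mem_span_singleton_self y))
    have h9 := sub_mem (L_conj (c := 1) (w := y) hy (mem_A.1 (h2 φ h7 (h6 x (by simp)))).2 (by simp [tvS_smul h7, h8]) hz) hz
    rw [tvS_smul h7, h3, one_smul, add_sub_cancel_left, h1'] at h9
    obtain ⟨a, b, e⟩ := Submodule.mem_span_pair.1 h9
    obtain ⟨a', b', rfl⟩ := Submodule.mem_span_pair.1 (h1' ▸ hz)
    by_cases hb : b = 0
    · have ha : a ≠ 0 := by rintro rfl; simp [hb, hp.symm] at e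
      exact h (Submodule.mem_sup_left (by simpa using L_conj (g := 1) (c := a⁻¹) hy (one_mem H) (by simp [← e, hb, ha]) hz))
    · have : φ ⬝ᵥ x' = 0 := by simpa [h8, hb, h7] using congrArg (φ ⬝ᵥ ·) e
      simp [h8, this] at h3
  obtain ⟨x, -, h1, -⟩ := hall p hp0
  obtain ⟨y, hy⟩ := ex_notMem ![p, x] (by omega)
  rw [show Set.range ![p, x] = {p, x} by simp [Set.pair_comm], ← h1] at hy
  have hy0 : y ≠ 0 := fun e => hy (e ▸ zero_mem _)
  obtain ⟨z, h3, h5, -⟩ := hall y hy0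
  have h6 : z ∈ L H y := h5 ▸ Submodule.subset_span (by simp)
  obtain ⟨a, ha, b, hb, rfl⟩ := Submodule.mem_sup.1 (key p hp0 y hy0 z h6)
  have ha0 : a ≠ 0 := fun e => h3 (by simpa [e] using hb)
  have hyL : (F ∙ y) ≤ L H y := (Submodule.span_singleton_le_iff_mem _ _).2 fun φ hφ => (mem_A.1 hφ).1
  have ha' : a ∈ L H y := by simpa using sub_mem h6 (hyL hb)
  obtain ⟨u, h7, h8, -⟩ := hall a ha0
  have h9 : u ∈ L H a := h8 ▸ Submodule.subset_span (by simp)
  have hup : u ∈ L H p := sup_le le_rfl ((Submodule.span_singleton_le_iff_mem _ _).2 ha) (key p hp0 a ha0 u h9)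
  have huy : u ∈ L H y := sup_le le_rfl ((Submodule.span_singleton_le_iff_mem _ _).2 ha') (key y hy0 a ha0 u h9)
  obtain ⟨c, rfl⟩ := Submodule.mem_span_singleton.1 hb
  obtain ⟨s, t, rfl⟩ := Submodule.mem_span_pair.1 (h5 ▸ huy)
  by_cases hs : s + t * c = 0
  · exact h7 (by rw [show s • y + t • (a + c • y) = t • a by linear_combination (norm := module) hs • y]; exact mem_sp _ _)
  · refine hy ((Submodule.smul_mem_iff _ hs).1 ?_)
    convert sub_mem hup (Submodule.smul_mem _ t ha) using 1; module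

end H24.MD.SL
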