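import Cfsg.Agent.H24.MDO4

/-!
# Minimal index for classical groups with transvections: local analysis (namespace `H24.MD.T`)

* `Zs S p` (transvections in `S`), `AA S p L` (image of `S ∩ Q_p` in `L`), `RR` (Siegel elements), `rad_ge`
* `main` : lower bound for `[Stab p : Stab p ∩ H]` along a flag
-/

set_option autoImplicit false
set_option linter.unusedSectionVars false

open Subgroup H20 H10 H10.Form Module

namespace H24.MD

theorem le_rel {G A : Type*} [Group G] [Finite G] (S K : Subgroup G) (f : A → G) (hK : ∀ a, f a ∈ K)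
    (h : ∀ a b, (f a)⁻¹ * f b ∈ S → a = b) : Nat.card A ≤ S.relIndex K :=
  Nat.card_le_card_of_injective (fun a => (QuotientGroup.mk ⟨f a, hK a⟩ : K ⧸ S.subgroupOf K)) fun a b e =>
    h a b (QuotientGroup.eq (s := S.subgroupOf K) |>.1 e)

theorem prod_le {G A B : Type*} [Group G] [Finite G] [AddGroup A] [AddGroup B] (S K : Subgroup G) (X : AddSubgroup A) (Y : AddSubgroup B)
    (f : A → B → G) (hK : ∀ a b, f a b ∈ K) (h1 : ∀ a a' b b', (f a b)⁻¹ * f a' b' ∈ S → -a + a' ∈ X)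
    (h2 : ∀ a b b', (f a b)⁻¹ * f a b' ∈ S → -b + b' ∈ Y) : X.index * Y.index ≤ S.relIndex K := by
  rw [AddSubgroup.index, AddSubgroup.index, ← Nat.card_prod]
  refine le_rel S K (fun c => f c.1.out c.2.out) (fun _ => hK _ _) fun ⟨a, b⟩ ⟨a', b'⟩ e => ?_
  obtain rfl : a = a' := by rw [← a.out_eq, ← a'.out_eq]; exact QuotientAddGroup.eq.2 (h1 _ _ _ _ e)
  exact congrArg _ (b.out_eq.symm.trans ((QuotientAddGroup.eq.2 (h2 _ _ _ e)).trans b'.out_eq))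

namespace T

open O (Fl ix)

variable {F V : Type*} [Field F] [Finite F] [AddCommGroup V] [Module F V] [Finite V] {φ : Form F V} [φ.Nondeg]
  {H S : Subgroup φ.Isom} {p x w u y : V} {s t : F} {L : Submodule F V}

theorem si_app (hp : φ.Q p = 0) (hw : φ.B p w = 0) (hs : φ.T s = φ.Q w) (x : V) :
    φ.siegel p w s • x = x + φ.B w x • p - (φ.ε * φ.B p x) • w - (φ.ε * s * φ.B p x) • p := φ.siegel_apply hp hw hs x

theorem si_fix (hp : φ.Q p = 0) (hw : φ.B p w = 0) (hs : φ.T s = φ.Q w) (h1 : φ.B p x = 0) (h2 : φ.B w x = 0) : φ.siegel p w s • x = x :=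
  siegel_apply_of_orth hp hw hs h1 h2

theorem tv_app (hp : φ.Q p = 0) (ht : φ.T t = 0) (x : V) : φ.siegel p 0 t • x = x - (φ.ε * t * φ.B p x) • p := by
  simp [si_app hp (w := 0) (by simp) (by simpa using ht)]

theorem tv_E (hp : φ.Q p = 0) (ht : φ.T t = 0) : φ.siegel p 0 t ∈ φ.E := φ.siegel_mem_E hp (by simp) (by simpa using ht)

theorem tv_add (hp : φ.Q p = 0) (hs : φ.T s = 0) (ht : φ.T t = 0) : φ.siegel p 0 (s + t) = φ.siegel p 0 s * φ.siegel p 0 t := by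
  simpa using (φ.siegel_mul (w := 0) (w' := 0) hp (by simp) (by simpa using hs) (by simp) (by simpa using ht)).symm

theorem tv_neg (hp : φ.Q p = 0) (ht : φ.T t = 0) : φ.siegel p 0 (-t) = (φ.siegel p 0 t)⁻¹ :=
  eq_inv_of_mul_eq_one_left (by rw [← tv_add hp (by simp [ht]) ht, neg_add_cancel, φ.siegel_zero hp])

theorem si_conj {p' : V} {c : F} (g : φ.Isom) (hp : φ.Q p = 0) (hc : c ≠ 0) (h : g • p = c • p') (hw : φ.B p w = 0) (hs : φ.T s = φ.Q w) :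
    φ.B p' (g • w) = 0 ∧ g * φ.siegel p w s * g⁻¹ = φ.siegel p' (φ.σ c • g • w) (φ.σ c * c * s) := by
  have h1 : φ.B p' (g • w) = 0 := by simpa [h, hc] using (B_act g p w).trans hw
  have h2 : φ.Q p' = 0 := by simpa [h, φ.Q_smul, hc] using (Q_act g p).trans hp
  exact ⟨h1, (φ.siegel_conj g hp hw hs).trans ((congrArg (φ.siegel · _ _) h).trans (siegel_smul h2 h1 (hs.trans (Q_act g w).symm) c))⟩

theorem tv_conj {p' : V} {c : F} (g : φ.Isom) (hp : φ.Q p = 0) (hc : c ≠ 0) (h : g • p = c • p') (ht : φ.T t = 0) :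
    g * φ.siegel p 0 t * g⁻¹ = φ.siegel p' 0 (φ.σ c * c * t) := by
  simpa using (si_conj g hp hc h (w := 0) (by simp) (by simpa using ht)).2

theorem si_eq_one (hp : φ.Q p = 0) (hp0 : p ≠ 0) (hw : φ.B p w = 0) (hs : φ.T s = φ.Q w) (h : φ.siegel p w s = 1) :
    ∃ c : F, (φ.ε * s + c) • p + φ.ε • w = 0 ∧ (w = 0 → c = 0) := by
  obtain ⟨y, hy⟩ := φ.exists_B_eq_one hp0
  have := si_app hp hw hs y
  rw [h, one_smul, hy] at this
  exact ⟨-φ.B w y, by linear_combination (norm := module) this, fun e => by simp [e]⟩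

variable (S p) in
/-- parameters of the transvections with centre `p` in `S` -/
def Zs : AddSubgroup F where
  carrier := {t | φ.T t = 0 ∧ (φ.Q p = 0 → φ.siegel p 0 t ∈ S)}
  zero_mem' := ⟨by simp, fun h => by simp [φ.siegel_zero h]⟩
  add_mem' := fun a b => ⟨by simp [a.1, b.1], fun h => tv_add h a.1 b.1 ▸ mul_mem (a.2 h) (b.2 h)⟩
  neg_mem' := fun a => ⟨by simp [a.1], fun h => tv_neg h a.1 ▸ inv_mem (a.2 h)⟩

variable (S p L) in
/-- `{u ∈ L | siegel p u s ∈ S for some s}` -/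
def AA : AddSubgroup V where
  carrier := {u | u ∈ L ∧ (φ.Q p = 0 → (∀ u ∈ L, φ.B p u = 0) → ∃ s, φ.T s = φ.Q u ∧ φ.siegel p u s ∈ S)}
  zero_mem' := ⟨L.zero_mem, fun h _ => ⟨0, by simp, by simp [φ.siegel_zero h]⟩⟩
  add_mem' := fun a b => ⟨L.add_mem a.1 b.1, fun h h' => let ⟨_, a1, a2⟩ := a.2 h h'; let ⟨_, b1, b2⟩ := b.2 h h'
    ⟨_, φ.siegel_T_add a1 b1, φ.siegel_mul h (h' _ a.1) a1 (h' _ b.1) b1 ▸ mul_mem a2 b2⟩⟩
  neg_mem' := fun a => ⟨L.neg_mem a.1, fun h h' => let ⟨_, a1, a2⟩ := a.2 h h'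
    ⟨_, by simp [φ.T_ε_σ, a1], siegel_inv h (h' _ a.1) a1 ▸ inv_mem a2⟩⟩

/-- the Siegel elements `siegel p u s`, `u ∈ L` -/
noncomputable def RR (hp : φ.Q p = 0) (hL : ∀ u ∈ L, φ.B p u = 0) : Subgroup φ.Isom :=
  mkSub (fun g => ∃ u ∈ L, ∃ s, φ.T s = φ.Q u ∧ g = φ.siegel p u s) ⟨0, L.zero_mem, 0, by simp, (φ.siegel_zero hp).symm⟩
    fun _ _ ⟨_, a, _, b, c⟩ ⟨_, d, _, e, f⟩ => ⟨_, L.add_mem a d, _, φ.siegel_T_add b e, c ▸ f ▸ φ.siegel_mul hp (hL _ a) b (hL _ d) e⟩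

theorem rad_ge (S : Subgroup φ.Isom) (hp : φ.Q p = 0) (hL : ∀ u ∈ L, φ.B p u = 0) :
    (AA S p L).relIndex L.toAddSubgroup * (Zs S p).relIndex φ.T.ker ≤ S.relIndex (RR hp hL) := by
  choose s h1 _ using φ.half
  have h2 : ∀ u (t : φ.T.ker), φ.T (s u + t) = φ.Q u := fun u t => by simp [h1, show φ.T t = 0 from t.2]
  have h3 : ∀ u (t : φ.T.ker), φ.T (φ.ε * φ.σ (s u + t)) = φ.Q (-u) := fun u t => by rw [φ.T_ε_σ, h2, Q_neg]
  refine prod_le S _ _ _ (fun (u : L.toAddSubgroup) (t : φ.T.ker) => φ.siegel p u (s u + t)) (fun u t => ⟨u, u.2, _, h2 u t, rfl⟩)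
    (fun u u' t t' e => ?_) fun u t t' e => ?_
  all_goals rw [siegel_inv hp (hL _ u.2) (h2 _ _), φ.siegel_mul hp (by simpa using hL _ u.2) (h3 _ _) (hL _ (Subtype.prop _)) (h2 _ _)] at e
  · exact ⟨(-u + u').2, fun _ _ => ⟨_, φ.siegel_T_add (h3 _ _) (h2 _ _), e⟩⟩
  · refine ⟨(-t + t').2, fun _ => ?_⟩
    convert e using 2
    · simp
    · simp [φ.B_self_of_T (h2 u t)]; ring

variable (H p) in
/-- the image of `H ∩ Q_p` in `p^⊥` -/
def aa : AddSubgroup V := AA H p (φ.perp (F ∙ p))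

theorem perp1 (p : V) : ∀ u ∈ φ.perp (F ∙ p), φ.B p u = 0 := fun _ => φ.mem_perp_singleton.1

theorem mem_aa (hp : φ.Q p = 0) : w ∈ aa H p ↔ φ.B p w = 0 ∧ ∃ s, φ.T s = φ.Q w ∧ φ.siegel p w s ∈ H :=
  ⟨fun h => ⟨perp1 p w h.1, h.2 hp (perp1 p)⟩, fun h => ⟨φ.mem_perp_singleton.2 h.1, fun _ _ => h.2⟩⟩

theorem si_self (hp : φ.Q p = 0) (c : F) : ∃ s, φ.T s = φ.Q (c • p) ∧ φ.siegel p (c • p) s = 1 := by
  have : φ.T (φ.ε * φ.σ c - c) = 0 := by simp [φ.T_ε_σ]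
  exact ⟨_, this.trans (φ.Q_smul_of_sing hp c).symm, by simp [siegel_self hp this, φ.siegel_zero hp]⟩

theorem self_aa (hp : φ.Q p = 0) (c : F) : c • p ∈ aa H p :=
  let ⟨s, h1, h2⟩ := si_self hp c; (mem_aa hp).2 ⟨by simp [φ.B_self_eq_zero hp], s, h1, h2 ▸ one_mem _⟩

theorem aa_conj {g : φ.Isom} {c : F} (hp : φ.Q p = 0) (hc : c ≠ 0) (hg : g ∈ H) (h : g • p = c • p) (hw : w ∈ aa H p) :
    φ.σ c • g • w ∈ aa H p := by
  obtain ⟨h1, s, h2, h3⟩ := (mem_aa hp).1 hw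
  obtain ⟨h4, h5⟩ := si_conj g hp hc h h1 h2
  exact (mem_aa hp).2 ⟨by simp [h4], _, by simp [φ.Q_smul, φ.T_norm, h2, mul_comm c], h5 ▸ mul_mem (mul_mem hg h3) (inv_mem hg)⟩

theorem aa_comm (hp : φ.Q p = 0) (hw : w ∈ aa H p) (hu : u ∈ aa H p) : φ.B w u - φ.B u w ∈ Zs H p := by
  obtain ⟨h1, s, h2, h3⟩ := (mem_aa hp).1 hw
  obtain ⟨h4, t, h5, h6⟩ := (mem_aa hp).1 hu
  exact ⟨by simp [φ.T_B_comm w u], fun _ => siegel_commutator hp h1 h2 h4 h5 ▸ mul_mem (mul_mem (mul_mem h3 h6) (inv_mem h3)) (inv_mem h6)⟩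

variable (φ p) in
/-- the stabiliser of the vector `p` in `E` -/
noncomputable def P1 : Subgroup φ.Isom := MulAction.stabilizer φ.Isom p ⊓ φ.E

theorem RR_le (hp : φ.Q p = 0) : RR hp (perp1 p) ≤ stb (aa H p : Set V) ⊓ P1 φ p := by
  rintro _ ⟨u, hu, s, hs, rfl⟩
  exact ⟨fun w hw => by simpa [si_app hp (perp1 p u hu) hs, perp1 p w hw.1] using add_mem hw (self_aa hp _),
    siegel_apply_self hp (perp1 p u hu) hs, φ.siegel_mem_E hp (perp1 p u hu) hs⟩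

theorem base (hp : φ.Q p = 0) : (stb (aa H p : Set V)).relIndex (P1 φ p) *
    ((aa H p).relIndex (φ.perp (F ∙ p)).toAddSubgroup * (Zs H p).relIndex φ.T.ker) ≤ H.relIndex (P1 φ p) :=
  (Nat.mul_le_mul_left _ (rad_ge H hp (perp1 p))).trans (chain (fun g ⟨hg, h, _⟩ w hw => by
    simpa using aa_conj hp one_ne_zero hg (h.trans (one_smul _ _).symm) hw) (RR_le hp))

variable (H p x)

/-- the image of `aa ∩ x^⊥` -/
def a2 : AddSubgroup V where
  carrier := {w | w ∈ φ.perp (Submodule.span F {p, x}) ∧ ∃ c : F, w + c • x ∈ aa H p}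
  zero_mem' := ⟨zero_mem _, 0, by simp⟩
  add_mem' := fun ⟨h1, c, h2⟩ ⟨h3, d, h4⟩ => ⟨add_mem h1 h3, c + d, by convert add_mem h2 h4 using 1; module⟩
  neg_mem' := fun ⟨h1, c, h2⟩ => ⟨neg_mem h1, -c, by convert neg_mem h2 using 1; module⟩

/-- the stabiliser of `aa` in `Q_x` -/
def ss : AddSubgroup V := AA (φ := φ) (stb (aa H p : Set V)) x (φ.perp (Submodule.span F {p, x}))

variable {H p x} (h : Fl φ p x)
include h

omit h in
theorem perp2 (p x : V) : ∀ u ∈ φ.perp (Submodule.span F {p, x}), φ.B x u = 0 := fun _ hu => (φ.mem_perp_pair.1 hu).2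

theorem l_a2 : (Submodule.span F {p, x}).toAddSubgroup ≤ a2 H p x := fun w hw => by
  obtain ⟨a, b, rfl⟩ := Submodule.mem_span_pair.1 hw
  exact ⟨h.le hw, -b, by simpa using self_aa h.qp a⟩

theorem RR_fix {g : φ.Isom} (hg : g ∈ RR h.qx (perp2 p x)) :
    g ∈ φ.E ∧ g • p = p ∧ ∀ w ∈ φ.perp (Submodule.span F {p, x}), ∃ c : F, g • w = w + c • x := by
  obtain ⟨u, hu, s, hs, rfl⟩ := hg
  exact ⟨φ.siegel_mem_E h.qx (perp2 p x u hu) hs, si_fix h.qx (perp2 p x u hu) hs h.symm.b (φ.B_symm_zero (φ.mem_perp_pair.1 hu).1),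
    fun w hw => ⟨_, by simp [si_app h.qx (perp2 p x u hu) hs, perp2 p x w hw]; rfl⟩⟩

theorem ss_sub (hu : u ∈ ss H p x) : ∃ s, φ.T s = φ.Q u ∧ ∀ w ∈ aa H p,
    φ.B u w • x - (φ.ε * φ.B x w) • u - (φ.ε * s * φ.B x w) • x ∈ aa H p := by
  obtain ⟨s, h1, h2⟩ := hu.2 h.qx (perp2 p x)
  refine ⟨s, h1, fun w hw => ?_⟩
  have := sub_mem (h2 w hw) hw
  rw [si_app h.qx (perp2 p x u hu.1) h1] at this
  convert this using 1; abel

variable (hx : ∀ c : F, c • x ∈ aa H p → c = 0)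
include hx

theorem ss_B (hu : u ∈ ss H p x) (hw : w ∈ a2 H p x) : φ.B u w = 0 := by
  obtain ⟨h1, c, h2⟩ := hw
  obtain ⟨s, -, h3⟩ := ss_sub h hu
  exact hx _ (by simpa [perp2 p x w h1, φ.B_self_eq_zero h.qx, φ.B_symm_zero (perp2 p x u hu.1)] using h3 _ h2)

variable (hw : w ∈ aa H p) (hw' : φ.B x w ≠ 0)
include hw hw'

theorem ss_ts (hu : u ∈ ss H p x) (hy : y ∈ ss H p x) : φ.B y u = 0 := by
  obtain ⟨s, -, h3⟩ := ss_sub h hu
  simpa [hw', φ.ε_ne_zero] using ss_B h hx hy (w := (φ.ε * φ.B x w) • u) ⟨Submodule.smul_mem _ _ hu.1, φ.ε * s * φ.B x w - φ.B u w, by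
    convert neg_mem (h3 w hw) using 1; module⟩

theorem main {K J : Subgroup φ.Isom} (hK : K ≤ P1 φ p) (h1 : stb (aa H p : Set V) ⊓ K ≤ J) (h2 : RR h.qx (perp2 p x) ≤ J ⊓ K) :
    J.relIndex K * ((ss H p x).relIndex (φ.perp (Submodule.span F {p, x})).toAddSubgroup *
      (a2 H p x).relIndex (φ.perp (Submodule.span F {p, x})).toAddSubgroup) * (Nat.card φ.T.ker * Nat.card F) *
        (Zs H p).relIndex φ.T.ker ≤ H.relIndex (P1 φ p) := by
  have b1 := achain (H := aa H p) (J := a2 H p x) (N := (Submodule.span F {p, x}).toAddSubgroup)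
    (K := (φ.perp (Submodule.span F {p, x})).toAddSubgroup) (fun w hw => ⟨hw.2, 0, by simpa using hw.1⟩) (le_inf (l_a2 h) h.le)
  have b2 : Nat.card F ≤ (aa H p).relIndex (Submodule.span F {p, x}).toAddSubgroup :=
    le_rel (aa H p).toSubgroup (Submodule.span F {p, x}).toAddSubgroup.toSubgroup (fun c : F => .ofAdd (c • x))
      (fun c => Submodule.smul_mem _ c (mem_r p x)) fun a b e => (neg_add_eq_zero.1 (hx _ (by rw [add_smul, neg_smul]; exact e)))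
  have b3 : (aa H p).relIndex (φ.perp (Submodule.span F {p, x})).toAddSubgroup ≤ (aa H p).relIndex (φ.perp (F ∙ p)).toAddSubgroup :=
    rel_mono (aa H p).toSubgroup (N := (φ.perp (Submodule.span F {p, x})).toAddSubgroup.toSubgroup)
      (K := (φ.perp (F ∙ p)).toAddSubgroup.toSubgroup) fun w hw => φ.mem_perp_singleton.2 (φ.mem_perp_pair.1 hw).1
  have b4 := rad_ge (stb (aa H p : Set V)) h.qx (perp2 p x)
  rw [show Zs (stb (aa H p : Set V)) x = ⊥ from eq_bot_iff.2 fun t ht => by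
    simpa [tv_app h.qx ht.1, hw', φ.ε_ne_zero] using hx (φ.ε * t * φ.B x w) (by
      simpa [tv_app h.qx ht.1] using sub_mem hw (ht.2 h.qx w hw)), AddSubgroup.relIndex_bot_left] at b4
  refine le_trans ?_ ((Nat.mul_le_mul ((Nat.mul_le_mul_left _ b4).trans ((chain h1 h2).trans (rel_mono _ hK)))
    (Nat.mul_le_mul_right _ (((Nat.mul_le_mul_left _ b2).trans b1).trans b3))).trans (base h.qp))
  rw [ss]; exact le_of_eq (by ring)

theorem ss_big (hQ : ∀ u, φ.B u u = 0 → φ.Q u = 0) (ht : φ.T t = 0) (ht0 : t ≠ 0) (hu : u ∈ ss H p x) (hu' : u ∉ Submodule.span F {p, x}) :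
    (Nat.card φ.T.ker + 1) * ((ss H p x).relIndex (φ.perp (Submodule.span F {p, x})).toAddSubgroup *
      (a2 H p x).relIndex (φ.perp (Submodule.span F {p, x})).toAddSubgroup) * (Nat.card φ.T.ker * Nat.card F) *
        (Zs H p).relIndex φ.T.ker ≤ H.relIndex (P1 φ p) := by
  have q1 := hQ u (ss_ts h hx hw hw' hu hu)
  obtain ⟨v, v1, v2⟩ := φ.exists_partner q1 hu' hu.1
  have k1 : ∀ {z : V} {t : F}, z ∈ φ.perp (Submodule.span F {p, x}) → φ.Q z = 0 → φ.T t = 0 → φ.siegel z 0 t ∈ P1 φ p ⊓ P1 φ x :=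
    fun {z t} a b c => ⟨⟨by simp [tv_app b c, φ.B_symm_zero (φ.mem_perp_pair.1 a).1], tv_E b c⟩,
      by simp [tv_app b c, φ.B_symm_zero (φ.mem_perp_pair.1 a).2], tv_E b c⟩
  have k2 : ∀ s : φ.T.ker, φ.siegel u 0 s * φ.siegel v 0 t ∉ stb (ss H p x : Set V) := fun s e => by
    simpa [mul_smul, tv_app v2.Qf ht, tv_app q1 s.2, v2.Bee, v2.Bef, v2.Bfe, ht0, φ.ε_ne_zero] using ss_ts h hx hw hw' (e u hu) hu
  refine le_trans ?_ (main h hx hw hw' (K := P1 φ p ⊓ P1 φ x) (J := stb (ss H p x : Set V)) inf_le_left (fun g ⟨g1, g2, g3⟩ y hy => ?_)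
    fun g hg => ?_)
  · gcongr
    rw [← Finite.card_option]
    refine le_rel _ _ (Option.elim · 1 fun s => φ.siegel u 0 s * φ.siegel v 0 t) ?_ ?_
    · rintro (_ | s)
      exacts [one_mem _, mul_mem (k1 hu.1 q1 s.2) (k1 v1 v2.Qf ht)]
    rintro (_ | s) (_ | s') e
    · rfl
    · exact (k2 s' (by simpa using e)).elim
    · exact (k2 s (inv_mem_iff.1 (by simpa only [Option.elim, mul_one] using e))).elim
    have := ss_ts h hx hw hw' (e u hu) hu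
    have e1 : φ.B u (φ.siegel v 0 t • u) ≠ 0 := by simp [tv_app v2.Qf ht, v2.Bee, v2.Bef, v2.Bfe, ht0, φ.ε_ne_zero]
    simp only [Option.elim, mul_inv_rev, mul_smul] at this
    rw [← B_act (φ.siegel v 0 t), smul_inv_smul, ← tv_neg q1 s.2, ← mul_smul, ← tv_add q1 (by simp [show φ.T s = 0 from s.2]) s'.2,
      tv_app q1 (by simp [show φ.T s = 0 from s.2, show φ.T s' = 0 from s'.2])] at this
    simpa [v2.Bee, e1, mt φ.B_symm_zero e1, φ.ε_ne_zero, neg_add_eq_zero] using this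
  · obtain ⟨s, h1, h2⟩ := hy.2 h.qx (perp2 p x)
    have := si_conj g h.qx one_ne_zero (g3.1.trans (one_smul _ _).symm) (perp2 p x y hy.1) h1
    exact ⟨φ.mem_perp_pair.2 ⟨by rw [B_fix g2.1, (φ.mem_perp_pair.1 hy.1).1], this.1⟩, fun _ _ => ⟨s, by simp [h1], by
      simpa [this.2] using (stb _).mul_mem ((stb _).mul_mem g1 h2) ((stb _).inv_mem g1)⟩⟩
  · obtain ⟨a1, a2, a3⟩ := RR_fix h hg
    obtain ⟨_, b1, _, b2, b3⟩ := hg
    refine ⟨fun y hy => ?_, ⟨a2, a1⟩, b3 ▸ siegel_apply_self h.qx (perp2 p x _ b1) b2, a1⟩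
    obtain ⟨c, hc⟩ := a3 y hy.1
    obtain ⟨s, h1, h2⟩ := si_self h.qx c
    exact hc ▸ add_mem hy ⟨h.le (Submodule.smul_mem _ _ (mem_r p x)), fun _ _ => ⟨s, h1, h2 ▸ one_mem _⟩⟩

omit h hx hw hw'

variable (φ) in
/-- forms whose unipotent radicals `Q_p` are special groups -/
structure Spc : Prop where
  std : φ.Std
  Q0 : ∀ u, φ.B u u = 0 → φ.Q u = 0
  sur : ∀ t, φ.T t = 0 → ∃ b, t = b - φ.ε * φ.σ b

theorem span_sing (hs : φ.Std) (hp : φ.Q p = 0) (hp0 : p ≠ 0) (hd : 5 ≤ finrank F V) {A : Submodule F V}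
    (hA : ∀ x, φ.Q x = 0 → φ.B p x = 0 → x ∈ A) : φ.perp (F ∙ p) ≤ A := fun w hw => by
  obtain ⟨f, hf⟩ := φ.exists_hyp hp hp0
  have := hs.le_of_sing hf.nondegOn.perp (by have := hf.finrank_perp; omega) (fun w h1 _ h2 => hA w h2 (φ.mem_perp_pair.1 h1).1)
    (hf.proj_mem w)
  simpa [perp1 p w hw] using add_mem this (A.smul_mem (φ.ε * φ.B f w) (hA p hp hf.Bee))

variable (hs : Spc φ) (hD : ¬ φ.T.ker ≤ Zs H p)
include hs hD

theorem pair (X X' : AddSubgroup V) (Y : Submodule F V) (h1 : X' ≤ (φ.perp Y).toAddSubgroup)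
    (h2 : ∀ w ∈ X, ∀ u ∈ X', φ.B w u - φ.B u w ∈ Zs H p) : Nat.card X * Nat.card X' ≤ Nat.card F ^ finrank F V := by
  obtain ⟨χ, c1, t, c2, c3⟩ := exists_char hD
  rw [← φ.finrank_perp Y, pow_add, ← card_sub, ← card_sub, mul_comm (Nat.card Y)]
  refine pair_le (AddMonoidHom.mk' (fun w => (φ.B w).toAddMonoidHom - (φ.B.flip w).toAddMonoidHom) fun a b => by ext; simp; ring) χ X
    Y.toAddSubgroup X' _ h1 (fun w hw u hu => c1 _ (h2 w hw u hu)) fun a _ ha => ?_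
  rw [← φ.perp_perp Y]
  refine φ.mem_perp'.2 fun u hu => by_contra fun e => c3 ?_
  obtain ⟨b, rfl⟩ := hs.sur t c2
  simpa [φ.symm a u, e, mul_left_comm] using ha _ (Submodule.smul_mem _ (b / φ.B a u) hu)

theorem pair_idx {k : ℕ} (hd : finrank F V = k + 4) (h : Fl φ p x) {X X' : AddSubgroup V} (h0 : X ≤ (φ.perp (Submodule.span F {p, x})).toAddSubgroup)
    (h1 : X' ≤ (φ.perp (Submodule.span F {p, x})).toAddSubgroup) (h2 : ∀ w ∈ X, ∀ u ∈ X', φ.B w u - φ.B u w ∈ Zs H p) :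
    Nat.card F ^ k ≤ X.relIndex (φ.perp (Submodule.span F {p, x})).toAddSubgroup * X'.relIndex (φ.perp (Submodule.span F {p, x})).toAddSubgroup := by
  have h3 := pair hs hD X X' _ h1 h2
  have h4 := acard_mul h0
  have h5 := acard_mul h1
  rw [show Nat.card (φ.perp (Submodule.span F {p, x})).toAddSubgroup = _ from h.cardL hd] at h4 h5
  refine Nat.le_of_mul_le_mul_left (c := Nat.card F ^ finrank F V) ?_ (pow_pos Nat.card_pos _)
  calc _ = _ * _ := by rw [hd, ← pow_add, show k + 4 + k = k + 2 + (k + 2) by ring, pow_add]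
    _ = _ := (congrArg₂ (· * ·) h4 h5).symm.trans (mul_mul_mul_comm _ _ _ _)
    _ ≤ _ := Nat.mul_le_mul_right _ h3

theorem ex_good (hp : φ.Q p = 0) (hp0 : p ≠ 0) {k : ℕ} (hd : finrank F V = k + 4) (hk : 1 ≤ k)
    (hr : Nat.card F ^ (k + 4) ≤ (Nat.card F ^ (k + 1) * Nat.card φ.T.ker) ^ 2) (hw : w ∈ aa H p) (hw' : w ∉ F ∙ p) :
    ∃ x, Fl φ p x ∧ (∀ c : F, c • x ∈ aa H p → c = 0) ∧ ∃ w ∈ aa H p, φ.B x w ≠ 0 := by
  have key : ∀ x, φ.Q x = 0 → φ.B p x = 0 → ∀ w ∈ aa H p, φ.B x w ≠ 0 → Fl φ p x := fun x a b w c d => ⟨hp, a, b, hp0, fun e => by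
    obtain ⟨s, rfl⟩ := Submodule.mem_span_singleton.1 e
    simp [perp1 p w c.1] at d⟩
  by_contra! hc
  replace hc : ∀ x, φ.Q x = 0 → φ.B p x = 0 → ∀ w ∈ aa H p, φ.B x w ≠ 0 → ∃ c : F, c • x ∈ aa H p ∧ c ≠ 0 := fun x a b w c d => by
    by_contra! e; exact d (hc x (key x a b w c d) e w c)
  obtain ⟨e, e1, e2, e3⟩ : ∃ e ∈ aa H p, e ∉ F ∙ p ∧ φ.Q e = 0 := by
    by_contra! e
    refine hw' (φ.perp_le_perp_iff.1 (span_sing hs.std hp hp0 (by omega) (A := φ.perp (F ∙ w)) fun x a b => φ.mem_perp_singleton.2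
      (φ.B_symm_zero (by_contra fun d => ?_))) (Submodule.mem_span_singleton_self w))
    obtain ⟨c, c1, c2⟩ := hc x a b w hw d
    exact e _ c1 (fun e => (key x a b w hw d).ne ((Submodule.smul_mem_iff _ c2).1 e)) (φ.Q_smul_of_sing a c)
  obtain ⟨f, f1, f2⟩ := φ.exists_partner e3 e2 e1.1
  have h1 := φ.card_partners f2 _ e1.1 f1
  have h2 := pair hs hD (aa H p) (aa H p) (F ∙ p) (fun _ a => a.1) fun _ a _ => aa_comm hp a
  have h3 : ∀ v : {v // v ∈ φ.perp (F ∙ p) ∧ φ.IsHyp e v}, ∃ c : F, c • v.1 ∈ aa H p ∧ c ≠ 0 := fun v =>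
    hc v v.2.2.Qf (perp1 p _ v.2.1) e e1 (v.2.2.Bfe ▸ φ.ε_ne_zero)
  choose c c1 c2 using h3
  have h4 := Nat.card_le_card_of_injective (α := Option {v // v ∈ φ.perp (F ∙ p) ∧ φ.IsHyp e v}) (β := aa H p)
    (Option.elim · 0 fun v => ⟨_, c1 v⟩) (by
    rintro (_ | u) (_ | v) h <;> replace h := congrArg Subtype.val h <;> have h' := congrArg (φ.B e) h
    · rfl
    · simp [v.2.2.Bef, (c2 v).symm] at h'
    · simp [u.2.2.Bef, c2 u] at h'
    · simp only [Option.elim, φ.B_smul_right, u.2.2.Bef, v.2.2.Bef, mul_one] at h h'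
      exact congrArg _ (Subtype.ext (smul_right_injective V (c2 v) (by simpa [h'] using h))))
  have r1 := φ.finrank_perp ((F ∙ p) ⊔ Submodule.span F {e, f})
  have r2 := rank_sup (F ∙ p) (Submodule.span F {e, f})
  have r3 := finrank_span_singleton_le (F := F) p
  rw [Finite.card_option, h1, ← φ.perp_sup] at h4
  have h5 := (Nat.mul_le_mul_right _ (pow_le_card (j := k + 1) (by have := f2.finrank_span; omega))).trans_lt h4
  exact ((Nat.mul_self_lt_mul_self h5).trans_le (hd ▸ h2)).not_ge (sq (_ : ℕ) ▸ hr)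

omit hs hD

theorem a2_comm (h : Fl φ p x) (hw : w ∈ a2 H p x) (hu : u ∈ a2 H p x) : φ.B w u - φ.B u w ∈ Zs H p := by
  obtain ⟨a, c, b⟩ := hw
  obtain ⟨a', c', b'⟩ := hu
  simpa [perp2 p x _ a, perp2 p x _ a', φ.B_symm_zero (perp2 p x _ a), φ.B_symm_zero (perp2 p x _ a'), φ.B_self_eq_zero h.qx]
    using aa_comm h.qp b b'

theorem idx_ge {X : AddSubgroup V} {Y : Submodule F V} {j : ℕ} (h1 : X ≤ Y.toAddSubgroup) (h2 : Y ≤ L) (h3 : finrank F Y + j ≤ finrank F L) :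
    Nat.card F ^ j ≤ X.relIndex L.toAddSubgroup := by
  refine Nat.le_of_mul_le_mul_left (c := Nat.card F ^ finrank F Y) ?_ (pow_pos Nat.card_pos _)
  rw [← pow_add]
  exact ((pow_le_card h3).trans_eq (acard_mul (K := L.toAddSubgroup) (h1.trans h2)).symm).trans
    (Nat.mul_le_mul_right _ ((AddSubgroup.card_le_of_le h1).trans_eq (card_sub Y)))

theorem RR_conj {g j : φ.Isom} (hp : φ.Q p = 0) (hp0 : p ≠ 0) (hg : g ∈ pt F p) (hj : j ∈ RR hp (perp1 p)) : g * j * g⁻¹ ∈ RR hp (perp1 p) := by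
  obtain ⟨c, hc⟩ := hg
  obtain ⟨u, hu, s, hs, rfl⟩ := hj
  obtain ⟨h1, h2⟩ := si_conj g hp (pt_ne hp0 hc) hc (perp1 p u hu) hs
  exact ⟨_, φ.mem_perp_singleton.2 (by simp [h1]), _, by simp [φ.Q_smul, φ.T_norm, hs, mul_comm c], h2⟩

theorem two_rad {K : Subgroup φ.Isom} {g : φ.Isom} (hp : φ.Q p = 0) (hp0 : p ≠ 0) (h1 : P1 φ p ≤ K) (hg : g ∈ K) (hg' : g ∈ pt F p)
    (h : ∀ j ∈ RR hp (perp1 p), g * j ∉ H) : 2 * ((aa H p).relIndex (φ.perp (F ∙ p)).toAddSubgroup * (Zs H p).relIndex φ.T.ker) ≤ H.relIndex K := by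
  have h2 := add_le (((RR_le (H := H) hp).trans inf_le_right).trans h1) hg h
  have h3 := rel_mono H (N := RR hp (perp1 p)) (K := cj g (RR hp (perp1 p))) fun j hj => mem_cj.2 (by simpa using RR_conj hp hp0 (inv_mem hg') hj)
  have := rad_ge H hp (perp1 p)
  rw [aa]; omega

/-- singular vectors whose transvection group lies in `H` -/
def Dp (H : Subgroup φ.Isom) (v : V) : Prop := φ.Q v = 0 ∧ φ.T.ker ≤ Zs H v

theorem Dp.mem (h : Dp H p) (ht : φ.T t = 0) : φ.siegel p 0 t ∈ H := (h.2 ht).2 h.1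

theorem Dp.zero : Dp H 0 := ⟨by simp, fun t ht => ⟨ht, fun _ => by rw [siegel_zero_left (by simpa using ht)]; exact one_mem _⟩⟩

theorem Dp.smul (h : Dp H p) (c : F) : Dp H (c • p) := ⟨φ.Q_smul_of_sing h.1 c, fun t ht => ⟨ht, fun _ => by
  rw [siegel_smul h.1 (by simp) (by simpa using ht), smul_zero]; exact h.mem (by simp [φ.T_norm, show φ.T t = 0 from ht])⟩⟩

theorem Dp.map (h : Dp H p) {g : φ.Isom} (hg : g ∈ H) : Dp H (g • p) := ⟨by simp [h.1], fun t ht => ⟨ht, fun _ => by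
  simpa [tv_conj g h.1 one_ne_zero (one_smul _ _).symm ht] using mul_mem (mul_mem hg (h.mem ht)) (inv_mem hg)⟩⟩

theorem Dp.add (hr : ∀ z, φ.Q z = 0 → ¬ Dp H z → ∀ w ∈ aa H z, w ∈ F ∙ z) (ht : φ.T t = 0) (ht0 : t ≠ 0) (hx : Dp H x) (hy : Dp H y)
    (h : φ.Q (x + y) = 0) : Dp H (x + y) := by
  by_cases h0 : φ.B x y = 0
  · by_contra e
    have b1 := φ.B_self_eq_zero hx.1
    have b2 := φ.B_symm_zero h0
    have b3 : φ.B (x + y) (t • x) = 0 := by simp [b1, b2]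
    obtain ⟨c, hc⟩ := Submodule.mem_span_singleton.1 (hr _ h e _ ((mem_aa h).2 ⟨b3, -t, by simp [ht, φ.Q_smul_of_sing hx.1], by
      convert mul_mem (hx.mem ht) (hy.mem (t := -t) (by simp [ht])) using 1
      refine iext fun v => ?_
      have e1 : φ.σ t = -(φ.ε * t) := by rw [← φ.ε_mul_ε_mul (φ.σ t), eq_neg_of_add_eq_zero_right (φ.T_ker t ht), mul_neg]
      rw [si_app h b3 (s := -t) (by simp [ht, φ.Q_smul_of_sing hx.1]), mul_smul (φ.siegel x 0 t), tv_app hx.1 ht, tv_app hy.1 (t := -t) (by simp [ht])]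
      simp only [map_add, map_sub, LinearMap.add_apply, φ.B_smul_left, φ.B_smul_right, h0, e1]
      module⟩))
    by_cases hc0 : c = 0
    · rw [hc0, zero_smul, eq_comm, smul_eq_zero_iff_right ht0] at hc
      exact e (by simpa [hc] using hy)
    · exact e (by simpa [← hc, hc0] using (hx.smul t).smul c⁻¹)
  · have h1 : φ.T (-(φ.ε / φ.B x y)) = 0 := by
      have : φ.T (φ.B y x) = 0 := by simpa [φ.Q_add, hx.1, hy.1, φ.T_B_comm x y] using h
      have h2 := φ.T_norm (φ.B x y)⁻¹ (φ.B y x)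
      rw [this, φ.symm x y, map_inv₀] at h2
      rw [map_neg, neg_eq_zero, ← mul_zero _, ← h2]
      congr 1; field_simp [h0, φ.σ_eq_zero.not.2 h0]
    simpa [tv_app hx.1 h1, mul_div_assoc', h0, add_comm] using hy.map (hx.mem h1)

theorem le_pt (h1 : p ∉ Submodule.span F {v | Dp H v}) (h2 : Submodule.span F {v | Dp H v} ⊔ (F ∙ p) = ⊤) : ∃ v : V, v ≠ 0 ∧ H ≤ pt F v := by
  obtain ⟨v, v1, v2⟩ := φ.exists_sep h1
  refine ⟨v, fun e => by simp [e] at v2, fun g hg => ⟨φ.σ (φ.B (g • v) p), sub_eq_zero.1 (φ.eq_zero_of_B_left fun y => ?_)⟩⟩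
  refine φ.mem_perp_singleton.1 ((show _ ≤ φ.perp (F ∙ _) from sup_le (Submodule.span_le.2 fun u hu => φ.mem_perp_singleton.2 ?_)
    ((Submodule.span_singleton_le_iff_mem _ _).2 (φ.mem_perp_singleton.2 (by simp [v2])))) (h2 ▸ Submodule.mem_top))
  rw [map_sub, LinearMap.sub_apply, ← B_act g⁻¹, inv_smul_smul, v1 _ (Submodule.subset_span (hu.map (inv_mem hg))), φ.B_smul_left,
    v1 _ (Submodule.subset_span hu), mul_zero, sub_zero]

theorem tz (K : Subfield F) (hK : ∀ c : F, φ.σ c * c ∈ K) (hT : ∀ c ∈ K, ∀ t, φ.T t = 0 → φ.T (c * t) = 0) (hp : φ.Q p = 0) (hp0 : p ≠ 0)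
    (hb : φ.Big) {m : ℕ} (hm : Nat.card K - 1 ≤ m * {n | ∃ c : F, c ≠ 0 ∧ φ.σ c * c = n}.ncard) (hD : ¬ φ.T.ker ≤ Zs H p) :
    ∃ (t : ℕ) (J : Subgroup φ.Isom), P1 φ p ≤ J ∧ (∀ g ∈ φ.E, g • p = -p → g ∈ J) ∧ t * H.relIndex J ≤ ix H p ∧
      Nat.card K ≤ m * t * (Zs H p).relIndex φ.T.ker ∧
        ((∃ (c : K), ∃ y ∈ Zs H p, c • y ∉ Zs H p) → Nat.card K + 2 ≤ m * t * (Zs H p).relIndex φ.T.ker) := by
  let J : Subgroup φ.Isom := mkSub (fun g => ∃ c : F, g • p = c • p ∧ ∀ t ∈ Zs H p, φ.σ c * c * t ∈ Zs H p) ⟨1, by simp⟩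
    fun a b ⟨c, h1, h2⟩ ⟨d, h3, h4⟩ => ⟨c * d, by rw [mul_smul, h3, smul_comm, h1, smul_smul, mul_comm], fun t ht => by
      convert h2 _ (h4 t ht) using 1; rw [map_mul]; ring⟩
  refine ⟨J.relIndex (pt F p ⊓ φ.E), J ⊓ (pt F p ⊓ φ.E), fun g hg => ⟨⟨1, by simpa using hg.1, by simp⟩, ⟨1, by simpa using hg.1⟩, hg.2⟩,
    fun g h1 h2 => ⟨⟨-1, by simpa, by simp⟩, ⟨-1, by simpa⟩, h1⟩, chain (fun g ⟨h1, ⟨c, h2⟩, _⟩ => ⟨c, h2, fun t ht => ⟨by simp [φ.T_norm, ht.1],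
      fun _ => tv_conj g hp (pt_ne hp0 h2) h2 ht.1 ▸ mul_mem (mul_mem h1 (ht.2 hp)) (inv_mem h1)⟩⟩) le_rfl,
    scal_bound (F := K) (fun c t ht => hT c c.2 t ht) hD (hm.trans ?_)⟩
  rw [mul_assoc]
  obtain ⟨l, hl⟩ := Module.Projective.exists_dual_eq_one F hp0
  have h1 : ∀ {g : φ.Isom} {c : F}, g • p = c • p → l (g • p) = c := fun h => by simp [h, hl]
  refine Nat.mul_le_mul_left _ ((ncard_le_act J (pt F p ⊓ φ.E) (fun g y => φ.σ (l (g • p)) * l (g • p) * y) (fun g ⟨⟨c, hc⟩, _⟩ k ⟨⟨d, hd⟩, _⟩ y => ?_) 1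
    (S := (↑) '' scal K (Zs H p)) ?_ fun j ⟨⟨c, hc⟩, _⟩ ⟨d, hd, h2⟩ => ⟨⟨_, hK d⟩, ⟨fun e => ?_, h2⟩, by simp [h1 hd]⟩).trans
      (Nat.mul_le_mul_left _ (Set.ncard_image_le (Set.toFinite _))))
  · rw [h1 hc, h1 hd, h1 (c := c * d) (by rw [mul_smul, hd, smul_comm, hc, smul_smul, mul_comm]), map_mul]; ring
  · rintro _ ⟨c, hc, rfl⟩
    obtain ⟨g, g1, g2⟩ := hb.exists_E_map_sing hp hp0 (φ.Q_smul_of_sing hp c) (smul_ne_zero hc hp0)
    exact ⟨g, ⟨⟨c, g2⟩, g1⟩, by simp [h1 g2]⟩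
  · simpa [pt_ne hp0 hd] using congrArg Subtype.val e

end T

end H24.MD
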