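import Cfsg.Agent.H24.MDT

/-!
# Minimal index for unitary groups of dimension at least `5`: local analysis (namespace `H24.MD.U`)

* `reg` : if `Z_p ≰ H` then `H ∩ Q_p = 1` and `P = (H ∩ P) Q_p`; `lift` : every singular line through `p` meets `Dp H`
-/

set_option autoImplicit false
set_option linter.unusedSectionVars false

open Subgroup H20 H10 H10.Form Module

namespace H24.MD.U

open O (Fl ix)
open T

variable {F V : Type*} [Field F] [Finite F] [AddCommGroup V] [Module F V] [Finite V] {φ : Form F V} [φ.Nondeg]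
  {H : Subgroup φ.Isom} {p x w u y : V} {s t : F} {q : ℕ} (h : φ.IsUnitary q)
include h

theorem skew (ht : φ.T t = 0) : φ.σ t = -t := eq_neg_of_add_eq_zero_right ((h.herm.T_eq t).symm.trans ht)

theorem spc (hd : 3 ≤ finrank F V) : Spc φ := ⟨h.std hd, fun u hu => (h.herm.Q_eq u).trans hu, fun t ht => by
  obtain ⟨θ, h1⟩ := h.exists_T_eq (c := 1) (map_one _)
  exact ⟨θ * t, by rw [h.herm.T_eq] at h1; rw [h.herm.ε_eq, map_mul, skew h ht]; linear_combination -t * h1⟩⟩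

theorem ex_hyp {W : Submodule F V} (hW : φ.NondegOn W) (h2 : 2 ≤ finrank F W) : ∃ e ∈ W, ∃ f ∈ W, φ.IsHyp e f :=
  let ⟨e, a, b, c⟩ := h.exists_singular h2; ⟨e, a, exists_hyp_mem hW a b c⟩

theorem ex_diag (hd : 3 ≤ finrank F V) (hf : Fl φ p x) (hy : y ∈ φ.perp (Submodule.span F {p, x})) (hQ : φ.Q y ≠ 0) {ν μ : F} (h0 : ν ≠ 0)
    (h1 : φ.σ μ * μ = 1) (h2 : ν * (φ.σ ν)⁻¹ * μ = 1) : ∃ g ∈ φ.E, g • p = p ∧ g • x = ν • x ∧ g • y = μ • y := by
  obtain ⟨y1, y2⟩ := φ.mem_perp_pair.1 hy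
  obtain ⟨f, a1, a2⟩ := φ.exists_partner (W := Submodule.span F {p, y}) hf.qx (fun e => by
    obtain ⟨a, b, e⟩ := Submodule.mem_span_pair.1 e
    have := congrArg (φ.B y) e
    simp [φ.B_symm_zero y1, φ.B_symm_zero y2, ← h.herm.Q_eq, hQ] at this
    exact hf.ne (by simp [← e, this, mem_sp])) (φ.mem_perp_pair.2 ⟨hf.b, φ.B_symm_zero y2⟩)
  obtain ⟨a3, a4⟩ := φ.mem_perp_pair.1 a1
  refine ⟨φ.rot x f ν * φ.qrefl y μ, h.E_eq_SIsom hd ▸ ?_, ?_, ?_, ?_⟩
  · rw [SIsom, MonoidHom.mem_ker, map_mul, ← Units.val_eq_one, Units.val_mul, coe_det, coe_det, φ.det_rot a2 h0, h.herm.det_qrefl hQ h1, h2]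
  · exact (congrArg (φ.rot x f ν).1 (h.herm.qrefl_of_orth hQ h1 (φ.B_symm_zero y1))).trans (φ.rot_apply_of_orth a2 h0 hf.symm.b (φ.B_symm_zero a3))
  · exact (congrArg (φ.rot x f ν).1 (h.herm.qrefl_of_orth hQ h1 (φ.B_symm_zero y2))).trans (φ.rot_apply_e a2 h0)
  · exact (congrArg (φ.rot x f ν).1 (h.herm.qrefl_self hQ h1)).trans ((map_smul _ _ _).trans
      (congrArg _ (φ.rot_apply_of_orth a2 h0 y2 (φ.B_symm_zero a4))))

variable {k : ℕ} (hd : finrank F V = k + 4) (hk : 1 ≤ k) (hm : H.relIndex φ.E < (q + 1) * Nat.card F ^ (k + 2))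
include hd hk hm

theorem beta (hp : φ.Q p = 0) (hp0 : p ≠ 0) (hD : ¬ φ.T.ker ≤ Zs H p) (hw : w ∈ aa H p) (hw' : w ∉ F ∙ p) :
    (q + 1) * Nat.card F ^ k * (q * Nat.card F) * (Zs H p).relIndex φ.T.ker ≤ H.relIndex (P1 φ p) := by
  have hs := spc h (by omega)
  have hq := h.two_le
  obtain ⟨x, hf, hx, w, hw, hw'⟩ := ex_good hs hD hp hp0 hd hk (by
    rw [h.card_ker_T, mul_pow, ← h.card, ← pow_mul, ← pow_succ]; exact Nat.pow_le_pow_right Nat.card_pos (by omega)) hw hw'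
  obtain ⟨t, ht0, ht⟩ := h.exists_skew
  by_cases h1 : ss H p x ≤ (Submodule.span F {p, x}).toAddSubgroup
  swap
  · obtain ⟨u, u1, u2⟩ := SetLike.not_le_iff_exists.1 h1
    refine le_trans ?_ (h.card_ker_T ▸ ss_big hf hx hw hw' hs.Q0 ht ht0 u1 u2)
    gcongr
    exact pair_idx hs hD hd hf (fun _ a => a.1) (fun _ a => a.1) fun u a v b => by simp [ss_B hf hx a b, φ.B_symm_zero (ss_B hf hx a b)]
  have r1 := φ.finrank_perp (Submodule.span F {p, x})
  have r2 := hf.rank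
  have h2 := idx_ge (j := k) h1 hf.le (by omega)
  have h3 := pair_idx hs hD hd hf (X := a2 H p x) (X' := a2 H p x) (fun _ a => a.1) (fun _ a => a.1) fun _ a _ => a2_comm hf a
  have h4 := main hf hx hw hw' (K := P1 φ p ⊓ pt F x) (J := stb (a2 H p x : Set V)) inf_le_left (fun g ⟨g1, g2, c, g3⟩ y ⟨y1, d, y2⟩ =>
    ⟨φ.mem_perp_pair.2 ⟨by rw [B_fix g2.1, (φ.mem_perp_pair.1 y1).1], by
      simpa [g3, pt_ne hf.symm.p0 g3] using (B_act g x y).trans (perp2 p x y y1)⟩, d * c, by simpa [smul_comm g, g3, smul_smul] using g1 _ y2⟩)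
    fun g hg => by
      obtain ⟨a1, a2, a3⟩ := RR_fix hf hg
      obtain ⟨c, hc⟩ := a3 x (hf.le (mem_r p x))
      refine ⟨fun y hy => ?_, ⟨a2, a1⟩, 1 + c, by rw [hc, add_smul, one_smul]⟩
      obtain ⟨c, hc⟩ := a3 y hy.1
      exact hc ▸ add_mem hy (l_a2 hf (Submodule.smul_mem _ _ (mem_r p x)))
  refine le_trans ?_ (h.card_ker_T ▸ h4)
  gcongr ?_ * _ * _
  rw [mul_left_comm, mul_comm]
  refine Nat.mul_le_mul h2 ?_
  by_contra! h5
  have h6 := (Nat.le_mul_of_pos_left _ (rel_pos _ _)).trans_lt h5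
  rw [h.card, ← pow_mul] at h3
  obtain rfl : k = 1 := by
    have := h3.trans (Nat.mul_self_le_mul_self (Nat.le_of_lt_succ h6))
    rw [← sq, Nat.pow_le_pow_iff_right hq] at this; omega
  obtain ⟨y, y1, y2⟩ : ∃ y ∈ a2 H p x, y ∉ (Submodule.span F {p, x}).toAddSubgroup := SetLike.not_le_iff_exists.1 fun e => by
    have := idx_ge (j := 1) e hf.le (by omega)
    rw [h.card] at this; nlinarith
  have hQ : φ.Q y ≠ 0 := fun e => by
    have := ((h.herm.ts fun a a1 b b1 => hf.le b1 a a1).sup (TS.singleton e) ((Submodule.span_singleton_le_iff_mem _ _).2 y1.1)).finrank_le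
    rw [finrank_sup_singleton y2] at this; omega
  have h7 : ∀ c : F, c • y ∈ a2 H p x ⊓ (F ∙ y).toAddSubgroup := fun c => by_contra fun e => by
    have a1 := scal_sq (F := F) (a := a2 H p x ⊓ (F ∙ y).toAddSubgroup) ⟨y1, Submodule.mem_span_singleton_self y⟩ e
    have a2 : q + 1 ≤ (scal F (a2 H p x ⊓ (F ∙ y).toAddSubgroup)).ncard := h.card_norm one_ne_zero (map_one _) ▸
      Set.ncard_le_ncard (s := {a | φ.σ a * a = 1}) fun μ hμ => ⟨right_ne_zero_of_mul_eq_one hμ, fun z ⟨z1, z2⟩ => ⟨by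
        obtain ⟨ν, n0, n1⟩ := h.exists_h90 (μ := μ⁻¹) (by rw [map_inv₀, ← mul_inv, hμ, inv_one])
        obtain ⟨g, g1, g2, g3, g4⟩ := ex_diag h (by omega) hf y1.1 hQ n0 hμ (by rw [n1, inv_mul_cancel₀ (right_ne_zero_of_mul_eq_one hμ)])
        obtain ⟨b, rfl⟩ := Submodule.mem_span_singleton.1 z2
        by_contra e
        have := Nat.mul_le_mul (two_le_rel (J := stb (a2 H p x : Set V)) (K := P1 φ p ⊓ pt F x) ⟨⟨g2, g1⟩, ν, g3⟩ fun e' => e (by
          simpa [smul_comm g, g4, smul_comm b] using e' _ z1)) (Nat.mul_self_le_mul_self_iff.1 (by simpa [sq] using h3))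
        omega, Submodule.smul_mem _ _ z2⟩⟩
    rw [h.card] at a1; nlinarith
  refine hD fun s hs' => ?_
  obtain ⟨b, rfl⟩ := hs.sur s hs'
  simpa [← h.herm.Q_eq, hQ, h.herm.ε_eq, h.herm.σ_Q] using a2_comm hf y1 (h7 (b / φ.Q y)).1

theorem reg (hp : φ.Q p = 0) (hp0 : p ≠ 0) (hD : ¬ φ.T.ker ≤ Zs H p) :
    (∀ w ∈ aa H p, w ∈ F ∙ p) ∧ Zs H p = ⊥ ∧ ∀ g ∈ pt F p ⊓ φ.E, ∃ j ∈ RR hp (perp1 p), g * j ∈ H := by
  have hm' := (O.ix_le p).trans_lt hm
  have hq := h.two_le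
  let K : Subfield F := φ.σ.eqLocusField (RingHom.id F)
  have hK : Nat.card K = q := (Nat.card_congr (Equiv.subtypeEquivRight fun a => by simp [K, h.σ_eq])).trans (card_fixed h.card)
  obtain ⟨t, J, j1, -, j2, j3, j4⟩ := tz K (fun c => by simp [K, mul_comm]) (fun c hc t ht => by
    rw [h.herm.T_eq, map_mul, skew h ht, show φ.σ c = c from hc]; ring) hp hp0 (h.big (by omega)) (m := 1) (by
    rw [hK, ← card_fixed_ne h.card, one_mul]
    exact Set.ncard_le_ncard (s := {x | x ≠ 0 ∧ x ^ q = x}) fun c hc => let ⟨a, ha⟩ := h.exists_norm ((h.σ_eq c).trans hc.2)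
      ⟨a, fun e => hc.1 (by simp [← ha, e]), ha⟩) hD
  replace j2 := ((Nat.mul_le_mul_left t (rel_mono H j1)).trans j2).trans_lt hm'
  rw [hK, one_mul] at j3 j4
  have h1 : ∀ w ∈ aa H p, w ∈ F ∙ p := fun w hw => by_contra fun e => by
    refine ((Nat.mul_le_mul_left t (beta h hd hk hm hp hp0 hD hw e)).trans_lt j2).not_ge ?_
    calc _ = (q + 1) * Nat.card F ^ k * (q * Nat.card F) * q := by rw [pow_add, sq, ← mul_assoc]; nth_rw 2 [h.card]; ring
      _ ≤ _ := (Nat.mul_le_mul_left _ j3).trans_eq (by ring)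
  have r1 := φ.finrank_perp (F ∙ p)
  have r2 := finrank_span_singleton (K := F) hp0
  have h2 := idx_ge (j := k + 2) (X := aa H p) h1 ((Submodule.span_singleton_le_iff_mem _ _).2 (φ.mem_perp_singleton.2 (φ.B_self_eq_zero hp))) (by omega)
  have h3 : Zs H p = ⊥ := eq_bot_iff.2 fun y hy => by_contra fun y0 => by
    obtain ⟨z, z1, z2⟩ := SetLike.not_le_iff_exists.1 hD
    have := j4 ⟨⟨z / y, by simp [K, skew h z1, skew h hy.1]⟩, y, hy, by simpa [Subfield.smul_def, show y ≠ 0 from y0]⟩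
    have := Nat.mul_le_mul this h2
    have := Nat.mul_le_mul_left t ((Nat.le_mul_of_pos_left _ (rel_pos _ _)).trans (base (H := H) hp))
    nlinarith
  refine ⟨h1, h3, fun g hg => by_contra fun e => ?_⟩
  have := two_rad (K := pt F p ⊓ φ.E) hp hp0 (fun g hg => ⟨⟨1, by simpa using hg.1⟩, hg.2⟩) hg hg.1 (by simpa using e)
  rw [h3, AddSubgroup.relIndex_bot_left, h.card_ker_T] at this
  have := Nat.mul_le_mul_right (2 * q) h2
  have := Nat.mul_le_mul_right (Nat.card F ^ (k + 2)) (show q + 1 ≤ 2 * q by omega)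
  rw [ix] at hm'; nlinarith

theorem triv (hp : φ.Q p = 0) (hp0 : p ≠ 0) (hD : ¬ φ.T.ker ≤ Zs H p) {j : φ.Isom} (h1 : j ∈ RR hp (perp1 p)) (h2 : j ∈ H) : j = 1 := by
  obtain ⟨a1, a2, -⟩ := reg h hd hk hm hp hp0 hD
  obtain ⟨u, u1, s, s1, rfl⟩ := h1
  obtain ⟨c, rfl⟩ := Submodule.mem_span_singleton.1 (a1 u ((mem_aa hp).2 ⟨perp1 p u u1, s, s1, h2⟩))
  rw [φ.Q_smul_of_sing hp] at s1
  rw [siegel_self hp s1] at h2 ⊢
  rw [show s + c - φ.ε * φ.σ c = 0 from a2.le ⟨by simp [s1, φ.T_ε_σ], fun _ => h2⟩, φ.siegel_zero hp]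

theorem lift (hf : Fl φ p x) (hD : ¬ Dp H p) : ∃ β : F, Dp H (x + β • p) := by
  replace hD : ¬ φ.T.ker ≤ Zs H p := fun e => hD ⟨hf.qp, e⟩
  have hR := (reg h hd hk hm hf.qp hf.p0 hD).2.2
  obtain ⟨c, c0, c1⟩ := h.exists_skew
  have hτ : φ.siegel x 0 c • p = p := by simp [tv_app hf.qx c1, hf.symm.b]
  obtain ⟨_, hj, hh⟩ := hR _ ⟨⟨1, by simpa using hτ⟩, tv_E hf.qx c1⟩
  obtain ⟨w, w1, s, s1, rfl⟩ := id hj
  have w2 := perp1 p w w1
  obtain ⟨a, b, rfl⟩ : ∃ a b : F, a • p + b • x = w := by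
    rw [← Submodule.mem_span_pair, ← φ.perp_perp (Submodule.span F {p, x}), φ.mem_perp']
    by_contra! e
    obtain ⟨y, y1, y2, y3⟩ : ∃ y ∈ φ.perp (Submodule.span F {p, x}), φ.B w y ≠ 0 ∧ φ.Q y ≠ 0 := by
      by_contra! e'
      obtain ⟨v, v1, v2⟩ := e
      obtain ⟨n, n1, n2⟩ : ∃ n ∈ φ.perp (Submodule.span F {p, x}), φ.Q n ≠ 0 := by
        by_contra! e
        have := (h.herm.ts (W := φ.perp (Submodule.span F {p, x})) fun a a1 b b1 => by_contra fun e' =>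
          let ⟨z, z1, z2⟩ := φ.exists_Q_ne_zero h.exists_T a1 b1 e'; z2 (e z z1)).finrank_le
        have := φ.finrank_perp (Submodule.span F {p, x})
        have := hf.rank; omega
      have n3 : φ.B w n = 0 := by_contra fun e => n2 (e' n n1 e)
      have key : ∀ c : F, φ.T (c * φ.B v n) + φ.σ c * c * φ.Q n = 0 := fun c => by
        have := e' (v + c • n) (add_mem v1 (Submodule.smul_mem _ _ n1)) (by simpa [n3])
        rwa [φ.Q_add, e' v v1 v2, φ.Q_smul, φ.B_smul_right, zero_add, add_comm] at this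
      obtain ⟨θ, hθ⟩ := h.exists_T
      have := key (θ + 1)
      rw [add_mul, map_add, eq_neg_of_add_eq_zero_left (key θ), eq_neg_of_add_eq_zero_left (key 1), map_add, map_one] at this
      exact hθ ((h.herm.T_eq θ).trans ((mul_eq_zero.1 (by linear_combination this)).resolve_right n2))
    obtain ⟨ν, n1, n2⟩ : ∃ ν : F, φ.σ ν * ν = 1 ∧ ν * ν ≠ 1 := by
      by_contra! e
      have := Set.ncard_le_ncard (s := {a | φ.σ a * a = 1}) (t := {1, -1}) fun a ha => mul_self_eq_one_iff.1 (e a ha)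
      have := this.trans (Set.ncard_insert_le _ _)
      rw [show Set.ncard {a | φ.σ a * a = 1} = _ from h.card_norm one_ne_zero (map_one _), Set.ncard_singleton] at this
      have := h.two_le; omega
    have n0 := right_ne_zero_of_mul_eq_one n1
    obtain ⟨g, g1, g2, g3, g4⟩ := ex_diag h (by omega) hf y1 y3 n0 (μ := φ.σ ν * φ.σ ν) (by
      rw [map_mul, σ_σ, mul_mul_mul_comm, mul_comm ν, n1, one_mul]) (by field_simp [φ.σ_eq_zero.not.2 n0]; rw [mul_comm, n1])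
    obtain ⟨j, j1, j2⟩ := hR g ⟨⟨1, by simpa using g2⟩, g1⟩
    have e1 := tv_conj g hf.qx n0 g3 c1
    rw [n1, one_mul] at e1
    have e2 := triv h hd hk hm hf.qp hf.p0 hD (j := g * j * (φ.siegel x 0 c * φ.siegel p w s) * (g * j)⁻¹ * (φ.siegel x 0 c * φ.siegel p w s)⁻¹) (by
      have := mul_mem (RR_conj hf.qp hf.p0 ⟨1, by simpa using g2⟩ j1) (RR_conj hf.qp hf.p0 ⟨1, by simpa using hτ⟩
        (mul_mem (RR_conj hf.qp hf.p0 ⟨1, by simpa using g2⟩ (mul_mem hj (inv_mem j1))) (inv_mem hj)))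
      nth_rw 1 [← e1] at this
      convert this using 1; group) (mul_mem (mul_mem (mul_mem j2 hh) (inv_mem j2)) (inv_mem hh))
    have e3 := congrArg (· • y) (mul_inv_eq_iff_eq_mul.1 (mul_inv_eq_one.1 e2))
    obtain ⟨u, u1, r, r1, rfl⟩ := j1
    obtain ⟨y4, y5⟩ := φ.mem_perp_pair.1 y1
    simp only [mul_smul, si_app hf.qp w2 s1, si_app hf.qp (perp1 p u u1) r1, tv_app hf.qx c1, y4, y5, hf.symm.b, φ.B_self_eq_zero hf.qp,
      φ.B_symm_zero w2, φ.B_symm_zero (perp1 p u u1), smul_add, smul_comm g, g2, g4, map_add, φ.B_smul_right, mul_zero, zero_smul, sub_zero,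
      add_zero] at e3
    have e4 : ((φ.σ ν * φ.σ ν - 1) * φ.B w y) • p = 0 := by linear_combination (norm := module) -e3
    refine n2 (φ.σ_bijective.1 ?_)
    simpa [y2, hf.p0, sub_eq_zero] using e4
  have s2 : φ.T s = 0 := by simp [s1, φ.Q_add, φ.Q_smul, hf.qp, hf.qx, hf.b]
  have c2 := skew h c1
  obtain ⟨γ, hγ⟩ := h.exists_norm (c := (-(s + a - φ.σ a) - φ.σ b * b / c) / c) (by simp [c2, skew h s2]; ring)
  refine ⟨γ - φ.σ b / c, by_contra fun e => ?_⟩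
  generalize hβ : γ - φ.σ b / c = β at e
  obtain rfl : γ = β + φ.σ b / c := by rw [← hβ, sub_add_cancel]
  have z1 : φ.Q (x + β • p) = 0 := by simp [φ.Q_add, φ.Q_smul, hf.qp, hf.qx, hf.symm.b]
  have z2 : φ.B (x + β • p) ((-φ.σ b - c * β) • p) = 0 := by simp [hf.symm.b, φ.B_self_eq_zero hf.qp]
  have z3 : φ.T c = φ.Q ((-φ.σ b - c * β) • p) := by simp [c1, φ.Q_smul_of_sing hf.qp]
  have z0 : x + β • p ∉ F ∙ p := fun e => hf.ne (by simpa using sub_mem e (mem_sp p β))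
  obtain ⟨d, d1, d2⟩ := si_eq_one z1 (fun e => z0 (e ▸ zero_mem _)) z2 z3 (triv h hd hk hm z1 (fun e => z0 (e ▸ zero_mem _))
    (fun e' => e ⟨z1, e'⟩) ⟨_, φ.mem_perp_singleton.2 z2, c, z3, rfl⟩ (by
    convert hh using 1
    refine iext fun v => ?_
    rw [si_app z1 z2 z3, mul_smul (φ.siegel x 0 c), si_app hf.qp w2 s1, tv_app hf.qx c1]
    simp only [map_add, map_sub, map_neg, map_mul, map_div₀, LinearMap.add_apply, φ.B_smul_left, φ.B_smul_right, hf.symm.b, φ.B_self_eq_zero hf.qx,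
      h.herm.ε_eq, σ_σ, c2] at hγ ⊢
    field_simp at hγ
    match_scalars
    · ring
    · ring
    · refine mul_left_cancel₀ c0 ?_; linear_combination φ.B p v * hγ))
  have d3 : φ.ε * c + d = 0 := by_contra fun e => z0 ((Submodule.smul_mem_iff _ e).1 (eq_neg_of_add_eq_zero_left d1 ▸
    neg_mem (Submodule.smul_mem _ _ (mem_sp _ _))))
  rw [d3, zero_smul, zero_add, smul_eq_zero_iff_right φ.ε_ne_zero] at d1
  simp [d2 d1, c0, φ.ε_ne_zero] at d3

end H24.MD.U
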