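import Cfsg.Agent.H24.MDU1

/-!
# Minimal index for unitary groups of dimension at least `5` (namespace `H24.MD.U`)

* `min_index`, `final`
-/

set_option autoImplicit false
set_option linter.unusedSectionVars false

open Subgroup H20 H10 H10.Form Module

namespace H24.MD.U

open O (Fl ix)
open T

variable {F V : Type*} [Field F] [Finite F] [AddCommGroup V] [Module F V] [Finite V] {φ : Form F V} [φ.Nondeg]
  {H : Subgroup φ.Isom} {p x w u y e f : V} {s t : F} {q : ℕ} (h : φ.IsUnitary q)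
  {k : ℕ} (hd : finrank F V = k + 4) (hk : 1 ≤ k) (hm : H.relIndex φ.E < (q + 1) * Nat.card F ^ (k + 2))
include h hd hk hm

theorem add (hx : Dp H x) (hy : Dp H y) (hQ : φ.Q (x + y) = 0) : Dp H (x + y) :=
  let ⟨_, a, b⟩ := h.exists_skew
  Dp.add (fun z z1 z2 => (reg h hd hk hm z1 (fun e => z2 (e ▸ Dp.zero)) fun e => z2 ⟨z1, e⟩).1) b a hx hy hQ

theorem sub (hx : Dp H x) (hy : Dp H y) (hQ : φ.Q (x - y) = 0) : Dp H (x - y) := by
  rw [sub_eq_add_neg, ← neg_one_smul F y] at hQ ⊢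
  exact add h hd hk hm hx (hy.smul _) hQ

theorem add' (hx : Dp H x) (hy : Dp H y) (hB : φ.B x y = 0) : Dp H (x + y) := add h hd hk hm hx hy (by simp [φ.Q_add, hx.1, hy.1, hB])

theorem shift (he : Dp H e) (hy : Dp H y) (h0 : φ.B e y ≠ 0) (hu : Dp H u) (h1 : φ.B e u = 0) : ∃ a : F, Dp H (y + u + a • e) := by
  obtain ⟨a, ha⟩ := φ.isHyp_of_B he.1 (w := (φ.B e y)⁻¹ • (y + u)) (by simp [h0, h1])
  have := φ.Q_smul_of_sing ha.Qf (φ.B e y)
  rw [smul_add, smul_inv_smul₀ h0, smul_smul, add_assoc] at this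
  exact ⟨_, add_assoc y u _ ▸ add h hd hk hm hy (add' h hd hk hm hu (he.smul _) (by simp [φ.B_symm_zero h1])) this⟩

variable (hp : φ.Q p = 0) (hD : ¬ Dp H p)
include hp hD

theorem lift_span {Z : Submodule F V} (h1 : p ∈ Z) (h2 : p ∈ φ.perp Z) (he : e ∈ φ.perp Z) (hf : f ∈ φ.perp Z) (h3 : φ.IsHyp e f) :
    φ.perp Z ≤ Submodule.span F {v | Dp H v ∧ v ∈ φ.perp Z} ⊔ F ∙ p := le_of_sing_mem h3 he hf fun w a _ b => by
  by_cases c : w ∈ F ∙ p
  · exact Submodule.mem_sup_right c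
  obtain ⟨β, hβ⟩ := lift h hd hk hm ⟨hp, b, a p h1, fun e => hD (e ▸ Dp.zero), c⟩ hD
  simpa using sub_mem (Submodule.mem_sup_left (Submodule.subset_span (s := {v | Dp H v ∧ v ∈ φ.perp Z}) ⟨hβ, add_mem a (Submodule.smul_mem _ _ h2)⟩))
    (Submodule.mem_sup_right (mem_sp p β))

theorem ex_pair : ∃ e f, Dp H e ∧ Dp H f ∧ φ.B p e = 0 ∧ φ.B p f = 0 ∧ φ.IsHyp e f := by
  obtain ⟨e, e1, f, f1, a⟩ := MD.ex_hyp (h.std (by omega)) (F ∙ p) (by have := finrank_span_singleton_le (F := F) p; omega)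
  have key : ∀ {e f}, e ∈ φ.perp (F ∙ p) → f ∈ φ.perp (F ∙ p) → φ.Q e = 0 → φ.B e f ≠ 0 → ∃ β : F, Dp H (e + β • p) := fun a b c d =>
    lift h hd hk hm ⟨hp, c, perp1 p _ a, fun e => hD (e ▸ Dp.zero), fun e => by
      obtain ⟨s, rfl⟩ := Submodule.mem_span_singleton.1 e
      simp [perp1 p _ b] at d⟩ hD
  obtain ⟨β, b⟩ := key e1 f1 a.Qe (a.Bef ▸ one_ne_zero)
  obtain ⟨γ, c⟩ := key f1 e1 a.Qf (a.Bfe ▸ φ.ε_ne_zero)
  have := φ.B_self_eq_zero hp
  exact ⟨_, _, b, c, by simp [perp1 p _ e1, this], by simp [perp1 p _ f1, this], b.1, c.1,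
    by simp [a.Bef, this, perp1 p _ f1, φ.B_symm_zero (perp1 p _ e1)]⟩

theorem not_mem6 (h2 : 2 ≤ k) : p ∉ Submodule.span F {v | Dp H v ∧ v ∈ φ.perp (F ∙ p)} := by
  obtain ⟨e, f, e1, f1, e2, f2, a⟩ := ex_pair h hd hk hm hp hD
  have p0 := φ.B_self_eq_zero hp
  have mZ : ∀ {u}, u ∈ φ.perp (Submodule.span F {e, f} ⊔ F ∙ p) ↔ (φ.B e u = 0 ∧ φ.B f u = 0) ∧ φ.B p u = 0 := by
    simp [φ.perp_sup, φ.mem_perp_pair, φ.mem_perp_singleton]
  have hpZ := mZ.2 ⟨⟨φ.B_symm_zero e2, φ.B_symm_zero f2⟩, p0⟩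
  let A : Submodule F V := ⟨⟨⟨{u | u ∈ φ.perp (Submodule.span F {e, f} ⊔ F ∙ p) ∧ ∀ y, Dp H y → φ.B e y ≠ 0 → ∃ a : F, Dp H (y + u + a • e)},
    fun {u v} b c => ⟨add_mem b.1 c.1, fun y y1 y2 => by
      obtain ⟨s, hs⟩ := b.2 y y1 y2
      obtain ⟨t, ht⟩ := c.2 _ hs (by simpa [(mZ.1 b.1).1.1, a.Bee])
      exact ⟨s + t, by convert ht using 1; module⟩⟩⟩, zero_mem _, fun y y1 _ => ⟨0, by simpa⟩⟩, fun c u b => ⟨Submodule.smul_mem _ _ b.1, fun y y1 y2 => by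
      by_cases hc : c = 0
      · exact ⟨0, by simpa [hc]⟩
      obtain ⟨s, hs⟩ := b.2 _ (y1.smul c⁻¹) (by simpa [hc])
      exact ⟨c * s, by simpa [hc, mul_smul] using hs.smul c⟩⟩⟩
  have hA : ∀ u, Dp H u → u ∈ φ.perp (Submodule.span F {e, f} ⊔ F ∙ p) → u ∈ A := fun u u1 u2 =>
    ⟨u2, fun y y1 y2 => shift h hd hk hm e1 y1 y2 u1 (mZ.1 u2).1.1⟩
  obtain ⟨W, w1, w2, w3⟩ := ex_nondeg φ (Submodule.span F {e, f} ⊔ F ∙ p)
  have r1 : finrank F ↥((Submodule.span F {e, f} ⊔ F ∙ p) ⊓ φ.perp (Submodule.span F {e, f} ⊔ F ∙ p)) ≤ 1 :=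
    (Submodule.finrank_mono (s := (Submodule.span F {e, f} ⊔ F ∙ p) ⊓ φ.perp (Submodule.span F {e, f} ⊔ F ∙ p)) fun y ⟨y1, y2⟩ => by
      obtain ⟨l, hl, m, hm, rfl⟩ := Submodule.mem_sup.1 y1
      rwa [Submodule.disjoint_def.1 (φ.nondegOn_iff_disjoint.1 a.nondegOn) l hl (φ.perp_anti le_sup_left (by
        simpa using sub_mem y2 ((Submodule.span_singleton_le_iff_mem _ _).2 hpZ hm))), zero_add]).trans (finrank_span_singleton_le (F := F) p)
  obtain ⟨e', e3, f', f3, a'⟩ := ex_hyp h w1 (by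
    have := rank_sup (Submodule.span F {e, f}) (F ∙ p); have := a.finrank_span; have := finrank_span_singleton_le (F := F) p; omega)
  have h3 := (lift_span h hd hk hm hp hD (Submodule.mem_sup_right (Submodule.mem_span_singleton_self p)) hpZ (w2 e3) (w2 f3) a').trans
    (sup_le_sup_right (Submodule.span_le.2 fun u hu => hA u hu.1 hu.2) _)
  have key : ∀ s b c : F, Dp H (c • p + (s • e + b • f)) → c = 0 := fun s b c hc => by_contra fun c0 => by
    have h4 : φ.Q (s • e + b • f) = 0 := by simpa [φ.Q_add (c • p), φ.Q_smul_of_sing hp, e2, f2] using hc.1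
    exact hD (by simpa [c0] using (sub h hd hk hm hc (add h hd hk hm (e1.smul s) (f1.smul b) h4) (by simp [φ.Q_smul_of_sing hp])).smul c⁻¹)
  intro h4
  obtain ⟨l, hl, u, hu, h5⟩ := Submodule.mem_sup.1 ((Submodule.span_le (p := Submodule.span F {e, f} ⊔ A)).2 (fun y hy => by
      obtain ⟨y1, y2⟩ := hy
      have y3 := φ.mem_perp_pair.1 (a.proj_mem y)
      have y4 := mZ.2 ⟨y3, by simp [perp1 p y y2, e2, f2]⟩
      have y5 : ∀ u ∈ A, y - (φ.ε * φ.B f y) • e - φ.B e y • f = u → y ∈ Submodule.span F {e, f} ⊔ A := fun u u1 u2 =>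
        Submodule.mem_sup.2 ⟨_, Submodule.mem_span_pair.2 ⟨φ.ε * φ.B f y, φ.B e y, rfl⟩, u, u1, by rw [← u2]; abel⟩
      by_cases y6 : φ.B e y = 0
      · exact y5 _ (hA _ (by simpa [y6, sub_eq_add_neg] using add' h hd hk hm y1 (e1.smul (-(φ.ε * φ.B f y))) (by simp [φ.B_symm_zero y6])) y4) rfl
      obtain ⟨u, u1, m, hm', u2⟩ := Submodule.mem_sup.1 (h3 y4)
      obtain ⟨c, rfl⟩ := Submodule.mem_span_singleton.1 hm'
      obtain ⟨s, hs⟩ := (A.neg_mem u1).2 y y1 y6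
      obtain rfl := key (φ.ε * φ.B f y + s) (φ.B e y) c (by convert hs using 1; linear_combination (norm := module) u2)
      exact y5 u u1 (by simp [← u2])) h4)
  rw [Submodule.disjoint_def.1 (φ.nondegOn_iff_disjoint.1 a.nondegOn) l hl (φ.perp_anti le_sup_left (by
    simpa [← h5] using sub_mem hpZ hu.1)), zero_add] at h5
  obtain ⟨s, hs⟩ := hu.2 f f1 (a.Bef ▸ one_ne_zero)
  exact one_ne_zero (key s 1 1 (by convert hs using 1; rw [h5]; module))

theorem not_mem5 (h2 : k = 1) : p ∉ Submodule.span F {v | Dp H v ∧ v ∈ φ.perp (F ∙ p)} := by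
  have hp0 : p ≠ 0 := fun e => hD (e ▸ Dp.zero)
  obtain ⟨f, hf⟩ := φ.exists_hyp hp hp0
  obtain ⟨μ, c, m1, c0, c1, c2⟩ : ∃ μ c : F, φ.σ μ * μ = 1 ∧ c ≠ 0 ∧ c ≠ 1 ∧ μ ^ 5 * (c * (φ.σ c)⁻¹) = 1 := by
    by_contra! e
    replace e' : ∀ c, φ.σ c = c → c = 0 ∨ c = 1 := fun c hc => by
      by_contra! e'; exact e 1 c (by simp) e'.1 e'.2 (by simp [hc, e'.1])
    obtain ⟨a, ha⟩ := h.exists_σ_ne
    have a0 : a ≠ 0 := fun e => ha (by simp [e])
    have a1 := (e' (φ.σ a * a) (by simp [mul_comm])).resolve_left (by simp [a0])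
    have a2 := (e' (1 + 1) (by simp)).resolve_right (by simp)
    have a3 := (e' (a + φ.σ a) (by simp [add_comm])).resolve_left fun e => ha (by linear_combination e - a * a2)
    refine e a (φ.σ a) a1 (by simpa) (fun e => ha (by rw [e, ← φ.σ_σ a, e, map_one])) ?_
    rw [σ_σ]; field_simp
    linear_combination (a ^ 3 + a + 1) * a1 - (a ^ 2 + a) * a3 + (a ^ 3) * a2
  have hT : ∀ y, (φ.scalar μ * φ.rot p f c) • y = μ • (φ.rot p f c).1 y := fun y => φ.scalar_apply m1 _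
  obtain ⟨_, ⟨u, u1, s, s1, rfl⟩, j2⟩ := (reg h hd hk hm hp hp0 fun e => hD ⟨hp, e⟩).2.2 (φ.scalar μ * φ.rot p f c) ⟨⟨μ * c, by
    rw [hT, φ.rot_apply_e hf c0, smul_smul]⟩, (h.E_eq_SIsom (by omega)).ge <| MonoidHom.mem_ker.2 <| by
    rw [map_mul, ← Units.val_eq_one, Units.val_mul, coe_det, coe_det, φ.det_rot hf c0,
      φ.det_of_scalar (φ.scalar_apply m1), hd, h2, c2]⟩
  have key : ∀ y, φ.B p y = 0 → (φ.scalar μ * φ.rot p f c * φ.siegel p u s) • y =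
      μ • y + (μ * (φ.B u y + (c - 1) * φ.ε * φ.B f (y + φ.B u y • p))) • p := fun y hy => by
    rw [mul_smul, si_app hp (perp1 p u u1) s1, hT, φ.rot_apply hf c0]
    simp only [hy, hf.Bee, map_add, φ.B_smul_right, mul_zero, zero_smul, sub_zero, add_zero]; module
  intro h4
  have := (Submodule.span_le (p := LinearMap.eqLocus ((φ.scalar μ * φ.rot p f c * φ.siegel p u s).1 : V →ₗ[F] V) (μ • LinearMap.id))).2
    (fun y hy => by
      obtain ⟨y1, y2⟩ := hy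
      have y3 := key y (perp1 p y y2)
      generalize μ * (φ.B u y + (c - 1) * φ.ε * φ.B f (y + φ.B u y • p)) = d at y3
      obtain rfl : d = 0 := by_contra fun d0 => hD (by
        simpa [y3, d0] using (sub h hd hk hm (y1.map j2) (y1.smul μ) (by simp [y3, φ.Q_smul_of_sing hp])).smul d⁻¹)
      exact y3.trans (by simp)) h4
  replace this := (key p hf.Bee).symm.trans this
  simp [hp0, φ.B_symm_zero (perp1 p u u1), hf.Bfe, φ.ε_ne_zero, sub_eq_zero, c1, right_ne_zero_of_mul_eq_one m1] at this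

theorem fixes : ∃ v : V, v ≠ 0 ∧ H ≤ pt F v := by
  have hp0 : p ≠ 0 := fun e => hD (e ▸ Dp.zero)
  have p0 := φ.B_self_eq_zero hp
  have h1 : p ∉ Submodule.span F {v | Dp H v ∧ v ∈ φ.perp (F ∙ p)} :=
    (em (k = 1)).elim (not_mem5 h hd hk hm hp hD) fun e => not_mem6 h hd hk hm hp hD (by omega)
  obtain ⟨e, f, e1, f1, e2, f2, a⟩ := ex_pair h hd hk hm hp hD
  have h2 := lift_span h hd hk hm hp hD (Submodule.mem_span_singleton_self p) (φ.mem_perp_singleton.2 p0) (φ.mem_perp_singleton.2 e2)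
    (φ.mem_perp_singleton.2 f2) a
  have h3 : ∀ w, Dp H w → φ.B p w = 0 → w ∈ Submodule.span F {v | Dp H v ∧ v ∈ φ.perp (F ∙ p)} := fun w a b =>
    Submodule.subset_span ⟨a, φ.mem_perp_singleton.2 b⟩
  have h4 : Submodule.span F {v | Dp H v ∧ v ∈ φ.perp (F ∙ p)} ≤ φ.perp (F ∙ p) ⊓ Submodule.span F {v | Dp H v} :=
    Submodule.span_le.2 fun v hv => ⟨hv.2, Submodule.subset_span hv.1⟩
  generalize Submodule.span F {v | Dp H v ∧ v ∈ φ.perp (F ∙ p)} = W at *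
  have h5 : ∀ w ∈ W, φ.Q w = 0 → Dp H w := fun w w1 w2 => by
    by_cases c : w ∈ F ∙ p
    · obtain ⟨d, rfl⟩ := Submodule.mem_span_singleton.1 c
      obtain rfl : d = 0 := by_contra fun c0 => h1 ((W.smul_mem_iff c0).1 w1)
      simpa using Dp.zero
    obtain ⟨β, hβ⟩ := lift h hd hk hm ⟨hp, w2, perp1 p w (h4 w1).1, hp0, c⟩ hD
    obtain rfl : β = 0 := by_contra fun c0 => h1 ((W.smul_mem_iff c0).1 (by
      simpa using sub_mem (h3 _ hβ (by simp [perp1 p w (h4 w1).1, p0])) w1))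
    simpa using hβ
  obtain ⟨z, z1, z2⟩ : ∃ z, Dp H z ∧ φ.B p z = 1 := by
    have b1 : φ.Q (e + p) = 0 := by simp [φ.Q_add, e1.1, hp, φ.B_symm_zero e2]
    have b2 : ¬ Dp H (e + p) := fun c => hD (by simpa using sub h hd hk hm c e1 (by simpa))
    obtain ⟨z, z1, z2⟩ := φ.exists_partner (W := F ∙ (e + p)) hp (fun c => by
      obtain ⟨c, hc⟩ := Submodule.mem_span_singleton.1 c
      have := congrArg (φ.B f) hc
      simp [φ.B_symm_zero f2, a.Bfe, φ.ε_ne_zero] at this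
      exact hp0 (by rw [← hc, this, zero_smul])) (φ.mem_perp_singleton.2 (by simp [φ.B_symm_zero e2, p0]))
    obtain ⟨β, hβ⟩ := lift h hd hk hm ⟨b1, z2.Qf, perp1 _ _ z1, fun c => b2 (c ▸ Dp.zero), fun c => by
      obtain ⟨c, rfl⟩ := Submodule.mem_span_singleton.1 c
      simpa [e2, p0] using z2.Bef⟩ b2
    exact ⟨_, hβ, by simp [z2.Bef, e2, p0]⟩
  obtain ⟨v, v1, v2⟩ := φ.exists_sep h1
  have v3 : φ.B p v = 1 := by rw [h.herm.B_comm, v2, map_one]
  have v4 : ∀ w, φ.B p w = 0 → φ.B v w = 0 → w ∈ W := fun w w1 w2 => by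
    obtain ⟨u, u1, m, hm', rfl⟩ := Submodule.mem_sup.1 (h2 (φ.mem_perp_singleton.2 w1))
    obtain ⟨c, rfl⟩ := Submodule.mem_span_singleton.1 hm'
    simpa [show c = 0 by simpa [v1 u u1, v2] using w2] using u1
  have v5 := (φ.nondegOn_pair (e := p) (f := v) (by simp [p0, v2, v3])).perp
  have v6 := φ.finrank_perp (Submodule.span F {p, v})
  have v7 := finrank_span_pair_le (F := F) p v
  obtain ⟨x, x1, x2, U, u1, u2, u3, u4⟩ : ∃ x, Dp H x ∧ φ.B p x = 1 ∧ ∃ U, φ.NondegOn U ∧ 2 ≤ finrank F U ∧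
      U ≤ φ.perp (Submodule.span F {p, v}) ∧ ∀ u ∈ U, φ.B u x = 0 := by
    obtain ⟨u, u1, m, hm', u2⟩ := Submodule.mem_sup.1 (h2 (φ.mem_perp_singleton.2 (show φ.B p (z - v) = 0 by simp [z2, v3])))
    obtain ⟨c, rfl⟩ := Submodule.mem_span_singleton.1 hm'
    obtain rfl : z = v + c • p + u := by linear_combination (norm := module) -u2
    have u3 := perp1 p u (h4 u1).1
    have u4 : ∀ w ∈ φ.perp (Submodule.span F {p, v}), φ.B w (v + c • p) = 0 := fun w hw => by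
      simp [φ.B_symm_zero (φ.mem_perp_pair.1 hw).1, φ.B_symm_zero (φ.mem_perp_pair.1 hw).2]
    have u5 := φ.mem_perp_pair.2 ⟨u3, v1 u u1⟩
    by_cases hQ : φ.Q u = 0
    · exact ⟨v + c • p, by simpa using sub h hd hk hm z1 (h5 u u1 hQ) (by
        simpa [φ.Q_add _ u, φ.B_symm_zero (u4 u u5), hQ, -map_add] using z1.1), by simp [v3, p0], _, v5, by omega, le_rfl, u4⟩
    · have := φ.finrank_le_inf_perp (φ.perp (Submodule.span F {p, v})) (F ∙ u)
      have := finrank_span_singleton_le (F := F) u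
      exact ⟨_, z1, z2, _, v5.inf_perp (φ.nondegOn_singleton (h.herm.Q_eq u ▸ hQ)) ((Submodule.span_singleton_le_iff_mem _ _).2 u5), by omega,
        inf_le_left, fun w hw => by rw [map_add, u4 w hw.1, φ.B_symm_zero (perp1 u w hw.2), add_zero]⟩
  clear e1 f1 e2 f2 a
  obtain ⟨e, e1, f, f1, a⟩ := ex_hyp h u1 u2
  have e2 := fun w hw => v4 w (φ.mem_perp_pair.1 (u3 hw)).1 (φ.mem_perp_pair.1 (u3 hw)).2
  have key : ∀ e ∈ U, φ.Q e = 0 → ∀ y, Dp H y → φ.B e y ≠ 0 → y ∈ W ⊔ F ∙ x := fun e e1 e3 y y1 y2 => by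
    obtain ⟨s, hs⟩ := shift h hd hk hm (h5 e (e2 e e1) e3) y1 y2 (x1.smul (-φ.B p y)) (by simp [u4 e e1])
    simpa using sub_mem (sub_mem (Submodule.mem_sup_left (S := W) (T := F ∙ x) (h3 _ hs (by simp [x2, (φ.mem_perp_pair.1 (u3 e1)).1])))
      (Submodule.mem_sup_left (W.smul_mem s (e2 e e1)))) (Submodule.mem_sup_right (mem_sp x (-φ.B p y)))
  refine le_pt (p := p) (fun h6 => ?_) (eq_top_iff.2 fun y _ => ?_)
  · obtain ⟨w, w1, m, hm', w2⟩ := Submodule.mem_sup.1 ((Submodule.span_le (p := W ⊔ F ∙ x)).2 (fun y y1 => by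
      by_cases y2 : φ.B e y = 0
      · by_cases y3 : φ.B f y = 0
        · simpa using sub_mem (key e e1 a.Qe _ (add' h hd hk hm y1 (h5 f (e2 f f1) a.Qf) (φ.B_symm_zero y3)) (by simp [y2, a.Bef]))
            (Submodule.mem_sup_left (e2 f f1))
        · exact key f f1 a.Qf y y1 y3
      · exact key e e1 a.Qe y y1 y2) h6)
    obtain ⟨c, rfl⟩ := Submodule.mem_span_singleton.1 hm'
    obtain rfl : c = 0 := by simpa [perp1 p w (h4 w1).1, x2, p0] using congrArg (φ.B p) w2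
    exact h1 (by simpa [← w2] using w1)
  · simpa using add_mem (sup_le_sup_right (h4.trans inf_le_right) _ (h2 (φ.mem_perp_singleton.2 (show φ.B p (y - φ.B p y • x) = 0 by simp [x2]))))
      (Submodule.mem_sup_left (Submodule.subset_span (x1.smul (φ.B p y))))

omit hm hp hD in
theorem min_index (hH : ¬ φ.E ≤ H) {b : ℕ} (hpt : ∀ v : V, v ≠ 0 → b ≤ (pt F v).relIndex φ.E)
    (hb : b ≤ (q + 1) * Nat.card F ^ (k + 2)) : b ≤ H.relIndex φ.E := by
  by_contra! h0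
  obtain ⟨p, hp, hD⟩ : ∃ p, φ.Q p = 0 ∧ ¬ Dp H p := by
    by_contra! e
    refine hH (h.E_eq_SIsom (by omega) ▸ fun g hg => ?_)
    refine (closure_le (H.subgroupOf φ.SIsom)).2 ?_ (h.closure_transvections (by omega) (by omega) ▸ mem_top (⟨g, hg⟩ : φ.SIsom))
    rintro g ⟨p, c, hp, hc, hg⟩
    have := (e p hp).mem (t := -c) (by simp [hc])
    rwa [φ.siegel_zero_eq_quasi hp (by simp [hc]), h.herm.ε_eq, one_mul, neg_neg, ← hg] at this
  obtain ⟨v, v0, hv⟩ := fixes h hd hk (h0.trans_le hb) hp hD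
  exact ((hpt v v0).trans (rel_anti _ hv)).not_gt h0

omit h hd hk hm hp hD in
theorem final (hF : Nat.card F = q ^ 2) {b : ℕ} (hk : 1 ≤ k) (h0 : b * (q ^ 2 - 1) + 1 ≤ (stdU hF (k + 4)).cnt 0)
    (h1 : b * (q + 1) ≤ q ^ (k + 3) * (if Even (k + 3) then q ^ (k + 4) + 1 else q ^ (k + 4) - 1))
    (he : b * (q ^ 2 - 1) + 1 = (stdU hF (k + 4)).cnt 0 ∨
      q = 2 ∧ b * (q + 1) = q ^ (k + 3) * (if Even (k + 3) then q ^ (k + 4) + 1 else q ^ (k + 4) - 1)) :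
    (∀ H : Subgroup (Cfsg.PSU (k + 4) F q), H ≠ ⊤ → b ≤ H.index) ∧ ∃ H : Subgroup (Cfsg.PSU (k + 4) F q), H.index = b := by
  have e := quotCenterEquiv (SUEquiv hF (k + 4))
  have h := stdU_isUnitary hF (k + 4)
  have hd : finrank F (Fin (k + 4) → F) = k + 4 := by simp
  have hN := stdU_nondeg hF (k + 4)
  generalize stdU hF (k + 4) = φ at *
  have hq := h.two_le
  have hq2 : 0 < q ^ 2 - 1 := by have := Nat.pow_le_pow_left hq 2; omega
  obtain ⟨p, f, hf⟩ := h.exists_hyp_of_two_le (by omega)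
  have tr : ∀ v z, v ≠ 0 → z ≠ 0 → φ.Q z = φ.Q v → ∃ g ∈ φ.E, g • v = z := fun v z a b c => (h.big (by omega)).exists_E_map hf a b c.symm
  have tr' : ∀ v, φ.Q v ≠ 0 → ∀ z, φ.Q z = φ.Q v → ∃ g ∈ φ.E, g • v = z := fun v a z c =>
    tr v z (fun e => a (by simp [e])) (fun e => a (by simp [← c, e])) c
  have ps := fun v a b => pt_sing (φ := φ) (v := v) (fun z c d => tr v z b d (c.trans a.symm)) a b
  have cn := fun v a => h.cnt_ne_zero_succ (c := φ.Q v) a (h.herm.σ_Q v) hd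
  rw [hF] at ps
  rw [← h.E_eq_SIsom (by omega)] at e
  have key : ∀ v : Fin (k + 4) → F, (pt F v).relIndex φ.E = b → _ := fun v => bridge e (P := pt F v)
    (fun H _ h3 => min_index h hd hk h3 (fun v hv => ?_) ?_) fun g hg => ?_
  · obtain he | ⟨rfl, he⟩ := he
    · exact key p (Nat.eq_of_mul_eq_mul_right hq2 (Nat.succ_injective ((ps p hf.Qe hf.e_ne_zero).trans he.symm)))
    obtain ⟨v, hv⟩ := h.exists_unit
    have hc : φ.Q v ≠ 0 := hv ▸ one_ne_zero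
    refine key v (Nat.eq_of_mul_eq_mul_right (show 0 < Nat.card F - 1 by omega) ?_)
    rw [pt_index _ fun e => hc (by simp [e]), hF]
    refine Eq.trans (congrArg Set.ncard (Set.ext (b := {z | φ.Q z = φ.Q v}) fun y =>
      ⟨?_, fun hy => ⟨1, one_ne_zero, by simpa [eq_comm] using tr' v hc y hy⟩⟩)) ((cn v hc).trans he.symm)
    rintro ⟨c, hc, k, -, rfl⟩
    have := Fintype.ofFinite F
    have h4 := FiniteField.pow_card_sub_one_eq_one c hc
    rw [← Nat.card_eq_fintype_card, hF] at h4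
    simp [φ.Q_smul, h.σ_eq, ← pow_succ, show c ^ 3 = 1 from h4]
  · by_cases h4 : φ.Q v = 0
    · exact Nat.le_of_mul_le_mul_right (Nat.le_of_succ_le_succ (h0.trans_eq (ps v h4 hv).symm)) hq2
    refine Nat.le_of_mul_le_mul_right ((h1.trans_eq (cn v h4).symm).trans ((ncard_le_act (pt F v) φ.E (· • ·) (fun _ _ _ _ => mul_smul _ _) v
      (O := {z | φ.Q z = φ.Q v}) (S := (· • v) '' {a | φ.σ a * a = 1}) (tr' v h4) ?_).trans (Nat.mul_le_mul_left _
        ((Set.ncard_image_le (Set.toFinite _)).trans (h.card_norm one_ne_zero (map_one _)).le)))) (by omega)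
    rintro j - ⟨c, hc⟩
    have := Q_act j v
    rw [hc, φ.Q_smul, mul_eq_right₀ h4] at this
    exact ⟨c, this, hc.symm⟩
  · refine Nat.le_of_mul_le_mul_right (Nat.le_of_succ_le_succ (h0.trans ?_)) hq2
    have h2 := h.cnt_zero
    rw [hd] at h2
    obtain ⟨r, rfl⟩ := Nat.exists_eq_add_of_le' hq
    rw [hF, show (r + 2) ^ 2 - 1 = r ^ 2 + 4 * r + 3 from Nat.sub_eq_of_eq_add (by ring)]
    refine (Nat.le_of_mul_le_mul_left (c := r + 2) ?_ (by omega)).trans (Nat.le_succ _)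
    have h3 : ((r + 2 : ℕ) : ℤ) * φ.cnt 0 ≤ (r + 2) ^ (2 * (k + 4)) + (r + 1) * (r + 2) ^ (k + 4) := by
      rw [h2]; rcases neg_one_pow_eq_or ℤ (k + 4) with e | e <;> rw [e] <;> push_cast <;> nlinarith [pow_pos (show (0 : ℤ) < r + 2 by omega) (k + 4)]
    have h4 := Nat.mul_le_mul_left (r + 1) (Nat.pow_le_pow_right (n := r + 2) (by omega) (show k + 4 ≤ 2 * k + 5 by omega))
    refine (show (r + 2) * φ.cnt 0 ≤ _ by exact_mod_cast h3).trans ((Nat.add_le_add_left h4 _).trans ?_)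
    rw [← pow_mul, show 2 * (k + 4) = 2 * k + 5 + 3 by ring, show 2 * (k + 2) = 2 * k + 4 by ring, pow_add _ _ 3, pow_succ _ (2 * k + 4)]
    nlinarith [Nat.zero_le ((r + 2) ^ (2 * k + 4)), Nat.zero_le (r * (r + 2) ^ (2 * k + 4)), Nat.zero_le (r * r * (r + 2) ^ (2 * k + 4)),
      Nat.zero_le (r * r * r * (r + 2) ^ (2 * k + 4))]
  · obtain ⟨c, hc⟩ := (mem_center_E_iff h.conn hf).1 hg
    exact ⟨c, hc v⟩

omit hk hm hp hD hd in
theorem cnt0 {n : ℕ} (hn : finrank F V = n + 1) :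
    φ.cnt 0 = (if Even n then (q ^ (n + 1) + 1) * (q ^ n - 1) else (q ^ (n + 1) - 1) * (q ^ n + 1)) + 1 := by
  have h2 := h.cnt_zero
  have hq := h.two_le
  have h1 := fun n => Nat.one_le_pow n q (by omega)
  refine Nat.cast_injective (R := ℤ) (mul_left_cancel₀ (a := (q : ℤ)) (by omega) (h2.trans ?_))
  rw [hn, pow_succ (-1 : ℤ)]
  split_ifs with e
  · rw [e.neg_one_pow]; push_cast [h1]; ring
  · rw [(Nat.not_even_iff_odd.1 e).neg_one_pow]; push_cast [h1]; ring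

end H24.MD.U
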