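import Cfsg.Prelude.Def_MonsterType
import Mathlib

/-! The wreath product of degree ten, homomorphisms from invariant families (`H24.MtA`). -/

set_option autoImplicit false

namespace H24.MtA
open Cfsg Subgroup Equiv

theorem key {G ι Ω : Type*} [Group G] [Finite G] [Finite ι] [MulAction G Ω] (A : Subgroup (Perm ι)) (P : ι → Set Ω)
    (anti : ∀ i j, P i ⊆ P j → i = j) (K Z : Subgroup G) (s : Set (Perm ι)) (hs : closure s = A)
    (hZ : ∀ z ∈ Z, z ∈ K ∧ ∀ j v, z • v ∈ P j → v ∈ P j) (hA : ∀ a ∈ s, ∃ g ∈ K, ∀ j v, g • v ∈ P (a j) → v ∈ P j)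
    (hc : Nat.card K ≤ Nat.card Z * Nat.card A) :
    ∃ σ : K →* A, Function.Surjective σ ∧ (∀ g : K, σ g = 1 ↔ (g : G) ∈ Z) ∧
      ∀ g : K, (∀ j v, (g : G) • v ∈ P j → v ∈ P j) → σ g = 1 := by
  let R : G → Perm ι → Prop := fun g a => ∀ j v, g • v ∈ P (a j) → v ∈ P j
  have r1 : R 1 1 := fun j v h => by simpa using h
  have rm : ∀ {g h a b}, R g a → R h b → R (g * h) (a * b) := fun hg hh j v e => hh j v (hg _ _ (by rwa [mul_smul] at e))
  have rp : ∀ {g a}, R g a → ∀ n : ℕ, R (g ^ n) (a ^ n) := fun h n => by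
    induction n with
    | zero => simpa using r1
    | succ n ih => rw [pow_succ, pow_succ]; exact rm ih h
  have ri : ∀ {g a}, R g a → R g⁻¹ a⁻¹ := fun {g a} h => by
    have hg := orderOf_pos g
    have ha := orderOf_pos a
    obtain ⟨n, hn⟩ : ∃ n, orderOf g * orderOf a = n + 1 := ⟨_, (Nat.succ_pred_eq_of_pos (Nat.mul_pos hg ha)).symm⟩
    have e1 : g ^ n = g⁻¹ := eq_inv_of_mul_eq_one_left (by rw [← pow_succ, ← hn, pow_mul, pow_orderOf_eq_one, one_pow])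
    have e2 : a ^ n = a⁻¹ := eq_inv_of_mul_eq_one_left (by rw [← pow_succ, ← hn, mul_comm, pow_mul, pow_orderOf_eq_one, one_pow])
    rw [← e1, ← e2]; exact rp h n
  have ru : ∀ {g a b}, R g a → R g b → a = b := fun {g a b} h h' => by
    have := rm (ri h) h'
    rw [inv_mul_cancel] at this
    refine inv_mul_eq_one.1 (Equiv.ext fun j => anti _ _ fun v hv => this j v (by rwa [one_smul]))
  let S : Subgroup G :=
    { carrier := {g | g ∈ K ∧ ∃ a ∈ A, R g a}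
      one_mem' := ⟨K.one_mem, 1, A.one_mem, r1⟩
      mul_mem' := fun ⟨a, b, c, d⟩ ⟨a', b', c', d'⟩ => ⟨K.mul_mem a a', _, A.mul_mem c c', rm d d'⟩
      inv_mem' := fun ⟨a, b, c, d⟩ => ⟨K.inv_mem a, _, A.inv_mem c, ri d⟩ }
  have hS : ∀ g : S, ∃ a : A, R g a := fun g => let ⟨a, b, c⟩ := g.2.2; ⟨⟨a, b⟩, c⟩
  choose f hf using hS
  let σ : S →* A := MonoidHom.mk' f fun a b => Subtype.ext (ru (hf _) (rm (hf a) (hf b)))
  have sj : Function.Surjective σ := fun ⟨a, ha⟩ => by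
    have : ∃ g ∈ K, R g a := by
      rw [← hs] at ha
      induction ha using closure_induction with
      | mem x hx => exact hA x hx
      | one => exact ⟨1, K.one_mem, r1⟩
      | mul x y _ _ hx hy => obtain ⟨g, a, b⟩ := hx; obtain ⟨h, c, d⟩ := hy; exact ⟨_, K.mul_mem a c, rm b d⟩
      | inv x _ hx => obtain ⟨g, a, b⟩ := hx; exact ⟨_, K.inv_mem a, ri b⟩
    obtain ⟨g, b, c⟩ := this
    exact ⟨⟨g, b, a, ha, c⟩, Subtype.ext (ru (hf _) c)⟩
  have k1 : ∀ g : S, R g 1 → σ g = 1 := fun g h => Subtype.ext (ru (hf g) h)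
  have zs : Z ≤ S := fun z hz => ⟨(hZ z hz).1, 1, A.one_mem, (hZ z hz).2⟩
  have k2 : Z.subgroupOf S ≤ σ.ker := fun z hz => k1 z (hZ _ hz).2
  have c1 := σ.ker.card_mul_index
  rw [index_ker, MonoidHom.range_eq_top.2 sj, card_top] at c1
  have c2 : Nat.card (Z.subgroupOf S) = Nat.card Z := Nat.card_congr (subgroupOfEquivOfLe zs).toEquiv
  have c3 := card_le_of_le k2
  have sk : S ≤ K := fun g hg => hg.1
  have c4 := card_le_of_le sk
  have e : S = K := eq_of_le_of_card_ge sk (hc.trans (by rw [← c1, ← c2]; exact Nat.mul_le_mul_right _ c3))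
  have k3 : Z.subgroupOf S = σ.ker := eq_of_le_of_card_ge k2 (Nat.le_of_mul_le_mul_right (by rw [c1, c2]; exact c4.trans hc) Nat.card_pos)
  refine ⟨σ.comp (inclusion e.ge), fun a => ?_, fun g => ?_, fun g h => k1 _ h⟩
  · obtain ⟨g, rfl⟩ := sj a
    exact ⟨⟨g, sk g.2⟩, rfl⟩
  · rw [MonoidHom.comp_apply, ← MonoidHom.mem_ker, ← k3]; rfl

/-- the swap of the two halves -/
abbrev sw : Perm (Fin 5 ⊕ Fin 5) := Equiv.sumComm (Fin 5) (Fin 5)

theorem sw_conj (σ τ : Perm (Fin 5)) : sw * Perm.sumCongr σ τ = Perm.sumCongr τ σ * sw := by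
  ext (x | x) <;> rfl

theorem sw_sq : sw * sw = 1 := by ext (x | x) <;> rfl

theorem mem_sc {σ τ : Perm (Fin 5)} (h : σ ∈ alternatingGroup (Fin 5)) (h' : τ ∈ alternatingGroup (Fin 5)) :
    Perm.sumCongr σ τ ∈ alternatingFiveWreathTwo := subset_closure (.inl ⟨⟨σ, h⟩, ⟨τ, h'⟩, rfl⟩)

theorem mem_sw : sw ∈ alternatingFiveWreathTwo := subset_closure (.inr rfl)

theorem nf {g : Perm (Fin 5 ⊕ Fin 5)} (h : g ∈ alternatingFiveWreathTwo) :
    ∃ σ ∈ alternatingGroup (Fin 5), ∃ τ ∈ alternatingGroup (Fin 5), g = Perm.sumCongr σ τ ∨ g = Perm.sumCongr σ τ * sw := by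
  induction h using closure_induction with
  | mem x hx =>
    rcases hx with ⟨σ, τ, rfl⟩ | rfl
    · exact ⟨σ, σ.2, τ, τ.2, .inl rfl⟩
    · exact ⟨1, one_mem _, 1, one_mem _, .inr (by simp)⟩
  | one => exact ⟨1, one_mem _, 1, one_mem _, .inl (by simp)⟩
  | mul x y _ _ hx hy =>
    obtain ⟨a, ha, b, hb, rfl | rfl⟩ := hx <;> obtain ⟨c, hc, d, hd, rfl | rfl⟩ := hy
    · exact ⟨_, mul_mem ha hc, _, mul_mem hb hd, .inl (by ext (x | x) <;> rfl)⟩
    · exact ⟨_, mul_mem ha hc, _, mul_mem hb hd, .inr (by ext (x | x) <;> rfl)⟩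
    · exact ⟨_, mul_mem ha hd, _, mul_mem hb hc, .inr (by ext (x | x) <;> rfl)⟩
    · exact ⟨_, mul_mem ha hd, _, mul_mem hb hc, .inl (by ext (x | x) <;> rfl)⟩
  | inv x _ hx =>
    obtain ⟨a, ha, b, hb, rfl | rfl⟩ := hx
    · exact ⟨_, inv_mem ha, _, inv_mem hb, .inl (by ext (x | x) <;> rfl)⟩
    · exact ⟨_, inv_mem hb, _, inv_mem ha, .inr (by ext (x | x) <;> rfl)⟩

theorem card_A : 7200 ≤ Nat.card alternatingFiveWreathTwo := by
  let f : alternatingGroup (Fin 5) × alternatingGroup (Fin 5) × Bool → alternatingFiveWreathTwo := fun p =>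
    ⟨Perm.sumCongr p.1.1 p.2.1.1 * (if p.2.2 then sw else 1), mul_mem (mem_sc p.1.2 p.2.1.2) (by
      split_ifs
      exacts [mem_sw, one_mem _])⟩
  have hf : Function.Injective f := by
    rintro ⟨a, b, c⟩ ⟨a', b', c'⟩ e
    have e := congrArg Subtype.val e
    have : c = c' := by
      have := congrArg (fun g : Perm (Fin 5 ⊕ Fin 5) => (g (.inl 0)).isLeft) e
      cases c <;> cases c' <;> first | rfl | simp [f] at this
    subst this
    have e := mul_right_cancel e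
    have := Perm.sumCongrHom_injective (a₁ := (a.1, b.1)) (a₂ := (a'.1, b'.1)) e
    rw [Prod.mk.injEq] at this
    rw [Subtype.ext this.1, Subtype.ext this.2]
  have := Nat.card_le_card_of_injective f hf
  have h60 : Nat.card (alternatingGroup (Fin 5)) = 60 := by
    rw [nat_card_alternatingGroup, Nat.card_eq_fintype_card, Fintype.card_fin]; rfl
  rw [Nat.card_prod, Nat.card_prod, h60, Nat.card_eq_fintype_card (α := Bool)] at this
  exact this

/-- a five-cycle -/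
def pa : Perm (Fin 5) := finRotate 5
/-- a three-cycle -/
def pb : Perm (Fin 5) := swap 0 1 * swap 1 2
/-- a double transposition -/
def pc : Perm (Fin 5) := swap 0 1 * swap 2 3

theorem gen5 : ∀ σ : Perm (Fin 5), Perm.sign σ = 1 → ∃ i : Fin 5, ∃ j : Fin 3, ∃ k : Fin 2, ∃ l : Fin 2,
    σ = pa ^ (i : ℕ) * pb ^ (j : ℕ) * pc ^ (k : ℕ) * (pb * pc * pb⁻¹) ^ (l : ℕ) := by decide +kernel

theorem cen5 : ∀ σ : Perm (Fin 5), σ * pa = pa * σ → σ * pb = pb * σ → σ = 1 := by decide +kernel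

theorem sg : Perm.sign pa = 1 ∧ Perm.sign pb = 1 ∧ Perm.sign pc = 1 ∧ pa ≠ 1 := by decide +kernel

theorem cl_eq : closure {sw, Perm.sumCongr pa 1, Perm.sumCongr pb 1, Perm.sumCongr pc 1} = alternatingFiveWreathTwo := by
  refine le_antisymm ((closure_le _).2 ?_) ((closure_le _).2 ?_)
  · rintro _ (rfl | rfl | rfl | rfl)
    exacts [mem_sw, mem_sc sg.1 (one_mem _), mem_sc sg.2.1 (one_mem _), mem_sc sg.2.2.1 (one_mem _)]
  · set H := closure {sw, Perm.sumCongr pa 1, Perm.sumCongr pb 1, Perm.sumCongr pc 1}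
    have s0 : sw ∈ H := subset_closure (by simp)
    let φ : Perm (Fin 5) →* Perm (Fin 5 ⊕ Fin 5) := (Perm.sumCongrHom _ _).comp (MonoidHom.inl _ _)
    have a : pa ∈ H.comap φ := subset_closure (.inr (.inl rfl))
    have b : pb ∈ H.comap φ := subset_closure (.inr (.inr (.inl rfl)))
    have c : pc ∈ H.comap φ := subset_closure (.inr (.inr (.inr rfl)))
    have h1 : ∀ σ ∈ alternatingGroup (Fin 5), Perm.sumCongr σ 1 ∈ H := fun σ hσ => by
      obtain ⟨i, j, k, l, rfl⟩ := gen5 σ hσ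
      exact mul_mem (mul_mem (mul_mem (pow_mem a _) (pow_mem b _)) (pow_mem c _)) (pow_mem (mul_mem (mul_mem b c) (inv_mem b)) _)
    rintro _ (⟨σ, τ, rfl⟩ | rfl)
    · have := mul_mem (h1 _ σ.2) (mul_mem (mul_mem s0 (h1 _ τ.2)) s0)
      rwa [sw_conj, mul_assoc, sw_sq, mul_one, Perm.sumCongr_mul, mul_one, one_mul] at this
    · exact s0

theorem o2 (N : Subgroup alternatingFiveWreathTwo) (hN : N.Normal) (h2 : IsPGroup 2 N) : N = ⊥ := by
  have h60 : Nat.card (alternatingGroup (Fin 5)) = 60 := by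
    rw [nat_card_alternatingGroup, Nat.card_eq_fintype_card, Fintype.card_fin]; rfl
  let φ : alternatingGroup (Fin 5) →* alternatingFiveWreathTwo :=
    (((Perm.sumCongrHom _ _).comp (MonoidHom.inl _ _)).comp (alternatingGroup (Fin 5)).subtype).codRestrict _
      fun σ => mem_sc σ.2 (one_mem _)
  have iφ : Function.Injective φ := fun a b e => Subtype.ext (congrArg Prod.fst
    (Perm.sumCongrHom_injective (a₁ := (a.1, 1)) (a₂ := (b.1, 1)) (congrArg Subtype.val e)))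
  have b : N.comap φ = ⊥ := (hN.comap φ).eq_bot_or_eq_top.resolve_right fun c => by
    have := h2.comap_of_injective φ iφ
    rw [c] at this
    obtain ⟨n, hn⟩ := IsPGroup.iff_card.1 (this.of_equiv topEquiv)
    rw [h60] at hn
    have : 3 ∣ 2 ^ n := hn ▸ by norm_num
    exact absurd (Nat.prime_three.dvd_of_dvd_pow this) (by norm_num)
  have l1 : ∀ σ ∈ alternatingGroup (Fin 5), ∀ τ, ∀ h, (⟨Perm.sumCongr σ τ, h⟩ : alternatingFiveWreathTwo) ∈ N → σ = 1 := fun σ hσ τ h hn => by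
    have : ∀ ρ ∈ alternatingGroup (Fin 5), σ * ρ = ρ * σ := fun ρ hρ => by
      have h1 := mul_mem hn (hN.conj_mem _ (inv_mem hn) (φ ⟨ρ, hρ⟩))
      have h2 : (⟨σ, hσ⟩ * (⟨ρ, hρ⟩ * ⟨σ, hσ⟩⁻¹ * ⟨ρ, hρ⟩⁻¹) : alternatingGroup (Fin 5)) ∈ N.comap φ := by
        refine (congrArg (· ∈ N) (Subtype.ext ?_)).mp h1
        ext (x | x)
        · rfl
        · exact congrArg Sum.inr (τ.apply_symm_apply x)
      rw [b, mem_bot] at h2
      have h3 : σ * (ρ * σ⁻¹ * ρ⁻¹) = 1 := congrArg Subtype.val h2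
      calc σ * ρ = σ * (ρ * σ⁻¹ * ρ⁻¹) * (ρ * σ) := by group
        _ = _ := by rw [h3, one_mul]
    exact cen5 σ (this _ sg.1) (this _ sg.2.1)
  have l2 : ∀ σ ∈ alternatingGroup (Fin 5), ∀ τ ∈ alternatingGroup (Fin 5), ∀ h,
      (⟨Perm.sumCongr σ τ, h⟩ : alternatingFiveWreathTwo) ∈ N → σ = 1 ∧ τ = 1 := fun σ hσ τ hτ h hn =>
    ⟨l1 σ hσ τ h hn, l1 τ hτ σ (mem_sc hτ hσ) ((congrArg (· ∈ N) (Subtype.ext (by ext (x | x) <;> rfl))).mp
      (hN.conj_mem _ hn ⟨sw, mem_sw⟩))⟩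
  refine eq_bot_iff.2 fun ⟨g, hg⟩ hn => ?_
  obtain ⟨σ, hσ, τ, hτ, rfl | rfl⟩ := nf hg
  · obtain ⟨rfl, rfl⟩ := l2 σ hσ τ hτ _ hn
    exact Subtype.ext (by simp)
  · have h1 := mul_mem (hN.conj_mem _ hn (φ ⟨pa, sg.1⟩)) (inv_mem hn)
    have h3 : τ * pa⁻¹ * τ⁻¹ ∈ alternatingGroup (Fin 5) := mul_mem (mul_mem hτ (inv_mem sg.1)) (inv_mem hτ)
    refine absurd (l1 pa sg.1 (τ * pa⁻¹ * τ⁻¹) (mem_sc sg.1 h3) ((congrArg (· ∈ N) (Subtype.ext ?_)).mp h1)) sg.2.2.2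
    ext (x | x)
    · exact congrArg (fun y => Sum.inl (pa y)) (σ.apply_symm_apply x)
    · rfl

end H24.MtA
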