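import Cfsg.Agent.H24.Cyc
import Cfsg.Agent.H24.Diag
import Cfsg.Agent.H09.Sp

/-!
Regular unipotent matrices: invariant subspaces (`H24.Reg.inv_eq_ker`), commutative algebras `F[t]` with an involution
`t ↦ -t` (`card_skew`, `card_unitary`, `exists_sqrt`), the symplectic adjoint `st` on matrices.
-/

set_option autoImplicit false

open Module Polynomial Matrix

namespace H24.Reg

section
variable {F : Type*} [Field F] {n : Type*} [Fintype n] [DecidableEq n] {u : Matrix n n F}

theorem rank_pow (hnil : IsNilpotent (u - 1)) (hr : (u - 1).rank + 1 = Fintype.card n) (k : ℕ) :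
    ((u - 1) ^ k).rank + min (Fintype.card n) k = Fintype.card n := by
  have h := H24.Sim.rank_pow_add (μ := {Fintype.card n}) (A := u) (by
    rw [H24.Sim.typ_of_regular hnil hr]; rfl) k
  simpa using h

theorem finrank_ker_pow (hnil : IsNilpotent (u - 1)) (hr : (u - 1).rank + 1 = Fintype.card n) (k : ℕ) :
    finrank F (LinearMap.ker (mulVecLin ((u - 1) ^ k))) = min (Fintype.card n) k := by
  have h2 := rank_pow hnil hr k
  have h3 := LinearMap.finrank_range_add_finrank_ker (mulVecLin ((u - 1) ^ k))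
  rw [Module.finrank_fintype_fun_eq_card] at h3
  change Matrix.rank _ + _ = _ at h3
  omega

theorem inv_eq_ker (hnil : IsNilpotent (u - 1)) (hr : (u - 1).rank + 1 = Fintype.card n) (W : Submodule F (n → F))
    (hW : ∀ v ∈ W, u *ᵥ v ∈ W) : W = LinearMap.ker (mulVecLin ((u - 1) ^ finrank F W)) := by
  refine Submodule.eq_of_le_of_finrank_le ?_ (by rw [finrank_ker_pow hnil hr]; omega)
  let N : Module.End F (n → F) := toLin' (u - 1)
  have hN : ∀ v ∈ W, N v ∈ W := fun v hv => by
    simp only [N, toLin'_apply, sub_mulVec, one_mulVec]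
    exact W.sub_mem (hW v hv) hv
  obtain ⟨e, he⟩ := hnil
  have hnil' : IsNilpotent (N.restrict hN) := Module.End.isNilpotent.restrict hN ⟨e, by
    simp only [N]; rw [← toLin'_pow, he, map_zero]⟩
  have h4 : (N.restrict hN) ^ finrank F W = 0 := by
    have := LinearMap.aeval_self_charpoly (N.restrict hN)
    rwa [hnil'.charpoly_eq_X_pow_finrank, map_pow, Polynomial.aeval_X] at this
  intro v hv
  have h5 := congrArg Subtype.val (LinearMap.congr_fun h4 ⟨v, hv⟩)
  rw [Module.End.pow_restrict, LinearMap.coe_restrict_apply] at h5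
  simp only [N, ← toLin'_pow] at h5
  exact h5

theorem pow_ne_zero (hnil : IsNilpotent (u - 1)) (hr : (u - 1).rank + 1 = Fintype.card n) :
    (u - 1) ^ (Fintype.card n - 1) ≠ 0 := fun h => by
  have := rank_pow hnil hr (Fintype.card n - 1)
  rw [h, rank_zero] at this
  omega

end

section
variable {F R : Type*} [Field F] [CommRing R] [Algebra F R] (σ : R →ₐ[F] R)

theorem isUnit_of_nilp {x : R} {c : F} (hc : c ≠ 0) (h : IsNilpotent (x - algebraMap F R c)) : IsUnit x := by
  have := h.isUnit_add_left_of_commute ((Ne.isUnit hc).map (algebraMap F R)) (Commute.all _ _)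
  rwa [add_sub_cancel] at this

theorem exists_sqrt [Finite R] (h2 : (2 : F) ≠ 0) {s : R} {c : F} (hc : c ≠ 0) (hs : σ s = s)
    (hn : IsNilpotent (s - algebraMap F R (c ^ 2))) : ∃ r, σ r = r ∧ r * r = s := by
  let T := {y : R // σ y = y ∧ IsNilpotent (y - 1)}
  let f : T → T := fun y => ⟨y.1 * y.1, by rw [map_mul, y.2.1], by
    rw [show y.1 * y.1 - 1 = (y.1 - 1) * (y.1 + 1) by ring]
    exact (Commute.all _ _).isNilpotent_mul_right y.2.2⟩
  have hf : Function.Injective f := fun y z h => by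
    have h1 : (y.1 - z.1) * (y.1 + z.1) = 0 := by
      have := congrArg Subtype.val h
      simp only [f] at this
      linear_combination this
    have h3 : IsUnit (y.1 + z.1) := isUnit_of_nilp h2 (by
      rw [map_ofNat, show y.1 + z.1 - 2 = (y.1 - 1) + (z.1 - 1) by ring]
      exact (Commute.all _ _).isNilpotent_add y.2.2 z.2.2)
    exact Subtype.ext (sub_eq_zero.1 (h3.mul_left_eq_zero.1 h1))
  obtain ⟨y, hy⟩ := Finite.surjective_of_injective hf ⟨(c ^ 2)⁻¹ • s, by rw [map_smul, hs], by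
    have : (c ^ 2)⁻¹ • s - 1 = (c ^ 2)⁻¹ • (s - algebraMap F R (c ^ 2)) := by
      rw [smul_sub, Algebra.algebraMap_eq_smul_one, smul_smul, inv_mul_cancel₀ (_root_.pow_ne_zero 2 hc), one_smul]
    rw [this]; exact hn.smul _⟩
  refine ⟨c • y.1, by rw [map_smul, y.2.1], ?_⟩
  have := congrArg Subtype.val hy
  simp only [f] at this
  rw [smul_mul_smul_comm, this, smul_smul, ← pow_two, mul_inv_cancel₀ (_root_.pow_ne_zero 2 hc), one_smul]

variable {σ} {t : R}

theorem exists_loc (hg : ∀ x, ∃ g : F[X], x = aeval t g) (x : R) : ∃ (c : F) (h : R), x = algebraMap F R c + t * h := by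
  obtain ⟨g, rfl⟩ := hg x
  refine ⟨g.coeff 0, aeval t g.divX, ?_⟩
  conv_lhs => rw [← X_mul_divX_add g]
  rw [map_add, map_mul, aeval_X, aeval_C, add_comm]

theorem invol (ht : σ t = -t) (hg : ∀ x, ∃ g : F[X], x = aeval t g) (x : R) : σ (σ x) = x := by
  obtain ⟨g, rfl⟩ := hg x
  rw [← aeval_algHom_apply, ← aeval_algHom_apply, ht, map_neg, ht, neg_neg]

theorem card_skew [Finite F] (h2 : (2 : F) ≠ 0) (ht : σ t = -t) (hg : ∀ x, ∃ g : F[X], x = aeval t g) {m : ℕ}
    (h0 : t ^ (2 * m) = 0) (h1 : t ^ (2 * m - 1) ≠ 0) : Nat.card {s : R // σ s = -s} = Nat.card F ^ m := by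
  haveI : Nontrivial R := nontrivial_of_ne _ _ h1
  have hli : LinearIndependent F fun i : Fin m => t ^ (2 * (i : ℕ) + 1) := by
    have hi : IsIntegral F t := ⟨X ^ (2 * m), monic_X_pow _, by simp [h0]⟩
    obtain ⟨k, hk, e⟩ := (dvd_prime_pow (prime_X (R := F)) (2 * m)).1 (minpoly.dvd F t (p := X ^ (2 * m)) (by simp [h0]))
    have e1 := eq_of_monic_of_associated (minpoly.monic hi) (monic_X_pow k) e
    have e2 := minpoly.aeval F t
    rw [e1, map_pow, aeval_X] at e2
    have e3 : 2 * m ≤ (minpoly F t).natDegree := by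
      rw [e1, natDegree_X_pow]
      by_contra h
      exact h1 (pow_eq_zero_of_le (by omega) e2)
    exact (linearIndependent_pow (K := F) t).comp (fun i : Fin m => ⟨2 * i + 1, by omega⟩) fun i j h => by
      simp only [Fin.mk.injEq] at h; omega
  let S := Submodule.span F (Set.range fun i : Fin m => t ^ (2 * (i : ℕ) + 1))
  have hS : ∀ s, σ s = -s ↔ s ∈ S := fun s => by
    constructor
    · intro hs
      have h3 : ∀ g : F[X], aeval t g - σ (aeval t g) ∈ S := fun g => by
        induction g using Polynomial.induction_on' with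
        | add p q hp hq =>
          rw [map_add, map_add, add_sub_add_comm]; exact S.add_mem hp hq
        | monomial k c =>
          rw [aeval_monomial, map_mul, AlgHom.commutes, map_pow, ht, ← mul_sub, ← Algebra.smul_def]
          refine S.smul_mem _ ?_
          rcases Nat.even_or_odd' k with ⟨j, rfl | rfl⟩
          · rw [(even_two_mul j).neg_pow, sub_self]; exact S.zero_mem
          · rw [(odd_two_mul_add_one j).neg_pow, sub_neg_eq_add]
            suffices t ^ (2 * j + 1) ∈ S from S.add_mem this this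
            by_cases hj : j < m
            · exact Submodule.subset_span ⟨⟨j, hj⟩, rfl⟩
            · rw [pow_eq_zero_of_le (by omega) h0]; exact S.zero_mem
      obtain ⟨g, rfl⟩ := hg s
      have := S.smul_mem (2 : F)⁻¹ (h3 g)
      rwa [hs, sub_neg_eq_add, ← two_smul F, smul_smul, inv_mul_cancel₀ h2, one_smul] at this
    · intro hs
      induction hs using Submodule.span_induction with
      | mem x hx =>
        obtain ⟨i, rfl⟩ := hx
        rw [map_pow, ht, (odd_two_mul_add_one _).neg_pow]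
      | zero => simp
      | add x y _ _ hx hy => rw [map_add, hx, hy, neg_add]
      | smul a x _ hx => rw [map_smul, hx, smul_neg]
  haveI : Module.Finite F S := Module.Finite.span_of_finite F (Set.finite_range _)
  rw [Nat.card_congr (Equiv.subtypeEquivRight hS), Module.natCard_eq_pow_finrank (K := F), finrank_span_eq_card hli,
    Fintype.card_fin]

theorem card_unitary [Finite R] (h2 : (2 : F) ≠ 0) (ht : σ t = -t) (hg : ∀ x, ∃ g : F[X], x = aeval t g)
    (h0 : IsNilpotent t) [Nontrivial R] :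
    Nat.card {x : R // σ x * x = 1} = 2 * Nat.card {s : R // σ s = -s} := by
  have hl : ∀ x : R, ∃ c : F, IsNilpotent (x - algebraMap F R c) ∧ IsNilpotent (σ x - algebraMap F R c) := fun x => by
    obtain ⟨c, h, rfl⟩ := exists_loc hg x
    refine ⟨c, ?_, ?_⟩
    · rw [add_sub_cancel_left]; exact (Commute.all _ _).isNilpotent_mul_right h0
    · rw [map_add, AlgHom.commutes, add_sub_cancel_left, map_mul, ht]
      exact (Commute.all _ _).isNilpotent_mul_right h0.neg
  have hz : ∀ c : F, IsNilpotent (algebraMap F R c) → c = 0 := fun c hc => by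
    by_contra h
    exact ((Ne.isUnit h).map (algebraMap F R)).not_isNilpotent hc
  let U := {x : R // σ x * x = 1 ∧ IsNilpotent (x - 1)}
  have hs : ∀ s : R, σ s = -s → IsNilpotent s := fun s hs => by
    obtain ⟨c, h3, h4⟩ := hl s
    have h5 := hz (2 * c) (by
      have := ((Commute.all _ _).isNilpotent_add h3 h4).neg
      rwa [hs, show -(s - algebraMap F R c + (-s - algebraMap F R c)) = algebraMap F R (2 * c) by
        rw [map_mul, map_ofNat]; ring] at this)
    rwa [(mul_eq_zero.1 h5).resolve_left h2, map_zero, sub_zero] at h3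
  have hu : ∀ x : U, IsUnit (x.1 + 1) := fun x => isUnit_of_nilp h2 (by
    rw [map_ofNat, show x.1 + 1 - 2 = x.1 - 1 by ring]; exact x.2.2)
  have h2' : IsUnit (2 : R) := by simpa only [map_ofNat] using (Ne.isUnit h2).map (algebraMap F R)
  have e1 : Nat.card U = Nat.card {s : R // σ s = -s} := by
    refine le_antisymm ?_ ?_
    · choose y hy using fun x : U => (hu x).exists_right_inv
      refine Nat.card_le_card_of_injective (fun x : U => (⟨(x.1 - 1) * y x, ?_⟩ : {s : R // σ s = -s})) fun x z h => ?_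
      · have h3 := congrArg σ (hy x)
        rw [map_mul, map_add, map_one] at h3
        rw [map_mul, map_sub, map_one]
        have h4 := x.2.1
        have h5 := hy x
        linear_combination (-(σ x.1 - 1) * σ (y x)) * h5 + (-(x.1 - 1) * y x) * h3 +
          (2 * y x * σ (y x)) * h4
      · have h3 : (x.1 - 1) * y x = (z.1 - 1) * y z := congrArg Subtype.val h
        refine Subtype.ext (h2'.mul_left_cancel ?_)
        linear_combination ((x.1 + 1) * (z.1 + 1)) * h3 - ((x.1 - 1) * (z.1 + 1)) * hy x + ((z.1 - 1) * (x.1 + 1)) * hy z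
    · choose y hy using fun s : {s : R // σ s = -s} => (hs _ s.2).isUnit_one_sub.exists_right_inv
      refine Nat.card_le_card_of_injective (fun s : {s : R // σ s = -s} => (⟨(1 + s.1) * y s, ?_, ?_⟩ : U))
        fun x z h => ?_
      · have h3 := congrArg σ (hy s)
        rw [map_mul, map_sub, map_one, s.2] at h3
        rw [map_mul, map_add, map_one, s.2]
        linear_combination ((1 + s.1) * σ (y s)) * hy s + h3
      · rw [show (1 + s.1) * y s - 1 = s.1 * (2 * y s) by linear_combination hy s]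
        exact (Commute.all _ _).isNilpotent_mul_right (hs _ s.2)
      · have h3 : (1 + x.1) * y x = (1 + z.1) * y z := congrArg Subtype.val h
        refine Subtype.ext (h2'.mul_left_cancel ?_)
        linear_combination ((1 - x.1) * (1 - z.1)) * h3 - ((1 + x.1) * (1 - z.1)) * hy x + ((1 + z.1) * (1 - x.1)) * hy z
  rw [← e1, two_mul, ← Nat.card_sum]
  refine (Nat.card_eq_of_bijective (Sum.elim (fun x : U => (⟨x.1, x.2.1⟩ : {x : R // σ x * x = 1}))
    fun x : U => ⟨-x.1, by rw [map_neg, neg_mul_neg, x.2.1]⟩) ⟨?_, fun x => ?_⟩).symm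
  · have hn : ∀ x z : U, x.1 ≠ -z.1 := fun x z h => h2 (hz 2 (by
      have := ((Commute.all _ _).isNilpotent_add x.2.2 z.2.2).neg
      rwa [h, show -(-z.1 - 1 + (z.1 - 1)) = algebraMap F R 2 by rw [map_ofNat]; ring] at this))
    rintro (x | x) (z | z) h <;> have h3 := congrArg Subtype.val h <;> simp only [Sum.elim_inl, Sum.elim_inr] at h3
    · rw [Subtype.ext h3]
    · exact absurd h3 (hn _ _)
    · exact absurd h3.symm (hn _ _)
    · rw [Subtype.ext (neg_injective h3)]
  · obtain ⟨c, h3, h4⟩ := hl x.1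
    have h5 := hz (1 - c * c) (by
      have := (Commute.all _ _).isNilpotent_add ((Commute.all _ (σ x.1)).isNilpotent_mul_right h3)
        ((Commute.all _ (algebraMap F R c)).isNilpotent_mul_right h4)
      rwa [show (x.1 - algebraMap F R c) * σ x.1 + (σ x.1 - algebraMap F R c) * algebraMap F R c =
        algebraMap F R (1 - c * c) by rw [map_sub, map_mul, map_one]; linear_combination x.2] at this)
    rcases mul_self_eq_one_iff.1 (sub_eq_zero.1 h5).symm with rfl | rfl
    · exact ⟨Sum.inl ⟨x.1, x.2, by simpa using h3⟩, rfl⟩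
    · refine ⟨Sum.inr ⟨-x.1, by rw [map_neg, neg_mul_neg, x.2], ?_⟩, Subtype.ext (neg_neg _)⟩
      have := h3.neg
      rwa [map_neg, map_one, show -(x.1 - -1) = -x.1 - 1 by ring] at this

end

section
variable {F : Type*} [Field F] {l : Type*} [Fintype l] [DecidableEq l]

/-- the symplectic adjoint -/
def st : Matrix (l ⊕ l) (l ⊕ l) F →ₗ[F] Matrix (l ⊕ l) (l ⊕ l) F where
  toFun X := -J l F * Xᵀ * J l F
  map_add' X Y := by rw [transpose_add, Matrix.mul_add, Matrix.add_mul]
  map_smul' c X := by rw [transpose_smul, Matrix.mul_smul, Matrix.smul_mul]; rfl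

theorem B_st (X : Matrix (l ⊕ l) (l ⊕ l) F) (v w : l ⊕ l → F) :
    H09.spB l F (X *ᵥ v) w = H09.spB l F v (st X *ᵥ w) := by
  rw [H09.spB_apply, H09.spB_apply, mulVec_mulVec]
  change _ = v ⬝ᵥ (J l F * (-J l F * Xᵀ * J l F)) *ᵥ w
  rw [← Matrix.mul_assoc, ← Matrix.mul_assoc, Matrix.mul_neg, J_squared, neg_neg, Matrix.one_mul, ← mulVec_mulVec,
    dotProduct_mulVec v, vecMul_transpose]

theorem B_st' (X : Matrix (l ⊕ l) (l ⊕ l) F) (v w : l ⊕ l → F) :
    H09.spB l F (st X *ᵥ v) w = H09.spB l F v (X *ᵥ w) := by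
  rw [← H09.spB_alt.neg_eq, ← B_st, H09.spB_alt.neg_eq]

theorem ext_B {X Y : Matrix (l ⊕ l) (l ⊕ l) F} (h : ∀ v w, H09.spB l F v (X *ᵥ w) = H09.spB l F v (Y *ᵥ w)) :
    X = Y := by
  refine toLin'.injective (LinearMap.ext fun w => sub_eq_zero.1 (H09.spB_nondeg.2 _ fun v => ?_))
  rw [map_sub, toLin'_apply, toLin'_apply, h, sub_self]

theorem st_mul (X Y : Matrix (l ⊕ l) (l ⊕ l) F) : st (X * Y) = st Y * st X :=
  ext_B fun v w => by rw [← B_st, ← mulVec_mulVec, B_st, B_st, mulVec_mulVec]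

theorem st_one : st (1 : Matrix (l ⊕ l) (l ⊕ l) F) = 1 := ext_B fun v w => by rw [← B_st, one_mulVec, one_mulVec]

theorem st_st (X : Matrix (l ⊕ l) (l ⊕ l) F) : st (st X) = X := ext_B fun v w => by rw [← B_st, B_st']

theorem st_pow (X : Matrix (l ⊕ l) (l ⊕ l) F) (k : ℕ) : st (X ^ k) = st X ^ k := by
  induction k with
  | zero => simp [st_one]
  | succ k ih => rw [pow_succ, st_mul, ih, pow_succ']

theorem mem_sp_iff {X : Matrix (l ⊕ l) (l ⊕ l) F} : X ∈ symplecticGroup l F ↔ st X * X = 1 := by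
  rw [H09.mem_sp_iff]
  refine ⟨fun h => ext_B fun v w => by rw [← mulVec_mulVec, ← B_st, h, one_mulVec], fun h v w => ?_⟩
  rw [B_st, mulVec_mulVec, h, one_mulVec]

theorem st_sp (u : symplecticGroup l F) : st u.1 = (u⁻¹).1 := (SymplecticGroup.coe_inv u).symm

theorem mul_inv (u : symplecticGroup l F) : u.1 * (u⁻¹).1 = 1 := congrArg Subtype.val (mul_inv_cancel u)

theorem inv_mul (u : symplecticGroup l F) : (u⁻¹).1 * u.1 = 1 := congrArg Subtype.val (inv_mul_cancel u)

theorem commute_inv {u : symplecticGroup l F} {x : Matrix (l ⊕ l) (l ⊕ l) F} (h : Commute x u.1) :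
    Commute x (u⁻¹).1 := by
  have : (u⁻¹).1 * (u.1 * x) * (u⁻¹).1 = (u⁻¹).1 * (x * u.1) * (u⁻¹).1 := by rw [h.eq]
  rw [← Matrix.mul_assoc, inv_mul, Matrix.one_mul, Matrix.mul_assoc, Matrix.mul_assoc, mul_inv, Matrix.mul_one] at this
  exact this

theorem commute_st {u : symplecticGroup l F} {x : Matrix (l ⊕ l) (l ⊕ l) F} (h : Commute x u.1) :
    Commute (st x) u.1 := by
  have := congrArg st (commute_inv h).eq
  rw [st_mul, st_mul, st_sp, inv_inv] at this
  exact this.symm

/-- the centraliser algebra of a symplectic matrix -/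
abbrev Cen (u : symplecticGroup l F) := Subalgebra.centralizer F ({u.1} : Set (Matrix (l ⊕ l) (l ⊕ l) F))

theorem mem_Cen {u : symplecticGroup l F} {x : Matrix (l ⊕ l) (l ⊕ l) F} : x ∈ Cen u ↔ Commute x u.1 := by
  simp [Subalgebra.mem_centralizer_iff, Commute, SemiconjBy, eq_comm]

variable {u : symplecticGroup l F} (hnil : IsNilpotent (u.1 - 1)) (hr : (u.1 - 1).rank + 1 = Fintype.card (l ⊕ l))
include hnil hr

theorem cen_comm (x y : Cen u) : x * y = y * x := by
  obtain ⟨g, hg⟩ := H24.Sim.exists_aeval_of_commute (H24.Sim.typ_of_regular hnil hr) (mem_Cen.1 y.2)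
  refine Subtype.ext (?_ : x.1 * y.1 = y.1 * x.1)
  rw [hg]; exact (H24.Sim.commute_aeval (mem_Cen.1 x.2) g).eq

/-- the centraliser algebra as a commutative ring -/
abbrev cenRing : CommRing (Cen u) := { (inferInstance : Ring (Cen u)) with mul_comm := cen_comm hnil hr }

/-- the adjoint on the centraliser algebra -/
def sig : Cen u →ₐ[F] Cen u where
  toFun x := ⟨st x.1, mem_Cen.2 (commute_st (mem_Cen.1 x.2))⟩
  map_one' := Subtype.ext st_one
  map_mul' x y := by rw [cen_comm hnil hr x y]; exact Subtype.ext (st_mul _ _)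
  map_zero' := Subtype.ext (map_zero _)
  map_add' x y := Subtype.ext (map_add _ _ _)
  commutes' c := Subtype.ext (by
    change st (algebraMap F _ c) = algebraMap F _ c
    rw [Algebra.algebraMap_eq_smul_one, map_smul, st_one])

theorem exists_gen (h2 : (2 : F) ≠ 0) : ∃ t : Cen u, sig hnil hr t = -t ∧ (∀ x, ∃ g : F[X], x = aeval t g) ∧
    t ^ Fintype.card (l ⊕ l) = 0 ∧ t ^ (Fintype.card (l ⊕ l) - 1) ≠ 0 ∧ t.1 = u.1 - (u⁻¹).1 ∧
      (t.1 ^ (Fintype.card (l ⊕ l) - 1)).rank = 1 := by
  have c1 : Commute (u.1 - 1) u.1 := (Commute.refl _).sub_left (Commute.one_left _)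
  have c2 : Commute (u.1 - 1) (1 + (u⁻¹).1) := (Commute.one_right _).add_right (commute_inv c1)
  have e : u.1 - (u⁻¹).1 = (u.1 - 1) * (1 + (u⁻¹).1) := by
    rw [Matrix.mul_add, Matrix.sub_mul u.1 1 (u⁻¹).1, mul_inv]; simp
  have hu : IsUnit (1 + (u⁻¹).1) := by
    have h3 : IsNilpotent ((u⁻¹).1 - 1) := by
      obtain ⟨k, hk⟩ := hnil
      exact ⟨k, by rw [← st_sp, ← st_one, ← map_sub, ← st_pow, hk, map_zero]⟩
    have := h3.isUnit_add_left_of_commute ((Ne.isUnit h2).map (algebraMap F _)) (Algebra.commutes _ _).symm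
    rwa [map_ofNat, show (2 : Matrix (l ⊕ l) (l ⊕ l) F) + ((u⁻¹).1 - 1) = 1 + (u⁻¹).1 by
      rw [← one_add_one_eq_two]; abel] at this
  have hn : IsNilpotent (1 + (u.1 - (u⁻¹).1) - 1) := by
    rw [add_sub_cancel_left, e]; exact c2.isNilpotent_mul_right hnil
  have hr' : (1 + (u.1 - (u⁻¹).1) - 1).rank + 1 = Fintype.card (l ⊕ l) := by
    rw [add_sub_cancel_left, e, rank_mul_eq_left_of_isUnit_det _ _ ((isUnit_iff_isUnit_det _).1 hu), hr]
  refine ⟨⟨u.1 - (u⁻¹).1, mem_Cen.2 ((Commute.refl _).sub_left (commute_inv (Commute.refl _)).symm)⟩,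
    Subtype.ext ?_, fun x => ?_, Subtype.ext ?_, fun h => ?_, rfl, ?_⟩
  · change st (u.1 - (u⁻¹).1) = -(u.1 - (u⁻¹).1)
    rw [map_sub, st_sp, st_sp, inv_inv, neg_sub]
  · have hx := mem_Cen.1 x.2
    obtain ⟨g, hg⟩ := H24.Sim.exists_aeval_of_commute (H24.Sim.typ_of_regular hn hr')
      ((Commute.one_right _).add_right (hx.sub_right (commute_inv hx)))
    refine ⟨g.comp (1 + X), Subtype.ext ?_⟩
    rw [hg, aeval_subalgebra_coe, aeval_comp]
    simp
  · have := H24.Sim.pow_card_eq_zero hn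
    rw [add_sub_cancel_left] at this
    exact this
  · have := pow_ne_zero hn hr'
    rw [add_sub_cancel_left] at this
    exact this (congrArg Subtype.val h)
  · have := rank_pow hn hr' (Fintype.card (l ⊕ l) - 1)
    rw [add_sub_cancel_left] at this
    change ((u.1 - (u⁻¹).1) ^ _).rank = 1
    omega

end

theorem exists_reg (F : Type*) [Field F] (m : ℕ) :
    ∃ u : symplecticGroup (Fin m) F, (u.1 - 1) ^ (2 * m) = 0 ∧ (u.1 - 1).rank = 2 * m - 1 := by
  have hf : ((X - C 2 : F[X]) ^ m).Monic := (monic_X_sub_C 2).pow m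
  obtain ⟨A, e, he⟩ := H24.Adj.exists_sp_cyc hf (n := m) (by simp)
  set θ := AdjoinRoot.root ((X - C 2 : F[X]) ^ m) with hθ
  have h1 : ∀ a b, (A.1 - 1) *ᵥ e (a, b) = e ((θ - 1) * a - b, a - b) := fun a b => by
    rw [sub_mulVec, he, one_mulVec, ← map_sub]; congr 1; ext <;> simp; ring
  have h2 : AdjoinRoot.mk ((X - C 2 : F[X]) ^ m) (X - C 2) = θ - 2 := by
    rw [map_sub, AdjoinRoot.mk_X, AdjoinRoot.mk_C, map_ofNat (AdjoinRoot.of _)]
  have h3 : ∀ k a b, ∃ a' b', (A.1 - 1) ^ (2 * k) *ᵥ e (a, b) = e ((θ - 2) ^ k * a', (θ - 2) ^ k * b') := fun k a b => by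
    induction k with
    | zero => exact ⟨a, b, by simp⟩
    | succ k ih =>
      obtain ⟨a', b', h⟩ := ih
      refine ⟨θ * a' - b', a', ?_⟩
      rw [Nat.mul_succ, pow_succ', pow_succ', ← mulVec_mulVec, ← mulVec_mulVec, h, h1, h1]
      congr 1; ext <;> simp <;> ring
  have h4 : (A.1 - 1) ^ (2 * m) = 0 := toLin'.injective (LinearMap.ext fun v => by
    obtain ⟨⟨a, b⟩, rfl⟩ := e.surjective v
    obtain ⟨a', b', h⟩ := h3 m a b
    rw [toLin'_apply, h, ← h2, ← map_pow, AdjoinRoot.mk_self]; simp)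
  refine ⟨A, h4, ?_⟩
  obtain ⟨μ, hμ, hs, ht⟩ := H24.Sim.exists_utyp ⟨_, h4⟩
  have h5 := H24.Sim.rank_add_card hμ ht
  have h6 := LinearMap.finrank_range_add_finrank_ker (mulVecLin (A.1 - 1))
  rw [Module.finrank_fintype_fun_eq_card] at h6
  change Matrix.rank _ + _ = _ at h6
  simp only [Fintype.card_sum, Fintype.card_fin] at h5 h6 hs
  rcases Nat.eq_zero_or_pos m with rfl | hm
  · omega
  have h7 : μ.card ≠ 0 := fun h => by rw [Multiset.card_eq_zero.1 h] at hs; simp at hs; omega
  haveI := H24.Sim.finite_adjoinRoot hf.ne_zero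
  have h8 := H24.Sim.finrank_ker_mul hf.ne_zero (X - C 2)
  rw [H24.Sim.kd1_of_dvd' (dvd_pow_self _ hm.ne'), natDegree_X_sub_C, h2] at h8
  have h9 : ∀ v : LinearMap.ker (mulVecLin (A.1 - 1)), (θ - 2) * (e.symm v).1 = 0 ∧ (e.symm v).1 = (e.symm v).2 := by
    rintro ⟨v, hv⟩
    obtain ⟨⟨a, b⟩, rfl⟩ := e.surjective v
    rw [LinearMap.mem_ker, mulVecLin_apply, h1, e.map_eq_zero_iff, Prod.mk_eq_zero] at hv
    simp only [LinearEquiv.symm_apply_apply]
    exact ⟨by linear_combination hv.1 - hv.2, sub_eq_zero.1 hv.2⟩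
  have := LinearMap.finrank_le_finrank_of_injective (f := LinearMap.codRestrict (LinearMap.ker (Algebra.lmul F _ (θ - 2)))
    (LinearMap.fst F _ _ ∘ₗ e.symm.toLinearMap ∘ₗ (LinearMap.ker (mulVecLin (A.1 - 1))).subtype) fun v => (h9 v).1)
    fun v w h => by
      have h10 : (e.symm v).1 = (e.symm w).1 := congrArg Subtype.val h
      exact Subtype.ext (e.symm.injective (Prod.ext h10 ((h9 v).2.symm.trans (h10.trans (h9 w).2))))
  omega

end H24.Reg
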