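import Cfsg.Agent.H09.Sp
import Cfsg.Agent.H24.MDT

/-!
# Minimal index of `Sp_{2m}(2)` (namespace `H24.Sp2`)

A proper subgroup `H` of small index preserves the quadratic form `th H` (indicator of the transvections in `H`);
the stabiliser of a quadratic form has index the number of its zeros.
-/

set_option autoImplicit false
set_option linter.unusedSectionVars false

open Subgroup H09 Module Matrix

namespace H24.Sp2

open MD

variable {l F : Type*} [Fintype l] [DecidableEq l] [Field F] [Finite F] (hF : ∀ c : F, c = 0 ∨ c = 1)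

local notation "V" => l ⊕ l → F
local notation "B" => spB l F
local notation "G" => symplecticGroup l F

variable {H : Subgroup (symplecticGroup l F)} {p x y z u v a b : l ⊕ l → F} {c d : F}

/-- Elements of the unipotent radical of the stabiliser of `p`. -/
def s (p x : V) (c : F) : G := spTv x 1 * spTv (x + p) 1 * spTv p (c + 1)

theorem Bs (x : V) : B x x = 0 := spB_alt x

theorem s_conj (g : G) (p x : V) (c : F) : g * s p x c * g⁻¹ = s (g • p) (g • x) c := by
  simp only [s, ← smul_add, ← spTv_conj]; group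

theorem tv_conj {g : G} (hg : g ∈ H) (h : spTv v 1 ∈ H) : spTv (g • v) 1 ∈ H := by
  rw [← spTv_conj]; exact mul_mem (mul_mem hg h) (inv_mem hg)

include hF

theorem two : (2 : F) = 0 := by
  rcases hF 2 with h | h
  · exact h
  · exact absurd (by linear_combination h) (one_ne_zero (α := F))

theorem ff (c : F) : c + c = 0 := by linear_combination c * two hF

theorem vv (v : V) : v + v = 0 := funext fun i => ff hF (v i)

theorem Bc (x y : V) : B x y = B y x := by
  have := Bs (x + y)
  simp only [map_add, LinearMap.add_apply, Bs] at this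
  linear_combination this - ff hF (B y x)

theorem s_app (h : B x p = 0) (c : F) (y : V) : s p x c • y = y + B y x • p + B y p • x + (c * B y p) • p := by
  have h' : B p x = 0 := (Bc hF _ _).trans h
  simp only [s, mul_smul, spTv_smul, map_add, map_smul, LinearMap.add_apply, LinearMap.smul_apply, Bs, h, h', smul_eq_mul]
  match_scalars
  · ring
  · linear_combination (B y p) * two hF
  · linear_combination (B y x) * two hF

theorem s_mul (h : B x p = 0) (h' : B y p = 0) (c d : F) : s p x c * s p y d = s p (x + y) (c + d + B x y) := by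
  refine sp_ext fun w => ?_
  rw [mul_smul, s_app hF h', s_app hF h, s_app hF (by simp [h, h'])]
  simp only [map_add, map_smul, LinearMap.add_apply, LinearMap.smul_apply, Bs, h, h', smul_eq_mul, (Bc hF p x).trans h, Bc hF y x]
  match_scalars <;> ring

theorem s_zero (p : V) (c : F) : s p 0 c = spTv p c := by
  rw [s, spTv_zero_left, one_mul, zero_add, ← spTv_add]; congr 1; linear_combination two hF

theorem tt (v : V) : spTv v (1 : F) * spTv v 1 = 1 := by rw [← spTv_add, ff hF, spTv_zero]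

theorem s_one (p x : V) : s p x 1 = spTv x 1 * spTv (x + p) 1 := by rw [s, ff hF, spTv_zero, mul_one]

theorem s_inv (h : B x p = 0) (c : F) : (s p x c)⁻¹ = s p x c := by
  rw [inv_eq_iff_mul_eq_one, s_mul hF h h, vv hF, s_zero hF, Bs, ff hF, add_zero, spTv_zero]

theorem uniq (hp : spTv p 1 ∉ H) (h : B x p = 0) (h1 : s p x c ∈ H) (h2 : s p x d ∈ H) : c = d := by
  have := mul_mem h1 h2
  rw [s_mul hF h h, vv hF, s_zero hF, Bs, add_zero] at this
  rcases hF (c + d) with e | e
  · linear_combination e - ff hF d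
  · exact absurd (e ▸ this) hp

theorem ex_orth (h0 : x ≠ 0) (h1 : x ≠ p) : ∃ z, B z p = 0 ∧ B x z = 1 := by
  obtain ⟨z, z1, z2⟩ := exists_orth_ne_zero (spB_nondeg (l := l) (F := F)) spB_alt.isRefl (U := F ∙ p) (v := x) fun e => by
    obtain ⟨c, rfl⟩ := Submodule.mem_span_singleton.1 e
    rcases hF c with rfl | rfl <;> simp at h0 h1
  exact ⟨z, (Bc hF _ _).trans (z1 p (Submodule.mem_span_singleton_self p)), (hF _).resolve_left z2⟩

theorem cardF : Nat.card F = 2 := by
  rw [Nat.card_eq_two_iff' (0 : F)]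
  exact ⟨1, one_ne_zero, fun y hy => (hF y).resolve_left hy⟩

theorem ex3 (hN : 64 ≤ Nat.card (V)) (u v w a b c d : V) :
    ∃ z, B z u = 0 ∧ B z v = 0 ∧ B z w = 0 ∧ z ≠ a ∧ z ≠ b ∧ z ≠ c ∧ z ≠ d := by
  let f : (V) →ₗ[F] F × F × F := (B u).prod ((B v).prod (B w))
  have h1 := f.toAddMonoidHom.ker.card_mul_index
  have h2 : f.toAddMonoidHom.ker.index ≤ 8 := by
    rw [AddSubgroup.index_ker]
    exact (Nat.card_le_card_of_injective _ Subtype.val_injective).trans (by simp [Nat.card_prod, cardF hF])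
  have h3 : ({a, b, c, d} : Set (V)).ncard < (f.toAddMonoidHom.ker : Set (V)).ncard := by
    have := Set.ncard_insert_le a ({b, c, d} : Set (V))
    have := Set.ncard_insert_le b ({c, d} : Set (V))
    have := Set.ncard_insert_le c ({d} : Set (V))
    rw [Set.ncard_singleton] at this
    change _ < Nat.card f.toAddMonoidHom.ker
    nlinarith
  obtain ⟨z, z1, z2⟩ := Set.exists_mem_notMem_of_ncard_lt_ncard h3
  have z3 : (B u z, B v z, B w z) = 0 := z1
  simp only [Prod.mk_eq_zero] at z3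
  simp only [Set.mem_insert_iff, Set.mem_singleton_iff, not_or] at z2
  exact ⟨z, (Bc hF _ _).trans z3.1, (Bc hF _ _).trans z3.2.1, (Bc hF _ _).trans z3.2.2, z2⟩

variable (H p) in
/-- The image of `H` in the unipotent radical. -/
def aa : Submodule F (V) where
  carrier := {x | B x p = 0 ∧ ∃ c, s p x c ∈ H}
  zero_mem' := ⟨by simp, 0, by rw [s_zero hF, spTv_zero]; exact one_mem H⟩
  add_mem' := fun ⟨a1, c, a2⟩ ⟨b1, d, b2⟩ => ⟨by simp [a1, b1], _, s_mul hF a1 b1 c d ▸ mul_mem a2 b2⟩
  smul_mem' := fun c x hx => by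
    rcases hF c with rfl | rfl
    · exact ⟨by simp, 0, by rw [zero_smul, s_zero hF, spTv_zero]; exact one_mem H⟩
    · rwa [one_smul]

theorem self_aa : p ∈ aa hF H p := ⟨Bs p, 0, by rw [s, vv hF, spTv_zero_left, mul_one, zero_add, tt hF]; exact one_mem H⟩

theorem stepA (hp : spTv p 1 ∉ H) (hx : B x p = 0) (h : ∀ c, s p x c ∉ H) : Nat.card (V) ≤ 2 * H.index + 4 := by
  obtain ⟨y, y1, y2⟩ := exists_orth_ne_zero (spB_nondeg (l := l) (F := F)) spB_alt.isRefl (U := aa hF H p) (v := x)
    fun e => e.2.elim h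
  let K : Subgroup G := MulAction.stabilizer G p
  let J : Subgroup G := stb (aa hF H p : Set (V))
  let L : AddSubgroup (V) := (B p).toAddMonoidHom.ker
  have hL : ∀ w, w ∈ L ↔ B w p = 0 := fun w => by rw [Bc hF]; rfl
  have h1 : H ⊓ K ≤ J := fun g hg => mem_stb.2 fun w ⟨w1, c, w2⟩ => by
    have e : g • p = p := hg.2
    refine ⟨by rw [← e, sp_pres, w1], c, ?_⟩
    rw [← e, ← s_conj]; exact mul_mem (mul_mem hg.1 w2) (inv_mem hg.1)
  have h2 := chain h1 le_rfl
  have h3 := prod_le H (J ⊓ K) ((aa hF H p).toAddSubgroup.addSubgroupOf L) (⊥ : AddSubgroup F) (fun w c => s p w c)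
    (fun w c => ⟨mem_stb.2 fun u u1 => by
      rw [s_app hF ((hL _).1 w.2), u1.1]
      simpa using add_mem u1 (Submodule.smul_mem _ _ (self_aa hF)),
      show s p w c • p = p by rw [s_app hF ((hL _).1 w.2), show B p w = 0 from w.2, Bs]; simp⟩)
    (fun w w' c c' e => by
      rw [s_inv hF ((hL _).1 w.2), s_mul hF ((hL _).1 w.2) ((hL _).1 w'.2)] at e
      have : (-w + w' : L).1 = w + w' := by simp [neg_eq_of_add_eq_zero_left (vv hF w.1)]
      exact show (-w + w' : L).1 ∈ aa hF H p from ⟨(hL _).1 (-w + w').2, _, this ▸ e⟩)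
    (fun w c c' e => by
      have := uniq hF hp (x := 0) (c := c + c') (d := 0) (by simp) (by
        simpa [s_inv hF ((hL _).1 w.2), s_mul hF ((hL _).1 w.2) ((hL _).1 w.2), vv hF, Bs] using e) (by
        rw [s_zero hF, spTv_zero]; exact one_mem H)
      rw [AddSubgroup.mem_bot]; linear_combination this - ff hF c)
  have h4 := ncard_le_act J K (fun g w => g • w) (fun _ _ _ _ _ => mul_smul ..) y (O := (L : Set (V)) \ {0, p})
    (S := (B).orthogonal (aa hF H p)) (fun z hz => by
      have hz2 := hz.2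
      simp only [Set.mem_insert_iff, Set.mem_singleton_iff, not_or] at hz2
      have : ∀ w : V, w ≠ 0 → w ≠ p → w ∉ F ∙ p := fun w h0 h1 e => by
        obtain ⟨c, rfl⟩ := Submodule.mem_span_singleton.1 e
        rcases hF c with rfl | rfl <;> simp at h0 h1
      obtain ⟨g, g1, g2⟩ := (spAct_sp (l := l) (F := F)).witt_step (U := F ∙ p) (v := y) (w := z)
        (this y (fun e => y2 (by simp [e])) fun e => y2 (e ▸ hx)) (this z hz2.1 hz2.2) fun u hu => by
          obtain ⟨c, rfl⟩ := Submodule.mem_span_singleton.1 hu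
          simp [show B p y = 0 from y1 p (self_aa hF), show B p z = 0 from hz.1]
      exact ⟨g, g2 p (Submodule.mem_span_singleton_self p), g1⟩)
    (fun j _ hj u hu => by
      have := y1 _ (mem_stb.1 (inv_mem hj) u hu)
      rwa [← sp_pres j, smul_inv_smul] at this)
  have h5 := L.card_mul_index
  have h6 : L.index ≤ 2 := by
    rw [AddSubgroup.index_ker]
    exact (Nat.card_le_card_of_injective _ Subtype.val_injective).trans (cardF hF).le
  have h7 := acard_mul (show (aa hF H p).toAddSubgroup ≤ L from fun w hw => (hL _).2 hw.1)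
  have h8 : Nat.card (aa hF H p) * Nat.card ((B).orthogonal (aa hF H p)) = Nat.card (V) := by
    rw [card_sub, card_sub, ← pow_add, LinearMap.BilinForm.finrank_orthogonal spB_nondeg, Nat.add_sub_cancel' (Submodule.finrank_le _),
      ← Module.natCard_eq_pow_finrank]
  have h9 : Nat.card L ≤ ((L : Set (V)) \ {0, p}).ncard + 2 :=
    (Set.ncard_le_ncard_sdiff_add_ncard _ {0, p}).trans (by gcongr; exact (Set.ncard_insert_le ..).trans (by simp))
  have h10 := rel_mono H (le_top : K ≤ ⊤)
  rw [relIndex_top_right] at h10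
  rw [AddSubgroup.index_bot, cardF hF] at h3
  change (aa hF H p).toAddSubgroup.relIndex L * 2 ≤ _ at h3
  change Nat.card (aa hF H p) * _ = _ at h7
  change _ ≤ _ * Nat.card ((B).orthogonal (aa hF H p)) at h4
  have h11 : 0 < Nat.card (aa hF H p) := Nat.card_pos
  have h12 : Nat.card (V) ≤ Nat.card L * 2 := h5 ▸ Nat.mul_le_mul_left _ h6
  have h13 : Nat.card ((B).orthogonal (aa hF H p)) ≤ H.relIndex (J ⊓ K) :=
    le_trans (Nat.le_of_mul_le_mul_left (by rw [h8, ← mul_assoc, h7]; exact h12) h11) h3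
  have := Nat.mul_le_mul_left (J.relIndex K) h13
  omega

section Quad

variable (hA : ∀ p : l ⊕ l → F, spTv p 1 ∉ H → ∀ x, spB l F x p = 0 → ∃ c, s p x c ∈ H)
include hA

theorem shift (hp : spTv p 1 ∉ H) (h : B v p = 0) (h0 : v ≠ 0) (h1 : v ≠ p) : spTv v 1 ∈ H ↔ spTv (v + p) 1 ∈ H := by
  obtain ⟨x, x1, x2⟩ := ex_orth hF h0 h1
  obtain ⟨c, hc⟩ := hA p hp x x1
  have e : s p x c • v = v + p := by rw [s_app hF x1, x2, h]; simp
  refine ⟨fun m => e ▸ tv_conj hc m, fun m => ?_⟩
  have := tv_conj (inv_mem hc) m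
  rwa [← e, inv_smul_smul] at this

theorem line (ha : spTv a 1 ∉ H) (hb : spTv b 1 ∉ H) (h : B b a = 0) (h1 : b ≠ a) (r : spTv a 1 * spTv b 1 ∈ H) :
    spTv b 1 * spTv (b + a) 1 ∈ H := by
  have h0 : b ≠ 0 := fun e => hb (by rw [e, spTv_zero_left]; exact one_mem H)
  obtain ⟨c, hc⟩ := hA a ha b h
  rcases hF c with rfl | rfl
  · have := mul_mem hc r
    rw [s, zero_add, mul_assoc, ← mul_assoc (spTv a 1), tt hF, one_mul, ← inv_eq_of_mul_eq_one_right (tt hF b), inv_eq_of_mul_eq_one_right (tt hF b)] at this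
    nth_rewrite 2 [← inv_eq_of_mul_eq_one_right (tt hF b)] at this
    rw [spTv_conj, spTv_smul, show B (b + a) b = 0 by simp [Bs, (Bc hF a b).trans h], mul_zero, zero_smul, add_zero] at this
    exact absurd ((shift hF hA ha h h0 h1).2 this) hb
  · rwa [s_one hF] at hc

variable (hN : 64 ≤ Nat.card (l ⊕ l → F))
include hN

theorem plane (hp : spTv p 1 ∉ H) (hx : spTv x 1 ∉ H) (h : B x p = 0) (h1 : x ≠ p) : s p x 1 ∉ H := fun r => by
  have n0 : ∀ {w : V}, spTv w 1 ∉ H → w ≠ 0 := fun hw e => hw (by rw [e, spTv_zero_left]; exact one_mem H)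
  have sy : ∀ {u w : V}, spTv u 1 * spTv w 1 ∈ H → spTv w 1 * spTv u 1 ∈ H := fun {u w} e => by
    simpa [inv_eq_of_mul_eq_one_right (tt hF u), inv_eq_of_mul_eq_one_right (tt hF w)] using inv_mem e
  have tr : ∀ {u w t : V}, spTv u 1 * spTv w 1 ∈ H → spTv w 1 * spTv t 1 ∈ H → spTv u 1 * spTv t 1 ∈ H := fun {u w t} e e' => by
    simpa [mul_assoc, ← mul_assoc (spTv w 1), tt hF] using mul_mem e e'
  have can : ∀ u w : V, u + (u + w) = w := fun u w => by rw [← add_assoc, vv hF, zero_add]
  have bk : ∀ {w : V}, spTv w 1 ∉ H → B w p = 0 → w ≠ p → s p w 1 ∈ H → spTv w 1 * spTv p 1 ∈ H := fun {w} a1 a2 a3 a4 => by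
    have := line hF hA (a := w + p) (b := w) (mt (shift hF hA hp a2 (n0 a1) a3).2 a1) a1 (by simp [Bs, a2])
      (by simpa using n0 hp) (sy (s_one hF p w ▸ a4))
    rwa [can] at this
  obtain ⟨z, z1, z2, z3, z4, z5, z6, z7, z8⟩ : ∃ z, B z p = 0 ∧ B z x = 0 ∧ z ≠ 0 ∧ z ≠ p ∧ z ≠ x ∧ z ≠ x + p ∧
      s p z 1 ∈ H ∧ s p (z + x) 0 ∈ H := by
    obtain ⟨z, z1, z2, -, z3, z4, z5, z6⟩ := ex3 hF hN p x 0 0 p x (x + p)
    obtain ⟨c, hc⟩ := hA p hp z z1
    have := mul_mem hc r
    rw [s_mul hF z1 h, z2, add_zero] at this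
    rcases hF c with rfl | rfl
    · refine ⟨z + x, by simp [z1, h], by simp [z2, Bs], fun e => z5 ?_, fun e => z6 ?_, by simpa, by simpa [add_comm z], by simpa using this, ?_⟩
      · rw [← can x z, add_comm x z, e, add_zero]
      · rw [← can x z, add_comm x z, e]
      · rwa [add_assoc, vv hF, add_zero]
    · exact ⟨z, z1, z2, z3, z4, z5, z6, hc, by rwa [ff hF] at this⟩
  have a1 : B (z + x) p = 0 := by simp [z1, h]
  have a2 : z + x ≠ p := fun e => z6 (by rw [← can x z, add_comm x z, e])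
  have a3 : z + x ≠ 0 := fun e => z5 (by rw [← can x z, add_comm x z, e, add_zero])
  refine zero_ne_one (uniq hF hp a1 z8 ?_)
  rw [s_one hF]
  by_cases hz : spTv z 1 ∈ H
  · have := (shift hF hA hx z2 z3 z5).1 hz
    exact mul_mem this ((shift hF hA hp a1 a3 a2).1 this)
  have b1 := bk hz z1 z4 z7
  exact line hF hA hp (mt (shift hF hA hx z2 z3 z5).2 hz) a1 a2
    (tr (sy b1) (line hF hA hx hz z2 z5 (tr (bk hx h h1 r) (sy b1))))

omit hF hA hN in
open Classical in
variable (H) in
/-- Indicator of the transvections in `H`. -/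
noncomputable def th (v : V) : F := if v ≠ 0 ∧ spTv v 1 ∈ H then 1 else 0

theorem th_mem (hp : spTv p 1 ∉ H) (h : B x p = 0) : s p x (th H x) ∈ H := by
  unfold th
  by_cases h0 : x = 0
  · rw [if_neg (by simp [h0]), h0, s_zero hF, spTv_zero]; exact one_mem H
  by_cases h1 : x = p
  · rw [if_neg (by simp [h1, hp]), h1, s, vv hF, spTv_zero_left, mul_one, zero_add, tt hF]; exact one_mem H
  split_ifs with e
  · rw [s_one hF]; exact mul_mem e.2 ((shift hF hA hp h h0 h1).1 e.2)
  · obtain ⟨c, hc⟩ := hA p hp x h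
    rcases hF c with rfl | rfl
    · exact hc
    · exact absurd hc (plane hF hA hN hp (fun e' => e ⟨h0, e'⟩) h h1)

theorem th_add (hp : spTv p 1 ∉ H) (h : B x p = 0) (h' : B y p = 0) : th H (x + y) = th H x + th H y + B x y :=
  uniq hF hp (by simp [h, h']) (th_mem hF hA hN hp (by simp [h, h']))
    (s_mul hF h h' _ _ ▸ mul_mem (th_mem hF hA hN hp h) (th_mem hF hA hN hp h'))

theorem th_quad (hp : spTv p 1 ∉ H) (u v : V) : th H (u + v) = th H u + th H v + B u v := by
  by_contra hn
  have key : ∀ w, w ≠ 0 → B w u = 0 → B w v = 0 → th H w = 1 := fun w w0 w1 w2 => if_pos ⟨w0, by_contra fun e =>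
    hn (th_add hF hA hN e ((Bc hF _ _).trans w1) ((Bc hF _ _).trans w2))⟩
  obtain ⟨a, a1, a2, a3, a4, -⟩ := ex3 hF hN u v p 0 0 0 0
  obtain ⟨b, b1, b2, b3, b4, b5, -⟩ := ex3 hF hN u v p 0 a 0 0
  obtain ⟨c, c1, c2, c3, c4, c5, c6, c7⟩ := ex3 hF hN u v p 0 a b (a + b)
  have ne : ∀ {x y : V}, y ≠ x → x + y ≠ 0 := fun {x y} e e' => e (by rw [← add_zero x, ← e', ← add_assoc, vv hF, zero_add])
  have e1 := th_add hF hA hN hp a3 b3
  have e2 := th_add hF hA hN hp a3 c3
  have e3 := th_add hF hA hN hp b3 c3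
  have e4 := th_add hF hA hN hp (x := a + b) (by simp [a3, b3]) c3
  rw [key _ (ne c7) (by simp [*]) (by simp [*]), map_add, LinearMap.add_apply] at e4
  rw [key _ (ne c5) (by simp [*]) (by simp [*])] at e2
  rw [key _ (ne c6) (by simp [*]) (by simp [*])] at e3
  rw [key _ (ne b5) (by simp [*]) (by simp [*])] at e4
  rw [key _ a4 a1 a2, key _ b4 b1 b2, key _ c4 c1 c2] at *
  exact one_ne_zero (α := F) (by linear_combination e4 - e2 - e3)

end Quad

/-- Quadratic forms polarising to the symplectic form. -/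
def IsQ (θ : (V) → F) : Prop := ∀ x y, θ (x + y) = θ x + θ y + B x y

open Classical in
/-- The sign character. -/
noncomputable def ch (c : F) : ℤ := if c = 0 then 1 else -1

/-- Gauss sum. -/
noncomputable def gs [Fintype F] (θ : (V) → F) : ℤ := ∑ x, ch (θ x)

/-- Stabiliser of a function. -/
def St (θ : (V) → F) : Subgroup G := mkSub (fun g => ∀ x, θ (g • x) = θ x) (by simp) fun a b ha hb x => by rw [mul_smul, ha, hb]

variable {θ : (l ⊕ l → F) → F}

theorem ch_add (c d : F) : ch (c + d) = ch c * ch d := by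
  rcases hF c with rfl | rfl <;> rcases hF d with rfl | rfl <;> simp [ch, ff hF]

theorem IsQ.zero (h : IsQ θ) : θ 0 = 0 := by simpa [ff hF] using h 0 0

variable [Fintype F]

theorem gs_shift (h : IsQ θ) (v : V) : gs (fun x => θ x + B x v) = ch (θ v) * gs θ := by
  rw [gs, gs, Finset.mul_sum, ← Equiv.sum_comp (Equiv.addRight v) fun x => ch (θ v) * ch (θ x)]
  refine Finset.sum_congr rfl fun x _ => ?_
  rw [← ch_add hF, Equiv.coe_addRight, h]; congr 1; linear_combination - ff hF (θ v)

theorem gs_lin (hv : v ≠ 0) : ∑ x, ch (B x v) = 0 := by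
  obtain ⟨y, hy⟩ := exists_form_eq_one (spB_nondeg (l := l) (F := F)) hv
  have := Equiv.sum_comp (Equiv.addRight y) fun x => ch (B x v)
  simp only [Equiv.coe_addRight, map_add, LinearMap.add_apply, ch_add hF, (Bc hF y v).trans hy, show ch (1 : F) = -1 by simp [ch],
    ← Finset.sum_mul] at this
  linarith

theorem gs_sq (h : IsQ θ) : gs θ ^ 2 = Nat.card (V) := by
  have : gs θ ^ 2 = ∑ v, ∑ x, ch (θ x) * ch (B x v) := by
    rw [sq]; nth_rewrite 1 [gs]; rw [Finset.sum_mul]
    exact Finset.sum_congr rfl fun v _ => by rw [← gs_shift hF h, gs]; simp only [ch_add hF]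
  rw [this, Finset.sum_comm, Finset.sum_eq_single 0]
  · simp [ch, h.zero hF]
  · intro x _ hx
    rw [← Finset.mul_sum]; simp only [Bc hF x]; rw [gs_lin hF hx, mul_zero]
  · simp

omit hF in
theorem zeros (θ : (V) → F) : (2 * {v | θ v = 0}.ncard : ℤ) = Nat.card (V) + gs θ := by
  classical
  rw [Set.ncard_eq_toFinset_card', Set.toFinset_ofPred, Finset.card_filter, Nat.card_eq_fintype_card, gs, ← Finset.card_univ,
    Finset.card_eq_sum_ones]
  push_cast
  rw [Finset.mul_sum, ← Finset.sum_add_distrib]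
  exact Finset.sum_congr rfl fun x _ => by unfold ch; split_ifs <;> simp

theorem index_St (h : IsQ θ) : (St θ).index = {v | θ v = 0}.ncard := by
  have inj : Function.Injective fun v : V => fun x => θ x + B x v := fun v w e => by
    refine sub_eq_zero.1 (spB_nondeg.2 _ fun x => ?_)
    simpa [sub_eq_zero] using congrFun e x
  rw [← Set.ncard_image_of_injective _ inj, ← relIndex_top_right]
  refine le_antisymm (relIndex_le_ncard _ _ (fun g x => θ (g⁻¹ • x)) (fun g _ => ?_) fun g _ g' _ e x => ?_)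
    (ncard_le_inv _ _ (fun g x => θ (g⁻¹ • x)) ?_ fun g _ j _ hj => funext fun x => ?_)
  · let f : (V) →ₗ[F] F :=
      { toFun := fun x => θ (g⁻¹ • x) - θ x
        map_add' := fun x y => by rw [smul_add, h, h, sp_pres]; ring
        map_smul' := fun c x => by rcases hF c with rfl | rfl <;> simp [h.zero hF] }
    let v := ((B).toDual spB_nondeg).symm f
    have e : (fun x => θ x + B x v) = fun x => θ (g⁻¹ • x) := funext fun x => by
      rw [Bc hF, LinearMap.BilinForm.apply_toDual_symm_apply]; simp [f]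
    refine ⟨v, ?_, e⟩
    have e1 := gs_shift hF h v
    have e2 : gs θ ≠ 0 := fun e => (Nat.card_pos (α := V)).ne' (by have := gs_sq hF h; rw [e] at this; omega)
    rw [e, show gs (fun x => θ (g⁻¹ • x)) = gs θ from Equiv.sum_comp (MulAction.toPerm g⁻¹) fun x => ch (θ x)] at e1
    by_contra e3
    rw [ch, if_neg (show θ v ≠ 0 from e3)] at e1
    omega
  · simpa [mul_smul] using congrFun e (g' • x)
  · rintro _ ⟨v, hv, rfl⟩
    refine ⟨spTv v 1, mem_top _, funext fun x => ?_⟩
    rw [inv_eq_of_mul_eq_one_right (tt hF v), spTv_smul, one_mul]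
    rcases hF (B x v) with e | e <;> simp [e, h x v, show θ v = 0 from hv]
  · rw [_root_.mul_inv_rev, mul_smul]; exact inv_mem hj _

theorem main {m : ℕ} (hl : Fintype.card l = m + 3) : (∀ H : Subgroup G, H ≠ ⊤ → 2 ^ (m + 2) * (2 ^ (m + 3) - 1) ≤ H.index) ∧
    ∃ P : Subgroup G, center G ≤ P ∧ P.index = 2 ^ (m + 2) * (2 ^ (m + 3) - 1) := by
  have hN : Nat.card (V) = (2 ^ (m + 3)) ^ 2 := by
    rw [Nat.card_fun, cardF hF, Nat.card_sum, Nat.card_eq_fintype_card, hl]; ring
  obtain ⟨k, hk, k1⟩ : ∃ k, 2 ^ (m + 2) = k ∧ 4 ≤ k := ⟨_, rfl, by rw [pow_add]; exact Nat.le_mul_of_pos_left _ (by positivity)⟩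
  rw [show m + 3 = m + 2 + 1 from rfl, pow_succ 2 (m + 2), hk] at hN ⊢
  obtain ⟨n, hn⟩ : ∃ n, k * 2 = n + 1 := ⟨k * 2 - 1, by omega⟩
  rw [show k * 2 - 1 = n by omega]
  have key : ∀ θ : (V) → F, IsQ θ → (gs θ = k * 2 ∧ (St θ).index = k * n + k * 2) ∨ (gs θ = -(k * 2) ∧ (St θ).index = k * n) := fun θ h => by
    have e1 := gs_sq hF h
    have e2 := zeros θ
    rw [← index_St hF h, hN] at e2
    rw [hN] at e1
    have hn' : (n : ℤ) = k * 2 - 1 := by omega
    refine (sq_eq_sq_iff_eq_or_eq_neg.1 (e1.trans (Nat.cast_pow ..))).imp (fun e => ⟨by simpa using e, ?_⟩) fun e => ⟨by simpa using e, ?_⟩ <;>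
    · zify at e2 ⊢; rw [hn']; push_cast at e; linarith
  refine ⟨fun H hH => ?_, ?_⟩
  · obtain ⟨p, hp⟩ : ∃ p, spTv p 1 ∉ H := by
      by_contra! h
      exact hH (sp_eq_top_of_tv_mem H fun v c => by
        rcases hF c with rfl | rfl
        · rw [spTv_zero]; exact one_mem H
        · exact h v)
    by_cases hA : ∀ p : V, spTv p 1 ∉ H → ∀ x, B x p = 0 → ∃ c, s p x c ∈ H
    · have : H ≤ St (th H) := fun g hg x => by
        classical
        exact if_congr (and_congr (smul_ne_zero_iff_ne g) ⟨fun e => by simpa using tv_conj (inv_mem hg) e, tv_conj hg⟩) rfl rfl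
      have := index_antitone this
      have := key _ (th_quad hF hA (by rw [hN]; nlinarith) hp)
      omega
    · push Not at hA
      obtain ⟨p, hp, x, hx, h⟩ := hA
      have := stepA hF hp hx h
      nlinarith
  · have c : ∀ θ : (V) → F, center G ≤ St θ := fun θ g hg x => by
      rcases sp_mem_center_iff.1 hg with rfl | rfl
      · rw [one_smul]
      · rw [sp_neg_one_smul, neg_eq_of_add_eq_zero_left (vv hF x)]
    have h0 : IsQ fun x : V => ∑ i, x (Sum.inl i) * x (Sum.inr i) := fun x y => by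
      rw [spB_apply', ← Finset.sum_add_distrib, ← Finset.sum_add_distrib]
      exact Finset.sum_congr rfl fun i _ => by
        simp only [Pi.add_apply]; linear_combination ff hF (x (Sum.inl i) * y (Sum.inr i))
    generalize (fun x : V => ∑ i, x (Sum.inl i) * x (Sum.inr i)) = θ at h0
    rcases key θ h0 with ⟨e1, e2⟩ | e
    · obtain ⟨v, hv⟩ : ∃ v, θ v ≠ 0 := by
        by_contra! h
        rw [index_St hF h0, Set.eq_univ_of_forall (s := {v | θ v = 0}) h, Set.ncard_univ, hN] at e2
        nlinarith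
      have h1 : IsQ fun x => θ x + B x v := fun x y => by simp only [h0 x y, map_add, LinearMap.add_apply]; ring
      have := gs_shift hF h0 v
      rw [ch, if_neg hv] at this
      exact ⟨_, c _, ((key _ h1).resolve_left fun e => by omega).2⟩
    · exact ⟨_, c θ, e.2⟩

end H24.Sp2
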