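import Cfsg.Agent.H09.Sp
import Cfsg.Agent.H24.MDT

/-!
# Minimal index of `Sp_{2m}(q)`, `q ≥ 3`: local tools (namespace `H24.SpQ`)

* `s p w d` : elements of the unipotent radical of the stabiliser of `p`; `aa`, `Zs` : the part lying in `H`
* `base`, `tz` : index bounds; `orb1`, `orb2` : orbit counting via Witt's lemma; `cls` : invariant additive subgroups
-/

set_option autoImplicit false
set_option linter.unusedSectionVars false

open Subgroup H09 Module Matrix

namespace H24.SpQ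

open MD

variable {l F : Type*} [Fintype l] [DecidableEq l] [Field F] [Finite F]

local notation "V" => l ⊕ l → F
local notation "B" => spB l F
local notation "G" => symplecticGroup l F

variable {H J : Subgroup (symplecticGroup l F)} {p x y z u v w : l ⊕ l → F} {c d : F} {U : Submodule F (l ⊕ l → F)}

theorem Bs (x : V) : B x x = 0 := spB_alt x

theorem Bc (x y : V) : B x y = -B y x := (spB_alt.neg_eq y x).symm

theorem B0 (h : B x y = 0) : B y x = 0 := by rw [Bc, h, neg_zero]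

/-- Elements of the unipotent radical of the stabiliser of `p`. -/
def s (p w : V) (d : F) : G := spTv (w + p) 1 * spTv w (-1) * spTv p (d - 1)

theorem s_conj (g : G) (p w : V) (d : F) : g * s p w d * g⁻¹ = s (g • p) (g • w) d := by
  simp only [s, ← smul_add, ← spTv_conj]; group

theorem s_app (h : B w p = 0) (d : F) (x : V) : s p w d • x = x + B x w • p + B x p • w + (d * B x p) • p := by
  simp only [s, mul_smul, spTv_smul, map_add, map_smul, LinearMap.add_apply, LinearMap.smul_apply, Bs, h, B0 h, smul_eq_mul]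
  module

theorem s_fix (h : B w p = 0) (d : F) : s p w d • p = p := by simp [s_app h, B0 h, Bs]

theorem s_mul (h : B w p = 0) (h' : B u p = 0) (c d : F) : s p w c * s p u d = s p (w + u) (c + d + B u w) := by
  refine sp_ext fun x => ?_
  rw [mul_smul, s_app h', s_app h, s_app (by simp [h, h'])]
  simp only [map_add, map_smul, LinearMap.add_apply, LinearMap.smul_apply, Bs, h, h', smul_eq_mul, B0 h]
  module

theorem s_zero (p : V) (d : F) : s p 0 d = spTv p d := by
  rw [s, spTv_zero_left, mul_one, zero_add, ← spTv_add, add_sub_cancel]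

theorem s_inv (h : B w p = 0) (d : F) : (s p w d)⁻¹ = s p (-w) (-d) := by
  rw [inv_eq_iff_mul_eq_one, s_mul h (by simp [h])]; simp [s_zero, Bs, spTv_zero]

theorem s_div (h : B w p = 0) (h' : B u p = 0) (c d : F) : (s p w c)⁻¹ * s p u d = s p (-w + u) (-c + d - B u w) := by
  rw [s_inv h, s_mul (by simp [h]) h', map_neg, sub_eq_add_neg]

theorem s_shift (h : B w p = 0) (c d : F) : s p (w + c • p) d = s p w (d + 2 * c) := by
  refine sp_ext fun x => ?_
  rw [s_app h, s_app (by simp [h, Bs])]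
  simp only [map_add, map_smul, smul_eq_mul]
  module

theorem s_smul (h : B w p = 0) (c d : F) : s (c • p) w d = s p (c • w) (c * c * d) := by
  refine sp_ext fun x => ?_
  rw [s_app (by simp [h]), s_app (by simp [h])]
  simp only [map_smul, smul_eq_mul]
  module

theorem s_swap (h : B x p = 0) (c d : F) : s p (c • x) d = s x (c • p) 0 * spTv p d := by
  refine sp_ext fun y => ?_
  rw [mul_smul, s_app (by simp [h]), s_app (by simp [B0 h]), spTv_smul]
  simp only [map_add, map_smul, LinearMap.add_apply, LinearMap.smul_apply, Bs, h, smul_eq_mul, B0 h]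
  module

theorem tv_split (h : B u p = 0) (c d a : F) : spTv (c • u + d • p) a = spTv u (a * c * c) * s p ((a * c * d) • u) (a * d * d) := by
  refine sp_ext fun y => ?_
  rw [mul_smul, s_app (by simp [h]), spTv_smul, spTv_smul]
  simp only [map_add, map_smul, LinearMap.add_apply, LinearMap.smul_apply, Bs, h, smul_eq_mul, B0 h]
  module

theorem conj_mem {g k : G} (hg : g ∈ H) (hk : k ∈ H) : g * k * g⁻¹ ∈ H := mul_mem (mul_mem hg hk) (inv_mem hg)

variable (H p) in
/-- The transvections with centre `p` in `H`. -/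
def Zs : AddSubgroup F where
  carrier := {d | spTv p d ∈ H}
  zero_mem' := by simp [spTv_zero]
  add_mem' := fun a b => by simpa [spTv_add] using mul_mem a b
  neg_mem' := fun a => by simpa [spTv_inv] using H.inv_mem a

@[simp] theorem mem_Zs : d ∈ Zs H p ↔ spTv p d ∈ H := Iff.rfl

variable (H p) in
/-- The image of `H` in the unipotent radical. -/
def aa : AddSubgroup (V) where
  carrier := {w | B w p = 0 ∧ ∃ d, s p w d ∈ H}
  zero_mem' := ⟨by simp, 0, by simp [s_zero, spTv_zero]⟩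
  add_mem' := fun ⟨a1, c, a2⟩ ⟨b1, d, b2⟩ => ⟨by simp [a1, b1], _, s_mul a1 b1 c d ▸ mul_mem a2 b2⟩
  neg_mem' := fun ⟨a1, c, a2⟩ => ⟨by simp [a1], _, s_inv a1 c ▸ inv_mem a2⟩

theorem self_aa (c : F) : c • p ∈ aa H p := ⟨by simp [Bs], -(2 * c), by
  rw [← zero_add (c • p), s_shift (by simp)]; simp [s_zero, spTv_zero]⟩

theorem sub_Zs (h : B w p = 0) (h1 : s p w c ∈ H) (h2 : s p w d ∈ H) : d - c ∈ Zs H p := by
  simpa [s_div h h, s_zero, Bs, neg_add_eq_sub] using mul_mem (inv_mem h1) h2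

/-- Pointwise stabiliser. -/
def fx (U : Submodule F (V)) : Subgroup G :=
  mkSub (fun g => ∀ h ∈ U, g • h = h) (by simp) fun a b ha hb h hh => by rw [mul_smul, hb h hh, ha h hh]

theorem mem_fx {g : G} : g ∈ fx (F ∙ p) ↔ g • p = p :=
  ⟨fun h => h p (Submodule.mem_span_singleton_self p), fun e h hh => by
    obtain ⟨c, rfl⟩ := Submodule.mem_span_singleton.1 hh
    rw [smul_comm, e]⟩

theorem mem_pp : w ∈ (B).orthogonal (F ∙ p) ↔ B w p = 0 :=
  ⟨fun h => B0 (h p (Submodule.mem_span_singleton_self p)), fun e h hh => by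
    obtain ⟨c, rfl⟩ := Submodule.mem_span_singleton.1 hh
    simp [B0 e]⟩

theorem card_pp (U : Submodule F (V)) : Nat.card U * Nat.card ((B).orthogonal U) = Nat.card (V) := by
  rw [card_sub, card_sub, ← pow_add, LinearMap.BilinForm.finrank_orthogonal spB_nondeg, Nat.add_sub_cancel' (Submodule.finrank_le _),
    ← Module.natCard_eq_pow_finrank]

theorem card_sup (h : u ∉ U) : Nat.card (U ⊔ F ∙ u : Submodule F (V)) = Nat.card U * Nat.card F := by
  rw [card_sub, card_sub, H10.Form.finrank_sup_singleton h, pow_succ]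

theorem card_one (h : p ≠ 0) : Nat.card (F ∙ p) = Nat.card F := by rw [card_sub, finrank_span_singleton h, pow_one]

variable (H p) in
/-- The product of `H ∩ P₁` and the unipotent radical. -/
def JJ : Subgroup G := mkSub (fun g => g • p = p ∧ ∃ w d, B w p = 0 ∧ g * s p w d ∈ H) ⟨by simp, 0, 0, by simp [s_zero, spTv_zero]⟩
  fun a b ⟨a1, w, c, a2, a3⟩ ⟨b1, u, d, b2, b3⟩ => ⟨by rw [mul_smul, b1, a1], by
    have e : b⁻¹ • p = p := by rw [inv_smul_eq_iff, b1]
    have e' : B (b⁻¹ • w) p = 0 := by rw [← e, sp_pres, a2]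
    refine ⟨b⁻¹ • w + u, c + d + B u (b⁻¹ • w), by simp [e', b2], ?_⟩
    rw [← s_mul e' b2]
    nth_rw 1 [← e]
    rw [← s_conj]
    convert mul_mem a3 b3 using 1; group⟩

theorem H_aa {g : G} (hg : g ∈ H) (e : g • p = p) (hw : w ∈ aa H p) : g • w ∈ aa H p :=
  ⟨by rw [← e, sp_pres, hw.1], hw.2.imp fun d h => by rw [← e, ← s_conj]; exact conj_mem hg h⟩

theorem JJ_aa : JJ H p ≤ stb (aa H p : Set (V)) := fun g ⟨g1, w, d, g2, g3⟩ y hy => by
  have := H_aa g3 (by rw [mul_smul, s_fix g2, g1]) (w := (s p w d)⁻¹ • y) (by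
    rw [s_inv g2, s_app (by simp [g2]), hy.1]; simpa using add_mem hy (self_aa (-B y w)))
  rwa [mul_smul, smul_inv_smul] at this

theorem base : (JJ H p).relIndex (fx (F ∙ p)) * ((aa H p).relIndex ((B).orthogonal (F ∙ p)).toAddSubgroup * (Zs H p).index) ≤
    H.relIndex (fx (F ∙ p)) := by
  refine le_trans (Nat.mul_le_mul_left _ ?_) (chain (J := JJ H p) (fun g hg => ⟨mem_fx.1 hg.2, 0, 0, by
    simpa [s_zero, spTv_zero] using hg.1⟩) le_rfl)
  refine prod_le H _ _ (Zs H p) (fun w d => s p w.1 d) (fun w d => ?_) (fun w u c d e => ?_) fun w c d e => ?_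
  · have h := mem_pp.1 w.2
    exact ⟨⟨s_fix h d, -w, -d, by simp [h], by rw [← s_inv h, mul_inv_cancel]; exact one_mem H⟩, mem_fx.2 (s_fix h d)⟩
  · exact ⟨mem_pp.1 (-w + u).2, _, s_div (mem_pp.1 w.2) (mem_pp.1 u.2) c d ▸ e⟩
  · simpa [s_div (mem_pp.1 w.2) (mem_pp.1 w.2), s_zero, Bs] using e

theorem sqrt2 (h : (2 : F) = 0) (a : F) : ∃ c, c * c = a :=
  Finite.surjective_of_injective (f := fun c : F => c * c) (fun c d e =>
    sub_eq_zero.1 (mul_self_eq_zero.1 (by linear_combination e + (d * d - c * d) * h))) a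

theorem tz (hp0 : p ≠ 0) (hD : ∃ d, spTv p d ∉ H) : ∃ t, t * H.relIndex (fx (F ∙ p)) ≤ H.index ∧
    (t = 1 → ∀ c : F, c ≠ 0 → ∃ h ∈ H, h • p = c • p) ∧ Nat.card F + 2 ≤ 2 * (t * (Zs H p).index) ∧
      ((2 : F) = 0 → Nat.card F ≤ t * (Zs H p).index ∧ (Zs H p ≠ ⊥ → Nat.card F + 2 ≤ t * (Zs H p).index)) := by
  let J : Subgroup G := mkSub (fun g => ∃ h ∈ H, ∃ c : F, g • p = c • p ∧ h • p = c • p) ⟨1, one_mem H, 1, by simp⟩
    fun a b ⟨h, h1, c, h2, h3⟩ ⟨k, k1, d, k2, k3⟩ => ⟨h * k, mul_mem h1 k1, c * d, by rw [mul_smul, k2, smul_comm, h2, smul_smul, mul_comm],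
      by rw [mul_smul, k3, smul_comm, h3, smul_smul, mul_comm]⟩
  have hT : ¬ ⊤ ≤ Zs H p := fun e => hD.elim fun d h => h (e (AddSubgroup.mem_top d))
  have mv : ∀ c : F, c ≠ 0 → ∃ g : G, g • p = c • p := fun c hc => by
    obtain ⟨g, g1, -⟩ := (spAct_sp (l := l) (F := F)).witt_step (U := ⊥) (v := p) (w := c • p) (by simpa) (by simp [hc, hp0]) (by simp)
    exact ⟨g, g1⟩
  obtain ⟨f, hf⟩ := Module.Projective.exists_dual_eq_one F hp0
  have h1 : ∀ {g : G} {c : F}, g • p = c • p → f (g • p) = c := fun h => by simp [h, hf]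
  have h2 : {t | ∃ c : F, c ≠ 0 ∧ c * c * 1 = t}.ncard ≤ J.relIndex (pt F p) * (scal F (Zs H p)).ncard := by
    refine ncard_le_act J (pt F p) (fun g y => f (g • p) * f (g • p) * y) (fun g ⟨c, hc⟩ k ⟨d, hd⟩ y => ?_) 1 ?_ ?_
    · rw [h1 hc, h1 hd, h1 (c := c * d) (by rw [mul_smul, hd, smul_comm, hc, smul_smul, mul_comm])]; ring
    · rintro _ ⟨c, hc, rfl⟩
      obtain ⟨g, g1⟩ := mv c hc
      exact ⟨g, ⟨c, g1⟩, by simp [h1 g1]⟩
    · rintro j - ⟨h, k1, c, k2, k3⟩
      refine ⟨by simp [h1 k2, pt_ne hp0 k2], fun d hd => ?_⟩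
      simpa [spTv_conj, k3, spTv_smul_left, h1 k2, sq] using conj_mem k1 hd
  have h3 : Zs H p ≠ ⊥ → ∃ (c : F), ∃ y ∈ Zs H p, c • y ∉ Zs H p := fun e => by
    obtain ⟨⟨y, y1⟩, y2⟩ := AddSubgroup.ne_bot_iff_exists_ne_zero.1 e
    obtain ⟨d, hd⟩ := hD
    exact ⟨d / y, y, y1, by simpa [show y ≠ 0 by simpa using y2]⟩
  have h4 := rel_pos J (pt F p)
  refine ⟨J.relIndex (pt F p), (chain (J := J) (K := pt F p) (fun g ⟨g1, c, g2⟩ => ⟨g, g1, c, g2, g2⟩) fun g hg => ⟨⟨1, one_mem H, 1, by simp [mem_fx.1 hg]⟩,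
    1, by simp [mem_fx.1 hg]⟩).trans ((rel_mono H le_top).trans_eq (relIndex_top_right H)), fun e c hc => ?_, ?_, fun e => ?_⟩
  · obtain ⟨g, g1⟩ := mv c hc
    obtain ⟨h, k1, d, k2, k3⟩ := relIndex_eq_one.1 e ⟨c, g1⟩
    exact ⟨h, k1, by rw [k3, ← k2, g1]⟩
  · by_cases e : Zs H p = ⊥
    · have := Finite.one_lt_card (α := F)
      rw [e, AddSubgroup.index_bot]; nlinarith
    simpa [mul_assoc] using (scal_bound (fun _ _ _ => AddSubgroup.mem_top _) hT (t := 2 * J.relIndex (pt F p))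
      ((sq_card one_ne_zero).trans (by rw [mul_assoc]; gcongr))).2 (h3 e)
  · simpa using (scal_bound (fun _ _ _ => AddSubgroup.mem_top _) hT (t := J.relIndex (pt F p)) (le_trans (by
      rw [← Set.ncard_univ, ← Set.ncard_sdiff_singleton_of_mem (Set.mem_univ (0 : F))]
      exact Set.ncard_le_ncard fun a ha => let ⟨c, hc⟩ := sqrt2 e a; ⟨c, fun e' => ha.2 (by simp [← hc, e']), by simpa⟩) h2)).imp_right
        (· ∘ h3)

/-- Vectors with the same products with `U` as `u`. -/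
def O1 (U : Submodule F (V)) (u : V) : Set (V) := {y | y ∉ U ∧ ∀ h ∈ U, B h u = B h y}

theorem reach (hu : u ∉ U) (hy : y ∈ O1 U u) : ∃ k ∈ fx U, k • u = y :=
  let ⟨g, g1, g2⟩ := (spAct_sp (l := l) (F := F)).witt_step hu hy.1 hy.2; ⟨g, g2, g1⟩

theorem O1_card (U : Submodule F (V)) (u : V) {T : Set (V)} (h : ∀ y ∈ U, (∀ h ∈ U, B h u = B h y) → y ∈ T) :
    Nat.card ((B).orthogonal U) ≤ (O1 U u).ncard + T.ncard := by
  refine le_trans ?_ (Set.ncard_union_le _ _)
  rw [← SetLike.coe_sort_coe, Nat.card_coe_set_eq, ← Set.ncard_image_of_injective _ (add_right_injective u)]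
  refine Set.ncard_le_ncard ?_
  rintro _ ⟨y, hy, rfl⟩
  have : ∀ h ∈ U, B h u = B h (u + y) := fun h hh => by simp [show B h y = 0 from hy h hh]
  exact (em _).imp (⟨·, this⟩) fun e => h _ (not_not.1 e) this

theorem fx_out {g : G} (hg : g ∈ fx U) (hu : u ∉ U) : g • u ∉ U := fun e => hu (by
  have := inv_mem hg _ e
  rw [inv_smul_smul] at this; rwa [this])

variable {X : Set (l ⊕ l → F)} (hX : ∀ j ∈ fx U, j ∈ J → ∀ y ∈ X, j • y ∈ X) (u1 : u ∈ X) (u2 : u ∉ U)
include hX u1 u2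

theorem orb1 : (O1 U u).ncard ≤ J.relIndex (fx U) * (X \ U).ncard := by
  simpa using ncard_le_mul J (fx U) u (c := 1) (S := X \ U) (fun _ => reach u2) (fun j a b => ⟨hX j a b u u1, fx_out a u2⟩) (rel_pos _ _)

theorem orb2 (v1 : v ∈ X) (v2 : v ∉ U ⊔ F ∙ u) {S : Set (V)} (hS : ∀ y ∈ X, y ∉ U ⊔ F ∙ u → B u y = B u v → y ∈ S) :
    (O1 U u).ncard * (O1 (U ⊔ F ∙ u) v).ncard ≤ J.relIndex (fx U) * ((X \ U).ncard * S.ncard) := by
  have e : ∀ j ∈ MulAction.stabilizer G u ⊓ fx U, j ∈ fx (U ⊔ F ∙ u) := fun j hj h hh => by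
    obtain ⟨a, a1, b, b1, rfl⟩ := Submodule.mem_sup.1 hh
    rw [smul_add, hj.2 a a1, mem_fx.2 hj.1 b b1]
  have h1 := ncard_le_mul J (fx U) u (fun _ => reach u2) (S := X \ U) (fun j a b => ⟨hX j a b u u1, fx_out a u2⟩) le_rfl
  have h2 := ncard_le_act J (MulAction.stabilizer G u ⊓ fx U) (fun g y => g • y) (fun _ _ _ _ _ => mul_smul ..) v (S := S)
    (fun z hz => let ⟨k, k1, k2⟩ := reach v2 hz; ⟨k, ⟨k1 u (Submodule.mem_sup_right (Submodule.mem_span_singleton_self u)),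
      fun h hh => k1 h (Submodule.mem_sup_left hh)⟩, k2⟩)
    fun j a b => hS _ (hX j a.2 b v v1) (fx_out (e j a) v2) (by nth_rw 1 [← show j • u = u from a.1]; rw [sp_pres])
  calc _ ≤ _ := Nat.mul_le_mul_left _ h2
    _ = _ := by rw [← mul_assoc, mul_comm (O1 U u).ncard]
    _ ≤ _ := Nat.mul_le_mul_right _ h1
    _ = _ := mul_assoc ..

end H24.SpQ
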