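import Cfsg.Agent.H24.SpA

/-!
# Minimal index of `Sp_{2m}(q)`, `q ≥ 3`: the types of points (namespace `H24.SpQ`)

* `cls` : invariant additive subgroups of `p^⊥`; `types` : possibilities for `H ∩ Q_p`
* `surR`, `surU` : the Levi factor is covered by `H`
-/

set_option autoImplicit false
set_option linter.unusedSectionVars false

open Subgroup H09 Module Matrix

namespace H24.SpQ

open MD

theorem ar1 {k ρ y r n : ℕ} (hk : 2 ≤ k) (hρ : k ≤ ρ) (hy : y ≤ ρ) (h1 : 2 * (ρ * (ρ + 2)) * (ρ + 1) ^ 2 ≤ r * ((k + 1) * (y + 1) * y))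
    (h2 : (k + 3) * (r * (y + 1)) ≤ 2 * n) : (k + 1) ^ 2 * (ρ + 1) ^ 2 ≤ n * k := by
  refine Nat.le_of_mul_le_mul_left (c := 2 * (k + 1) * ρ) ?_ (Nat.mul_pos (by positivity) (by omega))
  calc _ = 2 * ρ * (ρ + 1) ^ 2 * (k + 1) ^ 3 := by ring
    _ ≤ 2 * ρ * (ρ + 1) ^ 2 * ((k + 3) * k * (ρ + 2)) := by
      gcongr
      obtain ⟨k, rfl⟩ := Nat.exists_eq_add_of_le' hk
      nlinarith [Nat.mul_le_mul_left ((k + 2 + 3) * (k + 2)) hρ, Nat.zero_le (k ^ 2)]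
    _ = (k + 3) * k * (2 * (ρ * (ρ + 2)) * (ρ + 1) ^ 2) := by ring
    _ ≤ (k + 3) * k * (r * ((k + 1) * (y + 1) * ρ)) := Nat.mul_le_mul_left _ (h1.trans (by gcongr))
    _ = k * (k + 1) * ρ * ((k + 3) * (r * (y + 1))) := by ring
    _ ≤ _ := (Nat.mul_le_mul_left _ h2).trans_eq (by ring)

theorem ar2 {k ρ y r n e : ℕ} (hk : 2 ≤ k) (hρ : (k + 1) ^ 2 ≤ ρ + 1) (hy : y ≤ ρ) (he : (ρ + 1) ^ 2 = (k + 1) ^ 2 + e)
    (h1 : ρ * (ρ + 2) * e ≤ r * ((k + 1) * (y + 1) * y)) (h2 : (k + 3) * (r * (y + 1)) ≤ 2 * n) : (k + 1) ^ 2 * (ρ + 1) ^ 2 ≤ n * k := by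
  have h3 : 8 * (ρ + 1) ^ 2 ≤ 9 * e := by nlinarith [Nat.mul_le_mul hρ (show 9 ≤ ρ + 1 by nlinarith)]
  refine Nat.le_of_mul_le_mul_left (c := 18 * (k + 1) * ρ) ?_ (Nat.mul_pos (by positivity) (by nlinarith))
  calc _ = ρ * (ρ + 1) ^ 2 * (18 * (k + 1) * (k + 1) ^ 2) := by ring
    _ ≤ ρ * (ρ + 1) ^ 2 * (8 * ((k + 3) * k) * (ρ + 2)) := Nat.mul_le_mul_left _ (Nat.mul_le_mul (by nlinarith) (by omega))
    _ = (k + 3) * k * (ρ * (ρ + 2)) * (8 * (ρ + 1) ^ 2) := by ring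
    _ ≤ (k + 3) * k * (ρ * (ρ + 2)) * (9 * e) := Nat.mul_le_mul_left _ h3
    _ = 9 * (k + 3) * k * (ρ * (ρ + 2) * e) := by ring
    _ ≤ 9 * (k + 3) * k * (r * ((k + 1) * (y + 1) * ρ)) := Nat.mul_le_mul_left _ (h1.trans (by gcongr))
    _ = 9 * k * (k + 1) * ρ * ((k + 3) * (r * (y + 1))) := by ring
    _ ≤ _ := (Nat.mul_le_mul_left _ h2).trans_eq (by ring)

theorem ar3 {k ρ y r n j : ℕ} (hk : 2 ≤ k) (hρ : k ≤ ρ) (hy : y ≤ k) (h : 2 * (y + 1) ≤ k + 1 ∨ (k + 1) ^ 2 ≤ ρ + 1)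
    (h1 : ρ * (ρ + 2) ≤ r * y) (h2 : (k + 3) * (r * j) ≤ 2 * n) (h3 : (y + 1) * j = (ρ + 1) ^ 2) : (k + 1) ^ 2 * (ρ + 1) ^ 2 ≤ n * k := by
  have h4 : (k + 3) * (ρ * (ρ + 2)) * (ρ + 1) ^ 2 ≤ 2 * n * ((y + 1) * y) :=
    calc _ ≤ (k + 3) * (r * y) * (ρ + 1) ^ 2 := by gcongr
      _ = (k + 3) * (r * j) * ((y + 1) * y) := by rw [← h3]; ring
      _ ≤ _ := Nat.mul_le_mul_right _ h2
  refine Nat.le_of_mul_le_mul_left (c := 2 * (k + 1)) ?_ (by positivity)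
  rcases h with h | h
  · calc _ = 2 * (k + 1) ^ 3 * (ρ + 1) ^ 2 := by ring
      _ ≤ 4 * ((k + 3) * (ρ * (ρ + 2))) * (ρ + 1) ^ 2 := by
        gcongr ?_ * _
        nlinarith [Nat.mul_le_mul_left (k + 3) (Nat.mul_le_mul hρ (Nat.add_le_add_right hρ 2)), Nat.zero_le (k ^ 3), Nat.zero_le (k ^ 2)]
      _ ≤ 2 * n * (2 * (y + 1) * (2 * y)) := by linarith
      _ ≤ 2 * n * ((k + 1) * k) := by gcongr; omega
      _ = _ := by ring
  · calc _ = (k + 1) * (2 * (k + 1) ^ 2) * (ρ + 1) ^ 2 := by ring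
      _ ≤ (k + 3) * (ρ * (ρ + 2)) * (ρ + 1) ^ 2 := by
        gcongr ?_ * ?_ * _
        · omega
        · nlinarith
      _ ≤ _ := h4
      _ ≤ 2 * n * ((k + 1) * k) := by gcongr
      _ = _ := by ring

theorem ar4 {k ρ y r n : ℕ} (hk : 2 ≤ k) (hρ : k ≤ ρ) (h : 2 * (y + 1) ≤ k + 1)
    (h1 : ρ * (ρ + 2) ≤ r * y) (h2 : (k + 1) * (r * (y + 1)) ≤ n) : (k + 1) ^ 2 * (ρ + 1) ^ 2 ≤ n * k := by
  rcases Nat.eq_zero_or_pos y with rfl | hy
  · nlinarith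
  refine Nat.le_of_mul_le_mul_left (c := y) ?_ hy
  obtain ⟨c, rfl⟩ : ∃ c, k = y + (y + 1) + c := ⟨k - (y + (y + 1)), by omega⟩
  generalize hv : ρ * (ρ + 2) = v at *
  have h3 : y * (y + (y + 1) + c + 1) ≤ v * (y + 1 + c) := by nlinarith [Nat.mul_le_mul hρ (Nat.add_le_add_right hρ 2)]
  calc _ = (y + (y + 1) + c + 1) * (y * (y + (y + 1) + c + 1) * v + y * (y + (y + 1) + c + 1)) := by rw [← hv]; ring
    _ ≤ (y + (y + 1) + c + 1) * (y * (y + (y + 1) + c + 1) * v + v * (y + 1 + c)) := by gcongr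
    _ = (y + (y + 1) + c) * (y + (y + 1) + c + 1) * (y + 1) * v := by ring
    _ ≤ (y + (y + 1) + c) * (y + (y + 1) + c + 1) * (y + 1) * (r * y) := by gcongr
    _ = y * (y + (y + 1) + c) * ((y + (y + 1) + c + 1) * (r * (y + 1))) := by ring
    _ ≤ _ := (Nat.mul_le_mul_left _ h2).trans_eq (by ring)

variable {l F : Type*} [Fintype l] [DecidableEq l] [Field F] [Finite F]

local notation "V" => l ⊕ l → F
local notation "B" => spB l F
local notation "G" => symplecticGroup l F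

variable {H J : Subgroup (symplecticGroup l F)} {p x y z u v w : l ⊕ l → F} {c d : F} {U : Submodule F (l ⊕ l → F)}

/-- The form as a biadditive map. -/
noncomputable def bb : (V) →+ (V) →+ F := AddMonoidHom.mk' (fun w => (B w).toAddMonoidHom) fun a b => by ext; simp

@[simp] theorem bb_app : bb x y = B x y := rfl

theorem mem_two : x ∈ (F ∙ p) ⊔ F ∙ u ↔ ∃ a b : F, a • p + b • u = x := by
  rw [← Submodule.span_insert, Submodule.mem_span_pair]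

theorem mem_sup_pp {W : Submodule F (V)} : x ∈ (B).orthogonal (U ⊔ W) ↔ x ∈ (B).orthogonal U ∧ x ∈ (B).orthogonal W :=
  ⟨fun h => ⟨fun y hy => h y (Submodule.mem_sup_left hy), fun y hy => h y (Submodule.mem_sup_right hy)⟩, fun h y hy => by
    obtain ⟨a, a1, b, b1, rfl⟩ := Submodule.mem_sup.1 hy
    simp [show B a x = 0 from h.1 a a1, show B b x = 0 from h.2 b b1]⟩

theorem mem_pp2 : x ∈ (B).orthogonal ((F ∙ p) ⊔ F ∙ u) ↔ B x p = 0 ∧ B x u = 0 := by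
  rw [mem_sup_pp, mem_pp, mem_pp]

variable {k ρ : ℕ} (hq : Nat.card F = k + 1) (hV : Nat.card (l ⊕ l → F) = (k + 1) ^ 2 * (ρ + 1) ^ 2) (hp0 : p ≠ 0)
include hq hV hp0

theorem card_p : Nat.card ((B).orthogonal (F ∙ p)) = (k + 1) * (ρ + 1) ^ 2 := by
  have := card_pp (F ∙ p)
  rw [card_one hp0, hq, hV, sq (k + 1), mul_assoc] at this
  exact Nat.eq_of_mul_eq_mul_left k.succ_pos this

theorem card_p2 (hu : u ∉ F ∙ p) : Nat.card ((F ∙ p) ⊔ F ∙ u : Submodule F (V)) = (k + 1) ^ 2 ∧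
    Nat.card ((B).orthogonal ((F ∙ p) ⊔ F ∙ u)) = (ρ + 1) ^ 2 := by
  have := card_pp ((F ∙ p) ⊔ F ∙ u)
  rw [card_sup hu, card_one hp0, hq, hV, ← sq] at *
  exact ⟨rfl, Nat.eq_of_mul_eq_mul_left (by positivity) this⟩

theorem card_O (u : V) : (k + 1) * (ρ * (ρ + 2)) ≤ (O1 (F ∙ p) u).ncard := by
  have := O1_card (F ∙ p) u (T := F ∙ p) fun _ a _ => a
  rw [card_p hq hV hp0, show Set.ncard ((F ∙ p : Submodule F (V)) : Set (V)) = _ from (card_one hp0).trans hq] at this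
  nlinarith

omit hV in
theorem card_X {X : AddSubgroup (V)} (h1 : ∀ c : F, c • p ∈ X) : ∃ y, Nat.card X = (k + 1) * (y + 1) ∧ ((X : Set (V)) \ (F ∙ p)).ncard = (k + 1) * y := by
  have h : (F ∙ p).toAddSubgroup ≤ X := fun _ h => let ⟨c, e⟩ := Submodule.mem_span_singleton.1 h; e ▸ h1 c
  have h2 := acard_mul h
  have h3 := Set.ncard_sdiff_add_ncard_of_subset (show ((F ∙ p : Submodule F (V)) : Set (V)) ⊆ X from h)
  obtain ⟨y, hy⟩ := Nat.exists_eq_add_one.2 (arel_pos (F ∙ p).toAddSubgroup X)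
  have h4 := (card_one hp0).trans hq
  rw [hy, show Nat.card (F ∙ p).toAddSubgroup = _ from h4] at h2
  rw [show Set.ncard ((F ∙ p : Submodule F (V)) : Set (V)) = _ from h4, show Set.ncard (X : Set (V)) = _ from h2.symm] at h3
  exact ⟨y, h2.symm, by linarith⟩

theorem cls {X : AddSubgroup (V)} (h2 : ∀ y ∈ X, B y p = 0) (hX : ∀ j ∈ fx (F ∙ p), j ∈ J → ∀ y ∈ X, j • y ∈ X) {y : ℕ}
    (hy : Nat.card X = (k + 1) * (y + 1) ∧ ((X : Set (V)) \ (F ∙ p)).ncard = (k + 1) * y) :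
    (∀ x ∈ X, x ∈ F ∙ p) ∨ 2 * (ρ * (ρ + 2)) * (ρ + 1) ^ 2 ≤ J.relIndex (fx (F ∙ p)) * ((k + 1) * (y + 1) * y) ∨
      (∃ e, (k + 1) ^ 2 ≤ ρ + 1 ∧ (ρ + 1) ^ 2 = (k + 1) ^ 2 + e ∧ ρ * (ρ + 2) * e ≤ J.relIndex (fx (F ∙ p)) * ((k + 1) * (y + 1) * y)) ∨
      ∃ u ∈ X, u ∉ F ∙ p ∧ (∀ x ∈ X, x ∈ (F ∙ p) ⊔ F ∙ u) ∧ ρ * (ρ + 2) ≤ J.relIndex (fx (F ∙ p)) * y ∧ y ≤ k ∧
        (2 * (y + 1) ≤ k + 1 ∨ ∀ x ∈ (F ∙ p) ⊔ F ∙ u, x ∈ X) := by
  refine (em _).imp_right fun h0 => ?_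
  by_cases h3 : ∃ u ∈ X, ∃ v ∈ X, B u v ≠ 0
  · obtain ⟨u, u1, v, v1, h3⟩ := h3
    have u2 : u ∉ F ∙ p := fun e => h3 (mem_pp.2 (h2 v v1) u e)
    have a0 : ∀ y ∈ (F ∙ p) ⊔ F ∙ u, B u y = 0 := fun y hy => by
      obtain ⟨a, b, rfl⟩ := mem_two.1 hy
      simp [Bs, h2 u u1]
    have a1 := orb2 (X := X) hX u1 u2 v1 (fun e => h3 (a0 v e)) (S := {y | y ∈ X ∧ B u y = B u v}) fun y a _ b => ⟨a, b⟩
    have a2 := O1_card ((F ∙ p) ⊔ F ∙ u) v (T := ∅) fun y a b =>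
      h3 ((b u (Submodule.mem_sup_right (Submodule.mem_span_singleton_self u))).trans (a0 y a))
    have a3 : {y | y ∈ X ∧ B u y = B u v}.ncard + ((· - v) '' {y | y ∈ X ∧ B u y = B u v}).ncard ≤ Nat.card X := by
      rw [← Set.ncard_union_eq (Set.disjoint_left.2 (by rintro _ a ⟨y, b, rfl⟩; exact h3 (by simpa [b.2] using a.2.symm)))]
      refine Set.ncard_le_ncard (t := (X : Set (V))) (Set.union_subset (fun _ a => a.1) ?_)
      rintro _ ⟨y, b, rfl⟩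
      exact sub_mem b.1 v1
    rw [Set.ncard_image_of_injective _ sub_left_injective, hy.1] at a3
    rw [(card_p2 hq hV hp0 u2).2, Set.ncard_empty, add_zero] at a2
    refine .inl (Nat.le_of_mul_le_mul_left (c := k + 1) ?_ k.succ_pos)
    have := (Nat.mul_le_mul (card_O hq hV hp0 u) a2).trans a1
    rw [hy.2] at this
    nlinarith [Nat.mul_le_mul_left (J.relIndex (fx (F ∙ p)) * ((k + 1) * y)) a3]
  push Not at h0 h3
  obtain ⟨u, u1, u2⟩ := h0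
  obtain ⟨b1, b2⟩ := card_p2 hq hV hp0 u2
  refine .inr ((em' (∀ x ∈ X, x ∈ (F ∙ p) ⊔ F ∙ u)).imp (fun h4 => ?_) fun h4 => ⟨u, u1, u2, h4, ?_, ?_, ?_⟩)
  · push Not at h4
    obtain ⟨v, v1, v2⟩ := h4
    have a1 := orb2 (X := X) hX u1 u2 v1 v2 (S := X) fun y a _ _ => a
    have a2 := O1_card ((F ∙ p) ⊔ F ∙ u) v (T := ((F ∙ p) ⊔ F ∙ u : Submodule F (V))) fun y a _ => a
    have a3 := card_pp (((F ∙ p) ⊔ F ∙ u) ⊔ F ∙ v)
    have a4 : ((F ∙ p) ⊔ F ∙ u) ⊔ (F ∙ v) ≤ (B).orthogonal (((F ∙ p) ⊔ F ∙ u) ⊔ F ∙ v) := by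
      simp only [sup_le_iff, Submodule.span_singleton_le_iff_mem, mem_sup_pp, mem_pp]
      simp [Bs, h2 u u1, h2 v v1, B0 (h2 u u1), B0 (h2 v v1), h3 u u1 v v1, h3 v v1 u u1]
    have a5 := Nat.mul_le_mul_left (Nat.card (((F ∙ p) ⊔ F ∙ u) ⊔ F ∙ v : Submodule F (V))) (Nat.card_le_card_of_injective _ (Submodule.inclusion_injective a4))
    rw [a3, card_sup v2, b1, hq, hV] at a5
    have a6 : (k + 1) ^ 2 ≤ ρ + 1 := by
      rw [← Nat.pow_le_pow_iff_left two_ne_zero]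
      exact Nat.le_of_mul_le_mul_left (c := (k + 1) ^ 2) (le_of_eq_of_le (by ring) a5) (by positivity)
    obtain ⟨e, he⟩ := Nat.exists_eq_add_of_le (a6.trans (Nat.le_self_pow two_ne_zero _))
    refine ⟨e, a6, he, Nat.le_of_mul_le_mul_left (c := k + 1) ?_ k.succ_pos⟩
    rw [b2, show Set.ncard (((F ∙ p) ⊔ F ∙ u : Submodule F (V)) : Set (V)) = _ from b1] at a2
    have := (Nat.mul_le_mul (card_O hq hV hp0 u) (show e ≤ _ by omega)).trans a1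
    rw [hy.2, show Set.ncard (X : Set (V)) = _ from hy.1] at this
    linarith
  · have := (card_O hq hV hp0 u).trans (orb1 (X := X) hX u1 u2)
    rw [hy.2, mul_left_comm (J.relIndex _)] at this
    exact Nat.le_of_mul_le_mul_left this k.succ_pos
  · have := AddSubgroup.card_le_of_le (show X ≤ ((F ∙ p) ⊔ F ∙ u).toAddSubgroup from h4)
    rw [hy.1, show Nat.card ((F ∙ p) ⊔ F ∙ u).toAddSubgroup = _ from b1] at this
    nlinarith
  · refine (le_or_gt _ _).imp_right fun e => ale_of_card (show X ≤ ((F ∙ p) ⊔ F ∙ u).toAddSubgroup from h4) ?_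
    rw [hy.1, show Nat.card ((F ∙ p) ⊔ F ∙ u).toAddSubgroup = _ from b1]
    nlinarith

omit hV in
theorem loc (hD : ∃ d, spTv p d ∉ H) : ∃ t, t * (Zs H p).index * ((JJ H p).relIndex (fx (F ∙ p)) *
    (aa H p).relIndex ((B).orthogonal (F ∙ p)).toAddSubgroup) ≤ H.index ∧
    (t = 1 → ∀ c : F, c ≠ 0 → ∃ h ∈ H, h • p = c • p) ∧ k + 3 ≤ 2 * (t * (Zs H p).index) ∧
      ((2 : F) = 0 → k + 1 ≤ t * (Zs H p).index ∧ (Zs H p ≠ ⊥ → k + 3 ≤ t * (Zs H p).index)) := by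
  obtain ⟨t, t1, t2⟩ := tz hp0 hD
  exact ⟨t, (le_of_eq (by ring)).trans ((Nat.mul_le_mul_left t base).trans t1), by rwa [hq] at t2⟩

theorem card_aa : Nat.card (aa H p) * (aa H p).relIndex ((B).orthogonal (F ∙ p)).toAddSubgroup = (k + 1) * (ρ + 1) ^ 2 :=
  (acard_mul (H := aa H p) fun _ a => mem_pp.2 a.1).trans (card_p hq hV hp0)

variable (hk : 2 ≤ k) (hρ : ρ = k ∨ (k + 1) ^ 2 ≤ ρ + 1) (hm : H.index * k < (k + 1) ^ 2 * (ρ + 1) ^ 2) (hD : ∃ d, spTv p d ∉ H)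
include hk hρ hm hD

theorem types : (∀ w ∈ aa H p, w ∈ F ∙ p) ∨ (∃ u, u ∉ F ∙ p ∧ B u p = 0 ∧ (ρ = k ∨ (2 : F) = 0) ∧ ∀ x, x ∈ aa H p ↔ B x p = 0 ∧ B x u = 0) ∨
    ((2 : F) = 0 ∧ ∀ x, B x p = 0 → x ∈ aa H p) := by
  obtain ⟨t, t1, -, t2, t3⟩ := loc hq hp0 hD
  obtain ⟨y, hy⟩ := card_X hq hp0 (self_aa (H := H))
  have h1 := card_aa (H := H) hq hV hp0
  rw [hy.1, mul_assoc, Nat.mul_right_inj k.succ_ne_zero] at h1
  have hρ' : k ≤ ρ := hρ.elim Eq.ge fun e => by nlinarith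
  generalize (aa H p).relIndex ((B).orthogonal (F ∙ p)).toAddSubgroup = j at *
  have h2 : ∀ r x, x ≤ j → t * (Zs H p).index * (r * j) ≤ H.index → (k + 3) * (r * x) ≤ 2 * H.index := fun r x a b =>
    (Nat.mul_le_mul t2 (Nat.mul_le_mul_left r a)).trans (by linarith)
  by_cases h3 : y ≤ ρ
  · have h4 := h2 _ (y + 1) (Nat.le_of_mul_le_mul_left (h1 ▸ sq (ρ + 1) ▸ Nat.mul_self_le_mul_self (by omega)) y.succ_pos) t1
    rcases cls hq hV hp0 (J := JJ H p) (X := aa H p) (fun _ a => a.1) (fun j _ a => JJ_aa a) hy with e | e | ⟨e, e1, e2, e3⟩ | ⟨u, u1, u2, u3, u4, u5, u6⟩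
    · exact .inl e
    · exact absurd (ar1 hk hρ' h3 e h4) hm.not_ge
    · exact absurd (ar2 hk e1 h3 e2 e3 h4) hm.not_ge
    have h5 := fun e => hm.not_ge (ar3 hk hρ' u5 e u4 (h2 _ j le_rfl t1) h1)
    obtain rfl := hρ.resolve_right fun e => h5 (.inr e)
    obtain ⟨b1, b2⟩ := card_p2 hq hV hp0 u2
    have h6 : (F ∙ p) ⊔ (F ∙ u) = (B).orthogonal ((F ∙ p) ⊔ F ∙ u) := SetLike.coe_injective (Set.eq_of_subset_of_ncard_le (fun x hx => by
      obtain ⟨a, b, rfl⟩ := mem_two.1 hx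
      exact mem_pp2.2 (by simp [Bs, u1.1, B0 u1.1])) (b2.trans b1.symm).le)
    exact .inr (.inl ⟨u, u2, u1.1, .inl rfl, fun x => by
      rw [← mem_pp2, ← h6]; exact ⟨u3 x, u6.resolve_left (fun e => h5 (.inl e)) x⟩⟩)
  have key : ∀ χ : AddChar F ℂ, (∀ a : F, (∀ c, χ (c * a) = 1) → a = 0) → ∀ X : AddSubgroup (V), (∀ a ∈ aa H p, ∀ u ∈ X, χ (B a u) = 1) →
      Nat.card (aa H p) * Nat.card X ≤ (k + 1) ^ 2 * (ρ + 1) ^ 2 := fun χ hχ X h => by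
    simpa [hV] using pair_le bb χ (aa H p) ⊥ X ⊤ le_top h fun a _ ha => spB_nondeg.1 a fun u => hχ _ fun c => by
      simpa using ha (c • u) trivial
  have h4 : (2 : F) = 0 := by_contra fun h4 => h3 (by
    obtain ⟨χ, c1, d, -, c2⟩ := exists_char (Ξ := Zs H p) (T := ⊤) fun e => hD.elim fun d h => h (e (AddSubgroup.mem_top d))
    have := key (χ.mulShift 2) (fun a ha => by_contra fun a0 => c2 (by simpa [mul_div_assoc', h4, a0, mul_assoc] using ha (d / 2 / a))) (aa H p)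
      fun a ⟨a1, c, a2⟩ u ⟨u1, d, u2⟩ => c1 _ (by
        have := sub_Zs (by simp [a1, u1]) (s_mul a1 u1 c d ▸ mul_mem a2 u2) (add_comm u a ▸ s_mul u1 a1 d c ▸ mul_mem u2 a2)
        convert this using 1; rw [Bc u a]; simp; ring)
    rw [hy.1, ← sq, ← mul_pow, Nat.pow_le_pow_iff_left two_ne_zero] at this
    exact Nat.le_of_succ_le_succ (Nat.le_of_mul_le_mul_left this k.succ_pos))
  obtain ⟨χ, hχ⟩ := exists_prim (F := F)
  let S : AddSubgroup (V) :=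
    { carrier := {u | ∀ w ∈ aa H p, χ (B w u) = 1}
      zero_mem' := by simp
      add_mem' := fun a b w hw => by simp [AddChar.map_add_eq_mul, a w hw, b w hw]
      neg_mem' := fun a w hw => by simp [AddChar.map_neg_eq_inv, a w hw] }
  have s1 : ∀ U : Submodule F (V), (∀ x ∈ S, x ∈ U) → ∀ x ∈ (B).orthogonal U, x ∈ aa H p := fun U h => by_contra fun e => by
    obtain ⟨ψ, c1, x, c2, c3⟩ := exists_char (Ξ := aa H p) (T := ((B).orthogonal U).toAddSubgroup) e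
    obtain ⟨v, hv⟩ := exists_rep bb χ (fun u h => spB_nondeg.2 u fun a => hχ _ fun c => by simpa using h (c • a)) le_rfl ψ
    exact c3 (by rw [hv]; simp [B0 (c2 v (h v fun w hw => (hv w).symm.trans (c1 w hw)))])
  obtain ⟨x, hx⟩ := card_X hq hp0 (X := S) fun c w hw => by simp [hw.1]
  have s2 := key χ hχ S fun a b u h => h a b
  rw [hy.1, hx.1, mul_mul_mul_comm, ← sq, Nat.mul_le_mul_left_iff (by positivity)] at s2
  have s3 : x + 1 ≤ j := Nat.le_of_mul_le_mul_left (h1 ▸ s2) y.succ_pos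
  have s4 : x ≤ ρ := by nlinarith
  rcases cls hq hV hp0 (J := JJ H p) (X := S) (fun u h => B0 (hχ _ fun c => by simpa using h _ (self_aa c))) (fun j _ a u h w hw => by
    rw [← smul_inv_smul j w, sp_pres]; exact h _ (JJ_aa (inv_mem a) w hw)) hx with e | e | ⟨e, e1, e2, e3⟩ | ⟨u, u1, u2, u3, u4, u5, e | e⟩
  · exact .inr (.inr ⟨h4, fun x hx => s1 _ e x (mem_pp.2 hx)⟩)
  · exact absurd (ar1 hk hρ' s4 e (h2 _ _ s3 t1)) hm.not_ge
  · exact absurd (ar2 hk e1 s4 e2 e3 (h2 _ _ s3 t1)) hm.not_ge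
  · exact absurd (ar4 hk hρ' e u4 ((Nat.mul_le_mul (t3 h4).1 (Nat.mul_le_mul_left _ s3)).trans t1)) hm.not_ge
  · exact .inr (.inl ⟨u, u2, B0 (hχ _ fun c => by simpa using u1 _ (self_aa c)), .inr h4, fun x => ⟨fun a => ⟨a.1, hχ _ fun c => by
      simpa using e (c • u) (mem_two.2 ⟨0, c, by simp⟩) x a⟩, fun a => s1 _ u3 x (mem_pp2.2 a)⟩⟩)

omit hρ in
theorem surR (h : ∀ w ∈ aa H p, w ∈ F ∙ p) : (∀ g : G, g • p = p → g ∈ JJ H p) ∧ ((2 : F) = 0 → ∀ c : F, c ≠ 0 → ∃ h ∈ H, h • p = c • p) := by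
  obtain ⟨t, t1, t2, t3, t4⟩ := loc hq hp0 hD
  have h1 := card_aa (H := H) hq hV hp0
  have h2 := (AddSubgroup.card_le_of_le (show aa H p ≤ (F ∙ p).toAddSubgroup from h)).trans_eq ((card_one hp0).trans hq)
  generalize (aa H p).relIndex ((B).orthogonal (F ∙ p)).toAddSubgroup = j at *
  have h3 : (ρ + 1) ^ 2 ≤ j := Nat.le_of_mul_le_mul_left (h1 ▸ Nat.mul_le_mul_right _ h2) k.succ_pos
  have h4 : ∀ r, r * j ≤ H.index → r < k + 3 := fun r e => by_contra fun e' => hm.not_ge <|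
    calc _ ≤ (k + 3) * k * (ρ + 1) ^ 2 := Nat.mul_le_mul_right _ (by nlinarith)
      _ = (k + 3) * (ρ + 1) ^ 2 * k := by ring
      _ ≤ _ := Nat.mul_le_mul_right _ ((Nat.mul_le_mul (not_lt.1 e') h3).trans e)
  refine ⟨fun g hg => by_contra fun e => ?_, fun e => t2 ?_⟩
  · have := h4 _ ((mul_assoc ..).trans_le t1)
    have := Nat.mul_le_mul_left (t * (Zs H p).index) (two_le_rel (mem_fx.2 hg) e)
    omega
  · have := h4 _ ((Nat.mul_le_mul_left _ (Nat.le_mul_of_pos_left _ (rel_pos _ _))).trans t1)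
    have h5 : Zs H p = ⊥ := by_contra fun e' => by have := (t4 e).2 e'; omega
    rw [h5, AddSubgroup.index_bot, hq] at this t3
    rcases t with _ | _ | t
    · omega
    · rfl
    · nlinarith

omit hρ in
theorem surU (u1 : u ∉ F ∙ p) (u2 : B u p = 0) (u3 : ρ = k ∨ (2 : F) = 0) (h : ∀ x, x ∈ aa H p ↔ B x p = 0 ∧ B x u = 0) :
    (∀ g : G, g • p = p → g • u ∈ (F ∙ p) ⊔ (F ∙ u) → g ∈ JJ H p) ∧ (ρ = k → (2 : F) = 0 → Zs H p = ⊥) := by
  obtain ⟨t, t1, -, t3, t4⟩ := loc hq hp0 hD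
  have h1 := card_aa (H := H) hq hV hp0
  obtain ⟨b1, b2⟩ := card_p2 hq hV hp0 u1
  have h2 := (AddSubgroup.card_le_of_le (show aa H p ≤ ((B).orthogonal ((F ∙ p) ⊔ F ∙ u)).toAddSubgroup from
    fun x a => mem_pp2.2 ((h x).1 a))).trans_eq b2
  generalize (aa H p).relIndex ((B).orthogonal (F ∙ p)).toAddSubgroup = j at *
  have h3 : k + 1 ≤ j := Nat.le_of_mul_le_mul_left ((mul_comm _ _).trans_le (h1 ▸ Nat.mul_le_mul_right _ h2)) (by positivity)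
  obtain ⟨y, y1, y2⟩ := card_X hq hp0 (X := ((F ∙ p) ⊔ F ∙ u).toAddSubgroup) fun c => mem_two.2 ⟨c, 0, by simp⟩
  obtain rfl : k = y := by simpa [sq] using b1.symm.trans y1
  have h4 := (card_O hq hV hp0 u).trans (orb1 (J := stb (((F ∙ p) ⊔ F ∙ u : Submodule F (V)) : Set (V))) (fun j _ a => a)
    (mem_two.2 ⟨0, 1, by simp⟩) u1)
  have h5 := chain (H := JJ H p) (J := stb (((F ∙ p) ⊔ F ∙ u : Submodule F (V)) : Set (V))) (K := fx (F ∙ p)) (fun g hg y hy => by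
    rw [← LinearMap.BilinForm.orthogonal_orthogonal spB_nondeg spB_alt.isRefl ((F ∙ p) ⊔ F ∙ u)]
    intro x hx
    have := mem_pp2.2 ((h _).1 (JJ_aa (inv_mem hg.1) x ((h x).2 (mem_pp2.1 hx)))) y hy
    rw [← sp_pres g, smul_inv_smul] at this
    exact B0 this) le_rfl
  rw [Submodule.coe_toAddSubgroup] at y2
  rw [y2, mul_left_comm (relIndex _ _), Nat.mul_le_mul_left_iff k.succ_pos] at h4
  generalize (stb (((F ∙ p) ⊔ F ∙ u : Submodule F (V)) : Set (V))).relIndex (fx (F ∙ p)) = r at h4 h5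
  have h6 : ∀ c, c * (r * j) ≤ H.index → (ρ = k → c < k + 3) ∧ c < 2 * (k + 1) := fun c e => by
    have e' : c * ((k + 1) * (ρ * (ρ + 2))) < (k + 1) ^ 2 * (ρ + 1) ^ 2 :=
      calc _ ≤ c * (j * (r * k)) := by gcongr
        _ = c * (r * j) * k := by ring
        _ ≤ _ := Nat.mul_le_mul_right _ e
        _ < _ := hm
    refine ⟨fun e => lt_of_not_ge fun e1 => e'.not_ge (le_trans ?_ (Nat.mul_le_mul_right _ e1)),
      lt_of_not_ge fun e1 => e'.not_ge (le_trans ?_ (Nat.mul_le_mul_right _ e1))⟩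
    · subst e; nlinarith [Nat.mul_le_mul hk hk, Nat.zero_le (ρ ^ 3)]
    · rcases ρ with _ | ρ
      · have := Nat.card_le_card_of_injective _ (Submodule.inclusion_injective (show (F ∙ p) ≤ (B).orthogonal ((F ∙ p) ⊔ F ∙ u) from
          (Submodule.span_singleton_le_iff_mem _ _).2 (mem_pp2.2 ⟨Bs p, B0 u2⟩)))
        rw [card_one hp0, hq, b2] at this; omega
      nlinarith [Nat.zero_le (k ^ 2 * ρ ^ 2), Nat.zero_le (k ^ 2 * ρ), Nat.zero_le (k * ρ ^ 2), Nat.zero_le (k * ρ)]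
  refine ⟨fun g g1 g2 => by_contra fun e => ?_, fun e e' => by_contra fun e1 => ?_⟩
  · have := Nat.mul_le_mul_left r (two_le_rel (K := stb (((F ∙ p) ⊔ F ∙ u : Submodule F (V)) : Set (V)) ⊓ fx (F ∙ p)) ⟨fun y hy => by
      obtain ⟨a, b, rfl⟩ := mem_two.1 hy
      rw [smul_add, smul_comm g, smul_comm g, g1]
      exact add_mem (mem_two.2 ⟨a, 0, by simp⟩) (Submodule.smul_mem _ _ g2), mem_fx.2 g1⟩ e)
    have := h6 (2 * (t * (Zs H p).index)) (le_trans (le_of_eq (by ring)) ((Nat.mul_le_mul_left _ (Nat.mul_le_mul_right j (this.trans h5))).trans t1))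
    rcases u3 with e | e
    · have := this.1 e; omega
    · have := (t4 e).1; omega
  · have := (h6 _ ((Nat.mul_le_mul_left _ (Nat.mul_le_mul_right j ((Nat.le_mul_of_pos_right _ (rel_pos _ _)).trans h5))).trans t1)).1 e
    have := (t4 e').2 e1
    omega

end H24.SpQ
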