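import Cfsg.Agent.H24.SpB

/-!
# Minimal index of `Sp_{2m}(q)`, `q ≥ 3`: the global argument (namespace `H24.SpQ`)

The centres of the full transvection groups in a subgroup of small index form an invariant subspace.
-/

set_option autoImplicit false
set_option linter.unusedSectionVars false

open Subgroup H09 Module
open Matrix (symplecticGroup)

namespace H24.SpQ

open MD

variable {l F : Type*} [Fintype l] [DecidableEq l] [Field F] [Finite F]

local notation "V" => l ⊕ l → F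
local notation "B" => spB l F
local notation "G" => symplecticGroup l F

variable {H : Subgroup (symplecticGroup l F)} {p x y z u v w : l ⊕ l → F} {a c d : F} {U : Submodule F (l ⊕ l → F)}

theorem ex_ne {n : ℕ} (h : n < Nat.card F) (T : Finset F) (hT : T.card ≤ n) : ∃ c, c ∉ T := by
  obtain ⟨c, -, hc⟩ := Set.exists_mem_notMem_of_ncard_lt_ncard (s := (T : Set F)) (t := Set.univ) (by rw [Set.ncard_univ, Set.ncard_coe_finset]; omega)
  exact ⟨c, hc⟩

theorem ex_ne2 (h : 2 < Nat.card F) (a b : F) : ∃ c, c ≠ a ∧ c ≠ b := by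
  classical simpa using ex_ne h {a, b} Finset.card_le_two

theorem ex_sq (h : 3 < Nat.card F) : ∃ c : F, c ≠ 0 ∧ c ≠ 1 ∧ c ^ 2 ≠ 1 := by
  classical
  obtain ⟨c, hc⟩ := ex_ne h {0, 1, -1} Finset.card_le_three
  simp only [Finset.mem_insert, Finset.mem_singleton, not_or] at hc
  exact ⟨c, hc.1, hc.2.1, by simp [hc]⟩

theorem all_of (h : 2 < Nat.card F) {Z : AddSubgroup F} (hZ : ∀ b, b ≠ 0 → d + b ∈ Z) (c : F) : c ∈ Z := by
  obtain ⟨b, b1, b2⟩ := ex_ne2 h 0 (-c)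
  simpa using sub_mem (hZ (b + c) fun e => b2 (eq_neg_of_add_eq_zero_left e)) (hZ b b1)

variable (H) in
/-- Centres of full transvection groups. -/
def Dp (v : V) : Prop := ∀ c, spTv v c ∈ H

theorem Dp.map (h : Dp H v) {g : G} (hg : g ∈ H) : Dp H (g • v) := fun c => spTv_conj g v c ▸ conj_mem hg (h c)

theorem Dp.smul (h : Dp H v) (c : F) : Dp H (c • v) := fun d => (spTv_smul_left c v d).symm ▸ h _

theorem Dp.zero : Dp H (0 : V) := fun c => by rw [spTv_zero_left]; exact one_mem H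

theorem Dp.add_smul (hx : Dp H x) (hy : Dp H y) (h : B x y ≠ 0) (c : F) : Dp H (x + c • y) := by
  simpa [spTv_smul, h] using hx.map (hy (c / B x y))

theorem kill (hc : c ^ 2 ≠ 1) (h : ∀ a, ∃ d, spTv x a * spTv p d ∈ H ∧ spTv (c • x) a * spTv p d ∈ H) : Dp H x := fun a => by
  obtain ⟨d, h1, h2⟩ := h (a / (c ^ 2 - 1))
  have := mul_mem h2 (inv_mem h1)
  rw [mul_inv_rev, mul_assoc, mul_inv_cancel_left, spTv_smul_left, spTv_inv, ← spTv_add] at this
  convert this using 2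
  field_simp [sub_ne_zero.2 hc]; ring

theorem JJ_ex {g : G} (hg : g ∈ JJ H p) : ∃ h ∈ H, h • p = p ∧ ∀ x, B x p = 0 → ∃ c : F, h • x = g • x + c • p :=
  let ⟨g1, w, d, g2, g3⟩ := hg
  ⟨_, g3, by rw [mul_smul, s_fix g2, g1], fun x hx => ⟨B x w, by simp [mul_smul, s_app g2, hx, smul_comm g, g1]⟩⟩

theorem ex_B (hx : x ∉ U) (c : F) : ∃ w ∈ (B).orthogonal U, B x w = c := by
  obtain ⟨y, y1, y2⟩ := exists_orth_ne_zero (spB_nondeg (l := l) (F := F)) spB_alt.isRefl hx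
  exact ⟨(c / B x y) • y, Submodule.smul_mem _ _ y1, by simp [y2]⟩

theorem ex_out {W : Submodule F (V)} (h : Nat.card U < Nat.card W) : ∃ y ∈ W, y ∉ U :=
  Set.exists_mem_notMem_of_ncard_lt_ncard (s := (U : Set (V))) (t := (W : Set (V))) h

theorem s_split (h : B w p = 0) (d : F) : s p w d = s p w 0 * spTv p d := by
  rw [← s_zero, s_mul h (by simp)]; simp

theorem noF (h2 : (2 : F) = 0) (hq : 2 < Nat.card F) (hp0 : p ≠ 0) (hD : ¬ Dp H p) (hF : ∀ x, B x p = 0 → x ∈ aa H p)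
    (hw : w ∈ (B).orthogonal (F ∙ p)) (hw' : w ∉ F ∙ p)
    (hA : (∀ u, Dp H u → u = 0) → ∀ z, z ≠ 0 → ∀ x, B x z = 0 → x ∈ aa H z) : False := by
  have h1 : ∀ {p x : V} {a d : F}, (∀ x, B x p = 0 → x ∈ aa H p) → B x p = 0 → x ∉ F ∙ p → spTv x a * spTv p d ∈ H → a ≠ 0 →
      ∀ e, s p (e • x) (e * e / a) ∈ H := fun {p x a d} hF x1 x2 h a0 e => by
    obtain ⟨w, w1, w2⟩ := ex_B x2 (e / a)
    obtain ⟨w3, c, hc⟩ := hF w (mem_pp.1 w1)
    have := conj_mem hc h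
    rw [← conj_mul, spTv_conj, spTv_conj, s_fix w3, s_app w3, w2, x1, ← one_smul F x] at this
    simp only [zero_smul, mul_zero, add_zero, tv_split x1, mul_one] at this
    have := mul_mem (inv_mem h) this
    rw [mul_inv_rev, mul_assoc (spTv x a), mul_assoc, inv_mul_cancel_left, ← mul_assoc] at this
    nth_rw 2 [← inv_inv (spTv p d)] at this
    rw [s_conj, spTv_inv] at this
    convert this using 2
    · simp [spTv_smul, Bs]
    · simp [spTv_smul, x1, mul_div_cancel₀, a0]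
    · field_simp
  obtain ⟨w, d, w1, w2, d0, w3⟩ : ∃ w d, B w p = 0 ∧ w ∉ F ∙ p ∧ d ≠ 0 ∧ s p w d ∈ H := by
    obtain ⟨u, u1, u2⟩ := ex_B hw' 1
    obtain ⟨a1, c, hc⟩ := hF w (mem_pp.1 hw)
    obtain ⟨a2, d, hd⟩ := hF u (mem_pp.1 u1)
    by_cases c0 : c = 0
    · by_cases d0 : d = 0
      · exact ⟨u + w, _, by simp [a1, a2], fun e => by simpa [Bs, u2] using B0 (hw _ e), by simp [c0, d0, u2], s_mul a2 a1 d c ▸ mul_mem hd hc⟩
      · exact ⟨u, d, a2, fun e => by simpa [u2] using B0 (hw _ e), d0, hd⟩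
    · exact ⟨w, c, a1, hw', c0, hc⟩
  have h3 : ∀ x, B x p = 0 → Dp H x → x = 0 := fun x x1 x2 => by
    by_cases e : x ∈ F ∙ p
    · obtain ⟨c, rfl⟩ := Submodule.mem_span_singleton.1 e
      exact by_contra fun e => hD (by simpa [left_ne_zero_of_smul e] using x2.smul c⁻¹)
    have : ∀ b : F, b ≠ 0 → s p x b ∈ H := fun b hb => by
      simpa using h1 hF x1 e (d := 0) (by simpa [spTv_zero] using x2 b⁻¹) (inv_ne_zero hb) 1
    exact absurd (all_of hq (d := -1) (Z := Zs H p) fun b hb => neg_add_eq_sub 1 b ▸ sub_Zs x1 (this 1 one_ne_zero) (this b hb)) hD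
  have h4 : ∀ u, Dp H u → u = 0 := fun u hu => h3 u (by_contra fun e => w2 <| by
    have := h3 _ (by simp [s_app w1, Bs, w1]) ((hu.map w3).add_smul hu (by
      rw [s_app w1]
      simp only [map_add, map_smul, LinearMap.add_apply, LinearMap.smul_apply, Bs, smul_eq_mul, Bc p u, Bc w u]
      exact fun e' => mul_ne_zero d0 (mul_ne_zero e e) (by linear_combination -e' - B u p * B u w * h2)) (-1))
    rw [s_app w1] at this
    exact (Submodule.smul_mem_iff _ e).1 (Submodule.mem_span_singleton.2 ⟨-(B u w + d * B u p), by linear_combination (norm := module) -this⟩)) hu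
  replace hA := hA h4
  have h5 : ∀ {p x : V} {a d a' d' : F}, p ≠ 0 → B x p = 0 → x ∉ F ∙ p → spTv x a * spTv p d ∈ H → spTv x a' * spTv p d' ∈ H → a ≠ 0 → a' ≠ 0 →
      a = a' := fun {p x a d a' d'} p0 x1 x2 b1 b2 a0 a0' => by_contra fun e => p0 <| h4 p fun c => by
    have e' : a' - a ≠ 0 := sub_ne_zero.2 (Ne.symm e)
    obtain ⟨e, he⟩ := sqrt2 h2 (c * (a * a') / (a' - a))
    have := sub_Zs (by simp [x1]) (h1 (hA p p0) x1 x2 b2 a0' e) (h1 (hA p p0) x1 x2 b1 a0 e)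
    rw [he] at this
    convert mem_Zs.1 this using 2
    field_simp
  have h6 : ∀ {p x : V} {e d : F}, x ≠ 0 → B x p = 0 → s p (e • x) d ∈ H → ∃ g, spTv p d * spTv x g ∈ H := fun {p x e d} x0 x1 h => by
    obtain ⟨a1, g, hg⟩ := hA x x0 (e • p) (by simp [B0 x1])
    have := mul_mem (inv_mem hg) h
    rw [s_swap x1, s_split a1, mul_inv_rev, mul_assoc, inv_mul_cancel_left, spTv_inv] at this
    refine ⟨-g, ?_⟩
    convert this using 1
    exact sp_ext fun v => by simp [mul_smul, spTv_smul, x1, B0 x1]; module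
  have w0 : w ≠ 0 := fun e => w2 (e ▸ zero_mem _)
  have w4 : p ∉ F ∙ w := fun e => by
    obtain ⟨c, rfl⟩ := Submodule.mem_span_singleton.1 e
    exact w2 (Submodule.mem_span_singleton.2 ⟨c⁻¹, by simp [left_ne_zero_of_smul hp0]⟩)
  obtain ⟨g, hg⟩ := h6 (e := 1) w0 w1 (by simpa)
  obtain ⟨μ, m0, m1⟩ := ex_ne2 hq 0 1
  obtain ⟨g1, a1⟩ := h6 hp0 (B0 w1) (h1 (hA w w0) (B0 w1) w4 hg d0 1)
  obtain ⟨g2, a2⟩ := h6 hp0 (B0 w1) (h1 (hA w w0) (B0 w1) w4 hg d0 μ)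
  have := h5 hp0 w1 w2 a1 a2 (by simpa) (by simp [m0, d0])
  rw [div_left_inj' d0] at this
  exact m1 (sub_eq_zero.1 (mul_self_eq_zero.1 (by linear_combination -this + (1 - μ) * h2)))

variable {k ρ : ℕ} (hq : Nat.card F = k + 1) (hV : Nat.card (l ⊕ l → F) = (k + 1) ^ 2 * (ρ + 1) ^ 2) (hp0 : p ≠ 0)
  (hk : 2 ≤ k) (hρ : ρ = k ∧ 3 ≤ k ∨ (k + 1) ^ 2 ≤ ρ + 1) (hm : H.index * k < (k + 1) ^ 2 * (ρ + 1) ^ 2) (hD : ¬ Dp H p)
include hq hV hp0 hk hρ hm hD

theorem R_lift (hZ : -1 ∈ H) (h : ∀ w ∈ aa H p, w ∈ F ∙ p) (hx : B x p = 0) : ∃ β : F, Dp H (x + β • p) := by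
  obtain ⟨r1, r2⟩ := surR hq hV hp0 hk hm (not_forall.1 hD) h
  obtain ⟨μ, m0, m1, h0, h1, h2⟩ : ∃ μ : F, μ ≠ 0 ∧ μ ≠ 1 ∧ ∃ h ∈ H, h • p = μ • p := by
    by_cases e : (2 : F) = 0
    · obtain ⟨μ, m0, m1⟩ := ex_ne2 (F := F) (by omega) 0 1
      exact ⟨μ, m0, m1, r2 e μ m0⟩
    · exact ⟨-1, by simp, fun e' => e (by linear_combination -e'), -1, hZ, by simp [sp_neg_one_smul]⟩
  obtain ⟨f, hf⟩ := exists_form_eq_one (spB_nondeg (l := l) (F := F)) hp0
  obtain ⟨g, g1, g2⟩ := (spAct_sp (l := l) (F := F)).witt_step (U := (B).orthogonal ((F ∙ p) ⊔ F ∙ f)) (v := p) (w := μ • p)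
    (by rw [mem_pp2]; simp [hf]) (by rw [mem_pp2]; simp [hf, m0]) fun u hu => by simp [(mem_pp2.1 hu).1]
  obtain ⟨j, j1, j2, j3⟩ := JJ_ex (r1 (h0⁻¹ * g) (by rw [mul_smul, g1, ← h2, inv_smul_smul]))
  have a1 : (h0 * j) • p = μ • p := by rw [mul_smul, j2, h2]
  have a2 : ∀ x, B x p = 0 → ∃ β : F, (h0 * j) • (x + β • p) = x + β • p := fun x hx => by
    obtain ⟨c, hc⟩ := j3 x hx
    have := g2 (x - B x f • p) (by rw [mem_pp2]; simp [hf, hx, Bs])
    rw [smul_sub, smul_comm g, g1, sub_eq_iff_eq_add] at this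
    refine ⟨(c * μ + (μ - 1) * B x f) / (1 - μ), ?_⟩
    rw [smul_add, smul_comm (h0 * j), a1, mul_smul, hc, smul_add, mul_smul, smul_inv_smul, smul_comm h0, h2, this]
    match_scalars
    · rfl
    · field_simp [sub_ne_zero.2 m1.symm]; ring
  have a3 := mul_mem h1 j1
  generalize h0 * j = η at a1 a2 a3
  have a4 : ∀ x, η • x = x → x ∈ F ∙ p → x = 0 := fun x e e' => by
    obtain ⟨c, rfl⟩ := Submodule.mem_span_singleton.1 e'
    rw [smul_comm, a1, ← sub_eq_zero, smul_comm, ← one_smul F (c • p), smul_smul, ← sub_smul, mul_one] at e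
    exact (smul_eq_zero.1 e).resolve_left (sub_ne_zero.2 m1)
  have a5 : ∀ x a, B x p = 0 → η • x = x → ∃ d, spTv x a * spTv p d ∈ H := fun x a x1 x2 => by
    obtain ⟨-, w, d, w1, w2⟩ := r1 (spTv x a) (by simp [spTv_smul, B0 x1])
    obtain ⟨β, hβ⟩ := a2 w w1
    have w3 : B (w + β • p) p = 0 := by simp [w1, Bs]
    rw [← sub_add_cancel d (2 * β), ← s_shift w1] at w2
    generalize w + β • p = w at *
    have := mul_mem (inv_mem w2) (conj_mem a3 w2)
    rw [← conj_mul, spTv_conj, s_conj, x2, a1, hβ, s_smul w3, mul_inv_rev, mul_assoc, inv_mul_cancel_left, s_div w3 (by simp [w3])] at this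
    have := h _ ⟨by simp [w3], _, this⟩
    rw [show -w + μ • w = (μ - 1) • w by module, Submodule.smul_mem_iff _ (sub_ne_zero.2 m1)] at this
    exact ⟨_, by rwa [a4 w hβ this, s_zero] at w2⟩
  have a6 : ∀ x y a d, B x p = 0 → η • x = x → x ≠ 0 → B y p = 0 → η • y = y → y ≠ 0 → spTv x a * spTv p d ∈ H →
      spTv y a * spTv p d ∈ H := fun x y a d x1 x2 x3 y1 y2 y3 e => by
    obtain ⟨g, g1, g2⟩ := reach (U := F ∙ p) (mt (a4 x x2) x3) (y := y) ⟨mt (a4 y y2) y3, fun u hu => by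
      rw [mem_pp.2 x1 u hu, mem_pp.2 y1 u hu]⟩
    obtain ⟨j, j1, j2, j3⟩ := JJ_ex (r1 g (mem_fx.1 g1))
    obtain ⟨c, hc⟩ := j3 x x1
    obtain ⟨d', hd⟩ := a5 y a y1 y2
    have := conj_mem j1 e
    rw [← conj_mul, spTv_conj, spTv_conj, j2, hc, g2, ← one_smul F y, tv_split y1, mul_one, mul_one] at this
    have b1 := mul_mem (inv_mem hd) this
    rw [mul_inv_rev, mul_assoc (spTv y a), mul_assoc, inv_mul_cancel_left, ← s_zero, ← s_zero, s_mul (by simp [y1]) (by simp),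
      s_div (by simp) (by simp [y1])] at b1
    have b2 : a * c = 0 := by_contra fun e => y3 (a4 y y2 (by simpa [Submodule.smul_mem_iff _ e] using h _ ⟨by simp [y1], _, b1⟩))
    simpa [b2, s_zero, spTv_zero] using this
  obtain ⟨β, hβ⟩ := a2 x hx
  refine ⟨β, ?_⟩
  have x1 : B (x + β • p) p = 0 := by simp [hx, Bs]
  generalize x + β • p = x at *
  by_cases x0 : x = 0
  · exact x0 ▸ Dp.zero
  by_cases h3 : 3 ≤ k
  · obtain ⟨c, c0, -, c1⟩ := ex_sq (F := F) (by omega)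
    exact kill c1 fun a => (a5 x a x1 hβ).imp fun d e => ⟨e, a6 _ _ _ _ x1 hβ x0 (by simp [x1]) (by rw [smul_comm, hβ]) (smul_ne_zero c0 x0) e⟩
  obtain rfl : k = 2 := by omega
  obtain ⟨b1, b2⟩ := card_p2 hq hV hp0 (mt (a4 x hβ) x0)
  obtain ⟨y, y1, y2⟩ := ex_out (b1.trans_lt (lt_of_lt_of_eq (by have := hρ.resolve_left (by omega); nlinarith) b2.symm))
  obtain ⟨y3, y4⟩ := mem_pp2.1 y1
  obtain ⟨γ, hγ⟩ := a2 y y3
  have y5 : ∀ c : F, c • x + (y + γ • p) ≠ 0 := fun c e => y2 (mem_two.2 ⟨-γ, -c, by linear_combination (norm := module) -e⟩)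
  have y6 : B (y + γ • p) p = 0 := by simp [y3, Bs]
  have y7 : B (y + γ • p) x = 0 := by simp [y4, B0 x1]
  generalize y + γ • p = y at *
  intro a
  obtain ⟨d, hd⟩ := a5 x a x1 hβ
  have key := fun c : F => a6 x (c • x + y) a d x1 hβ x0 (by simp [x1, y6]) (by rw [smul_add, smul_comm, hβ, hγ]) (y5 c) hd
  have h4 : (3 : F) = 0 := by
    have := Fintype.ofFinite F
    simpa [← Nat.card_eq_fintype_card, hq] using FiniteField.cast_card_eq_zero F
  convert inv_mem (mul_mem (mul_mem (key 0) (key 1)) (key (-1))) using 1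
  refine eq_inv_of_mul_eq_one_left (sp_ext fun v => ?_)
  simp only [mul_smul, spTv_smul, map_add, map_smul, LinearMap.add_apply, LinearMap.smul_apply, Bs, smul_eq_mul, x1, B0 x1, y6, B0 y6, y7, B0 y7,
    one_smul, mul_zero, add_zero]
  linear_combination (norm := module) h4 • ((a * B v x) • x + (a * B v y) • y + (d * B v p) • p)

omit hρ in
theorem U_hyp (h2 : (2 : F) = 0) (h3 : (k + 1) ^ 2 ≤ ρ + 1) (u1 : u ∉ F ∙ p) (u2 : B u p = 0) (h : ∀ x, x ∈ aa H p ↔ B x p = 0 ∧ B x u = 0) : False := by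
  have r1 := (surU hq hV hp0 hk hm (not_forall.1 hD) u1 u2 (.inr h2) h).1
  obtain ⟨b1, b2⟩ := card_p2 hq hV hp0 u1
  obtain ⟨y, y1, y2⟩ := ex_out (b1.trans_lt (lt_of_lt_of_eq (by nlinarith) b2.symm))
  obtain ⟨y3, d, hd⟩ := (h y).2 (mem_pp2.1 y1)
  have key : ∀ z ∈ (B).orthogonal ((F ∙ p) ⊔ F ∙ u), z ∉ (F ∙ p) ⊔ (F ∙ u) → s p z d ∈ H := fun z z1 z2 => by
    obtain ⟨g, g1, g2⟩ := reach y2 (y := z) ⟨z2, fun w hw => (y1 w hw).trans (z1 w hw).symm⟩
    obtain ⟨j, j1, j2, j3⟩ := JJ_ex (r1 g (g1 p (mem_two.2 ⟨1, 0, by simp⟩)) (by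
      rw [g1 u (mem_two.2 ⟨0, 1, by simp⟩)]; exact mem_two.2 ⟨0, 1, by simp⟩))
    obtain ⟨c, hc⟩ := j3 y y3
    simpa [s_conj, j2, hc, g2, s_shift (mem_pp2.1 z1).1, h2] using conj_mem j1 hd
  refine hD (all_of (by omega) (d := d) (Z := Zs H p) fun b hb => ?_)
  obtain ⟨z, z1, z2⟩ := ex_B y2 b
  have z3 := (mem_pp2.1 z1).1
  have := sub_Zs (by simp [z3, y3]) (key _ (add_mem z1 y1) fun e => hb (by simpa [Bs, z2] using B0 (y1 _ e)))
    (s_mul z3 y3 d d ▸ mul_mem (key z z1 fun e => hb (z2 ▸ B0 (y1 _ e))) hd)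
  rwa [z2, add_assoc, add_sub_cancel_left] at this

omit hρ in
theorem U_line (h3 : ρ = k) (h4 : 3 ≤ k) (u1 : u ∉ F ∙ p) (u2 : B u p = 0) (h : ∀ x, x ∈ aa H p ↔ B x p = 0 ∧ B x u = 0) :
    ∃ u, u ≠ 0 ∧ B u p = 0 ∧ Dp H u ∧ (∀ c : F, s p (c • u) 0 ∈ H) ∧ ∀ x ∈ aa H p, x ∈ (F ∙ p) ⊔ F ∙ u := by
  obtain ⟨r1, r2⟩ := surU hq hV hp0 hk hm (not_forall.1 hD) u1 u2 (.inl h3) h
  obtain ⟨c, c0, c1, c2⟩ := ex_sq (F := F) (by omega)
  obtain ⟨g, g1, g2⟩ := reach u1 (y := c • u) ⟨(Submodule.smul_mem_iff _ c0).not.2 u1, fun w hw => by simp [show B w u = 0 from mem_pp.2 u2 w hw]⟩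
  obtain ⟨γ, j1, j2, j3⟩ := JJ_ex (r1 g (mem_fx.1 g1) (mem_two.2 ⟨0, c, by simp [g2]⟩))
  obtain ⟨e, he⟩ := j3 u u2
  obtain ⟨v, β, rfl, v1⟩ : ∃ v, ∃ β : F, u = v + β • p ∧ γ • v = c • v := ⟨u + (e / (c - 1)) • p, -(e / (c - 1)), by simp, by
    rw [smul_add, smul_comm γ, he, j2, g2]
    match_scalars
    · ring
    · field_simp [sub_ne_zero.2 c1]; ring⟩
  have v2 : B v p = 0 := by simpa [Bs] using u2
  have v3 : v ∉ F ∙ p := fun e => u1 (add_mem e (mem_sp p β))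
  replace h : ∀ x, x ∈ aa H p ↔ B x p = 0 ∧ B x v = 0 := fun x => (h x).trans (and_congr_right fun e => by simp [e])
  obtain ⟨b1, b2⟩ := card_p2 hq hV hp0 v3
  have h6 : (F ∙ p) ⊔ (F ∙ v) = (B).orthogonal ((F ∙ p) ⊔ F ∙ v) := SetLike.coe_injective (Set.eq_of_subset_of_ncard_le (fun x hx => by
    obtain ⟨a, b, rfl⟩ := mem_two.1 hx
    exact mem_pp2.2 (by simp [Bs, v2, B0 v2])) (b2.trans (h3 ▸ b1.symm)).le)
  have a1 : ∀ a : F, s p (a • v) 0 ∈ H := fun a => by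
    obtain ⟨a2, d, hd⟩ := (h ((a / (c - 1)) • v)).2 (by simp [v2, Bs])
    have := mul_mem (inv_mem hd) (conj_mem j1 hd)
    rw [s_conj, j2, smul_comm γ, v1, s_div a2 (by simp [v2])] at this
    convert this using 2
    · match_scalars; field_simp [sub_ne_zero.2 c1]; ring
    · simp [Bs]
  refine ⟨v, fun e => v3 (e ▸ zero_mem _), v2, kill (p := p) c2 fun a => ?_, a1, fun x hx => h6 ▸ mem_pp2.2 ((h x).1 hx)⟩
  suffices ∃ d, spTv v a * spTv p d ∈ H from this.imp fun d e => ⟨e, by simpa [← conj_mul, spTv_conj, j2, v1] using conj_mem j1 e⟩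
  by_cases a0 : a = 0
  · exact ⟨0, by simp [a0, spTv_zero]⟩
  obtain ⟨t1, w, d, w1, w2⟩ := r1 (spTv v a) (by simp [spTv_smul, B0 v2]) (mem_two.2 ⟨0, 1, by simp [spTv_smul, B0 v2, Bs]⟩)
  have a2 : B w v = 0 := by_contra fun e => by
    by_cases h2 : (2 : F) = 0
    · have := mul_mem w2 w2
      rw [← mul_assoc] at this
      nth_rw 2 [show spTv v a = (spTv v a)⁻¹ by rw [spTv_inv, neg_eq_of_add_eq_zero_left (by linear_combination a * h2)]] at this
      rw [s_conj, t1, spTv_smul, s_mul (by simp [w1, v2]) w1, show w + (a * B w v) • v + w = (a * B w v) • v by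
        linear_combination (norm := module) h2 • w] at this
      have := sub_Zs (by simp [v2]) (a1 _) this
      rw [r2 h3 h2, AddSubgroup.mem_bot] at this
      simp only [map_add, map_smul, Bs, smul_eq_mul] at this
      exact mul_ne_zero a0 (mul_ne_zero e e) (by linear_combination this - d * h2)
    · refine hD fun b => ?_
      have := conj_mem w2 (a1 (-b / (2 * B w v)))
      rw [s_conj, mul_smul, mul_smul, s_fix w1, t1, s_app w1] at this
      simp only [map_smul, LinearMap.smul_apply, v2, smul_zero, zero_smul, add_zero, mul_zero, spTv_smul, map_add, LinearMap.add_apply, Bs, B0 v2,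
        s_shift (show B ((-b / (2 * B w v)) • v) p = 0 by simp [v2])] at this
      convert mem_Zs.1 (sub_Zs (by simp [v2]) (a1 _) this) using 2
      rw [Bc v w, smul_eq_mul]; field_simp; ring
  obtain ⟨b, e, rfl⟩ := mem_two.1 (h6.ge (mem_pp2.2 ⟨w1, a2⟩))
  have := mul_mem w2 (inv_mem (a1 e))
  rw [add_comm, s_shift (by simp [v2]), s_inv (by simp [v2]), mul_assoc, s_mul (by simp [v2]) (by simp [v2]), add_neg_cancel, s_zero] at this
  exact ⟨_, this⟩

omit hp0 hD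
variable (hZ : -1 ∈ H)
include hZ

theorem types2 (hp0 : p ≠ 0) (hD : ¬ Dp H p) : ((∀ w ∈ aa H p, w ∈ F ∙ p) ∧ ∀ x, B x p = 0 → ∃ β : F, Dp H (x + β • p)) ∨
    (ρ = k ∧ ∃ u, u ≠ 0 ∧ B u p = 0 ∧ Dp H u ∧ (∀ c : F, s p (c • u) 0 ∈ H) ∧ ∀ x ∈ aa H p, x ∈ (F ∙ p) ⊔ F ∙ u) := by
  have key : ∀ p : V, p ≠ 0 → ¬ Dp H p → ((∀ w ∈ aa H p, w ∈ F ∙ p) ∧ ∀ x, B x p = 0 → ∃ β : F, Dp H (x + β • p)) ∨
      (ρ = k ∧ ∃ u, u ≠ 0 ∧ B u p = 0 ∧ Dp H u ∧ (∀ c : F, s p (c • u) 0 ∈ H) ∧ ∀ x ∈ aa H p, x ∈ (F ∙ p) ⊔ F ∙ u) ∨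
      ((2 : F) = 0 ∧ ∀ x, B x p = 0 → x ∈ aa H p) := fun p p0 hD => by
    refine (types hq hV p0 hk (hρ.imp_left And.left) hm (not_forall.1 hD)).imp (fun h => ⟨h, fun x => R_lift hq hV p0 hk hρ hm hD hZ h⟩)
      (Or.imp_left fun ⟨u, u1, u2, u3, u4⟩ => ?_)
    rcases hρ with e | e
    · exact ⟨e.1, U_line hq hV p0 hk hm hD e.1 e.2 u1 u2 u4⟩
    · exact (U_hyp hq hV p0 hk hm hD (u3.resolve_left fun e' => by nlinarith) e u1 u2 u4).elim
  have ex : ∀ p : V, p ≠ 0 → ∃ w ∈ (B).orthogonal (F ∙ p), w ∉ F ∙ p := fun p p0 => ex_out (by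
    have : k ≤ ρ := hρ.elim (·.1.ge) fun e => by nlinarith
    rw [card_one p0, card_p hq hV p0, hq]; nlinarith [Nat.mul_le_mul this this])
  refine (key p hp0 hD).imp_right fun h => h.resolve_right fun ⟨h1, h2⟩ => ?_
  obtain ⟨w, w1, w2⟩ := ex p hp0
  refine noF h1 (by omega) hp0 hD h2 w1 w2 fun h z z0 => ?_
  rcases key z z0 fun e => z0 (h z e) with ⟨-, e⟩ | ⟨-, u, u1, -, u2, -⟩ | e
  · obtain ⟨w, w1, w2⟩ := ex z z0
    obtain ⟨β, hβ⟩ := e w (mem_pp.1 w1)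
    exact (w2 (eq_neg_of_add_eq_zero_left (h _ hβ) ▸ neg_mem (mem_sp z β))).elim
  · exact (u1 (h u u2)).elim
  · exact e.2

theorem D_add (hx : Dp H x) (hy : Dp H y) : Dp H (x + y) := by
  by_cases h0 : B x y = 0
  swap
  · simpa using hx.add_smul hy h0 1
  by_contra hD
  obtain ⟨r, rfl⟩ : ∃ r, y = (-1 : F) • x + (1 : F) • r := ⟨x + y, by simp⟩
  rw [show x + ((-1 : F) • x + (1 : F) • r) = r by module] at hD
  have r0 : r ≠ 0 := fun e => hD (e ▸ Dp.zero)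
  have h1 : B x r = 0 := by simpa [Bs] using h0
  have h2 : x ∈ aa H r := by
    have := mul_mem (inv_mem (hx (-1 * -1 * -1))) (hy (-1))
    rw [tv_split h1, inv_mul_cancel_left] at this
    exact ⟨h1, _, by simpa using this⟩
  have h3 : x ∉ F ∙ r := fun e => by
    obtain ⟨c, rfl⟩ := Submodule.mem_span_singleton.1 e
    by_cases c0 : c = 0
    · exact hD (by simpa [c0] using hy)
    · exact hD (by simpa [c0] using hx.smul c⁻¹)
  rcases types2 hq hV hk hρ hm hZ r0 hD with e | ⟨-, u, -, u1, u2, u3, u4⟩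
  · exact h3 (e.1 x h2)
  have key : ∀ c β : F, Dp H (c • u + β • r) → β = 0 := fun c β h => by_contra fun e => hD fun a => by
    have := mul_mem (inv_mem (u2 (a / (β * β) * c * c))) (tv_split u1 c β (a / (β * β)) ▸ h _)
    rw [inv_mul_cancel_left] at this
    convert mem_Zs.1 (sub_Zs (by simp [u1]) (u3 _) this) using 2
    field_simp; ring
  obtain ⟨β, c, rfl⟩ := mem_two.1 (u4 x h2)
  obtain rfl := key c β (add_comm (β • r) _ ▸ hx)
  exact one_ne_zero (key (-c) 1 (by simpa using hy))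

omit hZ in
theorem small (h0 : U ≠ ⊥) (h2 : finrank F U ≤ 2) (hU : ∀ g ∈ H, ∀ y ∈ U, g • y ∈ U) : (k + 1) ^ 2 * (ρ + 1) ^ 2 ≤ H.index * k + 1 := by
  obtain ⟨u, u1, u0⟩ := (Submodule.ne_bot_iff U).1 h0
  have u2 : u ∉ (⊥ : Submodule F (V)) := u0
  have a0 : H.relIndex (fx ⊥) ≤ H.index := (rel_mono H le_top).trans_eq (relIndex_top_right H)
  have a1 := O1_card ⊥ u (T := {0}) fun _ a _ => a
  rw [LinearMap.BilinForm.orthogonal_bot, Set.ncard_singleton, Nat.card_congr Submodule.topEquiv.toEquiv, hV] at a1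
  have a2 := Set.ncard_sdiff_add_ncard_of_subset (show ((⊥ : Submodule F (V)) : Set (V)) ⊆ U from bot_le (a := U))
  rw [Submodule.bot_coe, Set.ncard_singleton, ← Submodule.bot_coe (R := F)] at a2
  by_cases h3 : U ≤ F ∙ u
  · have := orb1 (J := H) (X := U) (fun j _ => hU j) u1 u2
    have a3 : (U : Set (V)).ncard ≤ k + 1 := (Set.ncard_le_ncard h3).trans_eq ((card_one u0).trans hq)
    nlinarith [Nat.mul_le_mul a0 (show ((U : Set (V)) \ (⊥ : Submodule F (V))).ncard ≤ k by omega)]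
  obtain ⟨v, v1, v2⟩ := SetLike.not_le_iff_exists.1 h3
  have b1 := orb2 (J := H) (X := U) (fun j _ => hU j) u1 u2 v1 (by simpa) (S := (U : Set (V)) \ (F ∙ u)) fun y a b _ => ⟨a, by simpa using b⟩
  have b2 := O1_card (⊥ ⊔ F ∙ u) v (T := F ∙ u) fun y a _ => by simpa using a
  have b3 := Set.ncard_sdiff_add_ncard_of_subset (show ((F ∙ u : Submodule F (V)) : Set (V)) ⊆ U from (Submodule.span_singleton_le_iff_mem _ _).2 u1)
  have b4 : (U : Set (V)).ncard ≤ (k + 1) ^ 2 := hq ▸ card_le_pow h2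
  rw [show Set.ncard ((F ∙ u : Submodule F (V)) : Set (V)) = _ from (card_one u0).trans hq] at b2 b3
  rw [bot_sup_eq] at b1 b2
  rw [card_p hq hV u0] at b2
  have b5 : k ≤ ρ := hρ.elim (·.1.ge) fun e => by nlinarith
  have b6 : (k + 1) * (k * (k + 2)) ≤ (O1 (F ∙ u) v).ncard := by nlinarith [Nat.mul_le_mul_left (k + 1) (Nat.mul_le_mul b5 (Nat.add_le_add_right b5 2))]
  have b7 := ((Nat.mul_le_mul_left _ b6).trans b1).trans (Nat.mul_le_mul a0 (Nat.mul_le_mul (show _ ≤ k * (k + 2) by nlinarith) (show _ ≤ (k + 1) * k by nlinarith)))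
  have := Nat.le_of_mul_le_mul_right (b7.trans_eq (show _ = H.index * k * ((k + 1) * (k * (k + 2))) by ring)) (by positivity)
  omega

theorem bound (hH : H ≠ ⊤) : (k + 1) ^ 2 * (ρ + 1) ^ 2 ≤ H.index * k + 1 := by
  let D : Submodule F (V) := ⟨⟨⟨{v | Dp H v}, D_add hq hV hk hρ hm hZ⟩, Dp.zero⟩, fun c _ h => h.smul c⟩
  obtain ⟨p, hp⟩ : ∃ p, ¬ Dp H p := not_forall.1 fun h => hH (sp_eq_top_of_tv_mem H h)
  have p0 : p ≠ 0 := fun e => hp (e ▸ Dp.zero)
  have h1 := LinearMap.BilinForm.finrank_orthogonal (spB_nondeg (l := l) (F := F)) D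
  have h2 : finrank F D < finrank F (V) := Submodule.finrank_lt fun e => hp (show p ∈ D from e ▸ Submodule.mem_top)
  have h3 : finrank F (V) ≤ finrank F D + 2 → (k + 1) ^ 2 * (ρ + 1) ^ 2 ≤ H.index * k + 1 := fun e =>
    small hq hV hk hρ hm (U := (B).orthogonal D) (fun e => by rw [e, finrank_bot] at h1; omega) (by omega) fun g hg y hy x hx => by
      have : B (g⁻¹ • x) y = 0 := hy _ (hx.map (inv_mem hg))
      rwa [← sp_pres g, smul_inv_smul] at this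
  rcases types2 hq hV hk hρ hm hZ p0 hp with ⟨-, e⟩ | ⟨rfl, u, u0, -, u1, -⟩
  · have a1 := Submodule.finrank_mono (show (B).orthogonal (F ∙ p) ≤ D ⊔ F ∙ p from fun x hx => by
      obtain ⟨β, hβ⟩ := e x (mem_pp.1 hx)
      simpa using sub_mem (Submodule.mem_sup_left (show _ ∈ D from hβ)) (Submodule.mem_sup_right (mem_sp p β)))
    rw [LinearMap.BilinForm.finrank_orthogonal spB_nondeg, finrank_span_singleton p0, H10.Form.finrank_sup_singleton (show p ∉ D from hp)] at a1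
    exact h3 (by omega)
  · have a1 : finrank F (V) = 4 := by
      rw [Module.natCard_eq_pow_finrank (K := F), hq, ← pow_add] at hV
      exact Nat.pow_right_injective (by omega) hV
    exact (le_or_gt (finrank F D) 2).elim (fun e => small hq hV hk hρ hm (U := D) (fun e => u0 (by simpa [e] using show u ∈ D from u1)) e
      fun g hg y hy => hy.map hg) fun e => h3 (by omega)

omit hq hV hk hρ hm hZ in
theorem main {m q : ℕ} (hq : Nat.card F = q) (hl : Fintype.card l = m + 2) (h3 : 3 ≤ q) (he : ¬ (m = 0 ∧ q = 3)) :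
    (∀ H : Subgroup (G ⧸ center G), H ≠ ⊤ → (q ^ (2 * (m + 2)) - 1) / (q - 1) ≤ H.index) ∧
      ∃ H : Subgroup (G ⧸ center G), H.index = (q ^ (2 * (m + 2)) - 1) / (q - 1) := by
  obtain ⟨k, rfl⟩ : ∃ k, q = k + 1 := ⟨q - 1, by omega⟩
  obtain ⟨ρ, hρ⟩ : ∃ ρ, (k + 1) ^ (m + 1) = ρ + 1 := Nat.exists_eq_add_one.2 (by positivity)
  have hV : Nat.card (V) = (k + 1) ^ (2 * (m + 2)) := by rw [Nat.card_fun, hq, Nat.card_sum, Nat.card_eq_fintype_card, hl, two_mul]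
  have hV' : (k + 1) ^ (2 * (m + 2)) = (k + 1) ^ 2 * (ρ + 1) ^ 2 := by rw [← hρ]; ring
  rw [Nat.add_sub_cancel]
  refine ⟨fun H hH => ?_, ?_⟩
  · rw [← index_comap_of_surjective H (QuotientGroup.mk'_surjective _)]
    refine Nat.div_le_of_le_mul (Nat.sub_le_of_le_add ?_)
    rw [hV', mul_comm k]
    refine (le_or_gt _ _).elim (·.trans (Nat.le_succ _)) fun hm => bound hq (hV.trans hV') (by omega) ?_ hm ?_
      fun e => hH (comap_injective (QuotientGroup.mk'_surjective _) e)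
    · rcases m with _ | m
      · exact .inl ⟨by simpa using hρ.symm, by omega⟩
      · exact .inr (hρ ▸ Nat.pow_le_pow_right k.succ_pos (by omega))
    · rw [mem_comap, show QuotientGroup.mk' (center G) (-1) = 1 from (QuotientGroup.eq_one_iff _).2 (sp_mem_center_iff.2 (.inr rfl))]
      exact one_mem H
  · obtain ⟨v, hv⟩ : ∃ v : V, v ≠ 0 := by
      have : Nontrivial (V) := Finite.one_lt_card_iff_nontrivial.1 (hV ▸ Nat.one_lt_pow (by omega) (by omega))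
      exact exists_ne 0
    refine ⟨(pt F v).map (QuotientGroup.mk' _), ?_⟩
    rw [index_map_eq _ (QuotientGroup.mk'_surjective _) (by
      rw [QuotientGroup.ker_mk']
      intro g hg
      rcases sp_mem_center_iff.1 hg with rfl | rfl
      exacts [one_mem _, ⟨-1, by simp [sp_neg_one_smul]⟩]), ← relIndex_top_right]
    have := pt_index (F := F) (⊤ : Subgroup G) hv
    rw [show cone F (⊤ : Subgroup G) v = Set.univ \ {0} from Set.ext fun y => ⟨fun ⟨c, c0, g, _, e⟩ => by simp [e, c0, hv, smul_eq_zero_iff_eq], fun hy =>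
      let ⟨g, _, e⟩ := reach (U := ⊥) (u := v) hv (y := y) ⟨hy.2, by simp⟩; ⟨1, one_ne_zero, g, trivial, by simp [e]⟩⟩,
      Set.ncard_sdiff_singleton_of_mem (Set.mem_univ _), Set.ncard_univ, hV, hq, Nat.add_sub_cancel] at this
    rw [← this, Nat.mul_div_cancel _ (by omega)]

end H24.SpQ
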