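import Mathlib.LinearAlgebra.Matrix.Determinant.Basic
import Mathlib.Analysis.Complex.Basic
import Mathlib.Tactic

/-!
# Alternating sums of flag counts and the Möbius function (namespace `H24.St`)

* `nd` row-ordered determinant over a non-commutative ring, `hess` Hessenberg matrices, `nd_hess`
* `Fl` flags in a graded poset, `moeb` : the alternating sum of flag counts is the Möbius value
-/

set_option autoImplicit false

open Finset Equiv Matrix

namespace H24.St

section nd
variable {R : Type*} [Ring R]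

/-- row-ordered determinant -/
def nd {m : ℕ} (A : Fin m → Fin m → R) : R :=
  ∑ κ : Perm (Fin m), (Perm.sign κ : ℤ) • (List.ofFn fun i => A i (κ i)).prod

theorem nd_zero (A : Fin 0 → Fin 0 → R) : nd A = 1 := by simp [nd]

theorem nd_succ {m : ℕ} (A : Fin (m + 1) → Fin (m + 1) → R) :
    nd A = ∑ j : Fin (m + 1), (if j = 0 then 1 else -1 : ℤ) •
      (A 0 j * nd fun a b => A a.succ (swap 0 j b.succ)) := by
  rw [nd, Finset.univ_perm_fin_succ, ← Finset.univ_product_univ]
  simp only [Finset.sum_map, Equiv.toEmbedding_apply, Finset.sum_product]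
  refine Finset.sum_congr rfl fun j _ => ?_
  rw [nd, Finset.mul_sum, Finset.smul_sum]
  refine Finset.sum_congr rfl fun σ _ => ?_
  rw [Equiv.Perm.decomposeFin.symm_sign, List.ofFn_succ, List.prod_cons]
  simp only [Equiv.Perm.decomposeFin_symm_apply_zero, Equiv.Perm.decomposeFin_symm_apply_succ]
  split_ifs <;> simp [-zsmul_eq_mul]

/-- Hessenberg matrix with shifted first column -/
def hess (H : ℕ → R) (s m : ℕ) (i j : Fin m) : R :=
  if j.val = 0 then H (s + i + 1) else if j.val ≤ 1 + i then H (1 + i - j) else 0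

theorem nd_hess_succ (H : ℕ → R) (h0 : H 0 = 1) (s m : ℕ) :
    nd (hess H s (m + 2)) = H (s + 1) * nd (hess H 0 (m + 1)) - nd (hess H (s + 1) (m + 1)) := by
  rw [nd_succ, Fin.sum_univ_succ, Fin.sum_univ_succ, Finset.sum_eq_zero (s := univ) (fun j _ => by
    have : hess H s (m + 2) 0 (Fin.succ (Fin.succ j)) = 0 := by simp [hess]
    rw [this]; simp)]
  have e1 : (fun a b : Fin (m + 1) => hess H s (m + 2) a.succ (swap 0 0 b.succ)) = hess H 0 (m + 1) := by
    funext a b
    simp only [swap_self, refl_apply, hess, Fin.val_succ]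
    by_cases hb : b.val = 0
    · simp [hb]
    · rw [if_neg (by omega), if_neg hb]
      split_ifs with h1 h2 h2
      · congr 1; omega
      · omega
      · omega
      · rfl
  have e2 : (fun a b : Fin (m + 1) => hess H s (m + 2) a.succ (swap 0 (Fin.succ 0) b.succ)) =
      hess H (s + 1) (m + 1) := by
    funext a b
    by_cases hb : b = 0
    · subst hb
      rw [swap_apply_right]
      simp only [hess, Fin.val_succ, Fin.val_zero, if_true]
      congr 1; omega
    · have hb' : b.val ≠ 0 := fun h => hb (Fin.ext h)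
      rw [swap_apply_of_ne_of_ne (Fin.succ_ne_zero _) (fun h => hb (Fin.succ_injective _ h))]
      simp only [hess, Fin.val_succ]
      rw [if_neg (by omega), if_neg hb']
      split_ifs with h1 h2 h2
      · congr 1; omega
      · omega
      · omega
      · rfl
  rw [e1, e2]
  simp [hess, h0, sub_eq_add_neg]

theorem nd_hess (H : ℕ → R) (h0 : H 0 = 1) (m : ℕ) : ∀ s, nd (hess H s (m + 1)) =
    ∑ j ∈ range (m + 1), (-1 : ℤ) ^ j • (H (s + j + 1) * nd (hess H 0 (m - j))) := by
  induction m with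
  | zero => intro s; rw [nd_succ]; simp [hess, nd_zero]
  | succ m ih =>
    intro s
    rw [nd_hess_succ H h0, ih (s + 1), Finset.sum_range_succ' _ (m + 1), sub_eq_add_neg, add_comm,
      ← Finset.sum_neg_distrib]
    congr 1
    · refine Finset.sum_congr rfl fun j _ => ?_
      rw [pow_succ, mul_smul, neg_one_smul, smul_neg, show s + 1 + j + 1 = s + (j + 1) + 1 by omega,
        Nat.add_sub_add_right]
    · simp

end nd

section poset
variable {L : Type*} [PartialOrder L]

/-- flags of type `μ` above `U` -/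
def Fl (d : L → ℕ) {m : ℕ} (μ : Fin m → ℕ) (U : L) (φ : Fin m → L) : Prop :=
  Monotone φ ∧ ∀ s, U ≤ φ s ∧ d (φ s) = d U + ∑ k with k ≤ s, μ k

theorem sum_le_succ {m : ℕ} (μ : Fin (m + 1) → ℕ) (s : Fin m) :
    ∑ k with k ≤ s.succ, μ k = μ 0 + ∑ k with k ≤ s, μ k.succ := by
  simp only [Finset.sum_filter, Fin.sum_univ_succ, Fin.zero_le, if_true, Fin.succ_le_succ_iff]

theorem sum_le_zero {m : ℕ} (μ : Fin (m + 1) → ℕ) : ∑ k with k ≤ (0 : Fin (m + 1)), μ k = μ 0 := by
  simp [Finset.sum_filter, Fin.sum_univ_succ]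

theorem Fl_cons (d : L → ℕ) {m : ℕ} (μ : Fin (m + 1) → ℕ) (U W : L) (φ : Fin m → L) :
    Fl d μ U (Fin.cons W φ) ↔ (U ≤ W ∧ d W = d U + μ 0) ∧ Fl d (fun k => μ k.succ) W φ := by
  constructor
  · rintro ⟨h1, h2⟩
    have h0 := h2 0
    rw [sum_le_zero, Fin.cons_zero] at h0
    refine ⟨h0, fun a b h => by simpa using h1 (Fin.succ_le_succ_iff.2 h), fun s => ⟨by
      simpa using h1 (Fin.zero_le s.succ), ?_⟩⟩
    have := (h2 s.succ).2
    rw [sum_le_succ, Fin.cons_succ] at this
    beta_reduce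
    omega
  · rintro ⟨⟨h1, h2⟩, h3, h4⟩
    refine ⟨fun a b => Fin.cases (Fin.cases (fun _ => le_rfl) (fun b _ => by simpa using (h4 b).1) b)
      (fun a => Fin.cases (fun h => absurd h (by simp)) (fun b h => by
        simpa using h3 (Fin.succ_le_succ_iff.1 h)) b) a, Fin.cases ?_ fun s => ?_⟩
    · rw [sum_le_zero, Fin.cons_zero]; exact ⟨h1, h2⟩
    · rw [sum_le_succ, Fin.cons_succ]
      exact ⟨h1.trans (h4 s).1, by have := (h4 s).2; beta_reduce at this; omega⟩

variable [Fintype L]

open Classical in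
/-- the graded pieces of the zeta matrix -/
noncomputable def HH (d : L → ℕ) (a : ℕ) : Matrix L L ℂ := of fun U W => if U ≤ W ∧ d W = d U + a then 1 else 0

open Classical in
theorem prod_HH (d : L → ℕ) (m : ℕ) : ∀ (μ : Fin m → ℕ) (U : L),
    ((List.ofFn fun i => HH d (μ i)).prod *ᵥ 1) U = Nat.card {φ // Fl d μ U φ} := by
  induction m with
  | zero =>
    intro μ U
    have : Unique {φ // Fl d μ U φ} := ⟨⟨⟨Fin.elim0, fun a => a.elim0, fun a => a.elim0⟩⟩, fun _ => Subsingleton.elim _ _⟩
    simp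
  | succ m ih =>
    intro μ U
    rw [List.ofFn_succ, List.prod_cons, ← mulVec_mulVec, mulVec, dotProduct, Nat.card_eq_fintype_card,
      Fintype.card_subtype, card_filter, Nat.cast_sum, ← (Fin.consEquiv fun _ => L).sum_comp, Fintype.sum_prod_type]
    refine Finset.sum_congr rfl fun W _ => ?_
    rw [ih, Nat.card_eq_fintype_card, Fintype.card_subtype, card_filter, Nat.cast_sum, Finset.mul_sum]
    refine Finset.sum_congr rfl fun φ _ => ?_
    have : (Fin.consEquiv fun _ => L) (W, φ) = Fin.cons W φ := rfl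
    rw [this, Fl_cons]
    by_cases h1 : U ≤ W ∧ d W = d U + μ 0 <;> by_cases h2 : Fl d (fun k => μ k.succ) W φ <;> simp [HH, h1, h2]

open Classical in
theorem moeb [BoundedOrder L] (d : L → ℕ) (hd : StrictMono d) (h0 : d ⊥ = 0) {n : ℕ} (hn : d ⊤ = n) (r : L → ℂ)
    (hr : ∀ W, ∑ U with U ≤ W, r U = if W = ⊥ then 1 else 0) :
    ∑ κ : Perm (Fin n), (if ∀ i : Fin n, (κ i).val ≤ 1 + i.val then
      ((Perm.sign κ : ℤ) : ℂ) * Nat.card {φ // Fl d (fun i : Fin n => 1 + i.val - (κ i).val) ⊥ φ} else 0) =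
      (-1) ^ n * r ⊤ := by
  have H0 : HH d 0 = 1 := by
    ext U W
    by_cases h : U = W
    · subst h; rw [one_apply_eq]; simp [HH]
    · rw [one_apply_ne h, HH, of_apply, if_neg]
      rintro ⟨h1, h2⟩
      have := hd (lt_of_le_of_ne h1 h)
      omega
  obtain ⟨e, he⟩ : ∃ e : ℕ → L → ℂ, ∀ k, e k = nd (hess (HH d) 0 k) *ᵥ 1 := ⟨_, fun _ => rfl⟩
  have e0 : ∀ U, e 0 U = 1 := fun U => by rw [he, nd_zero, one_mulVec, Pi.one_apply]
  have e1 : ∀ k U, e (k + 1) U = ∑ j ∈ range (k + 1), ∑ W,
      if U ≤ W ∧ d W = d U + (j + 1) then (-1) ^ j * e (k - j) W else 0 := fun k U => by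
    rw [he, nd_hess _ H0, Matrix.sum_mulVec, Finset.sum_apply]
    refine Finset.sum_congr rfl fun j _ => ?_
    rw [Matrix.smul_mulVec, ← mulVec_mulVec, ← he, Pi.smul_apply, mulVec, dotProduct, Finset.smul_sum]
    refine Finset.sum_congr rfl fun W _ => ?_
    simp only [HH, of_apply, zero_add]
    split_ifs <;> simp
  obtain ⟨m, hm0⟩ : ∃ m : L → ℂ, ∀ U, m U = (-1) ^ (n - d U) * e (n - d U) U := ⟨_, fun _ => rfl⟩
  have hle : ∀ U, d U ≤ n := fun U => hn ▸ hd.monotone le_top
  have hm : ∀ U, ∑ W with U ≤ W, m W = if U = ⊤ then 1 else 0 := by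
    intro U
    split_ifs with hU
    · subst hU
      rw [show (univ.filter fun W : L => ⊤ ≤ W) = {⊤} by ext; simp]
      simp [hm0, hn, e0]
    · have h1 : d U < n := hn ▸ hd (lt_top_iff_ne_top.2 hU)
      obtain ⟨k, hk⟩ : ∃ k, n - d U = k + 1 := ⟨n - d U - 1, by omega⟩
      rw [show (univ.filter fun W : L => U ≤ W) = insert U (univ.filter fun W => U < W) by
        ext W; simp [le_iff_eq_or_lt, eq_comm], sum_insert (by simp), add_eq_zero_iff_eq_neg, hm0, hk, e1,
        Finset.sum_comm, Finset.mul_sum, ← Finset.sum_neg_distrib, Finset.sum_filter]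
      refine Finset.sum_congr rfl fun W _ => ?_
      have := hle W
      split_ifs with hW
      · have := hd hW
        rw [Finset.sum_eq_single (d W - d U - 1) (fun j _ hj => by rw [if_neg (fun h => hj (by omega))])
          (fun h => absurd (mem_range.2 (by omega)) h), if_pos ⟨hW.le, by omega⟩,
          show k - (d W - d U - 1) = n - d W by omega,
          show k + 1 = (n - d W) + (d W - d U - 1) + 1 by omega, hm0, pow_succ, pow_add]
        have h2 : ((-1 : ℂ) ^ (d W - d U - 1)) * (-1) ^ (d W - d U - 1) = 1 := by rw [← mul_pow]; simp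
        linear_combination (-(-1 : ℂ) ^ (n - d W) * e (n - d W) W) * h2
      · rw [Finset.sum_eq_zero (fun j _ => ?_), mul_zero]
        rw [if_neg fun h => hW (lt_of_le_of_ne h.1 (by rintro rfl; omega))]
  have key : m ⊥ = r ⊤ := by
    have h1 : ∑ U, r U * ∑ W with U ≤ W, m W = r ⊤ := by simp [hm]
    have h2 : ∑ W, (∑ U with U ≤ W, r U) * m W = m ⊥ := by simp [hr]
    rw [← h1, ← h2]
    simp only [Finset.sum_filter, Finset.mul_sum, Finset.sum_mul]
    rw [Finset.sum_comm]
    exact Finset.sum_congr rfl fun U _ => Finset.sum_congr rfl fun W _ => by split_ifs <;> simp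
  rw [← key, hm0, h0, Nat.sub_zero, ← mul_assoc, ← mul_pow, he, nd, Matrix.sum_mulVec, Finset.sum_apply,
    neg_mul_neg, one_mul, one_pow, one_mul]
  refine Finset.sum_congr rfl fun κ _ => ?_
  rw [Matrix.smul_mulVec, Pi.smul_apply, zsmul_eq_mul]
  split_ifs with h
  · rw [← prod_HH]
    congr 4
    funext i
    simp only [hess, h i, if_true]
    split_ifs with h1
    · congr 1; omega
    · rfl
  · push Not at h
    obtain ⟨i, hi⟩ := h
    rw [List.prod_eq_zero ((List.mem_ofFn' _ _).2 ⟨i, by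
      simp only [hess]; rw [if_neg (by omega), if_neg (by omega)]⟩)]
    simp

end poset

end H24.St
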