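import Mathlib.LinearAlgebra.Charpoly.ToMatrix
import Mathlib.LinearAlgebra.Semisimple
import Mathlib.RingTheory.AdjoinRoot
import Mathlib.RingTheory.Polynomial.UniqueFactorization
import Mathlib.FieldTheory.Finiteness
import Mathlib.Analysis.Complex.Basic
import Mathlib.Tactic

/-!
# Möbius function of the submodule lattice of a finite semisimple `F[X]`-module (namespace `H24.St`)

* `cp N` characteristic polynomial of `X` on `N`, `card_hom`, `rr`, `sum_rr`
-/

set_option autoImplicit false

open Polynomial UniqueFactorizationMonoid Module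

namespace H24.St

universe u v

variable {F : Type u} [Field F] [Finite F] [DecidableEq F]

section
variable (F)
variable (N : Type v) [AddCommGroup N] [Module F N] [Module F[X] N] [IsScalarTower F F[X] N] [Finite N]

/-- characteristic polynomial of `X` -/
noncomputable def cp : F[X] := LinearMap.charpoly (Algebra.lsmul F F N (X : F[X]))

theorem cp_monic : (cp F N).Monic := LinearMap.charpoly_monic _

theorem cp_deg : (cp F N).natDegree = finrank F N := LinearMap.charpoly_natDegree _

theorem cp_smul (x : N) : cp F N • x = 0 := by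
  have h := LinearMap.aeval_self_charpoly (Algebra.lsmul F F N (X : F[X]))
  rw [aeval_algHom_apply, aeval_X_left_apply] at h
  exact LinearMap.congr_fun h x

/-- irreducible factors of `cp` -/
noncomputable def nf : Multiset F[X] := normalizedFactors (cp F N)

end

variable {N : Type v} [AddCommGroup N] [Module F N] [Module F[X] N] [IsScalarTower F F[X] N] [Finite N]

theorem cp_congr {N' : Type*} [AddCommGroup N'] [Module F N'] [Module F[X] N'] [IsScalarTower F F[X] N'] [Finite N']
    (e : N ≃ₗ[F[X]] N') : cp F N = cp F N' := by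
  rw [cp, cp, ← LinearEquiv.charpoly_conj (e.restrictScalars F)]
  congr 1
  ext x
  simp [LinearEquiv.conj_apply]

theorem cp_compl {S U : Submodule F[X] N} (h : IsCompl S U) : cp F N = cp F S * cp F U := by
  rw [← cp_congr (S.prodEquivOfIsCompl U h), cp, cp, cp, ← LinearMap.charpoly_prodMap]
  rfl

theorem simple_pres [h : IsSimpleModule F[X] N] :
    Irreducible (cp F N) ∧ Nonempty (N ≃ₗ[F[X]] F[X] ⧸ Ideal.span {cp F N}) := by
  obtain ⟨I, hI, ⟨e⟩⟩ := isSimpleModule_iff_quot_maximal.mp h
  obtain ⟨g, rfl⟩ : ∃ g, I = Ideal.span {g} := ⟨_, (IsPrincipalIdealRing.principal I).span_singleton_generator.symm⟩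
  have hd : g ∣ cp F N := by
    have h1 := cp_smul F N (e.symm (Submodule.Quotient.mk 1))
    rw [← map_smul, ← Submodule.Quotient.mk_smul, smul_eq_mul, mul_one, map_eq_zero_iff _ e.symm.injective,
      Submodule.Quotient.mk_eq_zero] at h1
    exact Ideal.mem_span_singleton.1 h1
  have h0 : g ≠ 0 := ne_zero_of_dvd_ne_zero (cp_monic F N).ne_zero hd
  have hg : Irreducible g := ((Ideal.span_singleton_prime h0).1 hI.isPrime).irreducible
  have hdeg : (cp F N).natDegree = g.natDegree := by
    rw [cp_deg, (e.restrictScalars F).finrank_eq, finrank_quotient_span_eq_natDegree]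
  have ha : Associated g (cp F N) := associated_of_dvd_of_natDegree_le hd (cp_monic F N).ne_zero hdeg.le
  exact ⟨ha.irreducible hg, by rw [← Ideal.span_singleton_eq_span_singleton.2 ha]; exact ⟨e⟩⟩

theorem nf_compl {S U : Submodule F[X] N} (h : IsCompl S U) [IsSimpleModule F[X] S] :
    nf F N = cp F S ::ₘ nf F U := by
  rw [nf, nf, cp_compl h, normalizedFactors_mul (cp_monic F S).ne_zero (cp_monic F U).ne_zero,
    normalizedFactors_irreducible simple_pres.1, (cp_monic F S).normalize_eq_self, Multiset.singleton_add]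

theorem fr_compl {S U : Submodule F[X] N} (h : IsCompl S U) : finrank F N = finrank F S + finrank F U := by
  rw [← cp_deg, ← cp_deg, ← cp_deg, cp_compl h, (cp_monic F S).natDegree_mul (cp_monic F U)]

variable {S : Type*} [AddCommGroup S] [Module F S] [Module F[X] S] [IsScalarTower F F[X] S] [Finite S]

open Classical in
theorem card_hom_simple [IsSimpleModule F[X] N] [IsSimpleModule F[X] S] : Nat.card (N →ₗ[F[X]] S) =
    if cp F S = cp F N then Nat.card F ^ (cp F S).natDegree else 1 := by
  split_ifs with h
  · obtain ⟨e⟩ := (simple_pres (F := F) (N := N)).2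
    rw [cp_deg, ← Module.natCard_eq_pow_finrank]
    refine Nat.card_congr (Equiv.ofBijective (fun φ => φ (e.symm (Submodule.Quotient.mk 1))) ⟨fun φ ψ hφ => ?_, fun s => ?_⟩)
    · ext x
      obtain ⟨y, rfl⟩ := e.symm.surjective x
      obtain ⟨a, rfl⟩ := Submodule.Quotient.mk_surjective _ y
      have : (Submodule.Quotient.mk a : F[X] ⧸ Ideal.span {cp F N}) = a • Submodule.Quotient.mk 1 := by
        rw [← Submodule.Quotient.mk_smul, smul_eq_mul, mul_one]
      beta_reduce at hφ
      rw [this, map_smul, map_smul, map_smul, hφ]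
    · refine ⟨(Submodule.liftQ _ (LinearMap.toSpanSingleton F[X] S s) ?_) ∘ₗ e.toLinearMap, ?_⟩
      · rw [Ideal.span_le, Set.singleton_subset_iff, ← h]
        exact cp_smul F S s
      · simp only [LinearMap.comp_apply, LinearEquiv.coe_coe, LinearEquiv.apply_symm_apply, Submodule.liftQ_apply,
          LinearMap.toSpanSingleton_apply, one_smul]
  · have hc : IsCoprime (cp F S) (cp F N) := (simple_pres (N := S)).1.coprime_iff_not_dvd.2 fun hd =>
      h (eq_of_monic_of_associated (cp_monic F S) (cp_monic F N)
        ((simple_pres (N := S)).1.associated_of_dvd (simple_pres (N := N)).1 hd))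
    obtain ⟨a, b, hab⟩ := hc
    have : ∀ φ : N →ₗ[F[X]] S, φ = 0 := fun φ => by
      ext x
      rw [← one_smul F[X] (φ x), ← hab, add_smul, mul_smul, mul_smul, cp_smul, ← map_smul φ (cp F N), cp_smul]
      simp
    have : Unique (N →ₗ[F[X]] S) := ⟨⟨0⟩, this⟩
    exact Nat.card_unique

theorem nf_triv [Subsingleton N] : nf F N = 0 := by
  rw [nf, ((cp_monic F N).natDegree_eq_zero).1 (by rw [cp_deg, finrank_zero_of_subsingleton]), normalizedFactors_one]

theorem card_hom [IsSimpleModule F[X] S] (k : ℕ) : ∀ (N : Type v) [AddCommGroup N] [Module F N] [Module F[X] N]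
    [IsScalarTower F F[X] N] [Finite N] [IsSemisimpleModule F[X] N], finrank F N = k →
    Nat.card (N →ₗ[F[X]] S) = (Nat.card F ^ (cp F S).natDegree) ^ (nf F N).count (cp F S) := by
  induction k using Nat.strong_induction_on with
  | _ k ih =>
    intro N _ _ _ _ _ _ hk
    rcases subsingleton_or_nontrivial N with h | h
    · rw [nf_triv]; simp
    · obtain ⟨T, hT⟩ := IsSemisimpleModule.exists_simple_submodule F[X] N
      obtain ⟨U, hU⟩ := exists_isCompl T
      have := IsSimpleModule.nontrivial F[X] T
      have h1 : 0 < finrank F T := finrank_pos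
      have h2 := fr_compl hU
      rw [← Nat.card_congr (LinearMap.ofIsComplProdEquiv (F := S) hU).toEquiv, Nat.card_prod, card_hom_simple,
        ih _ (by omega) U rfl, nf_compl hU, Multiset.count_cons]
      split_ifs <;> simp [pow_succ, mul_comm]

theorem card_compl {T U : Submodule F[X] N} (h : IsCompl T U) :
    Nat.card {W // IsCompl T W} = Nat.card (U →ₗ[F[X]] T) := by
  refine Nat.card_congr (T.isComplEquivProj.trans (Equiv.ofBijective (fun f => f.1 ∘ₗ U.subtype) ⟨?_, fun g => ?_⟩))
  · rintro ⟨f, hf⟩ ⟨g, hg⟩ e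
    refine Subtype.ext (LinearMap.ext fun x => ?_)
    obtain ⟨a, ha, b, hb, rfl⟩ := Submodule.mem_sup.1 (h.sup_eq_top.ge (Submodule.mem_top (x := x)))
    rw [map_add, map_add, hf ⟨a, ha⟩, hg ⟨a, ha⟩]
    exact congrArg _ (LinearMap.congr_fun e ⟨b, hb⟩)
  · exact ⟨⟨LinearMap.ofIsCompl h LinearMap.id g, fun x => by simp⟩, by ext; simp⟩

/-- the Steinberg value -/
noncomputable def RR (q : ℕ) (s : Multiset F[X]) : ℂ :=
  ∏ f ∈ s.toFinset, (-1 : ℂ) ^ ((f.natDegree - 1) * s.count f) * (q : ℂ) ^ (f.natDegree * s.count f * (s.count f - 1) / 2)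

theorem RR_cons (q : ℕ) (g : F[X]) (s : Multiset F[X]) :
    RR q (g ::ₘ s) = (-1) ^ (g.natDegree - 1) * ((q : ℂ) ^ g.natDegree) ^ s.count g * RR q s := by
  have h1 : RR q s = ∏ f ∈ insert g s.toFinset, (-1 : ℂ) ^ ((f.natDegree - 1) * s.count f) *
      (q : ℂ) ^ (f.natDegree * s.count f * (s.count f - 1) / 2) :=
    Finset.prod_subset (Finset.subset_insert _ _) fun f _ hf => by
      simp [Multiset.count_eq_zero.2 fun h => hf (Multiset.mem_toFinset.2 h)]
  rw [h1, RR, Multiset.toFinset_cons, ← Finset.mul_prod_erase _ _ (Finset.mem_insert_self g _),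
    ← Finset.mul_prod_erase _ _ (Finset.mem_insert_self g _), ← mul_assoc, Multiset.count_cons_self]
  congr 1
  · have : g.natDegree * (s.count g + 1) * (s.count g + 1 - 1) / 2 =
        g.natDegree * s.count g + g.natDegree * s.count g * (s.count g - 1) / 2 := by
      rw [← Nat.mul_add_div (by norm_num : 2 > 0)]
      congr 1
      rcases s.count g with _ | m
      · simp
      · simp only [Nat.add_sub_cancel]; ring
    rw [this]; ring
  · exact Finset.prod_congr rfl fun f hf => by rw [Multiset.count_cons_of_ne (Finset.ne_of_mem_erase hf)]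

variable (F N) in
/-- the Möbius value -/
noncomputable def rr : ℂ := (-1) ^ finrank F N * RR (Nat.card F) (nf F N)

theorem rr_congr {N' : Type*} [AddCommGroup N'] [Module F N'] [Module F[X] N'] [IsScalarTower F F[X] N'] [Finite N']
    (e : N ≃ₗ[F[X]] N') : rr F N = rr F N' := by
  rw [rr, rr, nf, nf, cp_congr e, (e.restrictScalars F).finrank_eq]

open Classical in
theorem fib_top [IsSemisimpleModule F[X] N] [Fintype (Submodule F[X] N)] (T : Submodule F[X] N)
    [hT : IsSimpleModule F[X] T] : ∑ U : Submodule F[X] N with U ⊔ T = ⊤, rr F U = 0 := by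
  have ha := isSimpleModule_iff_isAtom.1 hT
  obtain ⟨U, hU⟩ := exists_isCompl T
  have h1 : (Finset.univ.filter fun U : Submodule F[X] N => U ⊔ T = ⊤) =
      insert ⊤ (Finset.univ.filter fun W => IsCompl T W) := by
    ext W
    simp only [Finset.mem_filter, Finset.mem_univ, true_and, Finset.mem_insert]
    refine ⟨fun h => or_iff_not_imp_left.2 fun hW => ⟨?_, codisjoint_iff.2 (sup_comm W T ▸ h)⟩, ?_⟩
    · exact ha.not_le_iff_disjoint.1 fun hle => hW (by rw [← h, sup_eq_left.2 hle])
    · rintro (rfl | h)
      · simp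
      · rw [sup_comm, h.sup_eq_top]
  have h2 : ∀ W ∈ Finset.univ.filter fun W => IsCompl T W, rr F W = rr F U := fun W hW => by
    have hW := (Finset.mem_filter.1 hW).2
    have := fr_compl hW
    have := fr_compl hU
    rw [rr, rr, (Multiset.cons_inj_right _).1 ((nf_compl hW).symm.trans (nf_compl hU)),
      show finrank F W = finrank F U by omega]
  rw [h1, Finset.sum_insert (by simpa using fun h : IsCompl T ⊤ => ha.1 (by simpa using h.inf_eq_bot)),
    Finset.sum_congr rfl h2, Finset.sum_const, ← Fintype.card_subtype, ← Nat.card_eq_fintype_card, card_compl hU,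
    card_hom _ U rfl, rr_congr Submodule.topEquiv, rr, rr, nf_compl hU, RR_cons, fr_compl hU, cp_deg]
  have := IsSimpleModule.nontrivial F[X] T
  obtain ⟨k, hk⟩ : ∃ k, finrank F T = k + 1 := ⟨_, (Nat.succ_pred_eq_of_pos finrank_pos).symm⟩
  have h3 : ((-1 : ℂ) ^ k) * (-1) ^ k = 1 := by rw [← mul_pow]; simp
  rw [hk, Nat.add_sub_cancel, nsmul_eq_mul]
  push_cast
  linear_combination (-(-1) ^ finrank F U * ((Nat.card F : ℂ) ^ (k + 1)) ^ (nf F U).count (cp F T) *
    RR (Nat.card F) (nf F U)) * h3

open Classical in
theorem fib [IsSemisimpleModule F[X] N] [Fintype (Submodule F[X] N)] (T : Submodule F[X] N)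
    [hT : IsSimpleModule F[X] T] (W : Submodule F[X] N) : ∑ U : Submodule F[X] N with U ⊔ T = W, rr F U = 0 := by
  by_cases h : T ≤ W
  · have : Fintype (Submodule F[X] W) := Fintype.ofFinite _
    have : IsSimpleModule F[X] (T.comap W.subtype) := .congr (Submodule.comapSubtypeEquivOfLe h)
    rw [← fib_top (T.comap W.subtype)]
    symm
    refine Finset.sum_nbij' (fun U => U.map W.subtype) (fun U => U.comap W.subtype) (fun U hU => ?_) (fun U hU => ?_)
      (fun U _ => Submodule.comap_map_eq_of_injective W.injective_subtype U) (fun U hU => ?_)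
      fun U _ => rr_congr (Submodule.equivMapOfInjective _ W.injective_subtype U)
    · simp only [Finset.mem_filter, Finset.mem_univ, true_and] at hU ⊢
      have := congrArg (Submodule.map W.subtype) hU
      rwa [Submodule.map_sup, Submodule.map_comap_subtype, inf_eq_right.2 h, Submodule.map_top,
        Submodule.range_subtype] at this
    · simp only [Finset.mem_filter, Finset.mem_univ, true_and] at hU ⊢
      refine Submodule.map_injective_of_injective W.injective_subtype ?_
      rw [Submodule.map_sup, Submodule.map_comap_subtype, Submodule.map_comap_subtype, inf_eq_right.2 h,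
        inf_eq_right.2 (hU ▸ le_sup_left), Submodule.map_top, Submodule.range_subtype, hU]
    · simp only [Finset.mem_filter, Finset.mem_univ, true_and] at hU
      rw [Submodule.map_comap_subtype, inf_eq_right.2 (hU ▸ le_sup_left)]
  · exact Finset.sum_eq_zero fun U hU => absurd ((Finset.mem_filter.1 hU).2 ▸ le_sup_right) h

open Classical in
theorem sum_rr [IsSemisimpleModule F[X] N] [Fintype (Submodule F[X] N)] (W : Submodule F[X] N) :
    ∑ U : Submodule F[X] N with U ≤ W, rr F U = if W = ⊥ then 1 else 0 := by
  split_ifs with h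
  · subst h
    rw [show (Finset.univ.filter fun U : Submodule F[X] N => U ≤ ⊥) = {⊥} by ext; simp, Finset.sum_singleton, rr,
      nf_triv, finrank_zero_of_subsingleton]
    simp [RR]
  · obtain ⟨T, hT, hTW⟩ := (eq_bot_or_exists_atom_le W).resolve_left h
    have := isSimpleModule_iff_isAtom.2 hT
    rw [← Finset.sum_fiberwise_of_maps_to (t := Finset.univ.filter fun U => U ≤ W) (g := fun U => U ⊔ T)
      fun U hU => by simpa [hTW] using hU]
    refine Finset.sum_eq_zero fun W' hW' => ?_
    rw [← fib T W']
    refine Finset.sum_congr ?_ fun _ _ => rfl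
    ext U
    simp only [Finset.mem_filter, Finset.mem_univ, true_and, and_iff_right_iff_imp] at hW' ⊢
    rintro rfl
    exact le_sup_left.trans hW'

end H24.St
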