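import Cfsg.Agent.H24.StA
import Cfsg.Agent.H24.StB
import Cfsg.Agent.H24.Sym3

/-!
# Values of the Steinberg character of `GL_n(q)` at semisimple elements (namespace `H24.St`)

* `flag_trans` (transitivity on flags), `fpc_flags` (fixed cosets of a parabolic = invariant flags), `steinberg`
-/

set_option autoImplicit false

open Polynomial Module Matrix Cfsg Finset

namespace H24.St

section
variable {F V : Type*} [Field F] [AddCommGroup V] [Module F V] [FiniteDimensional F V]

theorem flag_step {U W W' : Submodule F V} (h : U ≤ W) (h' : U ≤ W') (hd : finrank F W = finrank F W') :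
    ∃ e : V ≃ₗ[F] V, (∀ u ∈ U, e u = u) ∧ W.map (e : V →ₗ[F] V) = W' := by
  let t := LinearEquiv.ofFinrankEq W W' hd
  obtain ⟨g, hg⟩ := Submodule.exists_linearEquiv_restrict_eq
    (((Submodule.equivMapOfInjective (t : W →ₗ[F] W') t.injective (U.comap W.subtype)).symm.trans
      (Submodule.comapSubtypeEquivOfLe h)).trans (Submodule.comapSubtypeEquivOfLe h').symm)
  obtain ⟨e, he⟩ := Submodule.exists_linearEquiv_restrict_eq (t.trans g)
  refine ⟨e, fun u hu => ?_, Submodule.eq_of_le_of_finrank_eq ?_ (by rw [LinearEquiv.finrank_map_eq, hd])⟩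
  · have h1 := hg (Submodule.equivMapOfInjective (t : W →ₗ[F] W') t.injective (U.comap W.subtype) ⟨⟨u, h hu⟩, hu⟩)
    rw [LinearEquiv.trans_apply, LinearEquiv.trans_apply, LinearEquiv.symm_apply_apply] at h1
    exact (he ⟨u, h hu⟩).symm.trans (congrArg Subtype.val h1).symm
  · rintro _ ⟨w, hw, rfl⟩
    exact (he ⟨w, hw⟩) ▸ (t.trans g ⟨w, hw⟩).2

theorem flag_trans (m : ℕ) : ∀ (A B : Fin m → Submodule F V), Monotone A → Monotone B →
    (∀ s, finrank F (A s) = finrank F (B s)) → ∃ e : V ≃ₗ[F] V, ∀ s, (A s).map (e : V →ₗ[F] V) = B s := by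
  induction m with
  | zero => exact fun A B _ _ _ => ⟨.refl _ _, fun s => s.elim0⟩
  | succ m ih =>
    intro A B hA hB hd
    obtain ⟨e, he⟩ := ih (fun s => A s.castSucc) (fun s => B s.castSucc) (fun a b h => hA (by simpa using h))
      (fun a b h => hB (by simpa using h)) fun s => hd _
    obtain ⟨f, hf, hf'⟩ := flag_step (U := ⨆ s : Fin m, B s.castSucc) (W := (A (Fin.last m)).map (e : V →ₗ[F] V))
      (W' := B (Fin.last m)) (iSup_le fun s => he s ▸ Submodule.map_mono (hA (Fin.le_last _)))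
      (iSup_le fun s => hB (Fin.le_last _)) (by rw [LinearEquiv.finrank_map_eq, hd])
    refine ⟨e.trans f, fun s => ?_⟩
    rw [LinearEquiv.coe_trans, Submodule.map_comp]
    refine Fin.lastCases hf' (fun s => ?_) s
    rw [he]
    refine Submodule.eq_of_le_of_finrank_eq ?_ (by rw [LinearEquiv.finrank_map_eq])
    rintro _ ⟨w, hw, rfl⟩
    rwa [LinearEquiv.coe_coe, hf w (le_iSup (fun s : Fin m => B s.castSucc) s hw)]

end

variable {F : Type*} [Field F] {n : ℕ}

variable (F) in
/-- the standard flag -/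
def EE (a : Fin n → Fin n) (s : Fin n) : Submodule F (Fin n → F) :=
  Submodule.span F (Pi.basisFun F (Fin n) '' {i | a i ≤ s})

theorem mem_EE {a : Fin n → Fin n} {s : Fin n} {v : Fin n → F} : v ∈ EE F a s ↔ ∀ i, s < a i → v i = 0 := by
  rw [EE, Basis.mem_span_image]
  refine forall_congr' fun i => ?_
  simp [not_imp_comm]

theorem EE_mono (a : Fin n → Fin n) : Monotone (EE F a) := fun _ _ h _ hv =>
  mem_EE.2 fun i hi => mem_EE.1 hv i (h.trans_lt hi)

theorem finrank_EE (μ : Fin n → ℕ) (hμ : ∑ i, μ i = n) (s : Fin n) :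
    finrank F (EE F (Sym.lab μ hμ) s) = ∑ k with k ≤ s, μ k := by
  rw [EE, Set.image_eq_range, finrank_span_eq_card (b := fun x : {i | Sym.lab μ hμ i ≤ s} => Pi.basisFun F (Fin n) x)
      ((Pi.basisFun F (Fin n)).linearIndependent.comp _ Subtype.val_injective),
    ← min_eq_right (show ∑ k with k ≤ s, μ k ≤ n from (sum_le_sum_of_subset (subset_univ _)).trans hμ.le),
    ← Fin.card_filter_val_lt, Fintype.card_of_subtype]
  intro i
  rw [mem_filter_univ, ← Sym.compLabel_le]
  rfl

theorem mem_Par {a : Fin n → Fin n} {g : GL (Fin n) F} :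
    g ∈ Sym.Par F a ↔ ∀ s, ∀ v ∈ EE F a s, g.1 *ᵥ v ∈ EE F a s := by
  refine ⟨fun h s v hv => mem_EE.2 fun i hi => ?_, fun h i j hij => ?_⟩
  · rw [mulVec, dotProduct]
    refine Finset.sum_eq_zero fun j _ => ?_
    rcases lt_or_ge (a j) (a i) with h1 | h1
    · rw [(show g.1.BlockTriangular a from h) h1, zero_mul]
    · rw [mem_EE.1 hv j (hi.trans_le h1), mul_zero]
  · simpa using mem_EE.1 (h (a j) (Pi.single j 1) (mem_EE.2 fun k hk => Pi.single_eq_of_ne (by
      rintro rfl; exact lt_irrefl _ hk) _)) i hij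

theorem mem_map {g : GL (Fin n) F} {U : Submodule F (Fin n → F)} {v : Fin n → F} :
    v ∈ U.map (toLin' g.1) ↔ (g⁻¹).1 *ᵥ v ∈ U := by
  refine ⟨?_, fun h => ⟨_, h, by simp⟩⟩
  rintro ⟨w, hw, rfl⟩
  simpa using hw

theorem fr_map (g : GL (Fin n) F) (U : Submodule F (Fin n → F)) : finrank F (U.map (toLin' g.1)) = finrank F U :=
  (Submodule.equivMapOfInjective _ (fun v w h => by
    simpa using congrArg ((g⁻¹).1 *ᵥ ·) h) U).finrank_eq.symm

theorem fpc_flags (μ : Fin n → ℕ) (hμ : ∑ i, μ i = n) (x : GL (Fin n) F) :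
    fixedPointCharacter (parabolicGL n F μ) x = Nat.card {φ : Fin n → Submodule F[X] (AEval' (toLin' x.1)) //
      Fl (fun W : Submodule F[X] (AEval' (toLin' x.1)) => finrank F W) μ ⊥ φ} := by
  rw [fixedPointCharacter, Sym.parabolicGL_eq μ hμ]
  congr 1
  have hi : ∀ g : {g : GL (Fin n) F // g⁻¹ * x * g ∈ Sym.Par F (Sym.lab μ hμ)}, ∀ s,
      (EE F (Sym.lab μ hμ) s).map (toLin' g.1.1) ∈ (Algebra.lsmul F F (Fin n → F) (toLin' x.1)).invtSubmodule := by
    rintro g s _ ⟨v, hv, rfl⟩
    refine mem_map.2 ?_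
    simpa [mul_assoc] using mem_Par.1 g.2 s v hv
  refine Sim.card_eq_of_ker (α := {g : GL (Fin n) F // g⁻¹ * x * g ∈ Sym.Par F (Sym.lab μ hμ)})
    (φ := fun g => ⟨g.1, QuotientGroup.eq.2 (by simpa [mul_assoc] using inv_mem g.2)⟩)
    (ψ := fun g => ⟨fun s => AEval.mapSubmodule F _ _ ⟨_, hi g s⟩,
      fun s t h => (AEval.mapSubmodule F _ _).monotone (Submodule.map_mono (EE_mono _ h)), fun s => ⟨bot_le, by
        beta_reduce
        rw [← (AEval.equiv_mapSubmodule _ _ (hi g s)).finrank_eq, fr_map, finrank_EE, finrank_zero_of_subsingleton,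
          zero_add]⟩⟩) ?_ ?_ fun g h => ?_
  · rintro ⟨⟨g⟩, hg⟩
    exact ⟨⟨g, by simpa [mul_assoc] using inv_mem (QuotientGroup.eq.1 hg)⟩, rfl⟩
  · rintro ⟨φ, h1, h2⟩
    obtain ⟨e, he⟩ := flag_trans n (EE F (Sym.lab μ hμ)) (fun s => (AEval.mapSubmodule F _ _).symm (φ s)) (EE_mono _)
      (fun s t h => (AEval.mapSubmodule F _ _).symm.monotone (h1 h)) fun s => by
        have := (h2 s).2
        beta_reduce at this
        rw [finrank_zero_of_subsingleton (M := (⊥ : Submodule F[X] (AEval' (toLin' x.1)))), zero_add] at this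
        rw [finrank_EE, ← this, (AEval.equiv_mapSubmodule _ _ ((AEval.mapSubmodule F _ _).symm (φ s)).2).finrank_eq,
          Subtype.coe_eta, OrderIso.apply_symm_apply]
    let g : GL (Fin n) F := ⟨LinearMap.toMatrix' e.toLinearMap, LinearMap.toMatrix' e.symm.toLinearMap,
      by rw [← LinearMap.toMatrix'_comp]; simp, by rw [← LinearMap.toMatrix'_comp]; simp⟩
    have hg : toLin' g.1 = e.toLinearMap := Matrix.toLin'_toMatrix' _
    refine ⟨⟨g, mem_Par.2 fun s v hv => ?_⟩, Subtype.ext (funext fun s => ?_)⟩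
    · rw [Units.val_mul, Units.val_mul, ← mulVec_mulVec, ← mulVec_mulVec, ← mem_map, hg, he]
      refine ((AEval.mapSubmodule F _ _).symm (φ s)).2 (?_ : g.1 *ᵥ v ∈ _)
      rw [← he, ← hg]
      exact ⟨v, hv, rfl⟩
    · refine (OrderIso.eq_symm_apply _).1 (Subtype.ext ?_)
      simp only [hg, he]
  · rw [Subtype.ext_iff, Subtype.ext_iff, QuotientGroup.eq, funext_iff]
    simp only [EmbeddingLike.apply_eq_iff_eq, Subtype.mk.injEq]
    refine ⟨fun e s => Submodule.ext fun v => ?_, fun e => mem_Par.2 fun s v hv => ?_⟩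
    · rw [mem_map, mem_map]
      exact ⟨fun hv => by simpa using mem_Par.1 (inv_mem e) s _ hv, fun hv => by simpa using mem_Par.1 e s _ hv⟩
    · rw [Units.val_mul, ← mulVec_mulVec, ← mem_map, e]
      exact ⟨v, hv, rfl⟩

theorem steinberg [Fintype F] [DecidableEq F] (x : GL (Fin n) F) (hx : ((orderOf x : ℕ) : F) ≠ 0) :
    unipotentCharacterGL n F (fun _ => 1) x =
      RR (Fintype.card F) (UniqueFactorizationMonoid.normalizedFactors x.1.charpoly) := by
  classical
  have : IsSemisimpleModule F[X] (AEval' (toLin' x.1)) :=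
    End.isSemisimple_of_squarefree_aeval_eq_zero (X_pow_sub_one_separable_iff.2 hx).squarefree (by
      rw [map_sub, map_pow, aeval_X, map_one, ← toLin'_pow, ← Units.val_pow_eq_pow_val, pow_orderOf_eq_one, Units.val_one, toLin'_one]
      exact sub_self _)
  have : Finite (AEval' (toLin' x.1)) := .of_equiv _ (AEval'.of (toLin' x.1)).toEquiv
  have : Fintype (Submodule F[X] (AEval' (toLin' x.1))) := Fintype.ofFinite _
  have hn : finrank F (AEval' (toLin' x.1)) = n := by rw [← (AEval'.of (toLin' x.1)).finrank_eq]; simp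
  have h := moeb (L := Submodule F[X] (AEval' (toLin' x.1))) (fun W => finrank F W)
    (fun U W h => Submodule.finrank_lt_finrank_of_lt (s := U.restrictScalars F) (t := W.restrictScalars F) h)
    finrank_zero_of_subsingleton ((Submodule.topEquiv.restrictScalars F).finrank_eq.trans hn) (fun W => rr F W)
    fun W => by convert sum_rr (F := F) W
  have hc : cp F (AEval' (toLin' x.1)) = x.1.charpoly := by
    rw [cp, ← charpoly_toLin', ← (AEval'.of (toLin' x.1)).charpoly_conj]
    congr 1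
    refine LinearMap.ext fun v => ?_
    obtain ⟨w, rfl⟩ := (AEval'.of (toLin' x.1)).surjective v
    rw [LinearEquiv.conj_apply_apply, LinearEquiv.symm_apply_apply]
    exact AEval'.X_smul_of _ w
  rw [rr_congr Submodule.topEquiv, rr, hn, nf, hc, ← mul_assoc, ← mul_pow, neg_mul_neg, one_mul, one_pow, one_mul,
    Nat.card_eq_fintype_card] at h
  rw [← h, unipotentCharacterGL]
  refine Finset.sum_congr rfl fun κ _ => ?_
  split_ifs with hκ
  · rw [fpc_flags _ (Sym.sum_sub_perm (ν := fun _ => 1) (by simp) hκ)]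
  · rfl

end H24.St
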