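import Mathlib

/-!
# Traces from a cyclic `p`-group (namespace `H24.TIc`)

* `tr_mem` : `∑ x^i ψ x^{-i}` is a right multiple of `(x - 1)^k` when `(x - 1)^d = 0` and `k + d ≤ p^n`
-/

set_option autoImplicit false

open Polynomial Finset

namespace H24.TIc

variable {F A : Type*} [Field F] [Ring A] [Algebra F A] (p : ℕ) [Fact p.Prime] [CharP F p]

theorem geom (n : ℕ) : ∑ i ∈ range (p ^ n), (X : F[X]) ^ i = (X - 1) ^ (p ^ n - 1) :=
  mul_right_cancel₀ (X_sub_C_ne_zero (1 : F)) (by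
    rw [C_1, geom_sum_mul, ← pow_succ, Nat.sub_add_cancel (Nat.one_le_pow _ _ (Fact.out : p.Prime).pos), sub_pow_char_pow, one_pow])

include F in
theorem tr_mem (x : Aˣ) {n d k : ℕ} (hd : ((x : A) - 1) ^ d = 0) (hk : k + d ≤ p ^ n) (ψ : A) :
    ∃ c, ((x : A) - 1) ^ k * c = ∑ i ∈ range (p ^ n), (x ^ i : Aˣ) * ψ * ((x ^ i)⁻¹ : Aˣ) := by
  let L : A → Module.End F A := LinearMap.mulLeft F
  let R : A → Module.End F A := LinearMap.mulRight F
  have h1 := congrArg (aeval (L x * R (x⁻¹ : Aˣ))) (geom (F := F) p n)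
  have c1 : ∀ a b, Commute (L a) (R b) := LinearMap.commute_mulLeft_right
  have h2 : L x * R (x⁻¹ : Aˣ) - 1 = (L ((x : A) - 1) + -R ((x : A) - 1)) * R (x⁻¹ : Aˣ) := LinearMap.ext fun a => by
    simp [L, R, sub_mul, mul_sub, mul_assoc]
  have c2 : Commute (L ((x : A) - 1) + -R ((x : A) - 1)) (R (x⁻¹ : Aˣ)) := (c1 _ _).add_left (Commute.neg_left (a := R _) (LinearMap.ext fun a => by
    simp [R, sub_mul, mul_sub, mul_assoc]))
  simp only [map_sum, map_pow, map_sub, aeval_X, map_one, (c1 _ _).mul_pow] at h1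
  rw [h2, c2.mul_pow, (c1 _ _).neg_right.add_pow] at h1
  have h3 := LinearMap.congr_fun h1 ψ
  simp only [L, R, LinearMap.sum_apply, Module.End.mul_apply, LinearMap.pow_mulLeft, LinearMap.pow_mulRight, LinearMap.mulLeft_apply,
    LinearMap.mulRight_apply] at h3
  change _ ∈ (LinearMap.mulLeft F (((x : A) - 1) ^ k)).range
  simp only [← mul_assoc, ← inv_pow, Units.val_pow_eq_pow_val] at h3 ⊢
  rw [h3]
  refine sum_mem fun i hi => ?_
  rcases le_or_gt k i with e | e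
  · obtain ⟨j, rfl⟩ := Nat.exists_eq_add_of_le e
    exact ⟨_, by rw [pow_add, mul_assoc]; rfl⟩
  · obtain ⟨j, hj⟩ : ∃ j, p ^ n - 1 - i = j + d := ⟨p ^ n - 1 - i - d, by omega⟩
    rw [hj, neg_pow, LinearMap.pow_mulRight, pow_add ((x : A) - 1), hd]
    simp

include F in
theorem pw (x : A) {a : ℕ} (ha : ¬ p ∣ a) : ∃ c, (x ^ a - 1) ^ (p - 1) = (x - 1) ^ (p - 1) + (x - 1) ^ p * c := by
  obtain ⟨c, hc⟩ : (X - C 1 : F[X]) ∣ (∑ i ∈ range a, X ^ i) ^ (p - 1) - 1 := dvd_iff_isRoot.2 (by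
    have := congrArg (ZMod.castHom (dvd_refl p) F) (ZMod.pow_card_sub_one_eq_one ((ZMod.natCast_eq_zero_iff a p).not.2 ha))
    simpa [eval_finsetSum, sub_eq_zero] using this)
  have : ((X : F[X]) ^ a - 1) ^ (p - 1) = (X - 1) ^ (p - 1) + (X - 1) ^ p * c := by
    rw [← mul_geom_sum, mul_pow, sub_eq_iff_eq_add.1 hc, C_1]
    nth_rw 3 [← Nat.sub_add_cancel (Fact.out : p.Prime).one_le]
    ring
  exact ⟨aeval x c, by simpa using congrArg (aeval x) this⟩

open MulAction in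
theorem main {G : Type*} [Group G] [Finite G] (u : G →* Aˣ) (P : Sylow p G) {x : G} (hx : Subgroup.zpowers x = P) {n d : ℕ} (hn : orderOf x = p ^ n)
    (hTI : ∀ Q : Sylow p G, Q ≠ P → (P : Subgroup G) ⊓ Q = ⊥) (hd : ((u x : A) - 1) ^ d = 0) (hk : p + d ≤ p ^ n) :
    ∃ (s c : A) (m : F), m ≠ 0 ∧ (∀ g, u g * s * ((u g)⁻¹ : Aˣ) = s) ∧ s = m • ((u x : A) - 1) ^ (p - 1) + ((u x : A) - 1) ^ p * c := by
  classical
  have := Fintype.ofFinite (G ⧸ (P : Subgroup G))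
  have := Fintype.ofFinite P
  have hp : p.Prime := Fact.out
  let t : G ⧸ (P : Subgroup G) → A := fun c => ((u (c.out * x * c.out⁻¹) : A) - 1) ^ (p - 1)
  have x1 : x ∈ (P : Subgroup G) := hx ▸ Subgroup.mem_zpowers x
  have t1 : ∀ g : G, t g = ((u (g * x * g⁻¹) : A) - 1) ^ (p - 1) := fun g => by
    obtain ⟨⟨h, h1⟩, e⟩ := QuotientGroup.mk_out_eq_mul (P : Subgroup G) g
    obtain ⟨k, rfl⟩ := hx.ge h1
    simp only [t, e, mul_assoc, mul_inv_rev, ← zpow_neg]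
    rw [← mul_assoc x, ← mul_assoc (x ^ k), ← zpow_one_add, ← zpow_add]; simp
  have t2 : ∀ (g : G) c, t (g • c) = u g * t c * ((u g)⁻¹ : Aˣ) := fun g c => by
    obtain ⟨k, rfl⟩ := QuotientGroup.mk_surjective c
    rw [show g • (k : G ⧸ (P : Subgroup G)) = (g * k : G) from rfl, t1, t1, ← Units.conj_pow]
    simp [mul_sub, sub_mul, mul_assoc]
  have key : ∀ (k g : G), g • (k : G ⧸ (P : Subgroup G)) = k ↔ g ∈ ((k • P : Sylow p G) : Subgroup G) := fun k g => by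
    rw [show g • (k : G ⧸ (P : Subgroup G)) = (g * k : G) from rfl, eq_comm, QuotientGroup.eq, Sylow.coe_subgroup_smul,
      Subgroup.mem_pointwise_smul_iff_inv_smul_mem]
    simp [mul_assoc]
  let I := (LinearMap.mulLeft F (((u x : A) - 1) ^ p)).range
  have h1 : ∑ c with c ∈ fixedPoints P (G ⧸ (P : Subgroup G)), (t c - ((u x : A) - 1) ^ (p - 1)) ∈ I := sum_mem fun c hc => by
    obtain ⟨k, rfl⟩ := QuotientGroup.mk_surjective c
    have e : k • P = P := (Sylow.ext (P.is_maximal' (k • P).isPGroup' fun g hg => (key k g).1 ((mem_filter.1 hc).2 ⟨g, hg⟩)))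
    obtain ⟨a, ha⟩ := (Submonoid.mem_powers_iff _ _).1 (mem_powers_iff_mem_zpowers.2 (hx.ge (show k * x * k⁻¹ ∈ (P : Subgroup G) from
      e ▸ Subgroup.smul_mem_pointwise_smul _ (MulAut.conj k) _ x1)))
    obtain ⟨c, hc⟩ := pw (F := F) p (u x : A) (a := a) fun ⟨b, hb⟩ => by
      have n0 : n ≠ 0 := fun e => by have := hp.two_le; simp [e] at hk; omega
      have : x ^ p ^ (n - 1) = 1 := by
        have : (k * x * k⁻¹) ^ p ^ (n - 1) = 1 := by
          rw [← ha, hb, ← pow_mul, mul_right_comm, ← pow_succ', Nat.sub_add_cancel (by omega), ← hn, pow_mul, pow_orderOf_eq_one, one_pow]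
        simpa using this
      have := (Nat.pow_dvd_pow_iff_le_right hp.one_lt).1 (hn ▸ orderOf_dvd_of_pow_eq_one this)
      omega
    exact ⟨c, by rw [t1, ← ha, map_pow, Units.val_pow_eq_pow_val, hc]; simp⟩
  have h2 : ∑ c with c ∉ fixedPoints P (G ⧸ (P : Subgroup G)), t c ∈ I := by
    rw [sum_partition (orbitRel P _)]
    refine sum_mem fun o ho => ?_
    obtain ⟨c, hc, rfl⟩ := mem_image.1 ho
    obtain ⟨k, rfl⟩ := QuotientGroup.mk_surjective c
    have e : ∀ g ∈ (P : Subgroup G), g • (k : G ⧸ (P : Subgroup G)) = k → g = 1 := fun g a b =>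
      (hTI (k • P) fun e => (mem_filter.1 hc).2 fun g => (key k g).2 (e.symm ▸ g.2)).le ⟨a, (key k g).1 b⟩
    obtain ⟨c, hc'⟩ := tr_mem (F := F) p (u x) hd hk (t k)
    refine ⟨c, hc'.trans (sum_bij (fun i _ => x ^ i • (k : G ⧸ (P : Subgroup G))) (fun i _ => ?_) (fun i a j b h => ?_) (fun y hy => ?_)
      fun i _ => by rw [t2, map_pow])⟩
    · refine mem_filter.2 ⟨mem_filter.2 ⟨mem_univ _, fun h => (mem_filter.1 hc).2 fun g => ?_⟩, Quotient.sound ⟨⟨_, pow_mem x1 i⟩, rfl⟩⟩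
      have : (x ^ i * g * (x ^ i)⁻¹) • x ^ i • (k : G ⧸ (P : Subgroup G)) = x ^ i • (k : G ⧸ (P : Subgroup G)) :=
        h ⟨_, mul_mem (mul_mem (pow_mem x1 i) g.2) (inv_mem (pow_mem x1 i))⟩
      rwa [mul_smul, mul_smul, inv_smul_smul, smul_left_cancel_iff] at this
    · exact pow_injOn_Iio_orderOf (hn ▸ mem_range.1 a) (hn ▸ mem_range.1 b) (inv_mul_eq_one.1 (e _ (mul_mem (inv_mem (pow_mem x1 i)) (pow_mem x1 j))
        (by rw [mul_smul, ← h, inv_smul_smul])))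
    · obtain ⟨⟨g, g1⟩, rfl⟩ := Quotient.exact (mem_filter.1 hy).2
      obtain ⟨i, i1, rfl⟩ := mem_image.1 (mem_zpowers_iff_mem_range_orderOf.1 (hx.ge g1))
      exact ⟨i, hn ▸ i1, rfl⟩
  obtain ⟨c, hc⟩ := add_mem h1 h2
  refine ⟨∑ c, t c, c, #{c | c ∈ fixedPoints P (G ⧸ (P : Subgroup G))}, (CharP.cast_eq_zero_iff F p _).not.2 fun e => P.not_dvd_index ?_, fun g => ?_, ?_⟩
  · rw [← Fintype.card_subtype, ← Nat.card_eq_fintype_card] at e
    exact ((P.isPGroup'.card_modEq_card_fixedPoints _).dvd_iff dvd_rfl).2 e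
  · rw [mul_sum, sum_mul, ← Equiv.sum_comp (MulAction.toPerm g) t]
    exact sum_congr rfl fun c _ => (t2 g c).symm
  · rw [show _ * c = _ from hc, sum_sub_distrib, sum_const, Nat.cast_smul_eq_nsmul, ← add_assoc, add_sub_cancel, sum_filter_add_sum_filter_not]

end H24.TIc
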