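import Cfsg.Agent.L.DicksonF
import Cfsg.Agent.S0215
import Cfsg.Agent.H24.MD1

/-!
# Minimal index for `SU₃(q)`: abstract group theory (namespace `H24.MD.U3`)

* `dk` : a consequence of Dickson's theorem for a homomorphism to `PGL₂(F)`
-/

set_option autoImplicit false

open Subgroup Matrix
open scoped MatrixGroups commutatorElement

namespace H24.MD.U3

theorem cyc_conj {G K : Type*} [Group G] [Group K] (ρ : G →* K) (C : Subgroup ρ.range) [hC : C.Normal] (h : IsCyclic C) :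
    ∀ g ∈ C.comap ρ.rangeRestrict, ∀ k, ∃ n : ℤ, ∃ z ∈ ρ.ker, k⁻¹ * g * k = g ^ n * z := fun g hg k => by
  obtain ⟨c, hc⟩ := h.exists_zpow_surjective
  obtain ⟨j, hj⟩ := hc ⟨_, hg⟩
  obtain ⟨m, hm⟩ := hc ⟨_, hC.conj_mem' _ c.2 (ρ.rangeRestrict k)⟩
  replace hj : (c : ρ.range) ^ j = ρ.rangeRestrict g := congrArg Subtype.val hj
  replace hm : (c : ρ.range) ^ m = _ := congrArg Subtype.val hm
  refine ⟨m, (g ^ m)⁻¹ * (k⁻¹ * g * k), ?_, by simp⟩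
  rw [← ρ.ker_rangeRestrict, MonoidHom.mem_ker]
  simp only [map_mul, map_inv, map_zpow, ← hj]
  rw [← _root_.zpow_mul, mul_comm j, _root_.zpow_mul, hm, inv_mul_eq_one]
  simpa using conj_zpow (i := j) (a := (ρ.rangeRestrict k)⁻¹) (b := c)

theorem dk {G F : Type*} [Group G] [Finite G] [Field F] [Finite F] (ℓ : ℕ) [Fact ℓ.Prime] [CharP F ℓ] (ρ : G →* PGL(2, F)) :
    (ℓ ∣ ρ.ker.index ∧ ∀ a b : G, a ^ ℓ = 1 → b ^ ℓ = 1 → ⁅a, b⁆ ∈ ρ.ker) ∨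
      (∃ C : Subgroup G, (C.index = 1 ∨ C.index = 2) ∧ ∀ g ∈ C, ∀ k, ∃ n : ℤ, ∃ z ∈ ρ.ker, k⁻¹ * g * k = g ^ n * z) ∨
      (ρ.ker.index = 12 ∨ ρ.ker.index = 24 ∨ ρ.ker.index = 60) ∨
      ∃ b d, 0 < b ∧ ¬ ℓ ∣ d ∧ ρ.ker.index * d = ℓ ^ b * ((ℓ ^ b) ^ 2 - 1) := by
  have := Fintype.ofFinite F
  have hl : ℓ.Prime := Fact.out
  have cy : IsCyclic ρ.range → ∃ C : Subgroup G, (C.index = 1 ∨ C.index = 2) ∧ ∀ g ∈ C, ∀ k, ∃ n : ℤ, ∃ z ∈ ρ.ker, k⁻¹ * g * k = g ^ n * z :=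
    fun h => ⟨_, .inl (by simp), cyc_conj ρ ⊤ (isCyclic_of_surjective _ topEquiv.symm.surjective)⟩
  have pw : ∀ {k m : ℕ}, 2 ≤ k → 1 ≤ m → k ^ m = Fintype.card F → ∃ b, 0 < b ∧ k = ℓ ^ b := fun {k m} a b c => by
    obtain ⟨n, -, hn⟩ := FiniteField.card F ℓ
    obtain ⟨i, -, rfl⟩ := (Nat.dvd_prime_pow hl).1 (hn ▸ c ▸ dvd_pow_self k (by omega) : k ∣ ℓ ^ (n : ℕ))
    exact ⟨i, Nat.pos_of_ne_zero fun e => by simp [e] at a, rfl⟩
  rw [index_ker]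
  rcases L.Dk.clsF ℓ ρ.range with ⟨x, hx⟩ | ⟨h, -⟩ | ⟨C, h, -, hi, -⟩ | ⟨⟨e⟩⟩ | ⟨⟨e⟩⟩ | ⟨⟨e⟩⟩ | ⟨K, _, _, m, hm, hK, ⟨e⟩⟩ | ⟨K, _, _, m, hm, hK, ⟨e⟩⟩
  · by_cases e : ℓ ∣ Nat.card ρ.range
    · refine .inl ⟨e, fun a b ha hb => ?_⟩
      obtain ⟨σ, f, -, hf⟩ := L.Dk.exists_mult ρ.range (x := x) fun g hg => hx ⟨g, hg⟩
      have k : ∀ a : G, a ^ ℓ = 1 → ∃ t, ρ a = σ * L.Dk.aff 1 t * σ⁻¹ := fun a ha => by
        obtain ⟨t, ht⟩ := hf (ρ.rangeRestrict a)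
        rw [L.Dk.unit_eq_one_of_pow ℓ (a := f _) (by rw [← map_pow, ← map_pow, ha, map_one, map_one])] at ht
        exact ⟨t, ht⟩
      obtain ⟨s, hs⟩ := k a ha
      obtain ⟨t, ht⟩ := k b hb
      rw [MonoidHom.mem_ker, map_commutatorElement, commutatorElement_eq_one_iff_mul_comm, hs, ht, conj_mul, conj_mul, L.Dk.aff_mul, L.Dk.aff_mul]
      simp [add_comm]
    · exact .inr (.inl (cy (L.Dk.isCyclic_of_fix ℓ ρ.range (x := x) (fun g hg => hx ⟨g, hg⟩) e)))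
  · exact .inr (.inl (cy h))
  · have := normal_of_index_eq_two hi
    exact .inr (.inl ⟨_, .inr ((index_comap_of_surjective _ ρ.rangeRestrict_surjective).trans hi), cyc_conj ρ C h⟩)
  · refine .inr (.inr (.inl (.inl ?_)))
    rw [Nat.card_congr e.toEquiv, nat_card_alternatingGroup]; simp [Nat.factorial]
  · refine .inr (.inr (.inl (.inr (.inl ?_))))
    rw [Nat.card_congr e.toEquiv, Nat.card_perm]; simp [Nat.factorial]
  · refine .inr (.inr (.inl (.inr (.inr ?_))))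
    rw [Nat.card_congr e.toEquiv, nat_card_alternatingGroup]; simp [Nat.factorial]
  · obtain ⟨b, b0, hb⟩ := pw Fintype.one_lt_card hm hK
    exact .inr (.inr (.inr ⟨b, 1, b0, hl.not_dvd_one, by rw [mul_one, Nat.card_congr e.toEquiv, L.Dk.card_PGL2, hb]⟩))
  · obtain ⟨b, b0, hb⟩ := pw Fintype.one_lt_card hm hK
    refine .inr (.inr (.inr ⟨b, L.Dk.dd K, b0, fun e => ?_, by rw [mul_comm, Nat.card_congr e.toEquiv, L.Dk.card_psl, hb]⟩))
    rcases L.Dk.dd_cases (F := K) with ⟨-, a⟩ | ⟨a, c⟩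
    · exact hl.not_dvd_one (a ▸ e)
    · rw [c, Nat.prime_dvd_prime_iff_eq hl Nat.prime_two] at e
      have : 2 ∣ Fintype.card K := hb ▸ e ▸ dvd_pow_self _ b0.ne'
      omega

variable {G G' : Type*} [Group G] [Group G'] {r : ℕ}

/-- Some involution normalises a nontrivial `r`-subgroup. -/
def Bad (r : ℕ) (G : Type*) [Group G] : Prop := ∃ R : Subgroup G, R ≠ ⊥ ∧ IsPGroup r R ∧ ∃ z : G, orderOf z = 2 ∧ ∀ y ∈ R, z * y * z⁻¹ ∈ R

theorem Bad.map (h : Bad r G) (f : G →* G') (hf : Function.Injective f) : Bad r G' := by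
  obtain ⟨R, h1, h2, z, h3, h4⟩ := h
  refine ⟨R.map f, fun e => h1 ((map_eq_bot_iff_of_injective _ hf).1 e), h2.map f, f z, (orderOf_injective f hf z).trans h3, ?_⟩
  rintro _ ⟨y, hy, rfl⟩
  exact ⟨_, h4 y hy, by simp⟩

variable [Finite G] [Fact r.Prime]

theorem bad_of (R : Subgroup G) (h1 : R ≠ ⊥) (h2 : IsPGroup r R) (h3 : 2 ∣ Nat.card (normalizer (R : Set G))) : Bad r G :=
  let ⟨z, hz⟩ := exists_prime_orderOf_dvd_card' 2 h3
  ⟨R, h1, h2, z, (orderOf_coe z).trans hz, fun y => (z.2 y).1⟩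

theorem frat (M : Subgroup G) [M.Normal] (h1 : Odd (Nat.card M)) (h2 : 2 ∣ Nat.card G) (h3 : r ∣ Nat.card M) : Bad r G := by
  obtain ⟨P⟩ : Nonempty (Sylow r M) := inferInstance
  refine bad_of ((P : Subgroup M).map M.subtype) (fun e => P.ne_bot_of_dvd_card h3 ((map_eq_bot_iff_of_injective _ M.subtype_injective).1 e))
    (P.isPGroup'.map _) ?_
  rw [← M.card_mul_index, ← relIndex_top_right, ← P.normalizer_sup_eq_top, relIndex_sup_right] at h2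
  exact ((Nat.prime_two.dvd_mul.1 h2).resolve_left h1.not_two_dvd_nat).trans (relIndex_dvd_card _ _)

theorem zst (P : Sylow 2 G) {z : G} (hz : orderOf z = 2) (h1 : z ∈ P) (h2 : ∀ g : G, g * z * g⁻¹ ∈ P → g * z * g⁻¹ = z) (h3 : r ∣ Nat.card G)
    (h4 : r ≠ 2) : Bad r G := by
  obtain ⟨N, _, n1, n2⟩ := Cfsg.Agent.S0215.result P z hz h1 h2
  obtain ⟨y, hy⟩ := exists_prime_orderOf_dvd_card' r h3
  have hr : r.Prime := Fact.out
  have k : ∀ {a}, (∀ g, a * g * a⁻¹ * g⁻¹ ∈ N) → ∀ g ∈ zpowers y ⊔ N, a * g * a⁻¹ ∈ zpowers y ⊔ N := fun {a} ha g hg => by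
    simpa using mul_mem (mem_sup_right (ha g)) hg
  have z1 : z ∈ normalizer ((zpowers y ⊔ N : Subgroup G) : Set G) := mem_normalizer_fintype (k n2)
  have e := Nat.card_congr (subgroupOfEquivOfLe (le_normalizer (H := zpowers y ⊔ N))).toEquiv
  refine (frat ((zpowers y ⊔ N).subgroupOf (normalizer ((zpowers y ⊔ N : Subgroup G) : Set G))) ?_ (hz ▸ orderOf_dvd_natCard _ z1) ?_).map _
    (subtype_injective _) <;> rw [e]
  · rw [← card_mul_rel N, inf_eq_left.2 le_sup_right, relIndex_sup_right]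
    exact n1.mul (Odd.of_dvd_nat (hr.odd_of_ne_two h4) (hy ▸ Nat.card_zpowers y ▸ relIndex_dvd_card _ _))
  · exact hy ▸ orderOf_dvd_natCard _ (mem_sup_left (mem_zpowers y))

theorem syl (h : ¬ Bad r G) (hr : r ∣ Nat.card G) : ∃ n o, n * o = Nat.card G ∧ n % r = 1 % r ∧ o % 2 = 1 ∧ r ∣ o ∧
    (o = 3 * r → r ≠ 3 → (∃ ω ∈ center G, orderOf ω = 3) → ∃ N : Subgroup G, N.Normal ∧ N.index = r) := by
  obtain ⟨P⟩ : Nonempty (Sylow r G) := inferInstance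
  have hp : r.Prime := Fact.out
  have h1 := card_dvd_of_le (le_normalizer (H := (P : Subgroup G)))
  have h2 := P.dvd_card_of_dvd_card hr
  refine ⟨_, _, index_mul_card _, P.card_eq_index_normalizer ▸ card_sylow_modEq_one r G, by
    have := mt (bad_of _ (P.ne_bot_of_dvd_card hr) P.isPGroup') h; omega, h2.trans h1, fun e h3 ⟨ω, w1, w2⟩ => ?_⟩
  have h4 : r.Coprime 3 := (Nat.coprime_primes hp Nat.prime_three).2 h3
  have h5 : Nat.card P = r := by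
    obtain ⟨k, hk⟩ := P.isPGroup'.exists_card_eq
    exact Nat.dvd_antisymm ((hk ▸ h4.pow_left k).dvd_of_dvd_mul_left (e ▸ h1)) h2
  have := isCyclic_of_prime_card h5
  have h6 : centralizer (P : Set G) = normalizer (P : Set G) := eq_of_le_of_card_ge (centralizer_le_normalizer _) (e.le.trans (Nat.le_of_dvd Nat.card_pos
    (h4.symm.mul_dvd_of_dvd_of_dvd (w2 ▸ orderOf_dvd_natCard _ (center_le_centralizer _ w1)) (h5.symm.dvd.trans (card_dvd_of_le (le_centralizer (P : Subgroup G)))))))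
  exact ⟨_, inferInstance, (MonoidHom.ker_transferSylow_isComplement' P h6.ge).symm.index_eq_card.trans h5⟩

theorem orb {ℓ : ℕ} [Fact ℓ.Prime] {K P Q : Subgroup G} (hP : IsPGroup ℓ P) (hQ : IsPGroup ℓ Q) (h1 : ∀ k, (∀ g ∈ Q, k⁻¹ * g * k ∈ K) ↔ k ∈ K) :
    ∃ k, ∀ g ∈ P, k⁻¹ * g * k ∈ K := by
  have key : ∀ (Q : Subgroup G) (k : G), (k : G ⧸ K) ∈ MulAction.fixedPoints Q (G ⧸ K) ↔ ∀ g ∈ Q, k⁻¹ * g * k ∈ K := fun Q k =>
    ⟨fun h g hg => by rw [mul_assoc]; exact QuotientGroup.eq.1 (h ⟨g, hg⟩).symm, fun h g =>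
      (QuotientGroup.eq.2 (show k⁻¹ * (g * k) ∈ K by rw [← mul_assoc]; exact h g g.2)).symm⟩
  obtain ⟨x, hx⟩ := hP.nonempty_fixed_point_of_prime_not_dvd_card (G ⧸ K) fun e => by
    obtain ⟨b, b1, b2⟩ := hQ.exists_fixed_point_of_prime_dvd_card_of_fixed_point (G ⧸ K) e ((key Q 1).2 ((h1 1).2 (one_mem _)))
    obtain ⟨k, rfl⟩ := QuotientGroup.mk_surjective b
    exact b2 (QuotientGroup.eq.2 (by simpa using (h1 k).1 ((key Q k).1 b1)))
  obtain ⟨k, rfl⟩ := QuotientGroup.mk_surjective x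
  exact ⟨k, (key P k).1 hx⟩

omit [Fact r.Prime] in
theorem fpf {S : Subgroup G} {y s : G} (h1 : ∀ a ∈ S, y⁻¹ * a * y ∈ S) (h2 : ∀ a ∈ S, y * a = a * y → a = 1) (hs : s ∈ S) :
    ∃ a ∈ S, a⁻¹ * y * a = y * s := by
  obtain ⟨a, ha⟩ := Finite.surjective_of_injective (f := fun a : S => (⟨y⁻¹ * a⁻¹ * y * a, mul_mem (h1 _ (inv_mem a.2)) a.2⟩ : S)) (fun a b e =>
    Subtype.ext (mul_inv_eq_one.1 (h2 _ (mul_mem a.2 (inv_mem b.2)) (by
      have e' : y⁻¹ * a⁻¹ * y * a = y⁻¹ * b⁻¹ * y * b := congrArg Subtype.val e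
      calc y * (a * b⁻¹) = a * y * (y⁻¹ * a⁻¹ * y * a) * b⁻¹ := by simp [mul_assoc]
        _ = _ := by rw [e']; simp [mul_assoc])))) ⟨s, hs⟩
  exact ⟨a, a.2, by rw [← show _ = s from congrArg Subtype.val ha]; simp [mul_assoc]⟩

end H24.MD.U3
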