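import Cfsg.Agent.H24.U4A
import Cfsg.Agent.H24.SpC

/-!
# Minimal index for `SU₄(q)`: local analysis at an isotropic point (namespace `H24.MD.U4`)
-/

set_option autoImplicit false
set_option linter.unusedSectionVars false

open Subgroup H20 H10 H10.Form Module

namespace H24.MD.U4

open O (Fl ix)
open T U

variable {F V : Type*} [Field F] [Finite F] [AddCommGroup V] [Module F V] [Finite V] {φ : Form F V} [φ.Nondeg]
  {H J K : Subgroup φ.Isom} {p x w u v f y z : V} {s t c : F} {q : ℕ}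

variable (φ p u v) in
/-- The rational subspace spanned by `u`, `v` modulo `p`. -/
def NN : AddSubgroup V where
  carrier := {w | φ.B p w = 0 ∧ φ.T (φ.B u w) = 0 ∧ φ.T (φ.B v w) = 0}
  zero_mem' := by simp
  add_mem' := fun a b => by simp [a.1, a.2, b.1, b.2]
  neg_mem' := fun a => by simp [a.1, a.2]

theorem uq (hp : φ.Q p = 0) (hw : φ.B p w = 0) (hs : φ.T s = φ.Q w) (ht : φ.T t = φ.Q w) (h1 : φ.siegel p w s ∈ H) (h2 : φ.siegel p w t ∈ H) :
    t - s ∈ Zs H p := ⟨by simp [hs, ht], fun _ => by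
  have := mul_mem (inv_mem h1) h2
  rwa [show φ.siegel p w t = φ.siegel p w s * φ.siegel p 0 (t - s) by
    rw [φ.siegel_mul hp hw hs (by simp) (by simp [hs, ht])]; simp, inv_mul_cancel_left] at this⟩

theorem card_out {X : AddSubgroup V} (hp0 : p ≠ 0) (h1 : ∀ c : F, c • p ∈ X) : ((X : Set V) \ (F ∙ p)).ncard + Nat.card F = Nat.card X := by
  have := Set.ncard_sdiff_add_ncard_of_subset (show ((F ∙ p : Submodule F V) : Set V) ⊆ X from fun _ h =>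
    let ⟨c, e⟩ := Submodule.mem_span_singleton.1 h; e ▸ h1 c)
  rwa [show Set.ncard ((F ∙ p : Submodule F V) : Set V) = _ from (card_sub _).trans (by rw [finrank_span_singleton hp0, pow_one])] at this

variable (h : φ.IsUnitary q)
include h

theorem si_shift (hp : φ.Q p = 0) (hw : φ.B p w = 0) (hs : φ.T s = φ.Q w) (c : F) :
    φ.siegel p (w + c • p) s = φ.siegel p w (s + c - φ.σ c) := by
  have := φ.siegel_mul (w' := c • p) (s' := 0) hp hw hs (by simp [φ.B_self_eq_zero hp]) (by simp [φ.Q_smul_of_sing hp])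
  rw [siegel_self hp (by simp), φ.siegel_mul hp hw hs (by simp) (by simp [h.herm.T_eq, h.herm.ε_eq])] at this
  simpa [φ.B_symm_zero hw, h.herm.ε_eq, add_sub_assoc] using this.symm

theorem NN.smul (hw : w ∈ NN φ p u v) (hc : φ.σ c = c) : c • w ∈ NN φ p u v := ⟨by simp [hw.1], by simp [T_fix h hc, hw.2.1], by simp [T_fix h hc, hw.2.2]⟩

theorem fix_div (hs : φ.T s = 0) (ht : φ.T t = 0) : φ.σ (s / t) = s / t := by simp [skew h hs, skew h ht]

variable (hd : finrank F V = 4)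
include hd

section N

variable (hf : Fl φ p u) (hv : φ.Q v = 0) (h1 : φ.B p v = 0) (h2 : φ.B u v ≠ 0) (h3 : φ.T (φ.B u v) = 0)
include hf hv h1 h2 h3

theorem ex_fr2 : ∃ f, Fr φ p u ((φ.B u v)⁻¹ • v) f := by
  have a := isHyp_of_ne hf.qx hv h2
  obtain ⟨f, f1, f2⟩ := φ.exists_partner (W := Submodule.span F {u, v}) hf.qp (fun e => by
    obtain ⟨a, b, e⟩ := Submodule.mem_span_pair.1 e
    have := congrArg (φ.B u) e
    simp [φ.B_self_eq_zero hf.qx, hf.symm.b, h2] at this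
    exact hf.symm.ne (by simp [← e, this, mem_sp])) (φ.mem_perp_pair.2 ⟨hf.symm.b, φ.B_symm_zero h1⟩)
  exact ⟨f, f2, a, hf.b, by simp [h1], φ.B_symm_zero (φ.mem_perp_pair.1 f1).1, by simp [φ.B_symm_zero (φ.mem_perp_pair.1 f1).2]⟩

theorem Bvu : φ.B v u = -φ.B u v := by rw [h.herm.B_comm, skew h h3]

theorem decN (hw : φ.B p w = 0) : ∃ a : F, w = a • p + (-φ.B v w / φ.B u v) • u + (φ.B u w / φ.B u v) • v ∧
    (w ∈ NN φ p u v → φ.σ (-φ.B v w / φ.B u v) = -φ.B v w / φ.B u v ∧ φ.σ (φ.B u w / φ.B u v) = φ.B u w / φ.B u v) := by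
  obtain ⟨f, a⟩ := ex_fr2 h hd hf hv h1 h2 h3
  refine ⟨φ.B f w, (a.dec h hd w).trans ?_, fun e => ⟨fix_div h (by simp [e.2.2]) h3, fix_div h e.2.1 h3⟩⟩
  simp only [φ.B_smul_left, map_inv₀, skew h h3, hw]
  match_scalars <;> field_simp

theorem NN.TB (hw : w ∈ NN φ p u v) (hy : y ∈ NN φ p u v) : φ.T (φ.B w y) = 0 := by
  obtain ⟨a, e, e'⟩ := decN h hd hf hv h1 h2 h3 hw.1
  rw [e]
  simp only [map_add, LinearMap.add_apply, φ.B_smul_left, hy.1, (e' hw).1, (e' hw).2, T_fix h (e' hw).1, T_fix h (e' hw).2, hy.2.1, hy.2.2]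
  simp

theorem NN.Q (hw : w ∈ NN φ p u v) : φ.Q w = 0 := by
  obtain ⟨a, e, e'⟩ := decN h hd hf hv h1 h2 h3 hw.1
  obtain ⟨e1, e2⟩ := e' hw
  generalize -φ.B v w / φ.B u v = α at *
  generalize φ.B u w / φ.B u v = β at *
  simp [e, φ.Q_add, φ.Q_smul, hf.qp, hf.qx, hv, hf.b, h1, e1, ← mul_assoc, T_fix h (show φ.σ (β * α) = β * α by simp [e1, e2]), h3]

theorem NN.mem {a b c : F} (hb : φ.σ b = b) (hc : φ.σ c = c) : a • p + b • u + c • v ∈ NN φ p u v := by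
  simp [NN, φ.B_self_eq_zero hf.qp, φ.B_self_eq_zero hf.qx, φ.B_self_eq_zero hv, hf.b, hf.symm.b, h1, φ.B_symm_zero h1, T_fix h hb, T_fix h hc, h3,
    φ.T_B_comm u v]

theorem NN.card : Nat.card (NN φ p u v) = q ^ 4 := by
  obtain ⟨f, fr⟩ := ex_fr2 h hd hf hv h1 h2 h3
  rw [show q ^ 4 = Nat.card (F × φ.T.ker × φ.T.ker) by rw [Nat.card_prod, Nat.card_prod, h.card, h.card_ker_T]; ring]
  refine Nat.card_eq_of_bijective (fun w => (φ.B f w, ⟨φ.B u w, w.2.2.1⟩, ⟨φ.B v w, w.2.2.2⟩)) ⟨fun w y e => Subtype.ext ?_, fun ⟨a, s, t⟩ =>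
    ⟨⟨a • p + (-t / φ.B u v) • u + (s / φ.B u v) • v, NN.mem h hd hf hv h1 h2 h3 (fix_div h (neg_mem t.2) h3) (fix_div h s.2 h3)⟩, ?_⟩⟩
  · have e1 : φ.B f w = φ.B f y := congrArg (·.1) e
    have e2 : φ.B u w = φ.B u y := congrArg (·.2.1.1) e
    have e3 : φ.B v w = φ.B v y := congrArg (·.2.2.1) e
    rw [fr.dec h hd w, fr.dec h hd y]; simp [e1, e2, e3, w.2.1, y.2.1]
  · have := fr.fv
    simp only [φ.B_smul_right, mul_eq_zero, inv_eq_zero, h2, false_or] at this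
    simp [Bfe h fr.pf, fr.fu, this, φ.B_self_eq_zero hf.qx, φ.B_self_eq_zero hv, hf.symm.b, φ.B_symm_zero h1, Bvu h hd hf hv h1 h2 h3, h2]

theorem NN.rad (hw : φ.B p w = 0) (e1 : φ.B u w = 0) (e2 : φ.B v w = 0) : w ∈ F ∙ p := by
  obtain ⟨a, e, -⟩ := decN h hd hf hv h1 h2 h3 hw
  rw [e]; simp [e1, e2, mem_sp]

theorem NN.tv (hx : x ∈ NN φ p u v) (hs : φ.T s = 0) : φ.siegel x 0 s ∈ stb (NN φ p u v : Set V) ⊓ P1 φ p := by
  have a := NN.Q h hd hf hv h1 h2 h3 hx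
  refine ⟨fun w hw => ?_, by simp [U4.tv h a hs, φ.B_symm_zero hx.1], tv_E a hs⟩
  rw [U4.tv h a hs]
  exact sub_mem hw (NN.smul h hx (by rw [map_mul, skew h hs, skew h (NN.TB h hd hf hv h1 h2 h3 hx hw), neg_mul_neg]))

theorem NN.tr (hy : y ∈ NN φ p u v) (hy' : y ∉ F ∙ p) (hz : z ∈ NN φ p u v) (hz' : z ∉ F ∙ p) :
    ∃ g ∈ stb (NN φ p u v : Set V) ⊓ P1 φ p, g • y = z := by
  have step : ∀ {y z}, y ∈ NN φ p u v → z ∈ NN φ p u v → φ.B z y ≠ 0 → ∃ g ∈ stb (NN φ p u v : Set V) ⊓ P1 φ p, g • y = z := fun {y z} a b e => by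
    have e' : φ.T (-(φ.B z y)⁻¹) = 0 := by simp [h.herm.T_eq, skew h (NN.TB h hd hf hv h1 h2 h3 b a)]
    exact ⟨_, NN.tv h hd hf hv h1 h2 h3 (sub_mem b a) e', by
      simp [U4.tv h (NN.Q h hd hf hv h1 h2 h3 (sub_mem b a)) e', φ.B_self_eq_zero (NN.Q h hd hf hv h1 h2 h3 a), e]⟩
  have a1 : u ∈ NN φ p u v := by simpa using NN.mem h hd hf hv h1 h2 h3 (a := 0) (map_one _) (map_zero _)
  have a2 : v ∈ NN φ p u v := by simpa using NN.mem h hd hf hv h1 h2 h3 (a := 0) (map_zero _) (map_one _)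
  obtain ⟨m, m1, m2, m3⟩ : ∃ m ∈ NN φ p u v, φ.B m y ≠ 0 ∧ φ.B m z ≠ 0 := by
    have b1 := mt (fun e : _ ∧ _ => NN.rad h hd hf hv h1 h2 h3 hy.1 e.1 e.2) hy'
    have b2 := mt (fun e : _ ∧ _ => NN.rad h hd hf hv h1 h2 h3 hz.1 e.1 e.2) hz'
    by_contra! e
    have c1 := e u a1
    have c2 := e v a2
    have c3 := e _ (add_mem a1 a2)
    by_cases d1 : φ.B u y = 0 <;> by_cases d2 : φ.B v y = 0 <;> simp_all
  obtain ⟨g, g1, g2⟩ := step hy m1 m2
  obtain ⟨k, k1, k2⟩ := step m1 hz (mt φ.B_symm_zero m3)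
  exact ⟨k * g, mul_mem k1 g1, by rw [mul_smul, g2, k2]⟩

end N

variable (hp : φ.Q p = 0) (hp0 : p ≠ 0) (hD : ¬ φ.T.ker ≤ Zs H p) (hm : H.relIndex φ.E < (q + 1) * (q ^ 3 + 1))
include hp hp0 hD

theorem cardA : Nat.card (aa H p) * (aa H p).relIndex (φ.perp (F ∙ p)).toAddSubgroup = q ^ 6 ∧ Nat.card (aa H p) ≤ q ^ 4 ∧
    q ^ 2 ≤ (aa H p).relIndex (φ.perp (F ∙ p)).toAddSubgroup := by
  have h1 := acard_mul (show aa H p ≤ (φ.perp (F ∙ p)).toAddSubgroup from fun _ a => a.1)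
  have h2 := pair (spc h (by omega)) hD (aa H p) (aa H p) (F ∙ p) (fun _ a => a.1) fun _ a _ => aa_comm hp a
  rw [show Nat.card (φ.perp (F ∙ p)).toAddSubgroup = _ from card_sub _, show finrank F (φ.perp (F ∙ p)) = 3 by
    have := φ.finrank_perp_singleton hp0; omega, h.card, ← pow_mul] at h1
  rw [hd, h.card, ← pow_mul, show q ^ (2 * 4) = q ^ 4 * q ^ 4 by ring, Nat.mul_self_le_mul_self_iff] at h2
  exact ⟨h1, h2, Nat.le_of_mul_le_mul_left (c := q ^ 4) ((show _ = q ^ (2 * 3) by ring).trans_le (h1.ge.trans (Nat.mul_le_mul_right _ h2)))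
    (pow_pos (by have := h.two_le; omega) _)⟩

theorem mv (hc : c ≠ 0) : ∃ g ∈ pt F p ⊓ φ.E, g • p = c • p :=
  let ⟨g, g1, g2⟩ := (h.big (by omega)).exists_E_map_sing hp hp0 (φ.Q_smul_of_sing hp c) (smul_ne_zero hc hp0); ⟨g, ⟨⟨c, g2⟩, g1⟩, g2⟩

theorem loc0 : q * ((JJ H hp hp0).relIndex (P1 φ p) * (aa H p).relIndex (φ.perp (F ∙ p)).toAddSubgroup) ≤ ix H p ∧
    (Zs H p ≠ ⊥ → (q + 2) * ((JJ H hp hp0).relIndex (P1 φ p) * (aa H p).relIndex (φ.perp (F ∙ p)).toAddSubgroup) ≤ ix H p) := by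
  obtain ⟨t, t1, t2, t3⟩ := tzK (hp := hp) (hp0 := hp0) h hD (K := pt F p ⊓ φ.E) inf_le_left fun n n0 n1 =>
    let ⟨c, hc⟩ := h.exists_norm n1; let ⟨g, g1, g2⟩ := mv h hd hp hp0 hD (c := c) fun e => n0 (by simp [← hc, e]); ⟨g, g1, c, g2, hc⟩
  rw [inf_eq_right.2 P1_le] at t1
  have := (Nat.mul_le_mul_right _ t1).trans (base' (H := H) (hp := hp) (hp0 := hp0))
  exact ⟨(Nat.mul_le_mul_right _ t2).trans ((le_of_eq (by ring)).trans this), fun e =>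
    (Nat.mul_le_mul_right _ (t3 e)).trans ((le_of_eq (by ring)).trans this)⟩

include hm

theorem iso (hu : u ∈ aa H p) : φ.Q u = 0 := by_contra fun hQ => by
  have hm' := (O.ix_le p).trans_lt hm
  have hq := h.two_le
  obtain ⟨-, a1, a2⟩ := cardA h hd hp hp0 hD
  obtain ⟨a3, a4⟩ := loc0 h hd hp hp0 hD
  have a5 := (card_nu h hd hp hp0 (h.herm.σ_Q u)).trans (ncard_le_act (JJ H hp hp0) (P1 φ p) (· • ·) (fun _ _ _ _ => mul_smul _ _) u
    (S := {w | w ∈ aa H p ∧ φ.Q w = φ.Q u}) (fun z hz => wit h hd hp hp0 (perp1 p u hu.1) hz.1 hQ hz.2)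
    fun j a b => ⟨SA_one hp0 (JJ_SA b) a.1 hu, Q_act j u⟩)
  have a6 := card_out hp0 (self_aa (H := H) hp)
  have a7 := base' (H := H) (hp := hp) (hp0 := hp0)
  have out : ∀ {w}, φ.Q w ≠ 0 → w ∉ F ∙ p := fun hz e => by
    obtain ⟨c, rfl⟩ := Submodule.mem_span_singleton.1 e
    exact hz (φ.Q_smul_of_sing hp c)
  rw [h.card] at a6
  generalize (aa H p).relIndex (φ.perp (F ∙ p)).toAddSubgroup = j at *
  have key : ∀ c, c * {w | w ∈ aa H p ∧ φ.Q w = φ.Q u}.ncard ≤ ((aa H p : Set V) \ (F ∙ p)).ncard →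
      c * q ^ 3 ≤ (JJ H hp hp0).relIndex (P1 φ p) * j := fun c e => by
    obtain ⟨k, hk⟩ : ∃ k, q ^ 2 = k + 1 := Nat.exists_eq_add_one.2 (by positivity)
    rw [hk, Nat.add_sub_cancel, ← hk] at a5
    have e1 : c * {w | w ∈ aa H p ∧ φ.Q w = φ.Q u}.ncard ≤ q ^ 2 * k := by nlinarith
    refine Nat.le_of_mul_le_mul_left (c := q ^ 2 * k) ?_ (Nat.mul_pos (by positivity) (by nlinarith))
    calc _ = c * (q ^ 2 * (k * q)) * q ^ 2 := by ring
      _ ≤ c * (_ * _) * j := Nat.mul_le_mul (Nat.mul_le_mul_left c a5) a2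
      _ = _ := by rw [mul_left_comm, mul_right_comm]
      _ ≤ _ := (Nat.mul_le_mul_left _ e1).trans_eq (mul_comm _ _)
  have k1 := key 1 (by rw [one_mul]; exact Set.ncard_le_ncard fun w hw => ⟨hw.1, out (hw.2 ▸ hQ)⟩)
  have b0 : q + 1 ≤ q ^ 3 := by nlinarith [Nat.mul_le_mul hq hq]
  have b1 : Zs H p = ⊥ := by_contra fun e => by nlinarith [a4 e, Nat.mul_le_mul_left (q + 2) k1]
  by_cases h2 : (2 : F) = 0
  · obtain ⟨u1, s, s1, s2⟩ := (mem_aa hp).1 hu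
    have := mul_mem s2 s2
    rw [φ.siegel_mul hp u1 s1 u1 s1, ← two_smul F u, ← two_mul, h2, zero_smul, zero_mul, zero_add, ← h.herm.Q_eq] at this
    exact hQ (b1.le ⟨by rw [h.herm.T_eq, h.herm.σ_Q, ← two_mul, h2, zero_mul], fun _ => this⟩)
  obtain ⟨c, hc⟩ := h.exists_norm (c := -1) (by simp)
  have c0 : c ≠ 0 := fun e => by simp [e] at hc
  obtain ⟨g, g1, g2⟩ := mv h hd hp hp0 hD c0
  let J : Subgroup φ.Isom := mkSub (fun g => ∃ h ∈ H, ∃ c : F, g • p = c • p ∧ h • p = c • p) ⟨1, one_mem H, 1, by simp⟩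
    fun a b ⟨h, h1, c, h2, h3⟩ ⟨k, k1, d, k2, k3⟩ => ⟨h * k, mul_mem h1 k1, c * d, by rw [mul_smul, k2, smul_comm, h2, smul_smul, mul_comm],
      by rw [mul_smul, k3, smul_comm, h3, smul_smul, mul_comm]⟩
  rw [b1, AddSubgroup.relIndex_bot_left, h.card_ker_T] at a7
  by_cases e : g ∈ J
  · obtain ⟨k, k1, d, k2, k3⟩ := e
    rw [← k2, g2] at k3
    have := key 2 (by
      rw [two_mul]
      nth_rw 2 [← Set.ncard_image_of_injective _ (show Function.Injective fun w : V => φ.σ c • k • w from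
        (smul_right_injective V (φ.σ_eq_zero.not.2 c0)).comp (MulAction.injective k))]
      have e : ∀ w, φ.Q w = φ.Q u → φ.Q (φ.σ c • k • w) = -φ.Q u := fun w hw => by simp [φ.Q_smul, hw, mul_comm c, hc]
      rw [← Set.ncard_union_eq (Set.disjoint_left.2 (by
        rintro _ a ⟨w, b, rfl⟩
        exact mul_ne_zero h2 hQ (by linear_combination e w b.2 - a.2)))]
      refine Set.ncard_le_ncard (Set.union_subset (fun w hw => ⟨hw.1, out (hw.2 ▸ hQ)⟩) ?_)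
      rintro _ ⟨w, b, rfl⟩
      exact ⟨aa_conj hp c0 k1 k3 b.1, out (by rwa [e w b.2, neg_ne_zero])⟩)
    nlinarith [Nat.mul_le_mul_left q this, Nat.mul_le_mul_right (q ^ 3) hq]
  · have := (Nat.mul_le_mul_right _ (two_le_rel g1 e)).trans (chain (H := JJ H hp hp0) (J := J) (N := P1 φ p) (fun g hg =>
      let ⟨k, k1, k2, _⟩ := JJ_ex hg.1; let ⟨c, hc⟩ := hg.1.1; ⟨k, k1, c, hc, k2.trans hc⟩)
      fun g hg => ⟨⟨1, one_mem _, 1, by simpa using hg.1, by simp⟩, P1_le hg⟩)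
    nlinarith [Nat.mul_le_mul_right (j * q) this, Nat.mul_le_mul_left q k1, Nat.mul_le_mul_right (q ^ 3) hq]

theorem sur (h1 : q + 1 ≤ (SA H p).relIndex (pt F p ⊓ φ.E)) (h2 : Zs H p = ⊥) :
    q ^ 4 + q ^ 3 ≤ ix H p ∧ ∀ g ∈ SA H p ⊓ (pt F p ⊓ φ.E), g ∈ JJ H hp hp0 := by
  have hm' := (O.ix_le p).trans_lt hm
  have hq := h.two_le
  have a1 := base' (H := H) (hp := hp) (hp0 := hp0)
  rw [h2, AddSubgroup.relIndex_bot_left, h.card_ker_T] at a1
  have a2 := (Nat.mul_le_mul ((Nat.mul_le_mul_right _ h1).trans (chain (H := JJ H hp hp0) (inf_le_left.trans JJ_SA) le_rfl))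
    (Nat.mul_le_mul_right q (cardA h hd hp hp0 hD).2.2)).trans a1
  refine ⟨le_trans (le_of_eq (by ring)) ((Nat.mul_le_mul_right _ (Nat.le_mul_of_pos_right _ (rel_pos _ _))).trans a2), fun g hg => by_contra fun e => ?_⟩
  have := (Nat.mul_le_mul_right _ (Nat.mul_le_mul_left (q + 1) (two_le_rel hg e))).trans a2
  nlinarith [Nat.one_le_pow 3 q (by omega)]

theorem typeL (hu : u ∈ aa H p) (hu' : u ∉ F ∙ p) (h1 : ∀ w ∈ aa H p, w ∈ Submodule.span F {p, u}) : q ^ 4 + q ^ 3 ≤ ix H p ∧ Zs H p = ⊥ ∧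
    (∀ w ∈ Submodule.span F {p, u}, w ∈ aa H p) ∧ ∀ g ∈ pt F p ⊓ φ.E, g • u ∈ Submodule.span F {p, u} → g ∈ JJ H hp hp0 := by
  have hm' := (O.ix_le p).trans_lt hm
  have hq := h.two_le
  have hf : Fl φ p u := ⟨hp, iso h hd hp hp0 hD hm hu, perp1 p u hu.1, hp0, hu'⟩
  obtain ⟨a0, -, a2⟩ := cardA h hd hp hp0 hD
  obtain ⟨a3, a4⟩ := loc0 h hd hp hp0 hD
  have b1 := lines_ge h hd hf (J := SA H p) fun g a b => h1 _ (SA_one hp0 b a.1 hu)
  have b2 := b1.trans (rel_anti _ (JJ_SA (hp := hp) (hp0 := hp0)))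
  have b0 : q + 1 ≤ q ^ 3 := by nlinarith [Nat.mul_le_mul hq hq]
  have b3 : Zs H p = ⊥ := by_contra fun e => by nlinarith [a4 e, Nat.mul_le_mul_left (q + 2) (Nat.mul_le_mul b2 a2)]
  have b4 : (Submodule.span F {p, u}).toAddSubgroup ≤ aa H p := ale_of_card h1 (lt_of_not_ge fun e => by
    rw [show Nat.card (Submodule.span F {p, u}).toAddSubgroup = _ from hf.card, h.card] at e
    have : 2 * q ^ 2 ≤ (aa H p).relIndex (φ.perp (F ∙ p)).toAddSubgroup := Nat.le_of_mul_le_mul_left (c := (q ^ 2) ^ 2)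
      ((show _ = 2 * q ^ 6 by ring).trans_le (by rw [← a0, ← mul_assoc]; exact Nat.mul_le_mul_right _ e)) (by positivity)
    nlinarith [Nat.mul_le_mul_left q (Nat.mul_le_mul b2 this)])
  obtain ⟨c1, c2⟩ := sur h hd hp hp0 hD hm (b1.trans (rel_mono _ P1_le)) b3
  refine ⟨c1, b3, b4, fun g ⟨⟨c, hc⟩, g1⟩ g2 => c2 g ⟨⟨c, hc, fun w hw => b4 ?_⟩, ⟨c, hc⟩, g1⟩⟩
  obtain ⟨a, b, rfl⟩ := Submodule.mem_span_pair.1 (h1 w hw)
  rw [smul_add, smul_comm g, smul_comm g, hc]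
  exact Submodule.smul_mem _ _ (add_mem (Submodule.smul_mem _ _ (Submodule.smul_mem _ _ (mem_l p u))) (Submodule.smul_mem _ _ g2))

theorem typeS (hu : u ∈ aa H p) (hv : v ∈ aa H p) (h2 : φ.B u v ≠ 0) : q ^ 4 + q ^ 3 ≤ ix H p ∧ Zs H p = ⊥ ∧ (2 : F) = 0 ∧ q = 2 ∧
    aa H p = NN φ p u v ∧ ∀ a, φ.T a = 0 → φ.siegel u 0 a ∈ JJ H hp hp0 := by
  have hm' := (O.ix_le p).trans_lt hm
  have hq := h.two_le
  have i := fun w => iso h hd hp hp0 hD hm (u := w)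
  have i2 : ∀ a ∈ aa H p, ∀ b ∈ aa H p, φ.T (φ.B a b) = 0 := fun a ha b hb => by simpa [φ.Q_add, i a ha, i b hb] using i _ (add_mem ha hb)
  have h1 := perp1 p v hv.1
  have hf : Fl φ p u := ⟨hp, i u hu, perp1 p u hu.1, hp0, fun e => h2 (φ.mem_perp.1 hv.1 u e)⟩
  have h3 := i2 u hu v hv
  have n1 : aa H p ≤ NN φ p u v := fun w hw => ⟨perp1 p w hw.1, i2 u hu w hw, i2 v hv w hw⟩
  have nm := fun a b c => NN.mem h hd hf (i v hv) h1 h2 h3 (a := a) (b := b) (c := c)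
  have n0 : ∀ c : F, c • p ∈ NN φ p u v := fun c => n1 (self_aa hp c)
  obtain ⟨a0, -, a2⟩ := cardA h hd hp hp0 hD
  obtain ⟨a3, a4⟩ := loc0 h hd hp hp0 hD
  have b0 : q + 1 ≤ q ^ 3 := by nlinarith [Nat.mul_le_mul hq hq]
  have n2 : aa H p = NN φ p u v := n1.antisymm (by_contra fun e => by
    obtain ⟨ψ, c1, x, x1, x2⟩ := exists_char e
    obtain ⟨χ, -, t, t1, t2⟩ := exists_char (Ξ := ⊥) (T := φ.T.ker) fun e => let ⟨t, a, b⟩ := h.exists_skew; a (e b)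
    have nd : ∀ w, φ.B p w = 0 → φ.T (φ.B u w) = 0 → φ.T (φ.B v w) = 0 → (∀ y ∈ NN φ p u v, χ (φ.B y w) = 1) → φ.B u w = 0 ∧ φ.B v w = 0 :=
      fun w _ w2 w3 e => ⟨by_contra fun e' => t2 (by simpa [fix_div h t1 w2, e'] using e _ (NN.smul h (n1 hu) (fix_div h t1 w2))),
        by_contra fun e' => t2 (by simpa [fix_div h t1 w3, e'] using e _ (NN.smul h (n1 hv) (fix_div h t1 w3)))⟩
    let ι : φ.T.ker × φ.T.ker →+ V := AddMonoidHom.mk' (fun a => (a.1 / φ.B u v : F) • u + (a.2 / φ.B u v : F) • v) fun a b => by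
      simp only [Prod.fst_add, Prod.snd_add, AddSubgroup.coe_add, add_div]; module
    have ι1 : ∀ a, ι a ∈ NN φ p u v := fun a => by simpa [ι] using nm 0 _ _ (fix_div h a.1.2 h3) (fix_div h a.2.2 h3)
    have ι2 : ∀ y ∈ NN φ p u v, ∃ (c : F), ∃ a, y = c • p + ι a := fun y hy =>
      let ⟨c, e, _⟩ := decN h hd hf (i v hv) h1 h2 h3 hy.1; ⟨c, (⟨_, neg_mem hy.2.2⟩, ⟨_, hy.2.1⟩), e.trans (add_assoc ..)⟩
    obtain ⟨b, hb⟩ := exists_rep (AddMonoidHom.mk' (fun a => (φ.B (ι a)).toAddMonoidHom.comp ι) fun a b => by ext <;> simp) χ (fun b hb => by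
      have := nd (ι b) (ι1 b).1 (ι1 b).2.1 (ι1 b).2.2 fun y hy => by
        obtain ⟨c, a, rfl⟩ := ι2 y hy
        simpa [(ι1 b).1] using hb a
      simp [ι, φ.B_self_eq_zero hf.qx, φ.B_self_eq_zero (i v hv), h2, Bvu h hd hf (i v hv) h1 h2 h3] at this
      exact Prod.ext this.2 this.1) le_rfl (ψ.compAddMonoidHom ι)
    have hb' : ∀ y ∈ NN φ p u v, ψ y = χ (φ.B y (ι b)) := fun y hy => by
      obtain ⟨c, a, rfl⟩ := ι2 y hy
      simpa [AddChar.map_add_eq_mul, c1 _ (self_aa hp c), (ι1 b).1] using hb a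
    let X : AddSubgroup V :=
      { carrier := {w | w ∈ NN φ p u v ∧ ∀ y ∈ aa H p, χ (φ.B y w) = 1}
        zero_mem' := ⟨zero_mem _, by simp⟩
        add_mem' := fun a b => ⟨add_mem a.1 b.1, fun w hw => by simp [AddChar.map_add_eq_mul, a.2 w hw, b.2 w hw]⟩
        neg_mem' := fun a => ⟨neg_mem a.1, fun w hw => by simp [AddChar.map_neg_eq_inv, a.2 w hw]⟩ }
    have e1 := pair_le (AddMonoidHom.mk' (fun w => (φ.B.flip w).toAddMonoidHom) fun a b => by ext; simp) χ X (F ∙ p).toAddSubgroup (aa H p) _ n1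
      (fun a ha y hy => ha.2 y hy) fun a ha e => NN.rad h hd hf (i v hv) h1 h2 h3 ha.1.1 (nd a ha.1.1 ha.1.2.1 ha.1.2.2 e).1
        (nd a ha.1.1 ha.1.2.1 ha.1.2.2 e).2
    have e2 := card_out hp0 n0
    have e3 := card_out (X := X) hp0 fun c => ⟨n0 c, fun y hy => by simp [φ.B_symm_zero (perp1 p y hy.1)]⟩
    have e4 : ι b ∉ F ∙ p := fun e => x2 (by rw [hb' x x1, φ.mem_perp'.1 (φ.mem_perp_singleton.2 x1.1) _ e, AddChar.map_zero_eq_one])
    have e5 := (ncard_le_act (JJ H hp hp0) (stb (NN φ p u v : Set V) ⊓ P1 φ p) (· • ·) (fun _ _ _ _ => mul_smul _ _) (ι b)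
      (S := (X : Set V) \ (F ∙ p)) (O := (NN φ p u v : Set V) \ (F ∙ p)) (fun z hz => NN.tr h hd hf (i v hv) h1 h2 h3 (ι1 b) e4 hz.1 hz.2)
      fun j a c => ⟨⟨a.1 _ (ι1 b), fun y hy => by
        rw [← smul_inv_smul j y, B_act, ← hb' _ (n1 (SA_one hp0 (JJ_SA (inv_mem c)) ((P1 φ p).inv_mem a.2).1 hy))]
        exact c1 _ (SA_one hp0 (JJ_SA (inv_mem c)) ((P1 φ p).inv_mem a.2).1 hy)⟩, fun e => e4 (by
          obtain ⟨d, hd⟩ := Submodule.mem_span_singleton.1 e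
          rw [← inv_smul_smul j (ι b), ← hd, smul_comm, show j⁻¹ • p = p from ((P1 φ p).inv_mem a.2).1]; exact mem_sp p d)⟩).trans
      (Nat.mul_le_mul_right _ (rel_mono _ inf_le_right))
    rw [NN.card h hd hf (i v hv) h1 h2 h3] at e1 e2
    rw [show Nat.card (F ∙ p).toAddSubgroup = _ from (card_sub _).trans (by rw [finrank_span_singleton hp0, pow_one]), h.card] at e1
    rw [h.card] at e2 e3
    have e6 : Nat.card X ≤ (aa H p).relIndex (φ.perp (F ∙ p)).toAddSubgroup :=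
      Nat.le_of_mul_le_mul_left (by rw [a0, mul_comm]; exact e1.trans_eq (by ring)) (Nat.card_pos (α := aa H p))
    have e7 := rel_pos (JJ H hp hp0) (P1 φ p)
    have e8 : q ^ 4 ≤ (JJ H hp hp0).relIndex (P1 φ p) * (aa H p).relIndex (φ.perp (F ∙ p)).toAddSubgroup := by
      nlinarith [Nat.mul_le_mul_left ((JJ H hp hp0).relIndex (P1 φ p)) e6, Nat.mul_le_mul_right (q ^ 2) e7]
    nlinarith [Nat.mul_le_mul_left q e8, Nat.mul_le_mul_right (q ^ 4) hq, Nat.mul_le_mul_right (q ^ 3) hq])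
  have vu := Bvu h hd hf (i v hv) h1 h2 h3
  have h4 : (2 : F) = 0 := by_contra fun e => hD fun s hs => by
    have a := fix_div h hs (show φ.T (2 * φ.B u v) = 0 by simp [two_mul, h3])
    convert aa_comm hp (n2.ge (NN.smul h (n1 hu) a)) hv using 1
    rw [φ.B_smul_left, φ.B_smul_right, a, vu]; field_simp; ring
  have sq1 : ∀ {a b : F}, a * a = b * b → a = b := fun {a b} e => sub_eq_zero.1 (mul_self_eq_zero.1 (by linear_combination e + (b * b - a * b) * h4))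
  obtain ⟨f, fr⟩ := ex_fr2 h hd hf (i v hv) h1 h2 h3
  have b1 : q + 1 ≤ (SA H p).relIndex (pt F p ⊓ φ.E) := by
    choose c c0 c1 using fun μ : {a // φ.σ a * a = 1} => h.exists_h90 μ.2
    choose g g1 g2 g3 _ using fun μ => fr.gc h hd (c0 μ) (inv_ne_zero (c0 μ)) (by simp [c0 μ])
    rw [← h.card_norm one_ne_zero (map_one _)]
    refine le_rel _ _ g (fun μ => ⟨⟨_, g2 μ⟩, g1 μ⟩) fun a b e => Subtype.ext ?_
    have e1 : ∀ {x : V} {d : F}, d ≠ 0 → g a • x = d • x → (g a)⁻¹ • x = d⁻¹ • x := fun {x d} d0 e => by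
      rw [inv_smul_eq_iff, smul_comm, e, smul_smul, inv_mul_cancel₀ d0, one_smul]
    have := (n1 (SA_app (c := c b * (c a)⁻¹) hp0 e (by rw [mul_smul, g2, smul_comm, e1 (c0 a) (g2 a), smul_smul]) hu)).2.2
    rw [mul_smul, g3, smul_comm (g a)⁻¹, e1 (inv_ne_zero (c0 a)) (g3 a), smul_smul, smul_smul, φ.B_smul_right] at this
    have k := fix_of h (by simp [vu, h3]) (by simpa [vu]) this
    rw [← c1 a, ← c1 b]
    refine sq1 ?_
    have := c0 a; have := c0 b; have := φ.σ_eq_zero.not.2 (c0 a); have := φ.σ_eq_zero.not.2 (c0 b)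
    simp only [map_mul, map_inv₀, σ_σ, inv_inv] at k
    field_simp at k ⊢
    linear_combination -k
  have b3 : Zs H p = ⊥ := by_contra fun e => by
    obtain ⟨t, t1, -, t3⟩ := tzK (hp := hp) (hp0 := hp0) h hD (K := SA H p ⊓ (pt F p ⊓ φ.E)) (inf_le_right.trans inf_le_left) fun n n0 n1 => by
      obtain ⟨c, rfl⟩ := SpQ.sqrt2 h4 n
      have c1 : φ.σ c = c := sq1 (by rwa [← map_mul])
      obtain ⟨g, g1, g2, g3, g4⟩ := fr.gc h hd (left_ne_zero_of_mul n0) one_ne_zero (by simpa)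
      refine ⟨g, ⟨⟨c, g2, fun w hw => ?_⟩, ⟨c, g2⟩, g1⟩, c, g2, by rw [c1]⟩
      obtain ⟨a, e, e'⟩ := decN h hd hf (i v hv) h1 h2 h3 (perp1 p w hw.1)
      rw [map_one, inv_one, one_smul, smul_comm, smul_right_inj (inv_ne_zero h2)] at g4
      rw [n2, c1, e, smul_add g, smul_add g, smul_comm g, smul_comm g, smul_comm g, g2, g3, g4, one_smul, smul_smul a]
      exact NN.smul h (nm _ _ _ (e' (n2 ▸ hw)).1 (e' (n2 ▸ hw)).2) c1
    have := (Nat.mul_le_mul_right _ ((Nat.mul_le_mul b1 ((Nat.le_mul_of_pos_right _ (rel_pos _ _)).trans t1)).trans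
      (chain (H := JJ H hp hp0) (inf_le_left.trans JJ_SA) le_rfl))).trans (base' (H := H) (hp := hp) (hp0 := hp0))
    nlinarith [Nat.mul_le_mul (Nat.mul_le_mul_left (q + 1) (t3 e)) a2]
  obtain ⟨c1, c2⟩ := sur h hd hp hp0 hD hm b1 b3
  have c3 : ∀ a, φ.T a = 0 → φ.siegel u 0 a ∈ JJ H hp hp0 := fun a ha =>
    have := NN.tv h hd hf (i v hv) h1 h2 h3 (n1 hu) ha
    c2 _ ⟨⟨1, by simpa using this.2.1, fun w hw => by simpa [n2] using this.1 w (n2 ▸ hw)⟩, P1_le this.2⟩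
  refine ⟨c1, b3, h4, by_contra fun e => ?_, n2, c3⟩
  have fx : ∀ {a : F}, φ.T a = 0 → φ.σ a = a := fun {a} ha => (skew h ha).trans (by linear_combination -a * h4)
  have tf : ∀ {a : F}, φ.σ a = a → φ.T a = 0 := fun {a} ha => by rw [h.herm.T_eq, ha]; linear_combination a * h4
  have key : ∀ a, φ.T a = 0 → a ≠ 0 → ∃ m, ∀ e, φ.σ e = e → φ.T (e * e / a + e * m) = 0 ∧ φ.siegel p (e • u) (e * e / a + e * m) ∈ H := fun a ha a0 => by
    obtain ⟨k, k1, k2, k3⟩ := JJ_ex (c3 a ha)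
    obtain ⟨κ, hκ⟩ := k3 v h1
    rw [tv h hf.qx ha, hf.symm.b, mul_zero, zero_smul, sub_zero, ← one_smul F p] at k2
    rw [tv h hf.qx ha] at hκ
    refine ⟨(κ - φ.σ κ) / (a * φ.B u v), fun e he => ?_⟩
    have e1 : φ.σ (e / (a * φ.B u v)) = e / (a * φ.B u v) := by simp [he, fx ha, fx h3]
    obtain ⟨w1, s, s1, s2⟩ := (mem_aa hp).1 (n2.ge (NN.smul h (n1 hv) e1))
    obtain ⟨w2, w3⟩ := si_conj k hp one_ne_zero (by simpa using k2) w1 s1
    have := mul_mem s2 (w3 ▸ mul_mem (mul_mem k1 s2) (inv_mem k1))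
    rw [map_one, one_smul, one_mul, one_mul, φ.siegel_mul hp w1 s1 w2 (by simpa using s1), smul_comm k, hκ,
      show (e / (a * φ.B u v)) • v + (e / (a * φ.B u v)) • (v - (a * φ.B u v) • u + κ • p) = e • u + (e / (a * φ.B u v) * κ) • p by
        match_scalars
        · linear_combination (e / (a * φ.B u v)) * h4
        · field_simp; linear_combination -e * h4
        · ring] at this
    have e2 : φ.T s = 0 := s1.trans (φ.Q_smul_of_sing (i v hv) _)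
    simp only [φ.B_smul_left, φ.B_smul_right, map_add, map_sub, φ.B_self_eq_zero (i v hv), φ.B_symm_zero h1, vu, e1] at this
    rw [si_shift h hp (by simp [hf.b]) ((tf (by simp [fx ha, fx h3, fx e2, he])).trans (φ.Q_smul_of_sing hf.qx _).symm), map_mul, e1] at this
    refine ⟨tf (by simp [fx ha, fx h3, he, show φ.σ κ - κ = κ - φ.σ κ by linear_combination (φ.σ κ - κ) * h4]), ?_⟩
    convert this using 2
    field_simp
    linear_combination -(s * a ^ 2 * φ.B u v ^ 2) * h4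
  obtain ⟨μ, m1, m2⟩ : ∃ μ ∈ φ.T.ker, μ ∉ ({0, 1} : Set F) := Set.exists_mem_notMem_of_ncard_lt_ncard (t := (φ.T.ker : Set F)) (by
    have := Set.ncard_insert_le (0 : F) {1}
    rw [show Set.ncard (φ.T.ker : Set F) = q from h.card_ker_T]; rw [Set.ncard_singleton] at this; omega)
  simp only [Set.mem_insert_iff, Set.mem_singleton_iff, not_or] at m2
  obtain ⟨m, hm⟩ := key 1 (by simp [h.herm.T_eq, one_add_one_eq_two, h4]) one_ne_zero
  obtain ⟨m', hm'⟩ := key μ m1 m2.1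
  have k := fun e he => (AddSubgroup.mem_bot.1 (b3.le (uq hp (w := e • u) (by simp [hf.b]) ((hm e he).1.trans (φ.Q_smul_of_sing hf.qx _).symm)
    ((hm' e he).1.trans (φ.Q_smul_of_sing hf.qx _).symm) (hm e he).2 (hm' e he).2)))
  have k1 := k 1 (map_one _)
  have k2 := k μ (fx m1)
  have := m2.1
  field_simp at k1 k2
  exact m2.2 (sq1 (by linear_combination k1 - k2 + (μ - 1) * h4))

end H24.MD.U4
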