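import Cfsg.Agent.H24.U3A
import Cfsg.Agent.H24.U4B

/-!
# Minimal index for `SU₃(q)`: geometry (namespace `H24.MD.U3`)
-/

set_option autoImplicit false
set_option linter.unusedSectionVars false

open Subgroup H20 H10 H10.Form Module

namespace H24.MD.U3

open O (Fl ix)
open T U U4

variable {F V : Type*} [Field F] [Finite F] [AddCommGroup V] [Module F V] [Finite V] {φ : Form F V} [φ.Nondeg]
  {H J : Subgroup φ.Isom} {g z : φ.Isom} {p f u v w x y : V} {a c s t : F} {q r : ℕ}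

variable (J p) in
/-- The multipliers of `J` on `p`. -/
def CC : Subgroup Fˣ := mkSub (fun c => ∃ g ∈ J, g • p = (c : F) • p) ⟨1, one_mem _, by simp⟩
  fun a b ⟨g, h1, h2⟩ ⟨k, h3, h4⟩ => ⟨g * k, mul_mem h1 h3, by rw [mul_smul, h4, smul_comm, h2, smul_smul, mul_comm, Units.val_mul]⟩

theorem card_pt (hp0 : p ≠ 0) (hJ : J ≤ φ.E) : Nat.card (J ⊓ pt F p : Subgroup _) = Nat.card (J ⊓ P1 φ p : Subgroup _) * Nat.card (CC J p) := by
  rw [← card_mul_rel (MulAction.stabilizer φ.Isom p), rel_stab]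
  congr 1
  · exact congrArg (fun K : Subgroup φ.Isom => Nat.card K) (le_antisymm (fun g a => ⟨a.2.1, a.1, hJ a.2.1⟩) fun g a => ⟨a.2.1, a.1, 1, by simpa using a.2.1⟩)
  · refine Eq.trans (congrArg Set.ncard (Set.ext fun y => ?_)) (Set.ncard_image_of_injective (CC J p : Set Fˣ) (f := fun c : Fˣ => (c : F) • p)
      fun a b e => Units.ext (smul_left_injective F hp0 e))
    exact ⟨fun ⟨k, ⟨a, c, b⟩, e⟩ => ⟨Units.mk0 c (pt_ne hp0 b), ⟨k, a, b⟩, b.symm.trans e⟩, fun ⟨c, ⟨k, a, b⟩, e⟩ => ⟨k, ⟨a, c, b⟩, b.trans e⟩⟩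

theorem CC_dvd (hp0 : p ≠ 0) {m : ℕ} (h : ∀ g ∈ J, ∀ c : F, g • p = c • p → c ^ m = 1) : Nat.card (CC J p) ∣ m :=
  IsCyclic.exponent_eq_card (α := CC J p) ▸ Monoid.exponent_dvd_of_forall_pow_eq_one fun ⟨c, g, a, b⟩ => Subtype.ext (Units.ext (by simpa using h g a c b))

theorem pow_act (h : g • v = c • v) (n : ℕ) : g ^ n • v = c ^ n • v := by
  induction n with
  | zero => simp
  | succ n ih => rw [pow_succ, mul_smul, h, smul_comm, ih, smul_smul, pow_succ']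

variable (h : φ.IsUnitary q) (hd : finrank F V = 3)
include h

theorem pow_q2 (hc : c ≠ 0) : c ^ (q ^ 2 - 1) = 1 := by
  have := Fintype.ofFinite F
  rw [← h.card, Nat.card_eq_fintype_card]; exact FiniteField.pow_card_sub_one_eq_one c hc

theorem q_pow (ℓ : ℕ) [Fact ℓ.Prime] [CharP F ℓ] : ∃ a, q = ℓ ^ a := by
  have := Fintype.ofFinite F
  obtain ⟨n, hl, hn⟩ := FiniteField.card F ℓ
  obtain ⟨i, -, e⟩ := (Nat.dvd_prime_pow hl).1 (hn ▸ Nat.card_eq_fintype_card (α := F) ▸ h.card ▸ dvd_pow_self q two_ne_zero : q ∣ ℓ ^ (n : ℕ))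
  exact ⟨i, e⟩

include hd

theorem iso_perp (hp : φ.Q p = 0) (hp0 : p ≠ 0) (hx : φ.Q x = 0) (hb : φ.B p x = 0) : x ∈ F ∙ p := by_contra fun e => by
  have hf : Fl φ p x := ⟨hp, hx, hb, hp0, e⟩
  have := Submodule.finrank_mono hf.le
  have := φ.finrank_perp (Submodule.span F {p, x})
  have := hf.rank
  omega

theorem ex_u (hf : φ.IsHyp p f) : ∃ u, φ.B p u = 0 ∧ φ.B f u = 0 ∧ φ.Q u = 1 :=
  let ⟨u, a, b⟩ := h.exists_unit_perp hf.nondegOn (by rw [hf.finrank_span]; omega) (map_one φ.σ)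
  ⟨u, (φ.mem_perp_pair.1 a).1, (φ.mem_perp_pair.1 a).2, b⟩

theorem perp_u (hf : φ.IsHyp p f) (h1 : φ.B p u = 0) (h2 : φ.B f u = 0) (hu : u ≠ 0) (h3 : φ.B p x = 0) (h4 : φ.B f x = 0) : x ∈ F ∙ u :=
  (Submodule.eq_of_le_of_finrank_le ((Submodule.span_singleton_le_iff_mem _ _).2 (φ.mem_perp_pair.2 ⟨h1, h2⟩))
    (by have := hf.finrank_perp; rw [finrank_span_singleton hu]; omega)).ge (φ.mem_perp_pair.2 ⟨h3, h4⟩)

theorem dec (hf : φ.IsHyp p f) (h1 : φ.B p u = 0) (h2 : φ.B f u = 0) (hu : φ.Q u ≠ 0) (hx : φ.B u x = 0) : x = φ.B f x • p + φ.B p x • f := by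
  obtain ⟨a, b⟩ := φ.mem_perp_pair.1 (hf.proj_mem x)
  obtain ⟨c, hc⟩ := Submodule.mem_span_singleton.1 (perp_u h hd hf h1 h2 (fun e => hu (by simp [e])) a b)
  have := congrArg (φ.B u) hc
  simp only [φ.B_smul_right, map_sub, hx, φ.B_symm_zero h1, φ.B_symm_zero h2, ← h.herm.Q_eq, mul_zero, sub_zero, mul_eq_zero, hu, or_false] at this
  rw [this, h.herm.ε_eq] at hc
  linear_combination (norm := module) -hc

theorem mem_E : g ∈ φ.E ↔ LinearMap.det (g.1 : V →ₗ[F] V) = 1 := by rw [h.E_eq_SIsom (by omega), mem_SIsom]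

theorem eq_one (hf : φ.IsHyp p f) (hg : g ∈ φ.E) (h1 : g • p = p) (h2 : g • f = f) : g = 1 := by
  obtain ⟨u, u1, u2, u3⟩ := ex_u h hd hf
  have u4 : φ.Q u ≠ 0 := u3 ▸ one_ne_zero
  obtain ⟨μ, m1, rfl⟩ := h.eq_qrefl_of_mem_fix u4 (g := g) fun x hx => by
    change g • x = x
    rw [dec h hd hf u1 u2 u4 (φ.mem_perp_singleton.1 hx), smul_add, smul_comm g, smul_comm g, h1, h2]
  rw [mem_E h hd, h.herm.det_qrefl u4 m1] at hg
  exact Isom.ext fun x => by rw [h.herm.qrefl_apply u4 m1]; simp [hg]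

theorem P1_si (hp : φ.Q p = 0) (hp0 : p ≠ 0) (hg : g ∈ P1 φ p) : ∃ w s, φ.B p w = 0 ∧ φ.T s = φ.Q w ∧ g = φ.siegel p w s := by
  obtain ⟨f, hf⟩ := φ.exists_hyp hp hp0
  obtain ⟨s, a, b, c⟩ := exists_siegel_map hp (y := f) (z := g • f) (by simp) (B_fix hg.1 f).symm (hf.Bef ▸ one_ne_zero)
  exact ⟨_, s, a, b, (inv_mul_eq_one.1 (eq_one h hd hf (mul_mem (inv_mem (φ.siegel_mem_E hp a b)) hg.2)
    (by rw [mul_smul, show g • p = p from hg.1, inv_smul_eq_iff]; exact (φ.siegel_apply_self hp a b).symm)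
    (by rw [mul_smul, inv_smul_eq_iff]; exact c.symm))).symm⟩

theorem fixS (hp : φ.Q p = 0) (hp0 : p ≠ 0) (hg : g ∈ P1 φ p) (hx : φ.Q x = 0) (h1 : g • x = c • x) (h2 : g ≠ 1) : x ∈ F ∙ p := by_contra fun e => by
  have b : φ.B p x ≠ 0 := fun a => e (iso_perp h hd hp hp0 hx a)
  have := B_fix hg.1 x
  rw [h1, φ.B_smul_right, mul_eq_right₀ b] at this
  exact h2 (eq_one h hd (isHyp_of_ne hp hx b) hg.2 hg.1 (by rw [smul_comm, h1, this, one_smul]))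

theorem card_E : Nat.card φ.E = q ^ 3 * ((q ^ 3 + 1) * (q ^ 2 - 1)) := by
  have := Module.nontrivial_of_finrank_pos (R := F) (M := V) (by omega)
  have a5 := h.card_SIsom
  rw [h.card_Isom, hd, ← h.E_eq_SIsom (by omega)] at a5
  refine Nat.eq_of_mul_eq_mul_left q.succ_pos (a5.trans ?_)
  simp [guOrd, Finset.prod_range_succ, Nat.even_add_one]; ring

theorem card_iso : {z | z ≠ 0 ∧ φ.Q z = 0}.ncard = (q ^ 3 + 1) * (q ^ 2 - 1) :=
  Nat.succ_injective ((φ.card_sing_add_one).trans (by simpa using cnt0 h (n := 2) hd))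

theorem card_P1 (hp : φ.Q p = 0) (hp0 : p ≠ 0) : Nat.card (P1 φ p) = q ^ 3 := by
  have := card_mul_rel (MulAction.stabilizer φ.Isom p) φ.E
  rw [rel_stab, card_E h hd, ← card_iso h hd, show {y | ∃ k ∈ φ.E, k • p = y} = {z | z ≠ 0 ∧ φ.Q z = 0} from Set.ext fun y =>
    ⟨by rintro ⟨k, -, rfl⟩; simp [hp, hp0, smul_eq_zero_iff_eq], fun a => (h.big (by omega)).exists_E_map_sing hp hp0 a.2 a.1⟩] at this
  exact Nat.eq_of_mul_eq_mul_right ((Set.ncard_pos (s := {z | z ≠ 0 ∧ φ.Q z = 0})).2 ⟨p, hp0, hp⟩) this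

theorem card_P1' (hv : φ.Q v ≠ 0) : Nat.card (P1 φ v) = q * (q ^ 2 - 1) := by
  obtain ⟨p, f, hf⟩ := h.exists_hyp_of_two_le (by omega)
  have := card_mul_rel (MulAction.stabilizer φ.Isom v) φ.E
  rw [rel_stab, card_E h hd, show {y | ∃ k ∈ φ.E, k • v = y} = {z | φ.Q z = φ.Q v} from Set.ext fun y =>
    ⟨by rintro ⟨k, -, rfl⟩; simp, fun a => (h.big (by omega)).exists_E_map hf (fun e => hv (by simp [e])) (fun e => hv (by simp [← show _ = _ from a, e])) a.symm⟩,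
    show Set.ncard {z | φ.Q z = φ.Q v} = _ from h.cnt_ne_zero_succ (n := 2) hv (h.herm.σ_Q v) hd] at this
  have hq := h.two_le
  rw [if_pos even_two] at this
  exact Nat.eq_of_mul_eq_mul_right (m := q ^ 2 * (q ^ 3 + 1)) (by positivity) (this.trans (by ring))

theorem orb1 {g' : φ.Isom} (hp : φ.Q p = 0) (hp0 : p ≠ 0) (hy : φ.Q y = 0) (hy0 : y ≠ 0) (h1 : g ∈ J ⊓ P1 φ p) (h2 : g ≠ 1)
    (h3 : g' ∈ J ⊓ P1 φ y) (h4 : g' ≠ 1) : ∃ k ∈ J, ∃ c : F, k • y = c • p := by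
  obtain ⟨ℓ, _⟩ := CharP.exists F
  have : Fact ℓ.Prime := ⟨CharP.char_is_prime F ℓ⟩
  obtain ⟨a, ha⟩ := q_pow h ℓ
  have pg : ∀ {p}, φ.Q p = 0 → p ≠ 0 → IsPGroup ℓ ((P1 φ p).subgroupOf J) := fun b c =>
    (IsPGroup.of_card (n := a * 3) (by rw [card_P1 h hd b c, ha, pow_mul])).comap_subtype
  have key : ∀ {p g} (k : J), φ.Q p = 0 → p ≠ 0 → (hg : g ∈ J ⊓ P1 φ p) → g ≠ 1 → k⁻¹ * ⟨g, hg.1⟩ * k ∈ (pt F y).subgroupOf J →
      ∃ c : F, (k : φ.Isom) • y = c • p := fun {p g} k a b c d ⟨e, he⟩ => by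
    obtain ⟨m, hm⟩ := Submodule.mem_span_singleton.1 (fixS h hd a b c.2 (x := (k : φ.Isom) • y) (c := e) (by simpa) (by
      simpa [mul_smul, inv_smul_eq_iff, smul_comm (k : φ.Isom)] using he) d)
    exact ⟨m, hm.symm⟩
  obtain ⟨k, hk⟩ := orb (K := (pt F y).subgroupOf J) (pg hp hp0) (pg hy hy0) fun k =>
    ⟨fun e => key k hy hy0 h3 h4 (e _ h3.2), fun e g hg => mul_mem (mul_mem (inv_mem e) (P1_le hg).1) e⟩
  exact ⟨k, k.2, key k hp hp0 h1 h2 (hk _ h1.2)⟩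

theorem trans (hm : H.relIndex φ.E ≤ q ^ 3) (hp : φ.Q p = 0) (hp0 : p ≠ 0) (hy : φ.Q y = 0) (hy0 : y ≠ 0) : ∃ k ∈ H, ∃ c : F, k • y = c • p := by
  by_contra! e
  obtain ⟨g, g1, rfl⟩ := (h.big (by omega)).exists_E_map_sing hy hy0 hp hp0
  have a1 := pt_add (F := F) (H := H) hy0 g1 e
  have k : ∀ {p}, φ.Q p = 0 → p ≠ 0 → q ^ 3 ≤ H.relIndex (pt F p ⊓ φ.E) ∨ ∃ g ∈ H ⊓ P1 φ p, g ≠ 1 := fun {p} a b =>
    or_iff_not_imp_right.2 fun c => by
      rw [← card_P1 h hd a b, ← rel_of_disjoint (H := H) (eq_bot_iff_forall _ |>.2 fun g hg => by_contra fun d => c ⟨g, hg, d⟩)]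
      exact rel_mono _ P1_le
  have a2 := rel_pos H (pt F y ⊓ φ.E)
  have a3 := rel_pos H (pt F (g • y) ⊓ φ.E)
  obtain b | ⟨s, s1, s2⟩ := k hp hp0
  · exact (a1.trans hm).not_gt (Nat.lt_add_of_pos_left a2 |>.trans_le' b)
  obtain b | ⟨s', s3, s4⟩ := k hy hy0
  · omega
  obtain ⟨k, k1, c, k2⟩ := orb1 h hd hp hp0 hy hy0 s1 s2 s3 s4
  exact e k k1 c k2

theorem rfix (hr : r.Coprime (q * (q ^ 2 - 1))) (hg : g ∈ φ.E) {k : ℕ} (h1 : g ^ r ^ k = 1) (hv : v ≠ 0) (h2 : g • v = c • v) : g = 1 := by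
  have c1 : c = 1 := by
    have := pow_act h2 (r ^ k)
    rw [h1, one_smul] at this
    have := pow_gcd_eq_one.2 ⟨smul_left_injective F hv (this.symm.trans (one_smul F v).symm), pow_q2 h (pt_ne hv h2)⟩
    rwa [(Nat.Coprime.coprime_mul_left_right hr).pow_left k, pow_one] at this
  have c2 := orderOf_dvd_natCard (P1 φ v) ⟨by simpa [c1] using h2, hg⟩
  refine orderOf_eq_one_iff.1 (Nat.eq_one_of_dvd_coprimes (b := Nat.card (P1 φ v)) ?_ (orderOf_dvd_of_pow_eq_one h1) c2)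
  by_cases e : φ.Q v = 0
  · exact card_P1 h hd e hv ▸ (Nat.Coprime.coprime_mul_right_right hr).pow _ _
  · exact card_P1' h hd e ▸ hr.pow_left _

theorem odd_q (h2 : (2 : F) ≠ 0) : Odd q := Nat.not_even_iff_odd.1 fun ⟨k, e⟩ => by
  have := Fintype.ofFinite F
  have h3 : ringChar F ≠ 2 := fun e => h2 (by simpa [e] using ringChar.Nat.cast_ringChar (R := F))
  have := FiniteField.odd_card_of_char_ne_two h3
  rw [← Nat.card_eq_fintype_card, h.card, e, ← two_mul, mul_pow] at this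
  omega

theorem inv2 (hz : z ∈ φ.E) (h1 : orderOf z = 2) : 2 ≤ finrank F (LinearMap.ker ((z.1 : V →ₗ[F] V) + LinearMap.id)) := by
  by_contra! e
  have h2 : ∀ x : V, z • z • x = x := fun x => by rw [← mul_smul, ← sq, ← h1, pow_orderOf_eq_one, one_smul]
  have h3 := LinearMap.finrank_range_add_finrank_ker ((z.1 : V →ₗ[F] V) + LinearMap.id)
  have h4 : ∀ x ∈ LinearMap.range ((z.1 : V →ₗ[F] V) + LinearMap.id), z • x = x := by
    rintro _ ⟨x, rfl⟩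
    change z • (z • x + x) = z • x + x
    rw [smul_add, h2, add_comm]
  by_cases h5 : (2 : F) = 0
  · have := Submodule.finrank_mono (show LinearMap.range ((z.1 : V →ₗ[F] V) + LinearMap.id) ≤ LinearMap.ker ((z.1 : V →ₗ[F] V) + LinearMap.id) from
      fun x hx => show z • x + x = 0 by rw [h4 x hx, ← two_smul F, h5, zero_smul])
    omega
  obtain ⟨p, p1, p2, p3⟩ := h.exists_singular (W := LinearMap.range ((z.1 : V →ₗ[F] V) + LinearMap.id)) (by omega)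
  have := orderOf_dvd_natCard (P1 φ p) ⟨h4 p p1, hz⟩
  rw [h1, card_P1 h hd p3 p2] at this
  exact (odd_q h hd h5).pow.not_two_dvd_nat this

theorem inv_pt (hz : z ∈ φ.E) (h1 : orderOf z = 2) : ∃ v : V, v ≠ 0 ∧ z • v = v ∧ ∀ y, y * z = z * y → y ∈ pt F v := by
  have h2 := inv2 h hd hz h1
  have h3 := LinearMap.finrank_range_add_finrank_ker ((z.1 : V →ₗ[F] V) + LinearMap.id)
  obtain ⟨x, hx⟩ : ∃ x : V, z • x + x ≠ 0 := by
    by_contra! e
    have e1 : ∀ x, z.1 x = (-1 : F) • x := fun x => (eq_neg_of_add_eq_zero_left (e x)).trans (neg_one_smul F x).symm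
    have e2 := (φ.det_of_scalar e1).symm.trans ((mem_E h hd).1 hz)
    rw [hd, show (-1 : F) ^ 3 = -1 by ring] at e2
    simp [show z = 1 from Isom.ext fun x => by simp [e1, e2]] at h1
  refine ⟨_, hx, by rw [smul_add, ← mul_smul, ← sq, ← h1, pow_orderOf_eq_one, one_smul, add_comm], fun y hy => ?_⟩
  have e : (F ∙ (z • x + x)) = LinearMap.range ((z.1 : V →ₗ[F] V) + LinearMap.id) :=
    Submodule.eq_of_le_of_finrank_le ((Submodule.span_singleton_le_iff_mem _ _).2 ⟨x, rfl⟩) (by rw [finrank_span_singleton hx]; omega)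
  obtain ⟨c, hc⟩ := Submodule.mem_span_singleton.1 (e.ge ⟨y • x, rfl⟩)
  exact ⟨c, by rw [smul_add y, ← mul_smul, hy, mul_smul]; exact hc.symm⟩

theorem noBad (hr : r.Coprime (q * (q ^ 2 - 1))) (hH : H ≤ φ.E) : ¬ Bad r H := fun hb => by
  obtain ⟨R, h1, h2, z, h3, h4⟩ := hb.map _ (inclusion_injective hH)
  rw [← orderOf_coe] at h3
  obtain ⟨v, v0, -, hv⟩ := inv_pt h hd z.2 h3
  refine h1 ((eq_bot_iff_forall _).2 fun y hy => ?_)
  have k : ∀ y ∈ R, ∀ {v : V} {c : F}, v ≠ 0 → (y : φ.Isom) • v = c • v → y = 1 := fun y hy v c a b =>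
    let ⟨k, hk⟩ := h2 ⟨y, hy⟩; Subtype.ext (rfix h hd hr y.2 (k := k) (congrArg (fun a : R => ((a : φ.E) : φ.Isom)) hk) a b)
  have b1 := inv2 h hd z.2 h3
  have b2 := inv2 h hd (y⁻¹ * z * y).2 (by rw [orderOf_coe] at h3 ⊢; simpa [h3] using orderOf_injective (MulAut.conj y⁻¹).toMonoidHom (MulEquiv.injective _) z)
  obtain ⟨x, ⟨x1, x2⟩, x0⟩ := (Submodule.ne_bot_iff _).1 (show LinearMap.ker ((z.1.1 : V →ₗ[F] V) + LinearMap.id) ⊓
      LinearMap.ker (((y⁻¹ * z * y).1.1 : V →ₗ[F] V) + LinearMap.id) ≠ ⊥ from fun e => by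
    have := Submodule.finrank_add_finrank_le_of_disjoint (disjoint_iff.2 e); omega)
  replace x1 : (z : φ.Isom) • x = -x := eq_neg_of_add_eq_zero_left x1
  replace x2 : ((y⁻¹ * z * y : φ.E) : φ.Isom) • x = -x := eq_neg_of_add_eq_zero_left x2
  have := k _ (mul_mem (inv_mem hy) (h4 y hy)) (c := 1) x0 (by
    rw [← mul_assoc, ← mul_assoc, coe_mul, mul_smul, coe_inv, show (z : φ.Isom)⁻¹ • x = -x by rw [inv_smul_eq_iff, smul_neg, x1, neg_neg], smul_neg, x2]; simp)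
  obtain ⟨c, hc⟩ := hv y (by rw [← coe_mul, ← coe_mul, ← mul_inv_eq_iff_eq_mul.1 (inv_mul_eq_one.1 this).symm])
  exact k y hy v0 hc

end H24.MD.U3
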