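import Cfsg.Agent.H24.U3B

/-!
# Minimal index for `SU₃(q)`: the action on a hyperbolic line (namespace `H24.MD.U3`)
-/

set_option autoImplicit false
set_option linter.unusedSectionVars false

open Subgroup H20 H10 H10.Form Module
open scoped MatrixGroups commutatorElement

namespace H24.MD.U3

open O (Fl ix)
open T U U4

variable {F V : Type*} [Field F] [Finite F] [AddCommGroup V] [Module F V] [Finite V] {φ : Form F V} [φ.Nondeg]
  {H J : Subgroup φ.Isom} {g z : φ.Isom} {p f u v w x y : V} {a c s t : F} {q r : ℕ}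

variable (φ p f) in
/-- The elements that are scalar on the span of `p` and `f`. -/
def kr : Subgroup φ.Isom := mkSub (fun g => ∃ c : F, g • p = c • p ∧ g • f = c • f) ⟨1, by simp⟩
  fun a b ⟨c, h1, h2⟩ ⟨d, h3, h4⟩ => ⟨c * d, by rw [mul_smul, h3, smul_comm, h1, smul_smul, mul_comm], by rw [mul_smul, h4, smul_comm, h2, smul_smul, mul_comm]⟩

theorem B_pt (hu : u ≠ 0) (hg : g ∈ pt F u) (hx : φ.B u x = 0) : φ.B u (g • x) = 0 := by
  obtain ⟨c, hc⟩ := hg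
  simpa [hc, hx, pt_ne hu hc] using B_act g u x

theorem tv_pow (hp : φ.Q p = 0) (ha : φ.T a = 0) (n : ℕ) : φ.siegel p 0 a ^ n = φ.siegel p 0 (n • a) := by
  induction n with
  | zero => simp [φ.siegel_zero hp]
  | succ n ih => rw [pow_succ, ih, succ_nsmul, tv_add hp (by rw [map_nsmul, ha, nsmul_zero]) ha]

theorem cone_eq (hp0 : p ≠ 0) {S : Set V} (h1 : ∀ k ∈ J, ∀ c : F, c ≠ 0 → c • k • p ∈ S) (h2 : ∀ x ∈ S, ∃ k ∈ J, ∃ c : F, k • p = c • x) :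
    (pt F p).relIndex J * (Nat.card F - 1) = S.ncard := by
  rw [pt_index _ hp0]
  refine congrArg Set.ncard (Set.ext fun x => ⟨by rintro ⟨c, a, k, b, rfl⟩; exact h1 k b c a, fun a => ?_⟩)
  obtain ⟨k, b, c, e⟩ := h2 x a
  have c0 : c ≠ 0 := fun e' => hp0 (by simpa [e', smul_eq_zero_iff_eq] using e)
  exact ⟨c⁻¹, inv_ne_zero c0, k, b, by rw [e, inv_smul_smul₀ c0]⟩

variable (h : φ.IsUnitary q) (hd : finrank F V = 3)
include h hd

theorem tr_index (hp : φ.Q p = 0) (hp0 : p ≠ 0) (h2 : ∀ x, φ.Q x = 0 → x ≠ 0 → ∃ k ∈ J, ∃ c : F, k • p = c • x) : (pt F p).relIndex J = q ^ 3 + 1 := by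
  have := cone_eq hp0 (J := J) (S := {z | z ≠ 0 ∧ φ.Q z = 0}) (fun k _ c a => ⟨by simp [a, hp0, smul_eq_zero_iff_eq], φ.Q_smul_of_sing (by simp [hp]) _⟩)
    fun x a => h2 x a.2 a.1
  rw [card_iso h hd, h.card] at this
  exact Nat.eq_of_mul_eq_mul_right (Nat.sub_pos_of_lt (Nat.one_lt_pow (by omega) h.two_le)) this

variable (hf : φ.IsHyp p f) (h1 : φ.B p u = 0) (h2 : φ.B f u = 0) (hu : φ.Q u ≠ 0)
include hf h1 h2 hu

theorem tv_of (hg : g ∈ P1 φ p) (hg' : g ∈ pt F u) : ∃ a, φ.T a = 0 ∧ g = φ.siegel p 0 a := by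
  obtain ⟨w, s, a, b, rfl⟩ := P1_si h hd hf.Qe hf.e_ne_zero hg
  obtain ⟨μ, hμ⟩ := hg'
  have := congrArg (φ.B f) hμ
  simp [si h hf.Qe a b, h1, h2, Bfe h hf] at this
  have e := dec h hd hf h1 h2 hu (φ.B_symm_zero this)
  rw [a, zero_smul, add_zero] at e
  rw [e, φ.Q_smul_of_sing hf.Qe] at b
  exact ⟨_, by simp [b, h.herm.T_eq (φ.B f w), h.herm.T_eq (φ.σ _), h.herm.ε_eq, add_comm], e ▸ siegel_self hf.Qe b _⟩

theorem card_tv : Nat.card (H ⊓ pt F u ⊓ P1 φ p : Subgroup _) = Nat.card (Zs H p) :=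
  (Nat.card_eq_of_bijective (fun a : Zs H p => (⟨φ.siegel p 0 a, ⟨a.2.2 hf.Qe, 1, by simp [tv h hf.Qe a.2.1, h1]⟩,
      by simp [tv h hf.Qe a.2.1, hf.Bee], tv_E hf.Qe a.2.1⟩ : (H ⊓ pt F u ⊓ P1 φ p : Subgroup _))) ⟨fun a b e => Subtype.ext (by
    simpa [tv h hf.Qe a.2.1, tv h hf.Qe b.2.1, hf.Bef, smul_left_injective F hf.e_ne_zero |>.eq_iff] using congrArg (· • f) (congrArg Subtype.val e)),
    fun g => let ⟨a, b, c⟩ := tv_of h hd hf h1 h2 hu g.2.2 g.2.1.2; ⟨⟨a, b, fun _ => c ▸ g.2.1.1⟩, Subtype.ext c.symm⟩⟩).symm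

theorem emb (hJ : J ≤ pt F u) : ∃ ρ : J →* PGL(2, F), ρ.ker = (kr φ p f).subgroupOf J := by
  have u0 : u ≠ 0 := fun e => hu (by simp [e])
  have d := fun (g : J) x a => dec h hd hf h1 h2 hu (B_pt (x := x) u0 (hJ g.2) a)
  have a := φ.B_symm_zero h1
  have b := φ.B_symm_zero h2
  let m : J →* Matrix (Fin 2) (Fin 2) F :=
    { toFun := fun g => !![φ.B f ((g : φ.Isom) • p), φ.B f ((g : φ.Isom) • f); φ.B p ((g : φ.Isom) • p), φ.B p ((g : φ.Isom) • f)]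
      map_one' := by simp [hf.Bee, hf.Bef, hf.Bff, Bfe h hf, Matrix.one_fin_two]
      map_mul' := fun g k => by
        rw [Matrix.mul_fin_two, coe_mul, mul_smul, mul_smul, d k p a, d k f b]
        simp [smul_comm (g : φ.Isom), mul_comm, hf.Bee, hf.Bef, hf.Bff, Bfe h hf] }
  refine ⟨Matrix.ProjGenLinGroup.mk.comp m.toHomUnits, ext fun g => ?_⟩
  rw [MonoidHom.mem_ker, MonoidHom.comp_apply, Matrix.ProjGenLinGroup.mk_eq_one, H09.GL2.mem_center_iff_entries]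
  change φ.B f ((g : φ.Isom) • f) = 0 ∧ φ.B p ((g : φ.Isom) • p) = 0 ∧ φ.B f ((g : φ.Isom) • p) = φ.B p ((g : φ.Isom) • f) ↔ _
  exact ⟨fun e => ⟨φ.B f ((g : φ.Isom) • p), (d g p a).trans (by simp [e.2.1]), (d g f b).trans (by simp [e.1, e.2.2])⟩,
    fun ⟨c, e1, e2⟩ => by rw [show (g : φ.Isom) • p = _ from e1, show (g : φ.Isom) • f = _ from e2]; simp [hf.Bee, hf.Bef, hf.Bff, Bfe h hf]⟩

theorem line (ℓ : ℕ) [Fact ℓ.Prime] [CharP F ℓ] (hE : J ≤ φ.E) (hJ : J ≤ pt F u)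
    (htr : ∀ x, φ.Q x = 0 → x ≠ 0 → φ.B u x = 0 → ∃ k ∈ J, ∃ c : F, k • p = c • x) :
    ∃ κ c' d, κ * c' = Nat.card (CC J p) ∧ κ ∣ q + 1 ∧ d = Nat.card (J ⊓ P1 φ p : Subgroup _) * c' ∧
      ((ℓ ∣ d * (q + 1) ∧ ∀ a ∈ J, ∀ b ∈ J, a ^ ℓ = 1 → b ^ ℓ = 1 → ⁅a, b⁆ ∈ kr φ p f) ∨ d ≤ 2 ∨
        (d * (q + 1) = 12 ∨ d * (q + 1) = 24 ∨ d * (q + 1) = 60) ∨ ∃ b e, 0 < b ∧ ¬ ℓ ∣ e ∧ d * (q + 1) * e = ℓ ^ b * ((ℓ ^ b) ^ 2 - 1)) := by
  have u0 : u ≠ 0 := fun e => hu (by simp [e])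
  have p0 := hf.e_ne_zero
  have a1 : (pt F p).relIndex J = q + 1 := by
    have := cone_eq p0 (J := J) (S := Subtype.val '' {z : φ.perp (F ∙ u) | z ≠ 0 ∧ (φ.restrict _).Q z = 0}) (fun k b c a =>
      ⟨⟨_, φ.mem_perp_singleton.2 (by simp [B_pt u0 (hJ b) (φ.B_symm_zero h1)])⟩, ⟨by simp [a, p0, smul_eq_zero_iff_eq],
        φ.Q_smul_of_sing (by simp [hf.Qe]) _⟩, rfl⟩) (by rintro _ ⟨x, a, rfl⟩; exact htr x a.2 (by simpa using a.1) (φ.mem_perp_singleton.1 x.2))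
    have hN := (φ.nondegOn_singleton (h.herm.Q_eq u ▸ hu)).perp.nondeg
    replace this := this.trans ((Set.ncard_image_of_injective _ Subtype.val_injective).trans (Nat.succ_injective
      ((φ.restrict (φ.perp (F ∙ u))).card_sing_add_one.trans (cnt0 (h.restrict _) (n := 1) (by have := φ.finrank_perp_singleton u0; omega)))))
    rw [h.card, if_neg (by decide), pow_one, mul_comm (_ - _)] at this
    exact Nat.eq_of_mul_eq_mul_right (Nat.sub_pos_of_lt (Nat.one_lt_pow (by omega) h.two_le)) this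
  have a2 : kr φ p f ≤ pt F p := fun g ⟨c, a, _⟩ => ⟨c, a⟩
  have a3 := relIndex_inf_mul_relIndex (kr φ p f) (pt F p) J
  rw [a1, inf_eq_left.2 a2, inf_comm] at a3
  have a4 := card_pt p0 (J := kr φ p f ⊓ (J ⊓ pt F p)) fun g a => hE a.2.1
  rw [inf_eq_left.2 (inf_le_left.trans a2), show kr φ p f ⊓ (J ⊓ pt F p) ⊓ P1 φ p = ⊥ from (eq_bot_iff_forall _).2 fun g ⟨⟨⟨c, a, b⟩, _⟩, e, e'⟩ =>
    eq_one h hd hf e' e (by rw [b, smul_left_injective F p0 (a.symm.trans (Eq.trans e (one_smul F p).symm)), one_smul]), card_bot, one_mul] at a4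
  obtain ⟨c', hc⟩ := card_dvd_of_le (show CC (kr φ p f ⊓ (J ⊓ pt F p)) p ≤ CC J p from fun c ⟨g, a, b⟩ => ⟨g, a.2.1, b⟩)
  have a5 := card_mul_rel (kr φ p f) (J ⊓ pt F p)
  rw [card_pt p0 hE, hc, a4, mul_left_comm] at a5
  refine ⟨_, c', _, hc.symm, CC_dvd p0 fun g ⟨⟨c, a, b⟩, _⟩ d e => ?_, Nat.eq_of_mul_eq_mul_left Nat.card_pos a5, ?_⟩
  · simpa [a, b, hf.Bef, h.σ_eq, pow_succ', smul_left_injective F p0 (e.symm.trans a)] using B_act g p f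
  obtain ⟨ρ, hρ⟩ := emb h hd hf h1 h2 hu hJ
  have := dk ℓ ρ
  rw [hρ, ← relIndex, ← a3] at this
  refine this.imp (fun e => ⟨e.1, fun a a' b b' c d => e.2 ⟨a, a'⟩ ⟨b, b'⟩ (Subtype.ext c) (Subtype.ext d)⟩) (Or.imp_left fun ⟨C, c1, c2⟩ => ?_)
  have c3 : C.map J.subtype ⊓ (J ⊓ pt F p) ≤ kr φ p f := by
    rintro _ ⟨⟨g, g1, rfl⟩, -, g2⟩
    have key : ∀ x, φ.Q x = 0 → x ≠ 0 → φ.B u x = 0 → ∃ e : F, (g : φ.Isom) • x = e • x := fun x a b c => by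
      obtain ⟨k, k1, d, k2⟩ := htr x a b c
      obtain ⟨n, y, y1, y2⟩ := c2 g g1 ⟨k, k1⟩
      obtain ⟨e, he⟩ : k⁻¹ * g * k ∈ pt F p := (congrArg Subtype.val y2).symm.subst (motive := (· ∈ _)) (mul_mem ((pt F p).zpow_mem g2 n) (a2 y1))
      rw [mul_smul, mul_smul, inv_smul_eq_iff, smul_comm k, k2, smul_comm, smul_comm e] at he
      exact ⟨e, smul_right_injective V (fun e' => p0 (by simpa [e', smul_eq_zero_iff_eq] using k2)) he⟩
    obtain ⟨t, t0, ht⟩ := h.exists_skew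
    obtain ⟨c, hc⟩ := g2
    obtain ⟨d, hd⟩ := key f hf.Qf hf.f_ne_zero (φ.B_symm_zero h2)
    obtain ⟨e, he⟩ := key (f + t • p) (by simp [φ.Q_add, φ.Q_smul, hf.Qe, hf.Qf, Bfe h hf, ht])
      (fun e => by simpa [hf.Bef, hf.Bee] using congrArg (φ.B p) e) (by simp [φ.B_symm_zero h1, φ.B_symm_zero h2])
    rw [smul_add, smul_comm _ t, hd, show (g : φ.Isom) • p = _ from hc] at he
    have e1 := congrArg (φ.B p) he
    have e2 := congrArg (φ.B f) he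
    simp [hf.Bee, hf.Bef, hf.Bff, Bfe h hf, mul_comm e, t0] at e1 e2
    exact ⟨c, hc, by rw [e2, ← e1]; exact hd⟩
  have c4 : (C.map J.subtype).relIndex J = C.index := by rw [relIndex, subgroupOf, comap_map_eq_self_of_injective J.subtype_injective]
  have := (rel_anti _ c3).trans ((inf_relIndex_right ..).le.trans (rel_mono (C.map J.subtype) (inf_le_left (a := J))))
  omega

end H24.MD.U3
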