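import Cfsg.Agent.H24.U3C

/-!
# Minimal index for `SU₃(q)`: subgroups containing transvections (namespace `H24.MD.U3`)
-/

set_option autoImplicit false
set_option linter.unusedSectionVars false

open Subgroup H20 H10 H10.Form Module
open scoped commutatorElement

namespace H24.MD.U3

open O (Fl ix)
open T U U4

theorem ex_r {q : ℕ} (hq : 3 ≤ q) : ∃ r, r.Prime ∧ r ∣ q ^ 3 + 1 ∧ r ≠ 2 ∧ r.Coprime (q * (q ^ 2 - 1)) := by
  obtain ⟨k, rfl⟩ : ∃ k, q = k + 2 := ⟨q - 2, by omega⟩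
  obtain ⟨r, r1, r2, r3⟩ : ∃ r, r.Prime ∧ r ∣ k ^ 2 + 3 * k + 3 ∧ r ≠ 3 := by
    by_contra! e
    have := Nat.eq_prime_pow_of_unique_prime_dvd (p := 3) (by omega) fun a b => e _ a b
    generalize (Nat.primeFactorsList _).length = n at this
    rcases n with _ | _ | n
    · omega
    · omega
    · have e1 : (k ^ 2 + 3 * k + 3) % 9 = 0 := by omega
      have : k % 9 < 9 := Nat.mod_lt _ (by omega)
      rw [Nat.add_mod, Nat.add_mod (k ^ 2), Nat.pow_mod, Nat.mul_mod] at e1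
      generalize k % 9 = j at *
      interval_cases j <;> simp at e1
  have c : r.Coprime ((k + 2) * ((k + 2) ^ 2 - 1)) := by
    rw [show (k + 2) ^ 2 - 1 = (k + 1) * (k + 3) from Nat.sub_eq_of_eq_add (by ring), r1.coprime_iff_not_dvd, r1.dvd_mul, r1.dvd_mul]
    rintro (e | e | e)
    · exact r1.not_dvd_one ((Nat.dvd_add_right (e.mul_right (k + 1))).1 (by convert r2 using 1; ring))
    · exact r1.not_dvd_one ((Nat.dvd_add_right (e.mul_right (k + 2))).1 (by convert r2 using 1; ring))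
    · exact r3 ((Nat.prime_dvd_prime_iff_eq r1 Nat.prime_three).1 ((Nat.dvd_add_right (e.mul_right k)).1 (by convert r2 using 1; ring)))
  refine ⟨r, r1, (r2.mul_right (k + 3)).trans (by apply Eq.dvd; ring), ?_, c⟩
  rintro rfl
  rw [show (k + 2) ^ 2 - 1 = (k + 1) * (k + 3) from Nat.sub_eq_of_eq_add (by ring), ← mul_assoc, mul_comm (k + 2)] at c
  exact Nat.prime_two.coprime_iff_not_dvd.1 c ((Nat.even_mul_succ_self (k + 1)).two_dvd.mul_right _)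

theorem num1 {q z c : ℕ} (h1 : z ∣ q) (h2 : 1 < z) (h3 : z < q) (h : z * c * (q + 1) = 12 ∨ z * c * (q + 1) = 24 ∨ z * c * (q + 1) = 60) :
    z = 2 ∨ q = 9 ∧ z = 3 := by
  obtain ⟨j, rfl⟩ := h1
  have a0 : z * (z * j + 1) ∣ z * c * (z * j + 1) := Dvd.intro c (by ring)
  have a : z * (z * j + 1) ∣ 120 := by rcases h with h | h | h <;> exact (h ▸ a0).trans (by norm_num)
  have a1 : z * (z * j + 1) ≤ 60 := (Nat.le_of_dvd (by omega) a0).trans (by omega)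
  have a2 : 2 ≤ j := by nlinarith
  have : z ≤ 5 := by nlinarith
  have : j ≤ 30 := by nlinarith
  interval_cases z <;> interval_cases j <;> omega

theorem num2 {ℓ a q z c e b : ℕ} (hl : ℓ.Prime) (hq : q = ℓ ^ a) (h1 : z ∣ q) (h2 : 1 < z) (h3 : z < q) (h4 : ℓ.Coprime (c * (q + 1))) (h5 : ¬ ℓ ∣ e)
    (hb : 0 < b) (h : z * c * (q + 1) * e = ℓ ^ b * ((ℓ ^ b) ^ 2 - 1)) : False := by
  obtain ⟨i, -, hz⟩ := (Nat.dvd_prime_pow hl).1 (hq ▸ h1)
  have c1 : ℓ.Coprime ((ℓ ^ b) ^ 2 - 1) := hl.coprime_iff_not_dvd.2 fun e => hl.not_dvd_one ((Nat.dvd_add_right e).1 (by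
    rw [Nat.sub_add_cancel (Nat.one_le_pow _ _ (pow_pos hl.pos b)), ← pow_mul]; exact dvd_pow_self _ (by omega)))
  have e1 : z = ℓ ^ b := Nat.dvd_antisymm ((hz ▸ c1.pow_left i).dvd_of_dvd_mul_right (Dvd.intro (c * (q + 1) * e) (by rw [← h]; ring)))
    (((h4.mul_right (hl.coprime_iff_not_dvd.2 h5)).pow_left b).dvd_of_dvd_mul_right (Dvd.intro _ (by rw [← h]; ring)))
  rw [← e1, mul_assoc, mul_assoc, Nat.mul_right_inj (by omega)] at h
  obtain ⟨j, rfl⟩ := h1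
  have := Nat.le_of_dvd (by omega) ((Nat.dvd_add_right (a := z * j + 1) (b := j * (z ^ 2 - 1)) (c := z + j) (Dvd.intro (j * c * e) (by rw [← h]; ring))).1
    (Dvd.intro z (by zify [Nat.one_le_pow 2 z (by omega)]; ring)))
  have : 2 ≤ j := by nlinarith
  nlinarith

variable {F V : Type*} [Field F] [Finite F] [AddCommGroup V] [Module F V] [Finite V] {φ : Form F V} [φ.Nondeg]
  {H J : Subgroup φ.Isom} {g z : φ.Isom} {p f u v w x y : V} {a c s t : F} {q r : ℕ}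

variable (h : φ.IsUnitary q) (hd : finrank F V = 3)
include h hd

theorem s_le (hp : φ.Q p = 0) (hp0 : p ≠ 0) (hD : ¬ φ.T.ker ≤ Zs H p) : Nat.card (H ⊓ P1 φ p : Subgroup _) ≤ q * Nat.card (Zs H p) := by
  have h1 := acard_mul (show aa H p ≤ (φ.perp (F ∙ p)).toAddSubgroup from fun _ a => a.1)
  have h2 := pair (spc h (by omega)) hD (aa H p) (aa H p) (F ∙ p) (fun _ a => a.1) fun _ a _ => aa_comm hp a
  have h3 := acard_mul (show Zs H p ≤ φ.T.ker from fun _ a => a.1)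
  have h4 := Nat.mul_le_mul_left (Nat.card (H ⊓ P1 φ p : Subgroup _)) ((rad_ge H hp (perp1 p)).trans (rel_mono H fun g hg => (RR_le (H := H) hp hg).2))
  have hq := h.two_le
  rw [show Nat.card (φ.perp (F ∙ p)).toAddSubgroup = _ from card_sub _, show finrank F (φ.perp (F ∙ p)) = 2 by
    have := φ.finrank_perp_singleton hp0; omega, h.card, ← pow_mul] at h1
  rw [hd, h.card, ← pow_mul, show q ^ (2 * 3) = q ^ 3 * q ^ 3 by ring, Nat.mul_self_le_mul_self_iff] at h2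
  rw [card_mul_rel, card_P1 h hd hp hp0] at h4
  rw [h.card_ker_T] at h3
  have h5 : q ≤ (aa H p).relIndex (φ.perp (F ∙ p)).toAddSubgroup := Nat.le_of_mul_le_mul_left (c := q ^ 3)
    ((show _ = q ^ (2 * 2) by ring).trans_le (h1.ge.trans (Nat.mul_le_mul_right _ h2))) (by positivity)
  refine Nat.le_of_mul_le_mul_left (c := q ^ 2) ?_ (by positivity)
  calc _ = Nat.card (H ⊓ P1 φ p : Subgroup _) * (q * (Zs H p).relIndex φ.T.ker) * Nat.card (Zs H p) := by rw [sq]; nth_rw 2 [← h3]; ring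
    _ ≤ q ^ 3 * Nat.card (Zs H p) := Nat.mul_le_mul_right _ ((Nat.mul_le_mul_left _ (Nat.mul_le_mul_right _ h5)).trans h4)
    _ = _ := by ring

omit hd in
theorem CC_q2 (hp0 : p ≠ 0) : Nat.card (CC J p) ∣ q ^ 2 - 1 := CC_dvd hp0 fun _ _ _ e => pow_q2 h (pt_ne hp0 e)

omit hd in
theorem cop {ℓ c : ℕ} [Fact ℓ.Prime] [CharP F ℓ] (hc : c ∣ q ^ 2 - 1) : ℓ.Coprime (c * (q + 1)) := by
  obtain ⟨a, ha⟩ := q_pow h ℓ
  have hl : ℓ.Prime := Fact.out
  have hq := h.two_le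
  have e : ℓ ∣ q := ha ▸ dvd_pow_self ℓ fun e => by simp [e] at ha; omega
  exact (hl.coprime_iff_not_dvd.2 fun b => hl.not_dvd_one ((Nat.dvd_add_right (b.trans hc)).1 (by
    rw [Nat.sub_add_cancel (Nat.one_le_pow _ _ (by omega))]; exact e.trans (dvd_pow_self q two_ne_zero)))).mul_right
    (hl.coprime_iff_not_dvd.2 fun b => hl.not_dvd_one ((Nat.dvd_add_right e).1 b))

variable (hE : H ≤ φ.E) (hm : H.relIndex φ.E ≤ q ^ 3)
include hE hm

theorem glob (hp : φ.Q p = 0) (hp0 : p ≠ 0) : Nat.card H = Nat.card (H ⊓ P1 φ p : Subgroup _) * Nat.card (CC H p) * (q ^ 3 + 1) ∧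
    q ^ 2 - 1 ≤ Nat.card (H ⊓ P1 φ p : Subgroup _) * Nat.card (CC H p) ∧ Nat.card (H ⊓ P1 φ p : Subgroup _) ∣ q ^ 3 := by
  have a1 := card_mul_rel (pt F p) H
  rw [tr_index h hd hp hp0 fun x a b => trans h hd hm a b hp hp0, inf_comm, card_pt hp0 hE] at a1
  have a2 := card_mul_rel H φ.E
  rw [inf_eq_left.2 hE, card_E h hd, ← a1] at a2
  have hq := h.two_le
  exact ⟨a1.symm, Nat.le_of_mul_le_mul_left (c := q ^ 3 * (q ^ 3 + 1)) ((mul_assoc _ _ _).trans_le (a2.ge.trans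
    ((Nat.mul_le_mul_left _ hm).trans_eq (by ring)))) (by positivity), card_P1 h hd hp hp0 ▸ card_dvd_of_le inf_le_right⟩

theorem caseI (hq : 3 ≤ q) (hp : φ.Q p = 0) (hp0 : p ≠ 0) (hD : ¬ φ.T.ker ≤ Zs H p) : Zs H p = ⊥ := by_contra fun hZ => by
  obtain ⟨ℓ, _⟩ := CharP.exists F
  have hl := CharP.char_is_prime F ℓ
  have : Fact ℓ.Prime := ⟨hl⟩
  obtain ⟨f, hf⟩ := φ.exists_hyp hp hp0
  obtain ⟨u, u1, u2, u3⟩ := ex_u h hd hf
  have u4 : φ.Q u ≠ 0 := u3 ▸ one_ne_zero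
  obtain ⟨⟨α, ha⟩, a0⟩ := AddSubgroup.ne_bot_iff_exists_ne_zero.1 hZ
  replace a0 : α ≠ 0 := by simpa using a0
  have tz : ∀ x, φ.Q x = 0 → x ≠ 0 → φ.B u x = 0 → ∃ a, a ≠ 0 ∧ φ.T a = 0 ∧ φ.siegel x 0 a ∈ H ⊓ pt F u ⊓ P1 φ x ∧ φ.siegel x 0 a ≠ 1 := fun x a b e => by
    obtain ⟨k, k1, c, k2⟩ := trans h hd hm a b hp hp0
    have c0 : c ≠ 0 := fun e' => hp0 (by simpa [e', smul_eq_zero_iff_eq] using k2)
    have t1 : φ.T (φ.σ c * c * α) = 0 := by simp [φ.T_norm, ha.1]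
    obtain ⟨y, hy⟩ := φ.exists_hyp a b
    exact ⟨_, by simp [c0, a0], t1, ⟨⟨tv_conj k hp c0 k2 ha.1 ▸ H.mul_mem (H.mul_mem k1 (ha.2 hp)) (H.inv_mem k1), 1, by simp [tv h a t1, φ.B_symm_zero e]⟩,
      by simp [tv h a t1, hy.Bee], tv_E a t1⟩, fun e => by simpa [tv h a t1, hy.Bef, c0, a0, b] using congrArg (· • y) e⟩
  obtain ⟨a, a1, a2, a3, a4⟩ := tz p hp hp0 (φ.B_symm_zero u1)
  obtain ⟨κ, c, d, b1, -, rfl, b2⟩ := line h hd hf u1 u2 u4 ℓ (J := H ⊓ pt F u) (inf_le_left.trans hE) inf_le_right fun x i j k =>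
    let ⟨_, _, _, e1, e2⟩ := tz x i j k; orb1 h hd i j hp hp0 e1 e2 a3 a4
  rw [card_tv h hd hf u1 u2 u4] at b2
  have c1 : c ∣ q ^ 2 - 1 := (Dvd.intro_left _ b1).trans (CC_q2 h hp0)
  have c0 : 0 < c := Nat.pos_of_mul_pos_left (b1 ▸ Nat.card_pos)
  have z1 : Nat.card (Zs H p) ∣ q := h.card_ker_T ▸ AddSubgroup.card_dvd_of_le fun _ a => a.1
  have z2 : 1 < Nat.card (Zs H p) := (AddSubgroup.one_lt_card_iff_ne_bot _).2 hZ
  have z3 : Nat.card (Zs H p) < q := lt_of_not_ge fun e => hD (AddSubgroup.eq_of_le_of_card_ge (H := Zs H p) (fun _ a => a.1) (h.card_ker_T ▸ e)).ge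
  obtain ⟨g1, g2, g3⟩ := glob h hd hE hm hp hp0
  obtain ⟨n, hn⟩ := q_pow h ℓ
  have key : Nat.card (Zs H p) = 2 ∨ q = 9 ∧ Nat.card (Zs H p) = 3 := by
    rcases b2 with ⟨-, e⟩ | e | e | ⟨b, e, e1, e2, e3⟩
    · obtain ⟨b, b1, b2, b3, -⟩ := tz f hf.Qf hf.f_ne_zero (φ.B_symm_zero u2)
      obtain ⟨c, e1, e2⟩ := e _ a3.1 _ b3.1 (by simp [tv_pow hp a2, φ.siegel_zero hp]) (by simp [tv_pow hf.Qf b2, φ.siegel_zero hf.Qf])
      have e3 := congrArg (· • p) (show ⁅φ.siegel p 0 a, φ.siegel f 0 b⁆ * (φ.siegel f 0 b * φ.siegel p 0 a) = φ.siegel p 0 a * φ.siegel f 0 b by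
        simp [commutatorElement_def, mul_assoc])
      simp only [mul_smul, tv h hp a2, tv h hf.Qf b2, hf.Bee, Bfe h hf, mul_zero, zero_smul, sub_zero, smul_sub, smul_comm ⁅_, _⁆, e1, e2] at e3
      have e4 := congrArg (φ.B p) e3
      have e5 := congrArg (φ.B f) e3
      simp [hf.Bee, hf.Bef, hf.Bff, Bfe h hf, b1] at e4 e5
      simp [e4, a1, b1] at e5
    · exact .inl (by nlinarith)
    · exact num1 z1 z2 z3 e
    · exact (num2 hl hn z1 z2 z3 (cop h c1) e2 e1 e3).elim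
  rcases key with e | ⟨rfl, e⟩
  · obtain rfl : 2 = ℓ := (Nat.prime_dvd_prime_iff_eq Nat.prime_two hl).1 (Nat.prime_two.dvd_of_dvd_pow (hn ▸ e ▸ z1))
    obtain ⟨r, r1, r2, r3, r4⟩ := ex_r hq
    have : Fact r.Prime := ⟨r1⟩
    have pg : IsPGroup 2 ((P1 φ p).subgroupOf H) := (IsPGroup.of_card (n := n * 3) (by rw [card_P1 h hd hp hp0, hn, pow_mul])).comap_subtype
    have e1 := card_mul_rel (P1 φ p) H
    rw [g1, inf_comm, mul_assoc, Nat.mul_right_inj Nat.card_pos.ne'] at e1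
    refine noBad h hd r4 hE (zst (pg.toSylow ?_) (z := ⟨_, a3.1.1⟩) (orderOf_eq_prime (Subtype.ext (by simp [tv_pow hp a2, φ.siegel_zero hp, ← two_mul,
      show (2 : F) = 0 from CharP.cast_eq_zero F 2])) fun e => a4 (congrArg Subtype.val e)) a3.2 (fun g hg => Subtype.ext ?_) (g1 ▸ r2.mul_left _) r3)
    · have e2 := Nat.prime_two.coprime_iff_not_dvd.1 (cop h (CC_q2 h (J := H) hp0))
      rw [Nat.prime_two.dvd_mul, not_or] at e2
      rw [← relIndex, e1, Nat.prime_two.dvd_mul, not_or]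
      exact ⟨e2.1, fun a => e2.2 (by rw [← even_iff_two_dvd, Nat.even_add_one] at a ⊢; exact fun b => a (b.pow_of_ne_zero (by omega)))⟩
    have e2 : ((g : φ.Isom) * φ.siegel p 0 a * (g : φ.Isom)⁻¹) • p = p := hg.1
    rw [tv_conj g hp one_ne_zero (one_smul F _).symm a2, tv h (by simpa) (by simpa)] at e2
    obtain ⟨c, hc⟩ := Submodule.mem_span_singleton.1 (iso_perp h hd hp hp0 (x := (g : φ.Isom) • p) (by simpa)
      (φ.B_symm_zero (by simpa [a1, hp0, smul_eq_zero_iff_eq] using e2)))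
    have c0 := pt_ne hp0 hc.symm
    have e3 := tv_conj (g : φ.Isom) hp c0 hc.symm a2
    obtain ⟨y, -, hy⟩ := (Nat.card_eq_two_iff' (0 : Zs H p)).1 e
    have := (hy ⟨φ.σ c * c * a, by simp [φ.T_norm, a2], fun _ => e3 ▸ (g * ⟨_, a3.1.1⟩ * g⁻¹).2⟩ fun e => by simpa [c0, a1] using congrArg Subtype.val e).trans
      (hy ⟨a, a2, fun _ => a3.1.1⟩ fun e => a1 (congrArg Subtype.val e)).symm
    exact e3.trans (congrArg _ (congrArg Subtype.val this))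
  · have : Fact (Nat.Prime 73) := ⟨by norm_num⟩
    obtain ⟨n, o, n1, n2, n3, ⟨o, rfl⟩, -⟩ := syl (noBad h hd (r := 73) (by norm_num) hE) (g1 ▸ Dvd.dvd.mul_left (by norm_num) _)
    have s1 := s_le h hd hp hp0 hD
    have s2 : Nat.card (H ⊓ P1 φ p : Subgroup _) ∣ 27 := by
      obtain ⟨i, i1, i2⟩ := (Nat.dvd_prime_pow Nat.prime_three (m := 6)).1 g3
      rw [i2, e] at s1
      rw [i2]
      interval_cases i <;> omega
    have s3 : n * o ∣ 21600 := by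
      rw [show n * o = 10 * (Nat.card (H ⊓ P1 φ p : Subgroup _) * Nat.card (CC H p)) by rw [g1] at n1; nlinarith]
      exact Nat.mul_dvd_mul_left 10 (Nat.mul_dvd_mul s2 (CC_q2 h hp0))
    have s4 : 2 ∣ n := (Nat.prime_two.dvd_mul.1 (n1 ▸ g1 ▸ Dvd.dvd.mul_left (by norm_num) _)).resolve_right (by omega)
    obtain ⟨k, rfl⟩ : ∃ k, n = 73 * k + 1 := ⟨n / 73, by omega⟩
    have s5 := (Dvd.intro _ rfl).trans s3
    have s6 := Nat.le_of_dvd (by omega) s5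
    have := (by decide +kernel : ∀ k < 296, 73 * k + 1 ∣ 21600 → k = 0) k (by omega) s5
    omega

end H24.MD.U3
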