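import Cfsg.Agent.H24.U3D

/-!
# Minimal index for `SU₃(q)`: conclusion (namespace `H24.MD.U3`)
-/

set_option autoImplicit false
set_option linter.unusedSectionVars false

open Subgroup H20 H10 H10.Form Module

namespace H24.MD.U3

open O (Fl ix)
open T U U4

theorem num3 {q κ c : ℕ} (h0 : q % 2 = 1) (h3 : 3 ≤ q) (h5 : q ≠ 5) (h1 : κ * c = q ^ 2 - 1) (h2 : κ ∣ q + 1)
    (h : c ≤ 2 ∨ c * (q + 1) = 12 ∨ c * (q + 1) = 24 ∨ c * (q + 1) = 60) : q = 3 := by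
  obtain ⟨k, rfl⟩ : ∃ k, q = k + 1 := ⟨q - 1, by omega⟩
  obtain ⟨j, hj⟩ := h2
  have k0 : 0 < κ := Nat.pos_of_mul_pos_right (b := j) (by omega)
  have j0 : 0 < j := Nat.pos_of_mul_pos_left (a := κ) (by omega)
  obtain rfl : c = j * k := Nat.eq_of_mul_eq_mul_left k0 (by rw [h1, ← mul_assoc, ← hj]; exact Nat.sub_eq_of_eq_add (by ring))
  have : k ≤ 6 := by rcases h with h | h | h | h <;> nlinarith
  interval_cases k <;> omega

theorem num4 {q κ c : ℕ} (h0 : q % 2 = 1) (h3 : 3 ≤ q) (h5 : q ≠ 5) (h1 : κ * c ∣ q ^ 2 - 1) (h2 : κ ∣ q + 1) (h4 : κ * c ∣ 3 * (q - 1))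
    (h6 : q ^ 2 - 1 ≤ q * (κ * c)) (h : c ≤ 2 ∨ c * (q + 1) = 12 ∨ c * (q + 1) = 24 ∨ c * (q + 1) = 60) : q = 11 ∧ (κ * c = 15 ∨ κ * c = 30) := by
  obtain ⟨k, rfl⟩ : ∃ k, q = k + 1 := ⟨q - 1, by omega⟩
  have a : κ ∣ 6 := (Nat.dvd_add_right ((Dvd.intro _ rfl).trans h4)).1 ((h2.mul_left 3).trans (Eq.dvd (by omega)))
  have a1 : k + 1 ≤ κ * c := lt_of_not_ge fun e : κ * c ≤ k => by
    rw [show (k + 1) ^ 2 - 1 = k * (k + 2) from Nat.sub_eq_of_eq_add (by ring)] at h6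
    nlinarith
  have a2 := Nat.le_of_dvd (by omega) a
  have a3 : k ≤ 18 := by rcases h with h | h | h | h <;> nlinarith
  clear h6
  interval_cases k <;> interval_cases κ <;> first | omega | (have : c ≤ 15 := by omega
                                                             interval_cases c <;> first | omega | simp at h1 h4)

variable {F V : Type*} [Field F] [Finite F] [AddCommGroup V] [Module F V] [Finite V] {φ : Form F V} [φ.Nondeg]
  {H J : Subgroup φ.Isom} {g k z : φ.Isom} {p f u v w x y : V} {a c d e s t : F} {q r : ℕ}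

theorem B_eig (h1 : g • x = c • x) (h2 : g • y = d • y) (h3 : φ.B x y ≠ 0) : φ.σ c * d = 1 := by
  have := B_act g x y
  rw [h1, h2, φ.B_smul_left, φ.B_smul_right, ← mul_assoc] at this
  exact (mul_eq_right₀ h3).1 this

variable (h : φ.IsUnitary q) (hd : finrank F V = 3)
include h hd

theorem eig (hp : φ.Q p = 0) (hp0 : p ≠ 0) (hf : φ.Q f = 0) (hf0 : f ≠ 0) (h1 : g • p = c • p) (h2 : g • f = d • f) (h3 : c ≠ d) (hx : φ.Q x = 0)
    (h4 : g • x = e • x) : x ∈ F ∙ p ∨ x ∈ F ∙ f := by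
  by_contra! a
  exact h3 (φ.σ.injective (mul_right_cancel₀ (right_ne_zero_of_mul_eq_one (B_eig h2 h4 (mt (iso_perp h hd hf hf0 hx) a.2)))
    ((B_eig h1 h4 (mt (iso_perp h hd hp hp0 hx) a.1)).trans (B_eig h2 h4 (mt (iso_perp h hd hf hf0 hx) a.2)).symm)))

variable (hE : H ≤ φ.E) (hm : H.relIndex φ.E ≤ q ^ 3) (hZ : ∀ p, φ.Q p = 0 → p ≠ 0 → Zs H p = ⊥)
include hE hm hZ

theorem even_case (h3 : 3 ≤ q) (h2 : (2 : F) = 0) : False := by
  have s1 : ∀ y, φ.Q y = 0 → y ≠ 0 → H ⊓ P1 φ y = ⊥ := fun y a b => (eq_bot_iff_forall _).2 fun g hg => by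
    obtain ⟨w, s, w1, w2, rfl⟩ := P1_si h hd a b hg.2
    have := H.mul_mem hg.1 hg.1
    rw [φ.siegel_mul a w1 w2 w1 w2, ← two_smul F w, ← two_mul, h2, zero_smul, zero_mul, zero_add, ← h.herm.Q_eq] at this
    have e : φ.Q w = 0 := (hZ y a b).le ⟨by rw [h.herm.T_eq, h.herm.σ_Q, ← two_mul, h2, zero_mul], fun _ => this⟩
    obtain ⟨c, rfl⟩ := Submodule.mem_span_singleton.1 (iso_perp h hd a b e w1)
    have e1 := siegel_self a (w2.trans e) c
    rw [e1, show s + c - φ.ε * φ.σ c = 0 from (hZ y a b).le ⟨by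
      simp [w2, e, h.herm.T_eq c, h.herm.T_eq (φ.σ _), h.herm.ε_eq, add_comm], fun _ => e1 ▸ hg.1⟩, φ.siegel_zero a]
  obtain ⟨p, f', hf'⟩ := h.exists_hyp_of_two_le (by omega)
  have hp := hf'.Qe
  have hp0 := hf'.e_ne_zero
  have hq := h.two_le
  obtain ⟨g1, g2, -⟩ := glob h hd hE hm hp hp0
  rw [s1 p hp hp0, card_bot, one_mul] at g1 g2
  have c1 := Nat.le_antisymm g2 (Nat.le_of_dvd (Nat.sub_pos_of_lt (Nat.one_lt_pow (by omega) hq)) (CC_q2 h hp0))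
  have c2 : CC H p = ⊤ := eq_top_of_card_eq _ (by rw [← c1, Nat.card_units, h.card])
  obtain ⟨ℓ, _⟩ := CharP.exists F
  have hl := CharP.char_is_prime F ℓ
  have : Fact ℓ.Prime := ⟨hl⟩
  obtain rfl : ℓ = 2 := (Nat.prime_dvd_prime_iff_eq hl Nat.prime_two).1 ((CharP.cast_eq_zero_iff F ℓ 2).1 h2)
  have c3 : Odd (Nat.card H) := by
    have e2 := Nat.prime_two.coprime_iff_not_dvd.1 (cop h (CC_q2 h (J := H) hp0))
    rw [Nat.prime_two.dvd_mul, not_or, ← even_iff_two_dvd, ← even_iff_two_dvd, Nat.even_add_one, not_not, Nat.not_even_iff_odd] at e2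
    exact g1 ▸ e2.1.mul (e2.2.pow_of_ne_zero (by omega)).add_one
  obtain ⟨c, c0, hc⟩ : ∃ c : F, c ≠ 0 ∧ φ.σ c * c ≠ 1 := by
    by_contra! e
    have := Set.ncard_le_ncard (s := {a : F | a ≠ 0}) (t := {a | φ.σ a * a = 1}) e
    rw [show Set.ncard {a | φ.σ a * a = 1} = _ from h.card_norm one_ne_zero (map_one _), show Set.ncard {a : F | a ≠ 0} = _ from Nat.card_congr
      unitsEquivNeZero.symm, Nat.card_units, h.card] at this
    have := Nat.sub_le_iff_le_add.1 this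
    nlinarith
  obtain ⟨g, hg, e1⟩ : Units.mk0 c c0 ∈ CC H p := c2 ▸ mem_top _
  replace e1 : g • p = c • p := e1
  obtain ⟨f, f1, f0⟩ := (Submodule.ne_bot_iff _).1 (show LinearMap.ker ((g.1 : V →ₗ[F] V) - (φ.σ c)⁻¹ • LinearMap.id) ≠ ⊥ from fun e => by
    obtain ⟨x, hx⟩ := LinearMap.injective_iff_surjective.1 (LinearMap.ker_eq_bot.1 e) f'
    have e2 := congrArg (φ.B p) (show g • x - (φ.σ c)⁻¹ • x = f' from hx)
    have e3 := B_act g p x
    rw [e1, φ.B_smul_left] at e3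
    rw [map_sub, φ.B_smul_right, ← e3, inv_mul_cancel_left₀ (φ.σ_eq_zero.not.2 c0), sub_self, hf'.Bef] at e2
    exact zero_ne_one e2)
  replace f1 : g • f = (φ.σ c)⁻¹ • f := sub_eq_zero.1 f1
  have d1 : c ≠ (φ.σ c)⁻¹ := fun e => hc (by nth_rw 2 [e]; exact mul_inv_cancel₀ (φ.σ_eq_zero.not.2 c0))
  have f2 : φ.Q f = 0 := by_contra fun e => hc (by
    have := B_eig f1 f1 (h.herm.Q_eq f ▸ e)
    rw [map_inv₀, σ_σ, ← mul_inv, inv_eq_one] at this
    rwa [mul_comm])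
  have d2 : ∀ {x}, x ≠ 0 → g • x = c • x → x ∉ F ∙ f := fun {x} a b e => by
    obtain ⟨m, rfl⟩ := Submodule.mem_span_singleton.1 e
    rw [smul_comm, f1, smul_comm] at b
    exact d1 (smul_left_injective F a b).symm
  have f3 : φ.B f p ≠ 0 := fun e => d2 hp0 e1 (iso_perp h hd f2 f0 hp e)
  obtain ⟨k, k1, μ, k2⟩ := trans h hd hm f2 f0 hp hp0
  have m0 : μ ≠ 0 := fun e' => hp0 (by simpa [e', smul_eq_zero_iff_eq] using k2)
  have a1 : (k * g * k⁻¹) • f = c • f := smul_right_injective V m0 (by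
    change μ • _ = μ • c • f
    rw [← smul_comm (k * g * k⁻¹), smul_comm μ c, ← k2, mul_smul, mul_smul, inv_smul_smul, e1, smul_comm k])
  have a0' := mul_mem (mul_mem k1 hg) (inv_mem k1)
  have a0 := mul_mem (inv_mem (mul_mem hg a0')) (mul_mem a0' hg)
  have a2 : g * (k * g * k⁻¹) = k * g * k⁻¹ * g := inv_mul_eq_one.1 ((s1 f f2 f0).le ⟨a0, show _ • f = f by
    rw [mul_smul, inv_smul_eq_iff, mul_smul _ g, mul_smul g, a1, f1, smul_comm g, smul_comm _ (φ.σ c)⁻¹, a1, f1, smul_comm], hE a0⟩)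
  have a3 : g • (k * g * k⁻¹) • p = c • (k * g * k⁻¹) • p := by rw [← mul_smul, a2, mul_smul, e1, smul_comm]
  obtain ⟨ν, a4⟩ := Submodule.mem_span_singleton.1 ((eig h hd hp hp0 f2 f0 e1 f1 d1 (by simpa) a3).resolve_right (d2 (by simpa [smul_eq_zero_iff_eq]) a3))
  obtain ⟨m, a5⟩ := Submodule.mem_span_singleton.1 ((eig h hd hp hp0 f2 f0 a4.symm a1 (fun e => hc (by simpa [e] using B_eig a1 a4.symm f3)) (x := k • f)
    (e := (φ.σ c)⁻¹) (by simpa) (by rw [mul_smul, mul_smul, inv_smul_smul, f1, smul_comm])).resolve_right fun e => by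
      obtain ⟨m, hm⟩ := Submodule.mem_span_singleton.1 e
      exact f3 (by simpa [← hm, k2, φ.B_self_eq_zero f2, eq_comm] using B_act k f p))
  have a6 : k ^ 2 ∈ pt F p := ⟨μ * m, by rw [sq, mul_smul, k2, smul_comm, ← a5, smul_smul]⟩
  obtain ⟨n, hn⟩ := exists_pow_eq_self_of_coprime (x := k) (n := 2) (Nat.coprime_two_left.2 (c3.of_dvd_nat (orderOf_dvd_natCard H k1)))
  obtain ⟨b, hb⟩ : k ∈ pt F p := hn ▸ pow_mem a6 n
  exact f3 (by simpa [φ.B_self_eq_zero f2, pt_ne hp0 hb] using congrArg (φ.B f) (hb.symm.trans k2))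

theorem odd_case (h3 : 3 ≤ q) (h5 : q ≠ 5) (hC : center φ.E ≤ H.subgroupOf φ.E) (h2 : (2 : F) ≠ 0) : False := by
  obtain ⟨ℓ, _⟩ := CharP.exists F
  have hl := CharP.char_is_prime F ℓ
  have : Fact ℓ.Prime := ⟨hl⟩
  have qo := odd_q h hd h2
  obtain ⟨z, hz, z1⟩ : ∃ z ∈ H, orderOf z = 2 := by
    obtain ⟨p, f, hf⟩ := h.exists_hyp_of_two_le (by omega)
    obtain ⟨z, hz⟩ := exists_prime_orderOf_dvd_card' (G := H) 2 ((glob h hd hE hm hf.Qe hf.e_ne_zero).1 ▸ qo.pow.add_one.two_dvd.mul_left _)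
    exact ⟨z, z.2, (orderOf_coe z).trans hz⟩
  have zz : z * z = 1 := by rw [← sq, ← z1, pow_orderOf_eq_one]
  obtain ⟨p, p1, hp0, hp⟩ := h.exists_singular (inv2 h hd (hE hz) z1)
  replace p1 : z • p = -p := eq_neg_of_add_eq_zero_left p1
  obtain ⟨u, u0, u1, u2⟩ := inv_pt h hd (hE hz) z1
  have o1 : ∀ {x}, z • x = -x → φ.B x u = 0 := fun {x} e => by
    have := B_act z x u
    rw [e, u1, map_neg, LinearMap.neg_apply] at this
    exact (mul_eq_zero.1 (by linear_combination -this : 2 * φ.B x u = 0)).resolve_left h2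
  obtain ⟨f, hf, f1⟩ : ∃ f, φ.IsHyp p f ∧ z • f = -f := by
    obtain ⟨f, hf⟩ := φ.exists_hyp hp hp0
    have := B_act z p f
    rw [p1, map_neg, LinearMap.neg_apply, hf.Bef, neg_eq_iff_eq_neg] at this
    obtain ⟨a, ha⟩ := φ.isHyp_of_B (w := (2 : F)⁻¹ • (f - z • f)) hp (by rw [φ.B_smul_right, map_sub, this, hf.Bef]; field_simp; ring)
    exact ⟨_, ha, by rw [smul_add, smul_comm z, smul_comm z, smul_sub z, ← mul_smul z, zz, one_smul φ.Isom, p1, smul_neg, neg_add, ← neg_sub f, smul_neg]⟩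
  have b1 := o1 p1
  have b2 := o1 f1
  have u4 : φ.Q u ≠ 0 := fun e => by
    obtain ⟨c, rfl⟩ := Submodule.mem_span_singleton.1 (iso_perp h hd hp hp0 e b1)
    simp_all [Bfe h hf]
  have s1 : H ⊓ pt F u ⊓ P1 φ p = ⊥ := card_eq_one.1 (by rw [card_tv h hd hf b1 b2 u4, hZ p hp hp0, AddSubgroup.card_bot])
  have adj : ∀ k ∈ H, z • k • p = -(k • p) → ∃ k' ∈ H ⊓ pt F u, k' • p = k • p := fun k k1 k2 => by
    have e1 : z⁻¹ • p = -p := by rw [inv_smul_eq_iff, smul_neg, p1, neg_neg]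
    have e2 := mul_mem (inv_mem hz) (mul_mem (mul_mem (inv_mem k1) hz) k1)
    obtain ⟨a, a1, a2⟩ := fpf (S := H ⊓ P1 φ p) (y := z) (s := z⁻¹ * (k⁻¹ * z * k)) (fun a a1 =>
      have e : z⁻¹ * a * z ∈ H := mul_mem (mul_mem (inv_mem hz) a1.1) hz
      ⟨e, show _ • p = p by rw [mul_smul, mul_smul, p1, smul_neg, show a • p = p from a1.2.1, smul_neg, e1, neg_neg], hE e⟩)
      (fun a a1 a2 => s1.le ⟨⟨a1.1, u2 a a2.symm⟩, a1.2⟩)
      ⟨e2, show _ • p = p by rw [mul_smul, mul_smul, mul_smul, k2, smul_neg, inv_smul_smul, smul_neg, e1, neg_neg], hE e2⟩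
    exact ⟨k * a⁻¹, ⟨H.mul_mem k1 (H.inv_mem a1.1), u2 _ (by
      calc k * a⁻¹ * z = k * (a⁻¹ * z * a) * a⁻¹ := by group
        _ = _ := by rw [a2]; group)⟩, by rw [mul_smul, show a⁻¹ • p = p from ((P1 φ p).inv_mem a1.2).1]⟩
  have tr := fun x a b => trans h hd hm (p := x) a b hp hp0
  obtain ⟨κ, c, d, c1, c2, rfl, c3⟩ := line h hd hf b1 b2 u4 ℓ (J := H ⊓ pt F u) (inf_le_left.trans hE) inf_le_right fun x i j e => by
    obtain ⟨k, k1, c, k2⟩ := tr x i j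
    obtain ⟨k', k3, k4⟩ := adj k k1 (by
      rw [k2, smul_comm, dec h hd hf b1 b2 u4 e, smul_add, smul_comm z, smul_comm z, p1, f1]; module)
    exact ⟨k', k3, c, k4.trans k2⟩
  have c4 : CC (H ⊓ pt F u) p = CC H p := le_antisymm (fun c ⟨g, a, b⟩ => ⟨g, a.1, b⟩) fun c ⟨g, a, b⟩ =>
    let ⟨k, k1, k2⟩ := adj g a (by rw [b, smul_comm, p1, smul_neg]); ⟨k, k1, k2.trans b⟩
  have c5 := CC_q2 h (J := H) hp0
  obtain ⟨g1, g2, g3⟩ := glob h hd hE hm hp hp0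
  obtain ⟨t, t0, ht⟩ := h.exists_skew
  have g4 := s_le h hd hp hp0 (H := H) fun e => t0 ((hZ p hp hp0).le (e ht))
  rw [hZ p hp hp0, AddSubgroup.card_bot, mul_one] at g4
  rw [c4] at c1
  rw [s1, card_bot, one_mul] at c3
  rw [← c1] at g1 g2 c5
  have c6 := hl.coprime_iff_not_dvd.1 (cop h ((Dvd.intro_left _ rfl).trans c5))
  replace c3 : c ≤ 2 ∨ c * (q + 1) = 12 ∨ c * (q + 1) = 24 ∨ c * (q + 1) = 60 := by
    rcases c3 with e | e | e | ⟨b, e, e1, e2, e3⟩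
    exacts [(c6 e.1).elim, .inl e, .inr e, (((hl.dvd_mul.1 (e3 ▸ (dvd_pow_self ℓ e1.ne').mul_right _)).resolve_left c6) |> e2).elim]
  by_cases e : H ⊓ P1 φ p = ⊥
  · rw [e, card_bot, one_mul] at g1 g2
    have c7 := (Nat.le_of_dvd (Nat.sub_pos_of_lt (Nat.one_lt_pow (by omega) h.two_le)) c5).antisymm g2
    obtain rfl := num3 (Nat.odd_iff.1 qo) h3 h5 c7 c2 c3
    have : Fact (Nat.Prime 7) := ⟨by norm_num⟩
    rw [c7] at g1
    obtain ⟨n, o, n1, n2, n3, ⟨o, rfl⟩, -⟩ := syl (noBad h hd (r := 7) (by norm_num) hE) (by rw [g1]; norm_num)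
    rw [g1] at n1
    have := Nat.le_of_dvd (by norm_num) (Dvd.intro_left _ n1)
    have : o ≤ 32 := by omega
    interval_cases o <;> omega
  obtain ⟨⟨g, hg⟩, g0⟩ := ne_bot_iff_exists_ne_one.1 e
  replace g0 : g ≠ 1 := fun e => g0 (Subtype.ext e)
  have c7 : κ * c ∣ 3 * (q - 1) := by
    obtain ⟨w, s, w1, w2, rfl⟩ := P1_si h hd hp hp0 hg.2
    have w3 : φ.B u w ≠ 0 := fun e => g0 (s1.le ⟨⟨hg.1, 1, by simp [si h hp w1 w2, b1, φ.B_symm_zero e]⟩, hg.2⟩)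
    have uu : φ.B u u ≠ 0 := h.herm.Q_eq u ▸ u4
    have w4 := dec h hd hf b1 b2 u4 (x := w - (φ.B u w / φ.B u u) • u) (by simp [uu])
    rw [c1, ← c4]
    refine CC_dvd hp0 fun k k1 c k2 => ?_
    have c0 := pt_ne hp0 k2
    have c0' := φ.σ_eq_zero.not.2 c0
    have m1 : φ.σ (φ.σ c / c) * (φ.σ c / c) = 1 := by simp [c0, c0']
    have r1 : (φ.rot p f c * φ.qrefl u (φ.σ c / c)) • p = c • p := by
      rw [mul_smul, show φ.qrefl u (φ.σ c / c) • p = p from h.herm.qrefl_of_orth u4 m1 (φ.B_symm_zero b1), ro h hf c0, Bfe h hf, hf.Bee]; module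
    have r2 : (φ.rot p f c * φ.qrefl u (φ.σ c / c)) • u = (φ.σ c / c) • u := by
      rw [mul_smul, show φ.qrefl u (φ.σ c / c) • u = _ from h.herm.qrefl_self u4 m1, smul_comm, ro h hf c0, b1, b2]; module
    have r3 : φ.rot p f c * φ.qrefl u (φ.σ c / c) ∈ φ.E := by
      rw [h.E_eq_SIsom (by omega), SIsom, MonoidHom.mem_ker, map_mul, ← Units.val_eq_one, Units.val_mul, coe_det, coe_det, φ.det_rot hf c0,
        h.herm.det_qrefl u4 m1]
      field_simp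
    obtain ⟨a, a1, a2⟩ := tv_of h hd hf b1 b2 u4 (g := (φ.rot p f c * φ.qrefl u (φ.σ c / c))⁻¹ * k)
      ⟨show _ • p = p by rw [mul_smul, k2, ← r1, inv_smul_smul], φ.E.mul_mem (inv_mem r3) (hE k1.1)⟩ ((pt F u).mul_mem ((pt F u).inv_mem ⟨_, r2⟩) k1.2)
    have r4 : k • u = (φ.σ c / c) • u := by rw [inv_mul_eq_iff_eq_mul.1 a2, mul_smul, tv h hp a1, b1, ← r2]; simp
    have w5 := (mem_aa hp).2 ⟨w1, s, w2, hg.1⟩
    have := (hZ p hp hp0).le (aa_comm hp w5 (aa_conj hp c0 k1.1 k2 w5))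
    have w6 : φ.B u w / φ.B u u ≠ 0 := div_ne_zero w3 uu
    rw [map_sub (φ.B p), φ.B_smul_right, w1, b1, mul_zero, sub_zero, zero_smul, add_zero, sub_eq_iff_eq_add] at w4
    generalize φ.B u w / φ.B u u = α at *
    generalize φ.B f (w - α • u) = β at *
    rw [AddSubgroup.mem_bot, w4, smul_add k, smul_comm k, smul_comm k, k2, r4] at this
    simp only [map_add, LinearMap.add_apply, φ.B_smul_left, φ.B_smul_right, hf.Bee, b1, φ.B_symm_zero b1, map_div₀, σ_σ] at this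
    field_simp [φ.σ_eq_zero.not.2 w6] at this
    refine mul_right_cancel₀ (pow_ne_zero 3 c0) ?_
    rw [← pow_add, show 3 * (q - 1) + 3 = q * 3 by omega, pow_mul, ← h.σ_eq]
    exact mul_right_cancel₀ (mul_ne_zero (mul_ne_zero (φ.σ_eq_zero.not.2 w6) w6) uu) (by linear_combination this)
  obtain ⟨rfl, c8⟩ := num4 (Nat.odd_iff.1 qo) h3 h5 c5 c2 c7 (g2.trans (Nat.mul_le_mul_right _ g4)) c3
  have s2 : Nat.card (H ⊓ P1 φ p : Subgroup _) = 11 := by
    obtain ⟨i, i1, i2⟩ := (Nat.dvd_prime_pow (by norm_num : Nat.Prime 11)).1 g3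
    have := (one_lt_card_iff_ne_bot _).2 e
    rw [i2] at this g4 ⊢
    interval_cases i <;> omega
  have : Fact (Nat.Prime 37) := ⟨by norm_num⟩
  rw [s2] at g1
  obtain ⟨n, o, n1, n2, n3, ⟨o, rfl⟩, n4⟩ := syl (noBad h hd (r := 37) (by norm_num) hE) (g1 ▸ Dvd.dvd.mul_left (by norm_num) _)
  have n5 : n * o = 396 * (κ * c) := by rw [g1] at n1; nlinarith
  have n6 : o = 3 ∧ κ * c = 30 := by
    obtain ⟨k, rfl⟩ : ∃ k, n = 37 * k + 1 := ⟨n / 37, by omega⟩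
    have s5 : 37 * k + 1 ∣ 11880 := (Dvd.intro _ n5).trans (by rcases c8 with e | e <;> simp [e])
    have s6 := Nat.le_of_dvd (by omega) s5
    rcases (by decide +kernel : ∀ k < 330, 37 * k + 1 ∣ 11880 → k = 0 ∨ k = 8 ∨ k = 107) k (by omega) s5 with rfl | rfl | rfl <;> omega
  obtain ⟨N, _, hN⟩ := n4 (by rw [n6.1]) (by omega) (by
    obtain ⟨ω, hω⟩ := exists_prime_orderOf_dvd_card' (G := center φ.E) 3 (by rw [h.E_eq_SIsom (by omega), h.card_center_SIsom (by omega), hd]; norm_num)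
    exact ⟨⟨_, hC ω.2⟩, mem_center_iff.2 fun g => Subtype.ext (congrArg φ.E.subtype (mem_center_iff.1 ω.2 ⟨g, hE g.2⟩)), 
      (orderOf_coe _).symm.trans ((orderOf_coe ω.1).trans ((orderOf_coe ω).trans hω))⟩)
  have k1 : ∀ y, φ.Q y = 0 → y ≠ 0 → ∀ g ∈ H ⊓ P1 φ y, g ∈ N.map H.subtype ⊓ P1 φ y := fun y a b g hg => ⟨⟨⟨g, hg.1⟩, (QuotientGroup.eq_one_iff _).1
    (orderOf_eq_one_iff.1 (Nat.eq_one_of_dvd_coprimes (a := 11 ^ 3) (b := 37) (by norm_num) ((orderOf_map_dvd (QuotientGroup.mk' N) _).trans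
      (orderOf_coe (⟨g, hg.1⟩ : H) ▸ card_P1 h hd a b ▸ orderOf_dvd_natCard _ hg.2)) (hN ▸ orderOf_dvd_natCard _))), rfl⟩, hg.2⟩
  have k2 := tr_index h hd (J := N.map H.subtype) hp hp0 fun x a b => by
    obtain ⟨k, k2, c, k3⟩ := tr x a b
    have c0 : c ≠ 0 := fun e' => hp0 (by simpa [e', smul_eq_zero_iff_eq] using k3)
    have e1 : k * g * k⁻¹ ∈ H := mul_mem (mul_mem k2 hg.1) (inv_mem k2)
    exact orb1 h hd a b hp hp0 (k1 x a b _ ⟨e1, smul_right_injective V c0 (show c • _ = c • x by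
      rw [← smul_comm (k * g * k⁻¹), ← k3, mul_smul, mul_smul, inv_smul_smul, show g • p = p from hg.2.1]), hE e1⟩) (by simpa using g0) (k1 p hp hp0 g hg) g0
  have k3 := relIndex_dvd_card (pt F p) (N.map H.subtype)
  have k4 := N.card_mul_index
  rw [k2, card_subtype] at k3
  rw [hN, g1, n6.2] at k4
  omega

omit hm hZ in
theorem min_index (h3 : 3 ≤ q) (h5 : q ≠ 5) (hC : center φ.E ≤ H.subgroupOf φ.E) (hH : ¬ φ.E ≤ H) : q ^ 3 + 1 ≤ H.relIndex φ.E := by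
  by_contra! hm
  replace hm := Nat.le_of_lt_succ hm
  obtain ⟨p, hp, hD⟩ : ∃ p, φ.Q p = 0 ∧ ¬ Dp H p := by
    by_contra! e
    refine hH (h.E_eq_SIsom (by omega) ▸ fun g hg => ?_)
    refine (closure_le (H.subgroupOf φ.SIsom)).2 ?_ (h.closure_transvections (by omega) (by omega) ▸ mem_top (⟨g, hg⟩ : φ.SIsom))
    rintro g ⟨p, c, hp, hc, hg⟩
    have := (e p hp).mem (t := -c) (by simp [hc])
    rwa [φ.siegel_zero_eq_quasi hp (by simp [hc]), h.herm.ε_eq, one_mul, neg_neg, ← hg] at this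
  have hZ : ∀ y, φ.Q y = 0 → y ≠ 0 → Zs H y = ⊥ := fun y a b => caseI h hd hE hm h3 a b fun e =>
    let ⟨k, k1, c, k2⟩ := trans h hd hm a b hp fun e => hD (e ▸ Dp.zero)
    hD (by simpa using (k2 ▸ Dp.smul ⟨a, e⟩ c : Dp H (k • p)).map (inv_mem k1))
  by_cases e : (2 : F) = 0
  exacts [even_case h hd hE hm hZ h3 e, odd_case h hd hE hm hZ h3 h5 hC e]

omit h hd hE hm hZ

theorem bridge' {G G' : Type*} [Group G] [Finite G] [Group G'] {E P : Subgroup G} (e : G' ≃* E ⧸ center E) {b : ℕ}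
    (h : ∀ H ≤ E, center E ≤ H.subgroupOf E → ¬ E ≤ H → b ≤ H.relIndex E) (hP : center E ≤ P.subgroupOf E) (hb : P.relIndex E = b) :
    (∀ H : Subgroup G', H ≠ ⊤ → b ≤ H.index) ∧ ∃ H : Subgroup G', H.index = b := by
  have hs : Function.Surjective (e.symm.toMonoidHom.comp (QuotientGroup.mk' (center E))) := e.symm.surjective.comp (QuotientGroup.mk'_surjective _)
  have hk : (e.symm.toMonoidHom.comp (QuotientGroup.mk' (center E))).ker = center E := by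
    rw [MonoidHom.ker_comp_of_injective _ _ e.symm.injective, QuotientGroup.ker_mk']
  generalize e.symm.toMonoidHom.comp (QuotientGroup.mk' (center E)) = π at hs hk
  refine ⟨fun H hH => ?_, (P.subgroupOf E).map π, (index_map_eq _ hs (hk ▸ hP)).trans hb⟩
  have e1 : ((H.comap π).map E.subtype).subgroupOf E = H.comap π := comap_map_eq_self_of_injective E.subtype_injective _
  have := h ((H.comap π).map E.subtype) (map_subtype_le _) (by rw [e1, ← hk]; exact ker_le_comap _ _) fun hE =>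
    hH (comap_injective hs (e1.symm.trans (subgroupOf_eq_top.2 hE)))
  rwa [relIndex, e1, index_comap_of_surjective _ hs] at this

theorem final (hF : Nat.card F = q ^ 2) (h3 : 3 ≤ q) (h5 : q ≠ 5) {n : ℕ} (hn : n = 3) :
    (∀ H : Subgroup (Cfsg.PSU n F q), H ≠ ⊤ → q ^ 3 + 1 ≤ H.index) ∧ ∃ H : Subgroup (Cfsg.PSU n F q), H.index = q ^ 3 + 1 := by
  have e := quotCenterEquiv (SUEquiv hF n)
  have h := stdU_isUnitary hF n
  have hd : finrank F (Fin n → F) = 3 := by simpa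
  have hN := stdU_nondeg hF n
  generalize stdU hF n = φ at *
  obtain ⟨p, f, hf⟩ := h.exists_hyp_of_two_le (by omega)
  rw [← h.E_eq_SIsom (by omega)] at e
  refine bridge' e (P := pt F p) (fun H a b c => min_index h hd a h3 h5 b c) (fun g hg => ?_) (tr_index h hd hf.Qe hf.e_ne_zero fun x a b =>
    let ⟨g, g1, g2⟩ := (h.big (by omega)).exists_E_map_sing hf.Qe hf.e_ne_zero a b; ⟨g, g1, 1, g2.trans (one_smul F x).symm⟩)
  obtain ⟨c, hc⟩ := (mem_center_E_iff h.conn hf).1 hg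
  exact ⟨c, hc p⟩

end H24.MD.U3
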