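import Cfsg.Agent.H24.MDU2

/-!
# Minimal index for `SU₄(q)`: tools (namespace `H24.MD.U4`)

* `Fr` : hyperbolic frames; `JJ` : the product of `H ∩ P` and the unipotent radical; `base'`, `tzK`, `lines_ge` : index bounds
-/

set_option autoImplicit false
set_option linter.unusedSectionVars false

open Subgroup H20 H10 H10.Form Module

namespace H24.MD.U4

open O (Fl ix)
open T U

variable {F V : Type*} [Field F] [Finite F] [AddCommGroup V] [Module F V] [Finite V] {φ : Form F V} [φ.Nondeg]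
  {H J K : Subgroup φ.Isom} {p x w u v f y : V} {s t c : F} {q : ℕ}

variable (φ) in
/-- Two orthogonal hyperbolic pairs. -/
structure Fr (p u v f : V) : Prop where
  pf : φ.IsHyp p f
  uv : φ.IsHyp u v
  pu : φ.B p u = 0
  pv : φ.B p v = 0
  fu : φ.B f u = 0
  fv : φ.B f v = 0

theorem ex_fr (hf : Fl φ p u) : ∃ v f, Fr φ p u v f := by
  obtain ⟨f, f1, f2⟩ := φ.exists_partner (W := F ∙ u) hf.qp hf.symm.ne (φ.mem_perp_singleton.2 hf.symm.b)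
  have f3 := φ.B_symm_zero (φ.mem_perp_singleton.1 f1)
  obtain ⟨v, v1, v2⟩ := φ.exists_partner (W := Submodule.span F {p, f}) hf.qx (fun e => by
    obtain ⟨a, b, e⟩ := Submodule.mem_span_pair.1 e
    have := congrArg (φ.B p) e
    simp [f2.Bee, f2.Bef, hf.b] at this
    exact hf.ne (by simp [← e, this, mem_sp])) (φ.mem_perp_pair.2 ⟨hf.b, f3⟩)
  exact ⟨v, f, f2, v2, hf.b, (φ.mem_perp_pair.1 v1).1, f3, (φ.mem_perp_pair.1 v1).2⟩

/-- The product of `H ∩ P` and the unipotent radical. -/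
noncomputable def JJ (H : Subgroup φ.Isom) (hp : φ.Q p = 0) (hp0 : p ≠ 0) : Subgroup φ.Isom :=
  mkSub (fun g => g ∈ pt F p ∧ ∃ k ∈ RR hp (perp1 p), g * k ∈ H) ⟨one_mem _, 1, one_mem _, by simp⟩
    fun a b ⟨a1, k, a2, a3⟩ ⟨b1, l, b2, b3⟩ => ⟨mul_mem a1 b1, b⁻¹ * k * b⁻¹⁻¹ * l, mul_mem (RR_conj hp hp0 (inv_mem b1) a2) b2, by
      convert mul_mem a3 b3 using 1; group⟩

variable (H p) in
/-- The twisted stabiliser of `aa H p`. -/
def SA : Subgroup φ.Isom := mkSub (fun g => ∃ c : F, g • p = c • p ∧ ∀ w ∈ aa H p, φ.σ c • g • w ∈ aa H p) ⟨1, by simp⟩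
  fun a b ⟨c, h1, h2⟩ ⟨d, h3, h4⟩ => ⟨c * d, by rw [mul_smul, h3, smul_comm, h1, smul_smul, mul_comm], fun w hw => by
    convert h2 _ (h4 w hw) using 1; rw [map_mul, mul_smul a, mul_smul (φ.σ c), smul_comm a (φ.σ d)]⟩

variable {hp : φ.Q p = 0} {hp0 : p ≠ 0}

theorem JJ_ex {g : φ.Isom} (hg : g ∈ JJ H hp hp0) : ∃ k ∈ H, k • p = g • p ∧ ∀ x, φ.B p x = 0 → ∃ d : F, k • x = g • x + d • p := by
  obtain ⟨⟨c, hc⟩, _, ⟨w, w1, s, s1, rfl⟩, h⟩ := hg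
  refine ⟨_, h, by rw [mul_smul, si_fix hp (perp1 p w w1) s1 (φ.B_self_eq_zero hp) (φ.B_symm_zero (perp1 p w w1))], fun x hx => ⟨φ.B w x * c, ?_⟩⟩
  simp [mul_smul, si_app hp (perp1 p w w1) s1, hx, smul_comm g, hc]

theorem JJ_SA : JJ H hp hp0 ≤ SA H p := fun g hg => by
  obtain ⟨k, k1, k2, k3⟩ := JJ_ex hg
  obtain ⟨c, hc⟩ := hg.1
  refine ⟨c, hc, fun w hw => ?_⟩
  obtain ⟨d, hd⟩ := k3 w (perp1 p w hw.1)
  simpa [hd, smul_smul] using sub_mem (aa_conj hp (pt_ne hp0 hc) k1 (k2.trans hc) hw) (self_aa hp (φ.σ c * d))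

theorem SA_app {g : φ.Isom} (hp0 : p ≠ 0) (hg : g ∈ SA H p) (h : g • p = c • p) (hw : w ∈ aa H p) : φ.σ c • g • w ∈ aa H p := by
  obtain ⟨d, h1, h2⟩ := hg
  rw [smul_left_injective F hp0 (h.symm.trans h1)]; exact h2 w hw

theorem SA_one {g : φ.Isom} (hp0 : p ≠ 0) (hg : g ∈ SA H p) (h : g • p = p) (hw : w ∈ aa H p) : g • w ∈ aa H p := by
  simpa using SA_app (c := 1) hp0 hg (by simpa) hw

theorem P1_le : P1 φ p ≤ pt F p ⊓ φ.E := fun g hg => ⟨⟨1, by simpa using hg.1⟩, hg.2⟩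

theorem base' : (JJ H hp hp0).relIndex (pt F p ⊓ φ.E) * ((aa H p).relIndex (φ.perp (F ∙ p)).toAddSubgroup * (Zs H p).relIndex φ.T.ker) ≤ ix H p :=
  (Nat.mul_le_mul_left _ (rad_ge H hp (perp1 p))).trans (chain (fun g hg => ⟨hg.2.1, 1, one_mem _, by simpa using hg.1⟩) fun g hg =>
    have := P1_le (RR_le (H := H) hp hg).2
    ⟨⟨this.1, g⁻¹, inv_mem hg, by simp⟩, this⟩)

variable (h : φ.IsUnitary q)
include h

theorem si (hp : φ.Q p = 0) (hw : φ.B p w = 0) (hs : φ.T s = φ.Q w) (x : V) :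
    φ.siegel p w s • x = x + φ.B w x • p - φ.B p x • w - (s * φ.B p x) • p := by simp [si_app hp hw hs, h.herm.ε_eq]

theorem tv (hp : φ.Q p = 0) (ht : φ.T t = 0) (x : V) : φ.siegel p 0 t • x = x - (t * φ.B p x) • p := by simp [tv_app hp ht, h.herm.ε_eq]

theorem ro (hf : φ.IsHyp p f) (hc : c ≠ 0) (x : V) : φ.rot p f c • x = x + ((c - 1) * φ.B f x) • p + (((φ.σ c)⁻¹ - 1) * φ.B p x) • f := by
  simpa [h.herm.ε_eq] using show φ.rot p f c • x = _ from φ.rot_apply hf hc x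

theorem Bfe (hf : φ.IsHyp p f) : φ.B f p = 1 := hf.Bfe.trans h.herm.ε_eq

theorem T_fix (hc : φ.σ c = c) (t : F) : φ.T (c * t) = c * φ.T t := by simp [h.herm.T_eq, hc, mul_add]

theorem fix_of (ht : φ.T t = 0) (ht0 : t ≠ 0) (hc : φ.T (c * t) = 0) : φ.σ c = c := by
  rw [h.herm.T_eq, map_mul, skew h ht] at hc
  exact mul_right_cancel₀ ht0 (by linear_combination -hc)

theorem tzK (hD : ¬ φ.T.ker ≤ Zs H p) (hK : K ≤ pt F p) (hn : ∀ n, n ≠ 0 → φ.σ n = n → ∃ g ∈ K, ∃ c : F, g • p = c • p ∧ φ.σ c * c = n) :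
    ∃ t, t * (JJ H hp hp0).relIndex (K ⊓ P1 φ p) ≤ (JJ H hp hp0).relIndex K ∧ q ≤ t * (Zs H p).relIndex φ.T.ker ∧
      (Zs H p ≠ ⊥ → q + 2 ≤ t * (Zs H p).relIndex φ.T.ker) := by
  let K₀ : Subfield F := φ.σ.eqLocusField (RingHom.id F)
  have hK₀ : Nat.card K₀ = q := (Nat.card_congr (Equiv.subtypeEquivRight fun a => by simp [K₀, h.σ_eq])).trans (card_fixed h.card)
  let J : Subgroup φ.Isom := mkSub (fun g => ∃ c : F, g • p = c • p ∧ ∀ t ∈ Zs H p, φ.σ c * c * t ∈ Zs H p) ⟨1, by simp⟩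
    fun a b ⟨c, h1, h2⟩ ⟨d, h3, h4⟩ => ⟨c * d, by rw [mul_smul, h3, smul_comm, h1, smul_smul, mul_comm], fun t ht => by
      convert h2 _ (h4 t ht) using 1; rw [map_mul]; ring⟩
  have := scal_bound (F := K₀) (a := Zs H p) (T := φ.T.ker) (t := J.relIndex K) (fun c t ht => by
    simp [Subfield.smul_def, T_fix h c.2, show φ.T t = 0 from ht]) hD (by
    obtain ⟨l, hl⟩ := Module.Projective.exists_dual_eq_one F hp0
    have h1 : ∀ {g : φ.Isom} {c : F}, g • p = c • p → l (g • p) = c := fun h => by simp [h, hl]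
    rw [hK₀, ← card_fixed_ne h.card]
    refine (ncard_le_act J K (fun g y => φ.σ (l (g • p)) * l (g • p) * y) (fun g hg k hk y => ?_) 1 (O := {x | x ≠ 0 ∧ x ^ q = x})
      (S := (↑) '' scal K₀ (Zs H p)) ?_ fun j _ ⟨d, hd, h2⟩ => ⟨⟨φ.σ d * d, by simp [K₀, mul_comm]⟩, ⟨fun e => ?_, h2⟩, by simp [h1 hd]⟩).trans
        (Nat.mul_le_mul_left _ (Set.ncard_image_le (Set.toFinite _)))
    · obtain ⟨c, hc⟩ := hK hg
      obtain ⟨d, hd⟩ := hK hk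
      rw [h1 hc, h1 hd, h1 (c := c * d) (by rw [mul_smul, hd, smul_comm, hc, smul_smul, mul_comm]), map_mul]; ring
    · intro n ⟨n0, n1⟩
      obtain ⟨g, g1, c, g2, g3⟩ := hn n n0 ((h.σ_eq n).trans n1)
      exact ⟨g, g1, by simp [h1 g2, g3]⟩
    · simpa [pt_ne hp0 hd] using congrArg Subtype.val e)
  rw [hK₀] at this
  refine ⟨_, chain (J := J) (fun g hg => ?_) fun g hg => ⟨⟨1, by simpa using hg.2.1, by simp⟩, hg.1⟩, this.1, fun e => this.2 ?_⟩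
  · obtain ⟨k, k1, k2, -⟩ := JJ_ex hg.1
    obtain ⟨c, hc⟩ := hg.1.1
    exact ⟨c, hc, fun t ht => ⟨by simp [φ.T_norm, ht.1], fun _ =>
      tv_conj k hp (pt_ne hp0 hc) (k2.trans hc) ht.1 ▸ mul_mem (mul_mem k1 (ht.2 hp)) (inv_mem k1)⟩⟩
  · obtain ⟨⟨y, hy⟩, y0⟩ := AddSubgroup.ne_bot_iff_exists_ne_zero.1 e
    obtain ⟨z, z1, z2⟩ := SetLike.not_le_iff_exists.1 hD
    exact ⟨⟨z / y, by simp [K₀, skew h z1, skew h hy.1]⟩, y, hy, by simpa [Subfield.smul_def, show y ≠ 0 by simpa using y0]⟩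

theorem ex_norm1 : ∃ ν : F, φ.σ ν * ν = 1 ∧ ν * ν ≠ 1 := by
  by_contra! e
  have := Set.ncard_le_ncard (s := {a | φ.σ a * a = 1}) (t := {1, -1}) fun a ha => mul_self_eq_one_iff.1 (e a ha)
  have := this.trans (Set.ncard_insert_le _ _)
  rw [show Set.ncard {a | φ.σ a * a = 1} = _ from h.card_norm one_ne_zero (map_one _), Set.ncard_singleton] at this
  have := h.two_le; omega

variable (hd : finrank F V = 4)
include hd

theorem mem_E {g : φ.Isom} : g ∈ φ.E ↔ LinearMap.det (g.1 : V →ₗ[F] V) = 1 := by rw [h.E_eq_SIsom (by omega), mem_SIsom]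

theorem Fr.dec (hf : Fr φ p u v f) (x : V) : x = φ.B f x • p + φ.B v x • u + φ.B u x • v + φ.B p x • f := by
  have h1 : Submodule.span F {u, v} = φ.perp (Submodule.span F {p, f}) := Submodule.eq_of_le_of_finrank_le
    (Submodule.span_le.2 (Set.pair_subset (φ.mem_perp_pair.2 ⟨hf.pu, hf.fu⟩) (φ.mem_perp_pair.2 ⟨hf.pv, hf.fv⟩)))
    (by have := hf.pf.finrank_perp; have := hf.uv.finrank_span; omega)
  obtain ⟨a, b, e⟩ := Submodule.mem_span_pair.1 (h1 ▸ hf.pf.proj_mem x)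
  have e1 := congrArg (φ.B u) e
  have e2 := congrArg (φ.B v) e
  simp [hf.uv.Bee, hf.uv.Bef, hf.uv.Bff, Bfe h hf.uv, φ.B_symm_zero hf.pu, φ.B_symm_zero hf.pv, φ.B_symm_zero hf.fu, φ.B_symm_zero hf.fv] at e1 e2
  rw [← e1, ← e2]
  rw [h.herm.ε_eq] at e
  linear_combination (norm := module) -e

theorem pp_eq (hf : Fl φ p u) : φ.perp (Submodule.span F {p, u}) = Submodule.span F {p, u} :=
  (Submodule.eq_of_le_of_finrank_le hf.le (by have := φ.finrank_perp (Submodule.span F {p, u}); have := hf.rank; omega)).symm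

theorem mem_L (hf : Fl φ p u) : x ∈ Submodule.span F {p, u} ↔ φ.B p x = 0 ∧ φ.B u x = 0 := by rw [← pp_eq h hd hf, φ.mem_perp_pair]

theorem Fr.gc (hf : Fr φ p u v f) (hc : c ≠ 0) {d : F} (hd0 : d ≠ 0) (e : φ.σ (c * d) = c * d) :
    ∃ g ∈ φ.E, g • p = c • p ∧ g • u = d • u ∧ g • v = (φ.σ d)⁻¹ • v := by
  refine ⟨φ.rot p f c * φ.rot u v d, ?_, ?_, ?_, ?_⟩
  · rw [h.E_eq_SIsom (by omega), SIsom, MonoidHom.mem_ker, map_mul, ← Units.val_eq_one, Units.val_mul, coe_det, coe_det, φ.det_rot hf.pf hc,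
      φ.det_rot hf.uv hd0]
    rw [map_mul] at e
    field_simp [φ.σ_eq_zero.not.2 hc, φ.σ_eq_zero.not.2 hd0]; exact e.symm
  all_goals simp [mul_smul, ro h hf.pf hc, ro h hf.uv hd0, hf.pf.Bee, hf.uv.Bee, hf.uv.Bff, hf.uv.Bef, Bfe h hf.pf, Bfe h hf.uv, hf.pu, hf.pv, hf.fu, hf.fv,
    φ.B_symm_zero hf.pu, φ.B_symm_zero hf.pv]
  all_goals module

theorem lines_ge (hf : Fl φ p u) (hJ : ∀ g ∈ P1 φ p, g ∈ J → g • u ∈ Submodule.span F {p, u}) : q + 1 ≤ J.relIndex (P1 φ p) := by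
  obtain ⟨v, f, hv⟩ := ex_fr hf
  obtain ⟨t, ht0, ht⟩ := h.exists_skew
  have k1 : ∀ {z : V} {t : F}, φ.B p z = 0 → φ.Q z = 0 → φ.T t = 0 → φ.siegel z 0 t ∈ P1 φ p :=
    fun {z t} a b c => ⟨by simp [tv_app b c, φ.B_symm_zero a], tv_E b c⟩
  have k3 : ∀ o : Option φ.T.ker, (o.elim 1 fun s => φ.siegel u 0 s * φ.siegel v 0 t) ∈ P1 φ p := by
    rintro (_ | s)
    exacts [one_mem _, mul_mem (k1 hf.b hf.qx s.2) (k1 hv.pv hv.uv.Qf ht)]
  rw [← h.card_ker_T, ← Finite.card_option]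
  refine le_rel _ _ _ k3 fun a b e => ?_
  have := ((mem_L h hd hf).1 (hJ _ (mul_mem (inv_mem (k3 a)) (k3 b)) e)).2
  rw [← B_act (a.elim 1 fun s => φ.siegel u 0 s * φ.siegel v 0 t), mul_smul, smul_inv_smul] at this
  have q1 : ∀ s : φ.T.ker, (φ.siegel u 0 s * φ.siegel v 0 t) • u = (1 + s * t) • u - t • v := fun s => by
    simp only [mul_smul, tv h hv.uv.Qf ht, tv h hf.qx s.2, map_sub, φ.B_smul_right, hv.uv.Bee, hv.uv.Bef, Bfe h hv.uv]; module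
  rcases a with _ | a <;> rcases b with _ | b <;> simp only [Option.elim, q1, one_smul] at this
  · rfl
  · simp [hv.uv.Bee, hv.uv.Bef, ht0] at this
  · simp [hv.uv.Bee, Bfe h hv.uv, ht0] at this
  · simp only [map_sub, LinearMap.sub_apply, φ.B_smul_left, φ.B_smul_right, hv.uv.Bee, hv.uv.Bef, hv.uv.Bff, Bfe h hv.uv, map_add, map_mul, map_one,
      skew h ht, skew h a.2] at this
    exact congrArg _ (Subtype.ext (mul_left_cancel₀ (mul_ne_zero ht0 ht0) (by linear_combination -this)))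

theorem wit (hp : φ.Q p = 0) (hp0 : p ≠ 0) (h1 : φ.B p u = 0) (h2 : φ.B p y = 0) (hQ : φ.Q u ≠ 0) (e : φ.Q y = φ.Q u) :
    ∃ g ∈ P1 φ p, g • u = y := by
  have k : ∀ {z}, φ.Q z ≠ 0 → z ∉ F ∙ p := fun hz e => by
    obtain ⟨c, rfl⟩ := Submodule.mem_span_singleton.1 e
    exact hz (φ.Q_smul_of_sing hp c)
  obtain ⟨g, -, g1, g2⟩ := φ.witt_point φ.hasElem_top (F ∙ p) (k hQ) (k (e ▸ hQ)) (fun z hz => by
    rw [φ.mem_perp.1 (φ.mem_perp_singleton.2 h1) z hz, φ.mem_perp.1 (φ.mem_perp_singleton.2 h2) z hz]) e.symm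
  obtain ⟨n, n1, n2⟩ : ∃ n ∈ φ.perp (Submodule.span F {p, y}), n ∉ F ∙ p := SetLike.not_le_iff_exists.1 fun e => by
    have := Submodule.finrank_mono e
    have := φ.finrank_perp (Submodule.span F {p, y})
    have := finrank_span_pair_le (F := F) p y
    have := finrank_span_singleton_le (F := F) p
    omega
  obtain ⟨n3, n4⟩ := φ.mem_perp_pair.1 n1
  have n5 : φ.Q n ≠ 0 := fun e' => by
    have hf : Fl φ p n := ⟨hp, e', n3, hp0, n2⟩
    obtain ⟨a, b, rfl⟩ := Submodule.mem_span_pair.1 ((mem_L h hd hf).2 ⟨h2, φ.B_symm_zero n4⟩)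
    exact hQ (by simp [← e, φ.Q_add, φ.Q_smul, hp, e', n3])
  have m : φ.σ (φ.det g⁻¹) * φ.det g⁻¹ = 1 := φ.σ_det_mul_det g⁻¹
  refine ⟨φ.qrefl n (φ.det g⁻¹) * g, ⟨?_, ?_⟩, ?_⟩
  · exact (congrArg (φ.qrefl n _).1 (g1 p (Submodule.mem_span_singleton_self p))).trans (h.herm.qrefl_of_orth n5 m (φ.B_symm_zero n3))
  · change _ ∈ φ.E
    rw [h.E_eq_SIsom (by omega), SIsom, MonoidHom.mem_ker, map_mul, ← Units.val_eq_one, Units.val_mul, coe_det, h.herm.det_qrefl n5 m]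
    simp
  · exact (congrArg (φ.qrefl n _).1 g2).trans (h.herm.qrefl_of_orth n5 m (φ.B_symm_zero n4))

theorem card_nu (hp : φ.Q p = 0) (hp0 : p ≠ 0) {ν : F} (hν : φ.σ ν = ν) :
    q ^ 2 * ((q ^ 2 - 1) * q) ≤ {y | φ.B p y = 0 ∧ φ.Q y = ν}.ncard := by
  obtain ⟨f, hf⟩ := φ.exists_hyp hp hp0
  obtain ⟨u, u1, v, v1, hv⟩ := U.ex_hyp h hf.nondegOn.perp (by have := hf.finrank_perp; omega)
  obtain ⟨u2, u3⟩ := φ.mem_perp_pair.1 u1
  obtain ⟨v2, v3⟩ := φ.mem_perp_pair.1 v1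
  obtain ⟨τ, hτ⟩ := h.exists_T_eq hν
  have := Nat.card_le_card_of_injective (α := F × Fˣ × φ.T.ker) (β := {y | φ.B p y = 0 ∧ φ.Q y = ν})
    (fun z => ⟨z.1 • p + (z.2.1 : F) • u + ((τ + z.2.2) / φ.σ z.2.1) • v, by simp [hf.Bee, u2, v2], by
      simp [φ.Q_add, φ.Q_smul, hp, hv.Qe, hv.Qf, u2, v2, hv.Bef, mul_div_cancel₀, div_mul_cancel₀, hτ, show φ.T z.2.2 = 0 from z.2.2.2]⟩)
    fun ⟨a, b, c⟩ ⟨a', b', c'⟩ e => by
      replace e := congrArg Subtype.val e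
      have e1 := congrArg (φ.B f) e
      have e2 := congrArg (φ.B v) e
      have e3 := congrArg (φ.B u) e
      simp [Bfe h hf, Bfe h hv, u3, v3, hv.Bee, hv.Bff, hv.Bef, φ.B_symm_zero u2, φ.B_symm_zero v2, Units.val_inj] at e1 e2 e3
      subst e1 e2
      simpa using e3
  rwa [Nat.card_prod, Nat.card_prod, Nat.card_units, h.card, h.card_ker_T] at this

end H24.MD.U4
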