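import Cfsg.Agent.H24.U4B

/-!
# Minimal index for `SU₄(q)`: the global argument (namespace `H24.MD.U4`)
-/

set_option autoImplicit false
set_option linter.unusedSectionVars false

open Subgroup H20 H10 H10.Form Module

namespace H24.MD.U4

open O (Fl ix)
open T U

variable {F V : Type*} [Field F] [Finite F] [AddCommGroup V] [Module F V] [Finite V] {φ : Form F V} [φ.Nondeg]
  {H J K : Subgroup φ.Isom} {p x w u v f y z : V} {a s t c : F} {q : ℕ}

theorem mem_stbL {g : φ.Isom} (h1 : g • p ∈ Submodule.span F {p, u}) (h2 : g • u ∈ Submodule.span F {p, u}) :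
    g ∈ stb (Submodule.span F {p, u} : Set V) := fun w hw => by
  obtain ⟨a, b, rfl⟩ := Submodule.mem_span_pair.1 hw
  rw [smul_add, smul_comm g, smul_comm g]
  exact add_mem (Submodule.smul_mem _ _ h1) (Submodule.smul_mem _ _ h2)

variable (h : φ.IsUnitary q)
include h

theorem tv_split (hp : φ.Q p = 0) (hu : φ.Q u = 0) (h1 : φ.B p u = 0) (ha : φ.T a = 0) (c β : F) :
    φ.siegel (c • u + β • p) 0 a = φ.siegel u 0 (φ.σ c * c * a) * φ.siegel p ((a * φ.σ β * c) • u) (φ.σ β * β * a) := by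
  refine iext fun x => ?_
  rw [mul_smul, tv h (by simp [φ.Q_add, φ.Q_smul, hp, hu, φ.B_symm_zero h1]) ha, tv h hu (by simp [φ.T_norm, ha]),
    si h hp (by simp [h1]) (by simp [φ.T_norm, ha, φ.Q_smul_of_sing hu])]
  simp only [map_add, map_sub, map_mul, LinearMap.add_apply, φ.B_smul_left, φ.B_smul_right, φ.B_self_eq_zero hu, φ.B_symm_zero h1, σ_σ, skew h ha]
  module

omit h in
theorem si_split (hp : φ.Q p = 0) (hu : φ.Q u = 0) (h1 : φ.B p u = 0) (hs : φ.T s = 0) : φ.siegel p u s = φ.siegel p 0 s * φ.siegel p u 0 := by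
  rw [φ.siegel_mul hp (by simp) (by simpa) h1 (by simp [hu])]; simp

variable (hd : finrank F V = 4)
include hd

theorem card_sing : {z | z ≠ 0 ∧ φ.Q z = 0}.ncard = (q ^ 4 - 1) * (q ^ 3 + 1) :=
  Nat.succ_injective ((φ.card_sing_add_one).trans (by simpa [show ¬ Even 3 by decide] using cnt0 h (n := 3) hd))

theorem card_L (hf : Fl φ p u) : ((Submodule.span F {p, u} : Set V) \ {0}).ncard = q ^ 4 - 1 := by
  rw [Set.ncard_sdiff_singleton_of_mem (zero_mem _), show Set.ncard (Submodule.span F {p, u} : Set V) = _ from hf.card, h.card, ← pow_mul]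

theorem line_ge (hf : Fl φ p u) : (q + 1) * (q ^ 3 + 1) ≤ (stb (Submodule.span F {p, u} : Set V)).relIndex φ.E := by
  have := ncard_le_mul (stb (Submodule.span F {p, u} : Set V)) φ.E p (O := {z | z ≠ 0 ∧ φ.Q z = 0}) (S := (Submodule.span F {p, u} : Set V) \ {0})
    (fun z hz => (h.big (by omega)).exists_E_map_sing hf.qp hf.p0 hz.2 hz.1) (fun j _ a => ⟨a p (mem_l p u), by simp [hf.p0, smul_eq_zero_iff_eq]⟩)
    (lines_ge h hd hf fun g _ a => a u (mem_r p u))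
  rw [card_sing h hd, card_L h hd hf] at this
  exact Nat.le_of_mul_le_mul_right ((le_of_eq (by ring)).trans this) (Nat.sub_pos_of_lt (Nat.one_lt_pow (by omega) h.two_le))

theorem line_le (hf : Fl φ p u) : (stb (Submodule.span F {p, u} : Set V)).relIndex φ.E ≤ (q + 1) * (q ^ 3 + 1) := by
  obtain ⟨v, f, fr⟩ := ex_fr hf
  have h1 := frac (H := stb (Submodule.span F {p, u} : Set V) ⊓ φ.E) (P := P1 φ p) inf_le_right inf_le_right
  have h2 := ncard_le_inv (P1 φ p) (stb (Submodule.span F {p, u} : Set V) ⊓ φ.E) (· • p) (O := (Submodule.span F {p, u} : Set V) \ {0}) (fun y hy => by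
    obtain ⟨a, b, rfl⟩ := Submodule.mem_span_pair.1 hy.1
    by_cases b0 : b = 0
    · have a0 : a ≠ 0 := fun e => hy.2 (by simp [e, b0])
      obtain ⟨g, g1, g2, g3, -⟩ := fr.gc h hd a0 (inv_ne_zero a0) (by simp [a0])
      exact ⟨g, ⟨mem_stbL (g2 ▸ Submodule.smul_mem _ _ (mem_l p u)) (g3 ▸ Submodule.smul_mem _ _ (mem_r p u)), g1⟩, by simp [g2, b0]⟩
    have e1 : φ.B u (φ.σ b • f) = 0 := by simp [φ.B_symm_zero fr.fu]
    have e2 : φ.T 0 = φ.Q (φ.σ b • f) := by simp [φ.Q_smul_of_sing fr.pf.Qf]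
    have e3 : φ.B p (φ.σ ((a - 1) / b) • v) = 0 := by simp [fr.pv]
    have e4 : φ.T 0 = φ.Q (φ.σ ((a - 1) / b) • v) := by simp [φ.Q_smul_of_sing fr.uv.Qf]
    have e5 : (φ.siegel p (φ.σ ((a - 1) / b) • v) 0 * φ.siegel u (φ.σ b • f) 0) • p = a • p + b • u := by
      simp only [mul_smul, si h hf.qx e1 e2, si h hf.qp e3 e4, map_add, map_sub, φ.B_smul_left, φ.B_smul_right, σ_σ, Bfe h fr.pf, Bfe h fr.uv, hf.b, hf.symm.b,
        fr.pf.Bee, φ.B_symm_zero fr.pv, fr.pf.Bef]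
      match_scalars <;> field_simp <;> ring
    refine ⟨_, ⟨mem_stbL (e5 ▸ hy.1) ?_, mul_mem (φ.siegel_mem_E hf.qp e3 e4) (φ.siegel_mem_E hf.qx e1 e2)⟩, e5⟩
    rw [mul_smul, si_fix hf.qx e1 e2 fr.uv.Bee (by simp [fr.fu]), si h hf.qp e3 e4, hf.b]
    simpa using add_mem (mem_r p u) (Submodule.smul_mem _ _ (mem_l p u))) fun k _ j _ hj => by rw [mul_smul, show j • p = p from hj.1]
  have h3 := relIndex_le_ncard (P1 φ p) φ.E (· • p) (T := {z | z ≠ 0 ∧ φ.Q z = 0}) (fun k _ => by simp [hf.p0, hf.qp, smul_eq_zero_iff_eq])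
    fun k a k' b e => ⟨show (k⁻¹ * k') • p = p by rw [mul_smul, ← show k • p = k' • p from e, inv_smul_smul], mul_mem (φ.E.inv_mem a) b⟩
  have h4 := relIndex_le_ncard (stb (Submodule.span F {p, u} : Set V) ⊓ φ.E) (P1 φ p) (fun g => Submodule.span F {p, g • u})
    (T := Set.range fun o : Option φ.T.ker => Submodule.span F {p, o.elim u fun t => v + (t : F) • u}) (fun k hk => by
      have a1 : φ.B p (k • u) = 0 := (B_fix hk.1 u).trans hf.b
      have a2 : Fl φ p (k • u) := ⟨hf.qp, by simp [hf.qx], a1, hf.p0, fun e => hf.ne (by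
        obtain ⟨d, hd⟩ := Submodule.mem_span_singleton.1 e
        rw [← inv_smul_smul k u, ← hd, smul_comm, show k⁻¹ • p = p from ((P1 φ p).inv_mem hk).1]; exact mem_sp p d)⟩
      have a3 := fr.dec h hd (k • u)
      rw [a1, zero_smul, add_zero] at a3
      have key : ∀ z, Fl φ p z → φ.B z (k • u) = 0 → Submodule.span F {p, z} = Submodule.span F {p, k • u} := fun z b c =>
        (Submodule.eq_of_le_of_finrank_le (Submodule.span_le.2 (Set.pair_subset (mem_l p z) ((mem_L h hd b).2 ⟨a1, c⟩))) (b.rank.trans a2.rank.symm).le).symm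
      by_cases e : φ.B u (k • u) = 0
      · exact ⟨none, key u hf e⟩
      have a4 : φ.T (φ.σ (φ.B v (k • u)) * φ.B u (k • u)) = 0 := by
        have := a2.qx
        rw [a3] at this
        simpa [φ.Q_add, φ.Q_smul, hf.qp, hf.qx, fr.uv.Qf, hf.b, fr.pv, fr.uv.Bef, mul_comm] using this
      have a5 : φ.T (φ.B v (k • u) / φ.B u (k • u)) = 0 := by
        rw [h.herm.T_eq] at a4 ⊢
        rw [map_mul, σ_σ] at a4
        rw [map_div₀]; field_simp [φ.σ_eq_zero.not.2 e]; linear_combination a4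
      exact ⟨some ⟨_, a5⟩, key _ ⟨hf.qp, by simp [φ.Q_add, φ.Q_smul, hf.qx, fr.uv.Qf, Bfe h fr.uv, a5], by simp [fr.pv, hf.b], hf.p0, fun e => by
        simpa [fr.uv.Bef, fr.uv.Bee] using φ.mem_perp'.1 (φ.mem_perp_singleton.2 hf.b) _ e⟩ (by
          change φ.B (v + (_ / _ : F) • u) _ = 0
          simp only [map_add, LinearMap.add_apply, φ.B_smul_left, skew h a5]; field_simp; ring)⟩)
    fun k a k' b e => ⟨mem_stbL (by rw [show (k⁻¹ * k') • p = p from (mul_mem ((P1 φ p).inv_mem a) b).1]; exact mem_l p u) (by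
      obtain ⟨c, d, e⟩ := Submodule.mem_span_pair.1 (show k' • u ∈ Submodule.span F {p, k • u} from (show _ = _ from e).ge (mem_r _ _))
      rw [mul_smul, ← e, smul_add, smul_comm k⁻¹, smul_comm k⁻¹, inv_smul_smul, show k⁻¹ • p = p from ((P1 φ p).inv_mem a).1]
      exact Submodule.mem_span_pair.2 ⟨c, d, rfl⟩), (mul_mem ((P1 φ p).inv_mem a) b).2⟩
  replace h4 := h4.trans (Finite.card_range_le _)
  rw [Finite.card_option, h.card_ker_T] at h4
  rw [card_sing h hd] at h3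
  rw [card_L h hd hf] at h2
  rw [inf_relIndex_right] at h1
  exact Nat.le_of_mul_le_mul_left (((Nat.mul_le_mul_right _ h2).trans_eq h1).trans ((Nat.mul_le_mul h4 h3).trans_eq (by ring)))
    (Nat.sub_pos_of_lt (Nat.one_lt_pow (by omega) h.two_le))

variable (hm : H.relIndex φ.E < (q + 1) * (q ^ 3 + 1))
include hm

theorem types (hp : φ.Q p = 0) (hD : ¬ Dp H p) : ∃ hp0 : p ≠ 0, q ^ 4 + q ^ 3 ≤ ix H p ∧ Zs H p = ⊥ ∧ ∃ u, Fl φ p u ∧
    (((∀ w, w ∈ aa H p ↔ w ∈ Submodule.span F {p, u}) ∧ ∀ g ∈ pt F p ⊓ φ.E, g • u ∈ Submodule.span F {p, u} → g ∈ JJ H hp hp0) ∨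
      ∃ v, u ∈ aa H p ∧ v ∈ aa H p ∧ φ.B u v ≠ 0 ∧ (2 : F) = 0 ∧ q = 2 ∧ aa H p = NN φ p u v ∧ ∀ a, φ.T a = 0 → φ.siegel u 0 a ∈ JJ H hp hp0) := by
  have hp0 : p ≠ 0 := fun e => hD (e ▸ Dp.zero)
  replace hD : ¬ φ.T.ker ≤ Zs H p := fun e => hD ⟨hp, e⟩
  obtain ⟨u, u1, u2⟩ : ∃ u ∈ aa H p, u ∉ F ∙ p := by
    by_contra! e
    have a1 := idx_ge (j := 2) (X := aa H p) (L := φ.perp (F ∙ p)) e ((Submodule.span_singleton_le_iff_mem _ _).2
      (φ.mem_perp_singleton.2 (φ.B_self_eq_zero hp))) (by have := φ.finrank_perp_singleton hp0; have := finrank_span_singleton_le (F := F) p; omega)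
    have a2 := (Nat.mul_le_mul_left q (a1.trans (Nat.le_mul_of_pos_left _ (rel_pos _ _)))).trans ((loc0 h hd hp hp0 hD).1.trans (O.ix_le p))
    have hq := h.two_le
    rw [h.card] at a2
    nlinarith [Nat.mul_le_mul_right (q ^ 4) hq, Nat.mul_le_mul_right (q ^ 3) hq, show q + 1 ≤ q ^ 3 by nlinarith [Nat.mul_le_mul hq hq]]
  have hf : Fl φ p u := ⟨hp, iso h hd hp hp0 hD hm u1, perp1 p u u1.1, hp0, u2⟩
  by_cases e : ∀ w ∈ aa H p, w ∈ Submodule.span F {p, u}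
  · obtain ⟨a, b, c, d⟩ := typeL h hd hp hp0 hD hm u1 u2 e
    exact ⟨hp0, a, b, u, hf, .inl ⟨fun w => ⟨e w, c w⟩, d⟩⟩
  · push Not at e
    obtain ⟨v, v1, v2⟩ := e
    have v3 : φ.B u v ≠ 0 := fun e => v2 ((mem_L h hd hf).2 ⟨perp1 p v v1.1, e⟩)
    obtain ⟨a, b, c⟩ := typeS h hd hp hp0 hD hm u1 v1 v3
    exact ⟨hp0, a, b, u, hf, .inr ⟨v, u1, v1, v3, c⟩⟩

theorem Dz (hy : φ.Q y = 0) (ha : φ.T a = 0) (a0 : a ≠ 0) (h1 : φ.siegel y 0 a ∈ H) : Dp H y := by_contra fun e =>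
  let ⟨_, _, b, _⟩ := types h hd hm hy e; a0 (b.le ⟨ha, fun _ => h1⟩)

theorem L_main {hp : φ.Q p = 0} {hp0 : p ≠ 0} (hZ : Zs H p = ⊥) (hf : Fl φ p u) (h1 : ∀ w, w ∈ aa H p ↔ w ∈ Submodule.span F {p, u})
    (h2 : ∀ g ∈ pt F p ⊓ φ.E, g • u ∈ Submodule.span F {p, u} → g ∈ JJ H hp hp0) : ∃ u, Fl φ p u ∧ (∀ w, w ∈ aa H p ↔ w ∈ Submodule.span F {p, u}) ∧
      (∀ c : F, φ.siegel p (c • u) 0 ∈ H) ∧ (∃ β : F, Dp H (u + β • p)) ∧ (4 ≤ q → Dp H u) := by
  obtain ⟨ν, n1, n2⟩ := ex_norm1 h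
  have n0 := right_ne_zero_of_mul_eq_one n1
  have n3 : φ.σ ν = ν⁻¹ := eq_inv_of_mul_eq_one_left n1
  obtain ⟨v, f, fr⟩ := ex_fr hf
  obtain ⟨g, g1, g2, g3, -⟩ := fr.gc h hd n0 (inv_ne_zero n0) (by simp [n0])
  obtain ⟨k, k1, k2, k3⟩ := JJ_ex (h2 g ⟨⟨ν, g2⟩, g1⟩ (g3 ▸ Submodule.smul_mem _ _ (mem_r p u)))
  obtain ⟨κ, hκ⟩ := k3 u hf.b
  have n4 : 1 - ν * ν ≠ 0 := sub_ne_zero.2 n2.symm
  have n5 : 1 - ν ^ 2 ≠ 0 := sq ν ▸ n4
  obtain ⟨x, β, rfl, x1⟩ : ∃ x, ∃ β : F, u = x + β • p ∧ k • x = ν⁻¹ • x := ⟨u + (κ * ν / (1 - ν * ν)) • p, -(κ * ν / (1 - ν * ν)), by simp, by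
    rw [smul_add, smul_comm k, hκ, k2, g2, g3]
    match_scalars
    · ring
    · field_simp; ring⟩
  have e0 : Submodule.span F {p, x + β • p} = Submodule.span F {p, x} := by
    refine le_antisymm (Submodule.span_le.2 (Set.pair_subset (mem_l _ _) (Submodule.mem_span_pair.2 ⟨β, 1, by module⟩)))
      (Submodule.span_le.2 (Set.pair_subset (mem_l _ _) (Submodule.mem_span_pair.2 ⟨-β, 1, by module⟩)))
  have x2 : φ.B p x = 0 := by simpa [φ.B_self_eq_zero hp] using hf.b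
  have x3 : Fl φ p x := ⟨hp, by simpa [φ.Q_add, φ.Q_smul, hp, φ.B_symm_zero x2] using hf.qx, x2, hp0, fun e => hf.ne (add_mem e (mem_sp p β))⟩
  replace h2 : ∀ g ∈ P1 φ p, g • x ∈ Submodule.span F {p, x} → g ∈ JJ H hp hp0 := fun g a b => h2 g (P1_le a) (by
    rw [e0, smul_add, smul_comm g, show g • p = p from a.1]; exact add_mem b (Submodule.smul_mem _ _ (mem_l _ _)))
  rw [e0] at h1
  have q0 : ∀ c : F, φ.T 0 = φ.Q (c • x) := fun c => by simp [φ.Q_smul_of_sing x3.qx]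
  have b0 : ∀ c : F, φ.B p (c • x) = 0 := fun c => by simp [x2]
  have a1 : ∀ c : F, φ.siegel p (c • x) 0 ∈ H := fun c => by
    obtain ⟨w1, s, s1, s2⟩ := (mem_aa hp).1 ((h1 ((c * (ν * ν) / (1 - ν * ν)) • x)).2 (Submodule.smul_mem _ _ (mem_r _ _)))
    have := (si_conj k hp n0 (k2.trans g2) w1 s1).2 ▸ mul_mem (mul_mem k1 s2) (inv_mem k1)
    rw [n1, one_mul, smul_comm k, x1, n3, show ν⁻¹ • (c * (ν * ν) / (1 - ν * ν)) • ν⁻¹ • x = (c * (ν * ν) / (1 - ν * ν)) • x + c • x by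
      match_scalars; field_simp; ring] at this
    refine (mul_mem_cancel_left s2).1 ?_
    rw [φ.siegel_mul hp w1 s1 (b0 c) (q0 c)]
    simpa [φ.B_self_eq_zero x3.qx] using this
  have kz : ∀ k ∈ H, ∀ d κ : F, k • p = p → k • x = d • x + κ • p → κ = 0 := fun k k1 d κ k2 k3 => by_contra fun e => by
    obtain ⟨a, ha⟩ := h.exists_σ_ne
    have := (si_conj k hp one_ne_zero (k2.trans (one_smul _ _).symm) (b0 (a / κ)) (q0 _)).2 ▸ mul_mem (mul_mem k1 (a1 _)) (inv_mem k1)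
    rw [map_one, one_smul, mul_zero, smul_comm k, k3, smul_add, smul_smul, smul_smul, div_mul_cancel₀ _ e, si_shift h hp (b0 _) (q0 _)] at this
    exact ha (Eq.symm <| by simpa [sub_eq_zero] using hZ.le (uq hp (b0 _) (q0 _) ((by simp [h.herm.T_eq] : φ.T _ = φ.T 0).trans (q0 _)) (a1 _) this))
  obtain ⟨a, a0, ha⟩ := h.exists_skew
  obtain ⟨s, hs, a2⟩ : ∃ s, φ.T s = 0 ∧ φ.siegel x 0 a * φ.siegel p 0 s ∈ H := by
    have t1 : φ.siegel x 0 a • p = p := by simp [tv h x3.qx ha, x3.symm.b]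
    have t2 : φ.siegel x 0 a • x = x := by simp [tv h x3.qx ha, φ.B_self_eq_zero x3.qx]
    obtain ⟨-, _, ⟨w, w1, s, s1, rfl⟩, k1⟩ := h2 _ ⟨t1, tv_E x3.qx ha⟩ (t2.symm ▸ mem_r _ _)
    have w2 := perp1 p w w1
    have := kz _ k1 1 (φ.B w x) (by rw [mul_smul, si_fix hp w2 s1 (φ.B_self_eq_zero hp) (φ.B_symm_zero w2), t1])
      (by simp [mul_smul, si h hp w2 s1, x2, smul_comm (φ.siegel x 0 a), t1, t2])
    obtain ⟨b, e, rfl⟩ := Submodule.mem_span_pair.1 ((mem_L h hd x3).2 ⟨w2, φ.B_symm_zero this⟩)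
    have s2 : φ.T s = 0 := by simp [s1, φ.Q_add, φ.Q_smul, hp, x3.qx, x2]
    have s3 : φ.T (s + b - φ.σ b) = 0 := by simp [s2, h.herm.T_eq b, h.herm.T_eq (φ.σ b), add_comm]
    rw [add_comm, si_shift h hp (b0 _) (s2.trans (φ.Q_smul_of_sing x3.qx _).symm), si_split hp (φ.Q_smul_of_sing x3.qx _) (b0 _) s3, ← mul_assoc] at k1
    exact ⟨_, s3, (mul_mem_cancel_right (a1 e)).1 k1⟩
  refine ⟨x, x3, h1, a1, ?_, fun h4 => ?_⟩
  · obtain ⟨β, hβ⟩ := h.exists_norm (fix_div h hs ha)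
    refine ⟨β, Dz h hd hm (by simp [φ.Q_add, φ.Q_smul, hp, x3.qx, x3.symm.b]) ha a0 ?_⟩
    rw [← one_smul F x, tv_split h hp x3.qx x2 ha, hβ, div_mul_cancel₀ _ a0, si_split hp (φ.Q_smul_of_sing x3.qx _) (b0 _) hs, ← mul_assoc]
    exact mul_mem (by simpa using a2) (a1 _)
  · obtain ⟨t, t1, t2⟩ : ∃ t ∈ φ.T.ker, t ∉ ({0, a, -a} : Set F) := Set.exists_mem_notMem_of_ncard_lt_ncard (t := (φ.T.ker : Set F)) (by
      have := Set.ncard_insert_le (0 : F) {a, -a}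
      have := Set.ncard_insert_le a {-a}
      rw [show Set.ncard (φ.T.ker : Set F) = q from h.card_ker_T]; rw [Set.ncard_singleton] at this; omega)
    simp only [Set.mem_insert_iff, Set.mem_singleton_iff, not_or] at t2
    have l1 := fix_div h t1 ha
    have l0 := div_ne_zero t2.1 a0
    obtain ⟨v, f, fr⟩ := ex_fr x3
    obtain ⟨g, g1, g2, g3, -⟩ := fr.gc h hd one_ne_zero l0 (by rwa [one_mul])
    rw [one_smul] at g2
    obtain ⟨k, k1, k2, k3⟩ := JJ_ex (h2 g ⟨g2, g1⟩ (g3 ▸ Submodule.smul_mem _ _ (mem_r _ _)))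
    obtain ⟨κ, hκ⟩ := k3 x x2
    rw [g3] at hκ
    rw [kz k k1 _ _ (k2.trans g2) hκ, zero_smul, add_zero] at hκ
    have := mul_mem (mul_mem (mul_mem k1 a2) (inv_mem k1)) (inv_mem a2)
    rw [← conj_mul, tv_conj k x3.qx l0 hκ ha, tv_conj k hp one_ne_zero ((k2.trans g2).trans (one_smul _ _).symm) hs, map_one, one_mul, one_mul, l1,
      mul_inv_rev, mul_assoc, mul_inv_cancel_left, ← tv_neg x3.qx ha, ← tv_add x3.qx (by rw [mul_assoc, T_fix h l1, T_fix h l1, ha]; simp) (by simp [ha])] at this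
    refine Dz h hd hm x3.qx (by rw [map_add, mul_assoc, T_fix h l1, T_fix h l1]; simp [ha]) (fun e => ?_) this
    field_simp at e
    rcases sq_eq_sq_iff_eq_or_eq_neg.1 (show t ^ 2 = a ^ 2 by linear_combination e) with e | e
    exacts [t2.2.1 e, t2.2.2 e]

end H24.MD.U4
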