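import Cfsg.Agent.H23.Y0

/-!
# Janko-four type: every singular vector is conjugate into the hexacode subspace
-/

set_option autoImplicit false
set_option linter.unusedSectionVars false
open Subgroup H01.XT Cfsg.Agent.H06.J

namespace H24.YM
universe u
variable {V : Type u} [AddCommGroup V] [Module (ZMod 2) V] [Finite V] {Γ : Type u} [Group Γ] [Finite Γ]
  {T : Γ → V →+ V} {d : Γ} {M K Y : Subgroup Γ} {β : V →+ V →+ ZMod 2} {q : V → ZMod 2} {B : AddSubgroup V}

/-- the action -/
@[reducible] def act (h : Gj T d M β q) : MulAction Γ V := { smul := fun g v => T g v, one_smul := h.one, mul_smul := h.mul }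

theorem ω3 (h : Gj T d M β q) (v : V) : T d (T d (T d v)) = v := by rw [← h.mul d d v, ← h.mul, h.d3, h.one]

theorem odd (h : Gj T d M β q) {y : Γ} {n : ℕ} (e : y ^ (2 * n + 1) = 1) : y ∈ M := by
  have := M.sq_mem_of_index_two h.Mi (y ^ (n + 1))
  rwa [← pow_mul, show (n + 1) * 2 = 2 * n + 1 + 1 by ring, pow_succ, e, one_mul] at this

theorem dv (h : Gj T d M β q) {v : V} (n : v ≠ 0) (o : q v = 0) : 231 ∣ {w | ∃ g, T g v = w}.ncard := by
  letI := act h
  have a := (MulAction.stabilizer Γ v).index_mul_card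
  have ix : (MulAction.stabilizer Γ v).index = {w | ∃ g, T g v = w}.ncard := MulAction.index_stabilizer Γ v
  rw [h.cΓ, ix] at a
  have cω : ∀ y ∈ M, ∀ v, T d (T y v) = T y (T d v) := fun y i v => by rw [← h.mul, ← h.mul, h.Md y i]
  have nf : ∀ y : Γ, y ≠ 1 → ∃ u, T y u ≠ u := fun y i => by
    by_contra! k
    exact i (h.fai y k)
  have dn : T d v ≠ v := fun e => n (by have := h.hf v; rw [e, e] at this; exact lc this)
  have ex1 : ∀ p, p.Prime → p ∣ 2661120 → ¬ p ∣ {w | ∃ g, T g v = w}.ncard → ∃ y : Γ, T y v = v ∧ orderOf y = p := fun p pp i j => by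
    haveI := Fact.mk pp
    obtain ⟨y, e⟩ := exists_prime_orderOf_dvd_card' (G := MulAction.stabilizer Γ v) p (((Nat.Prime.dvd_mul pp).1 (a ▸ i)).resolve_left j)
    exact ⟨y.1, y.2, by rw [orderOf_coe, e]⟩
  have d3 : 3 ∣ {w | ∃ g, T g v = w}.ncard := by
    have := cnt 3 (T d) (ω3 h) (insert 0 {w | ∃ g, T g v = w}) (Or.inl rfl) (map_zero _) (by
      rintro _ (rfl | ⟨g, rfl⟩)
      · exact Or.inl (map_zero _)
      · exact Or.inr ⟨d * g, h.mul _ _ _⟩) fun w _ e => by have := h.hf w; rw [e, e] at this; exact lc this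
    rw [Nat.card_coe_set_eq, Set.ncard_insert_of_notMem (by
      rintro ⟨g, e⟩
      exact n (by rw [← h.one v, ← inv_mul_cancel g, h.mul, e, map_zero]))] at this
    unfold Nat.ModEq at this
    omega
  have d7 : 7 ∣ {w | ∃ g, T g v = w}.ncard := by
    by_contra j
    obtain ⟨y, f, e⟩ := ex1 7 (by norm_num) (by norm_num) j
    have y7 : y ^ 7 = 1 := e ▸ pow_orderOf_eq_one y
    obtain ⟨u, k⟩ := nf y (by rintro rfl; simp at e)
    refine n ((h.toQF.fpf (ω3 h) (fun v => ?_) (cω y (odd h (n := 3) y7)) (h.qT d) (h.qT y) (h.hf u) k v).2 f)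
    have := h.one v
    rw [← y7] at this
    simpa only [pow_succ, pow_zero, one_mul, h.mul] using this
  have d11 : 11 ∣ {w | ∃ g, T g v = w}.ncard := by
    by_contra j
    obtain ⟨y, f, e⟩ := ex1 11 (by norm_num) (by norm_num) j
    have y7 : y ^ 11 = 1 := e ▸ pow_orderOf_eq_one y
    have yM := odd h (n := 5) y7
    obtain ⟨u, k⟩ := nf y (by rintro rfl; simp at e)
    haveI := Fact.mk (by norm_num : Nat.Prime 11)
    let C : AddSubgroup V := (T y).eqLocus (AddMonoidHom.id V)
    have m := (IsPGroup.of_card (p := 11) (n := 1) (G := zpowers y) (by rw [Nat.card_zpowers, e, pow_one])).card_modEq_card_fixedPoints V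
    have eC : MulAction.fixedPoints (zpowers y) V = C := Set.ext fun w => ⟨fun a => a ⟨y, mem_zpowers y⟩, fun a g =>
      (zpowers_le.2 (show y ∈ MulAction.stabilizer Γ w from a) g.2 : g.1 ∈ MulAction.stabilizer Γ w)⟩
    rw [eC, h.card] at m
    change 4096 ≡ Nat.card C [MOD 11] at m
    have c1 := C.card_addSubgroup_dvd_card
    rw [h.card, show 4096 = 2 ^ 12 from rfl, Nat.dvd_prime_pow Nat.prime_two] at c1
    obtain ⟨i, i1, i2⟩ := c1
    have c4 : Nat.card C ≤ 4 := by
      have : Nat.card C ≠ 4096 := fun r => k (show u ∈ C by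
        rw [AddSubgroup.eq_top_of_card_eq C (r.trans h.card.symm)]; trivial)
      rw [i2] at m this ⊢
      interval_cases i <;> first | omega | exact absurd m (by decide)
    have g1 := card_ex (U := ⊥) (v := v) n
    have g2 := card_ex (U := ex ⊥ v) (v := T d v) (by
      rintro (r | r)
      · exact n (by rw [← ω3 h v, show T d v = 0 from r, map_zero, map_zero])
      · exact dn (lc (show T d v + v = 0 from r)))
    rw [AddSubgroup.card_bot] at g1
    have eU := AddSubgroup.eq_of_le_of_card_ge (ex_le (ex_le (bot_le (a := C)) f)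
      (show T y (T d v) = T d v by rw [← cω y yM, f])) (by omega)
    have b0 : β v (T d v) = 0 := by
      have := h.pol v (T d v)
      rw [show v + T d v = T d (T d v) from lc (h.hf v), h.qT, h.qT, o] at this
      simpa using this.symm
    have pC : C ≤ (β v).ker := eU ▸ ex_le (ex_le bot_le (h.toQF.alt v)) b0
    refine n (h.nd v fun w => ?_)
    have bi : ∀ i : ℕ, β v (T (y ^ i) w) = β v w := fun i => by
      have : T (y ^ i) v = v := pow_mem (show y ∈ MulAction.stabilizer Γ v from f) i
      rw [← h.toQF.inv (h.qT (y ^ i)) v w, this]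
    have s : β v (∑ i ∈ Finset.range 11, T (y ^ i) w) = 0 := pC (show T y _ = _ by
      rw [map_sum, Finset.sum_range_succ, Finset.sum_range_succ' _ 10, ← h.mul, ← pow_succ', y7, pow_zero]
      simp only [← h.mul, ← pow_succ']
      rfl)
    rw [map_sum, Finset.sum_congr rfl fun i _ => bi i, Finset.sum_const, Finset.card_range] at s
    generalize β v w = x at s
    revert x; decide
  omega

theorem m : Cfsg.Agent.H23.Y.MStmt.{u} := by
  intro V _ _ _ Γ _ _ T d M K Y β q B h hx KM iK pj pi ⟨a, aB, b, bB, a0, b0, ab⟩ v o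
  by_contra! n
  haveI := Fact.mk Nat.prime_two
  letI := act h
  have v0 : v ≠ 0 := fun e => n 1 (by rw [e, map_zero]; exact zero_mem _)
  have a1 := (MulAction.stabilizer Γ v).index_mul_card
  have ix : (MulAction.stabilizer Γ v).index = {w | ∃ g, T g v = w}.ncard := MulAction.index_stabilizer Γ v
  rw [h.cΓ, ix] at a1
  have cM : Nat.card M = 1330560 := by
    have := M.index_mul_card
    rw [h.Mi, h.cΓ] at this; omega
  have cK : Nat.card K = 17280 := by
    have := (K.subgroupOf M).index_mul_card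
    rw [Nat.card_congr (subgroupOfEquivOfLe KM).toEquiv, cM, show (K.subgroupOf M).index = 77 from iK] at this; omega
  have d8 : 8 ∣ {w | ∃ g, T g v = w}.ncard := by
    by_contra j
    have e1 := (M.subgroupOf (MulAction.stabilizer Γ v)).index_mul_card
    have e2 : M.relIndex (MulAction.stabilizer Γ v) ∣ 2 := by
      haveI := normal_of_index_eq_two h.Mi
      exact h.Mi ▸ relIndex_dvd_index_of_normal M _
    rw [← inf_subgroupOf_right, Nat.card_congr (subgroupOfEquivOfLe inf_le_right).toEquiv, inf_subgroupOf_right] at e1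
    change M.relIndex _ * _ = _ at e1
    have e3 : 2 ^ 5 ∣ Nat.card ↥(M ⊓ MulAction.stabilizer Γ v) := by
      by_contra k
      rw [← e1] at a1
      have k1 := (Nat.prime_two.pow_dvd_iff_le_factorization (k := 3) (n := {w | ∃ g, T g v = w}.ncard) (by
        intro r; rw [r] at a1; omega)).not.1 j
      have k2 := (Nat.prime_two.pow_dvd_iff_le_factorization (k := 5) Nat.card_pos.ne').not.1 k
      have k3 : (M.relIndex (MulAction.stabilizer Γ v)).factorization 2 ≤ 1 := by
        rcases (Nat.dvd_prime Nat.prime_two).1 e2 with r | r <;> rw [r] <;> simp [Nat.prime_two]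
      have k4 : 8 ≤ (2661120 : ℕ).factorization 2 :=
        (Nat.prime_two.pow_dvd_iff_le_factorization (by norm_num)).1 (by norm_num)
      rw [← a1, Nat.factorization_mul (by intro r; rw [r] at a1; omega) (by intro r; rw [r] at a1; omega),
        Nat.factorization_mul (by intro r; rw [r] at a1; omega) Nat.card_pos.ne'] at k4
      simp only [Finsupp.add_apply] at k4
      omega
    obtain ⟨R0, cR⟩ := Sylow.exists_subgroup_card_pow_prime 2 e3
    obtain ⟨S0, cS, lS⟩ := Sylow.exists_subgroup_card_pow_prime_le 2 (n := 4) (m := 7) (G := K) (by rw [cK]; norm_num) (Y.subgroupOf K)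
      (by rw [Nat.card_congr (subgroupOfEquivOfLe hx.YK).toEquiv, hx.cY]; rfl) (by norm_num)
    let R : Subgroup M := R0.map (inclusion inf_le_left)
    let S : Subgroup M := S0.map (inclusion KM)
    have cR' : Nat.card R = 2 ^ 5 := (card_map_of_injective (inclusion_injective _)).trans cR
    have cS' : Nat.card S = 2 ^ 7 := (card_map_of_injective (inclusion_injective _)).trans cS
    let P : Sylow 2 M := (IsPGroup.of_card cS').toSylow fun ⟨m, r⟩ => by
      have := S.index_mul_card
      rw [r, cS', cM] at this; omega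
    obtain ⟨P', hP⟩ := (IsPGroup.of_card cR').exists_le_sylow
    obtain ⟨g, e⟩ := MulAction.exists_smul_eq M P' P
    let R' : Subgroup M := R.map (MulAut.conj g).toMonoidHom
    have cR2 : Nat.card R' = 2 ^ 5 := (card_map_of_injective (MulAut.conj g).injective).trans cR'
    have l : R' ≤ S := by
      rintro _ ⟨r, i, rfl⟩
      have : MulAut.conj g r ∈ ((g • P' : Sylow 2 M) : Subgroup M) := ⟨r, hP i, rfl⟩
      rwa [e] at this
    have YS : Y.subgroupOf M ≤ S := fun y i => ⟨⟨y.1, hx.YK i⟩, lS i, rfl⟩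
    have i1 := ((Y.subgroupOf M).subgroupOf S).index_mul_card
    rw [Nat.card_congr (subgroupOfEquivOfLe YS).toEquiv, Nat.card_congr (subgroupOfEquivOfLe (hx.YK.trans KM)).toEquiv, hx.cY, cS'] at i1
    have i2 := relIndex_le_of_le_right (H := Y.subgroupOf M) l (index_ne_zero_of_finite)
    have i3 := ((Y.subgroupOf M).subgroupOf R').index_mul_card
    rw [cR2] at i3
    unfold relIndex at i2
    have i4 : 2 < Nat.card ((Y.subgroupOf M).subgroupOf R') := by
      by_contra! k
      nlinarith
    have fx : ∀ y : R', T y.1.1 (T g v) = T g v := by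
      rintro ⟨_, _, ⟨r, -, rfl⟩, rfl⟩
      show T (g.1 * r.1 * g.1⁻¹) (T g v) = T g v
      rw [← h.mul, inv_mul_cancel_right, h.mul, show T r.1 v = v from r.2.2]
    haveI := Fintype.ofFinite ((Y.subgroupOf M).subgroupOf R')
    rw [Nat.card_eq_fintype_card, Fintype.two_lt_card_iff] at i4
    obtain ⟨y, y', p1, p2, p3⟩ : ∃ y y' : (Y.subgroupOf M).subgroupOf R', y ≠ 1 ∧ y' ≠ 1 ∧ y ≠ y' := by
      obtain ⟨x, y, w, p1, p2, p3⟩ := i4
      by_cases e : x = 1
      · exact ⟨y, w, e ▸ p1.symm, e ▸ p2.symm, p3⟩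
      by_cases e' : y = 1
      · exact ⟨x, w, e, e' ▸ p3.symm, p2⟩
      · exact ⟨x, y, e, e', p1⟩
    exact n g (pi.two _ y.2 _ y'.2 (fun r => p1 (Subtype.ext (Subtype.ext (Subtype.ext r))))
      (fun r => p2 (Subtype.ext (Subtype.ext (Subtype.ext r)))) (fun r => p3 (Subtype.ext (Subtype.ext (Subtype.ext r)))) _ (fx y.1) (fx y'.1))
  have pos : ∀ v : V, 0 < {w | ∃ g, T g v = w}.ncard := fun v => (Set.ncard_pos).2 ⟨v, 1, h.one v⟩
  have dj : ∀ u w : V, (∀ g, T g u ≠ w) → Disjoint {x | ∃ g, T g u = x} {x | ∃ g, T g w = x} := fun u w k =>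
    Set.disjoint_left.2 (by
      rintro _ ⟨g, rfl⟩ ⟨g', r⟩
      exact k (g'⁻¹ * g) (by rw [h.mul, ← r, ← h.mul, inv_mul_cancel, h.one]))
  have sub : ∀ u : V, u ≠ 0 → q u = 0 → {x | ∃ g, T g u = x} ⊆ {v | v ≠ 0 ∧ q v = 0} := by
    rintro u i j _ ⟨g, rfl⟩
    exact ⟨fun e => i (by rw [← h.one u, ← inv_mul_cancel g, h.mul, e, map_zero]), (h.qT g u).trans j⟩
  have le := Set.ncard_le_ncard (Set.union_subset (sub v v0 o) (Set.union_subset (sub a a0 (pj.qB a aB)) (sub b b0 (pj.qB b bB))))
  rw [h.toQF.n0 (ω3 h) (h.qT d) h.hf, Set.ncard_union_eq (Set.disjoint_union_right.2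
    ⟨dj v a fun g e => n g (e ▸ aB), dj v b fun g e => n g (e ▸ bB)⟩), Set.ncard_union_eq (dj a b ab)] at le
  have := dv h v0 o
  have := dv h a0 (pj.qB a aB)
  have := dv h b0 (pj.qB b bB)
  have := pos v
  have := pos a
  have := pos b
  omega

end H24.YM
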