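import Cfsg.Agent.H23.Y0
import Cfsg.Agent.H28.YC

/-!
# Janko-four type: involutions of `C(z)` over the hexad four-group
-/

set_option autoImplicit false
set_option linter.unusedSectionVars false
open Cfsg BG Subgroup H01.XS H01.XT Cfsg.Agent.H06.J Cfsg.Agent.H23.K

namespace H24.YPa
universe u

/-- the module lemma -/
def Key : Prop := ∀ {V : Type u} [AddCommGroup V] [Module (ZMod 2) V] [Finite V] {Γ : Type u} [Group Γ] [Finite Γ]
  {T : Γ → V →+ V} {d : Γ} {M K Y : Subgroup Γ} {β : V →+ V →+ ZMod 2} {q : V → ZMod 2} {B : AddSubgroup V} {y : Γ} {v0 : V},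
  Gj T d M β q → Hx d K Y → K ≤ M → Pj T d K Y q B → Pi T Y B → y ∈ Y → y ≠ 1 → (∀ y ∈ Y, y ≠ 1 → {v | T y v = v}.ncard = 256) →
  T y v0 = v0 → v0 ∉ B → ∀ b ∈ B, β v0 b = 0 → ∃ y1 ∈ Y, ∃ v, b = (v0 + T y1 v0) + (v + T y v)

theorem pa (key : Key.{u}) : Cfsg.Agent.H23.Y.PaStmt.{u} := by
  intro G _ _ z Q V _ _ _ Γ _ _ f π ν T d M β q s K Y B A δ x c2 c256 t tz t2 tY tQ tA
  have l := s.md.lx
  have g := s.gm
  have πm : ∀ a ∈ C_[z], ∀ b ∈ C_[z], π (a * b) = π a * π b := fun a i b j => by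
    rw [← s.pf ⟨a, i⟩, ← s.pf ⟨b, j⟩, ← map_mul]; exact (s.pf ⟨a * b, mul_mem i j⟩).symm
  have nQ : ∀ a ∈ C_[z], ∀ r ∈ Q, a * r * a⁻¹ ∈ Q := fun a i r j => (mem_normalizer_iff.1 (l.norm i) r).1 j
  have cm : ∀ a ∈ A, ∀ b ∈ A, a * b = b * a := fun a i b j => by
    rw [← inv_eq_of_mul_eq_one_right (x.A2 _ (mul_mem i j)), mul_inv_rev, inv_eq_of_mul_eq_one_right (x.A2 a i),
      inv_eq_of_mul_eq_one_right (x.A2 b j)]
  have BA : s.md.pull B ≤ A := c2.e3.ge.trans inf_le_left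
  have y1 : π t ≠ 1 := fun e => tQ ((s.ker t tz).1 e)
  have y2 := x.hk.hx.Y2 _ tY
  obtain ⟨c, cA, cδ, cy⟩ := c2.YA _ tY
  have cz := x.Az cA
  have cc := x.A2 c cA
  have ci : c⁻¹ = c := inv_eq_of_mul_eq_one_right cc
  obtain ⟨r, rfl⟩ : ∃ r, t = r * c := ⟨t * c, by rw [mul_assoc, cc, mul_one]⟩
  have rz : r ∈ C_[z] := (mul_mem_cancel_right cz).1 tz
  have rQ : r ∈ Q := (s.ker r rz).1 (by rw [πm r rz c cz] at cy; exact mul_eq_right.1 cy.symm)
  rw [← cy] at tY y1 y2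
  have f0 : T (π c) (ν r) = ν r := by
    have := s.md.mul r rQ _ (nQ c cz r rQ)
    rw [show r * (c * r * c⁻¹) = 1 by rw [ci, ← t2]; group, s.md.one, ← s.act c cz r rQ] at this
    exact lc this
  have cr : c * r = r * c := mul_inv_eq_iff_eq_mul.1 (c2.cz c cz cδ r rQ f0)
  have nB : ν r ∉ B := fun e => tA (mul_mem (BA ⟨rQ, e⟩) cA)
  have ct : ∀ a ∈ A, a ∈ C_[r * c] ↔ a * r = r * a := fun a i => by
    rw [mem_cent1, mul_assoc r, ← cm a i c cA, ← mul_assoc, ← mul_assoc, mul_left_inj]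
  have iso : ∀ u ∈ B, ∀ v ∈ B, β u v = 0 := fun u i v j => by
    have := g.pol u v
    rw [x.pj.qB _ (add_mem i j), x.pj.qB u i, x.pj.qB v j] at this
    simpa using this.symm
  obtain ⟨b0, b0B, b1⟩ : ∃ b ∈ B, β (ν r) b ≠ 0 := by
    by_contra! k
    exact nB (g.toQF.perp iso (by rw [x.pj.cB]; omega) k)
  have bt : ∀ w ∈ s.md.pull B, w ∈ C_[r * c] ↔ β (ν r) (ν w) = 0 := fun w i => by
    rw [ct w (BA i), s.b r rQ w i.1]; exact eq_comm
  obtain ⟨e0, e0Q, rfl⟩ := s.md.sur b0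
  have e0B : e0 ∈ s.md.pull B := ⟨e0Q, b0B⟩
  have c64 : Nat.card ↥(s.md.pull B ⊓ C_[r * c]) = 64 := by
    have a1 : (C_[r * c]).relIndex (s.md.pull B) = 2 := relIndex_eq_two_iff_exists_notMem_and.2 ⟨e0, e0B, fun k => b1 ((bt e0 e0B).1 k),
      fun w i => by
        rw [bt w i, bt _ (mul_mem i e0B), s.md.mul w i.1 e0 e0Q, map_add, z2' _ b1]
        generalize β (ν r) (ν w) = o
        revert o; decide⟩
    have a2 := ((C_[r * c]).subgroupOf (s.md.pull B)).index_mul_card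
    rw [show ((C_[r * c]).subgroupOf (s.md.pull B)).index = 2 from a1, s.md.card_pull, x.pj.cB, ← inf_subgroupOf_left,
      Nat.card_congr (subgroupOfEquivOfLe inf_le_left).toEquiv] at a2
    omega
  have c4 : ∀ a ∈ A ⊓ C_[r * c], a ∉ s.md.pull B → r * c * a ∈ Q := fun a i n => by
    have az := x.Az i.1
    have a1 : π a ≠ 1 := fun e => n (c2.e3.le ⟨i.1, (s.ker a az).1 e⟩)
    have a2 : T (π a) (ν r) = ν r := by rw [s.act a az r rQ, (ct a i.1).1 i.2, mul_inv_cancel_right]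
    have a3 : π a = π c := by
      by_contra k
      exact nB (x.pi.two _ (x.AY a i.1) _ tY a1 y1 k _ a2 f0)
    rw [mul_assoc]
    exact mul_mem rQ ((s.ker _ (mul_mem cz az)).1 (by rw [πm c cz a az, a3, y2]))
  have cB : c ∉ s.md.pull B := fun k => y1 ((s.ker c cz).2 k.1)
  have cT : c ∈ C_[r * c] := (ct c cA).2 cr
  refine ⟨?_, c64, fun w i => ?_, c4, c, cA, cδ, cB, fun c' hc => ?_⟩
  · have a1 : (s.md.pull B ⊓ C_[r * c]).relIndex (A ⊓ C_[r * c]) = 2 :=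
      relIndex_eq_two_iff_exists_notMem_and.2 ⟨c, ⟨cA, cT⟩, fun k => cB k.1, fun a i => by
        by_cases k : a ∈ s.md.pull B
        · exact Or.inr ⟨k, i.2⟩
        · refine Or.inl ⟨c2.e3.le ⟨mul_mem i.1 cA, ?_⟩, mul_mem i.2 cT⟩
          have := c4 a i k
          rw [mul_assoc, mul_mem_cancel_left rQ, cm c cA a i.1] at this
          exact this⟩
    have a2 := ((s.md.pull B ⊓ C_[r * c]).subgroupOf (A ⊓ C_[r * c])).index_mul_card
    rw [show ((s.md.pull B ⊓ C_[r * c]).subgroupOf (A ⊓ C_[r * c])).index = 2 from a1,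
      Nat.card_congr (subgroupOfEquivOfLe (inf_le_inf_right _ BA)).toEquiv, c64] at a2
    omega
  · obtain ⟨y', hy', v, e⟩ := key g x.hk.hx x.hk.KM x.pj x.pi tY y1 c256 f0 nB (ν w) i.1.2 ((bt w i.1).1 i.2)
    obtain ⟨a, aA, -, rfl⟩ := c2.YA _ hy'
    obtain ⟨p, pQ, rfl⟩ := s.md.sur v
    have az := x.Az aA
    have QN : Q ≤ N_(A) := fun p i => (c2.mN p (l.le i)).2 fun v j => by rwa [(s.ker p (l.le i)).2 i, g.one]
    have m1 := nQ a az r rQ
    have m2 := nQ c cz _ (inv_mem pQ)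
    have h1 : p * a * (r * c) * (p * a)⁻¹ = p * (a * r * a⁻¹) * (c * p⁻¹ * c⁻¹) * c := by
      rw [show p * a * (r * c) * (p * a)⁻¹ = p * (a * r) * (c * a⁻¹) * p⁻¹ by group, cm c cA _ (inv_mem aA)]; group
    have h2 : r * c * w = r * w * c := by rw [mul_assoc, cm c cA w (BA i.1), mul_assoc]
    have h3 : ν (p * (a * r * a⁻¹) * (c * p⁻¹ * c⁻¹)) = ν (r * w) := by
      rw [s.md.mul _ (mul_mem pQ m1) _ m2, s.md.mul _ pQ _ m1, ← s.act a az r rQ, ← s.act c cz _ (inv_mem pQ), s.md.inv pQ,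
        s.md.mul r rQ w i.1.1, e]
      exact lc0
    rcases s.md.eq (mul_mem (mul_mem pQ m1) m2) (mul_mem rQ i.1.1) h3 with k | k
    · exact ⟨p * a, mul_mem (QN pQ) (le_normalizer aA), by rw [h1, h2, k]⟩
    · refine ⟨e0 * (p * a), mul_mem (QN e0Q) (mul_mem (QN pQ) (le_normalizer aA)), ?_⟩
      have k1 : e0 * r = z * r * e0 := (l.cm e0Q rQ).resolve_left fun o => b1 ((s.b r rQ e0 e0Q).2 o.symm)
      have k2 : e0 * z = z * e0 := mem_cent1.1 (l.le e0Q)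
      rw [show e0 * (p * a) * (r * c) * (e0 * (p * a))⁻¹ = e0 * (p * a * (r * c) * (p * a)⁻¹) * e0⁻¹ by group, h1, h2, k,
        show e0 * (z * (r * w) * c) * e0⁻¹ = e0 * z * r * (w * c * e0⁻¹) by group, k2, mul_assoc z, k1,
        cm _ (mul_mem (BA i.1) cA) _ (inv_mem (BA e0B)), show z * (z * r * e0) * (e0⁻¹ * (w * c)) = z * z * r * w * c by group, l.zz,
        one_mul]
  · have zB : z ∈ s.md.pull B := ⟨l.aes.mem, by rw [s.md.zz]; exact zero_mem _⟩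
    have c'A : c' ∈ A := by rcases hc with rfl | rfl; exacts [cA, mul_mem cA (BA zB)]
    have c'z := x.Az c'A
    have c'y : π c' = π c := by
      rcases hc with rfl | rfl
      · rfl
      · rw [πm c cz z (mem_cent1_self z), (s.ker z (mem_cent1_self z)).2 zB.1, mul_one]
    have c'T : c' ∈ C_[r * c] := by
      rcases hc with rfl | rfl
      exacts [cT, mul_mem cT (mem_cent1_comm.1 tz)]
    let σ : V →+ V := AddMonoidHom.id V + T (π c)
    have a1 := σ.ker.card_mul_index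
    rw [AddSubgroup.index_ker, g.card, show Nat.card σ.ker = 256 from (Nat.card_coe_set_eq _).trans ((congrArg Set.ncard
      (Set.ext fun v => ⟨fun (k : v + T (π c) v = 0) => lc k, fun (k : T (π c) v = v) => show v + T (π c) v = 0 from lc k⟩)).trans
        (c256 _ tY y1))] at a1
    have a2 : (σ.range : Set V).ncard = 16 := by rw [← Nat.card_coe_set_eq]; change Nat.card σ.range = 16; omega
    rw [← a2]
    refine (Set.ncard_le_ncard ?_).trans (Set.ncard_image_le (f := fun x => ν (x * c'⁻¹)))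
    rintro _ ⟨v, rfl⟩
    obtain ⟨p, pQ, rfl⟩ := s.md.sur v
    have m2 := nQ c' c'z _ (inv_mem pQ)
    have h1 : ν (p * (c' * p⁻¹ * c'⁻¹)) = ν p + T (π c) (ν p) := by
      rw [s.md.mul _ pQ _ m2, ← s.act c' c'z _ (inv_mem pQ), s.md.inv pQ, c'y]
    have wB : p * (c' * p⁻¹ * c'⁻¹) ∈ s.md.pull B := ⟨mul_mem pQ m2, h1 ▸ x.pj.cm _ tY _⟩
    have wT : p * (c' * p⁻¹ * c'⁻¹) ∈ C_[r * c] := (bt _ wB).2 (by
      rw [h1, map_add, ← g.toQF.inv (g.qT (π c)) (ν r) (ν p), f0]; exact lc0)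
    refine ⟨p * c' * p⁻¹, ⟨?_, p, pQ, rfl⟩, ?_⟩
    · have := mem_cent1.1 (mul_mem wT c'T)
      rw [show p * (c' * p⁻¹ * c'⁻¹) * c' = p * c' * p⁻¹ by group] at this
      exact this.symm
    · show ν (p * c' * p⁻¹ * c'⁻¹) = ν p + T (π c) (ν p)
      rw [← h1]; congr 1; group

theorem key : Key.{u} := by
  intro V _ _ _ Γ _ _ T d M K Y β q B y u g hx KM pj pi yY y1 c hu uB b bB b0
  obtain ⟨y2, m, n⟩ := H28.YC.cx g hx KM pj pi c yY y1 hu uB
  have cW := H28.YC.cW g (c y yY y1)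
  have iso : ∀ u ∈ B, ∀ v ∈ B, β u v = 0 := fun u i v j => by
    have := g.pol u v
    rw [pj.qB _ (add_mem i j), pj.qB u i, pj.qB v j] at this
    simpa using this.symm
  obtain ⟨e, eB, e1⟩ : ∃ b ∈ B, β u b ≠ 0 := by
    by_contra! k
    exact uB (g.toQF.perp iso (by rw [pj.cB]; omega) k)
  have a1 := grow (U := B ⊓ (β u).ker) inf_le_left eB fun k => e1 k.2
  have a2 := card_ex (U := (AddMonoidHom.id V + T y).range) (v := u + T y2 u) fun ⟨v, r⟩ => n ⟨v, r⟩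
  have l : ex (AddMonoidHom.id V + T y).range (u + T y2 u) ≤ B ⊓ (β u).ker := by
    refine ex_le ?_ ⟨pj.cm y2 m u, ?_⟩
    · rintro _ ⟨v, rfl⟩
      refine ⟨pj.cm y yY v, show β u (v + T y v) = 0 from ?_⟩
      rw [map_add, ← g.toQF.inv (g.qT y) u v, hu]; exact lc0
    · have := g.pol u (T y2 u)
      rw [pj.qB _ (pj.cm y2 m u), g.qT] at this
      show β u (u + T y2 u) = 0
      rw [map_add, g.toQF.alt, zero_add]
      exact lc this
  rw [pj.cB] at a1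
  rcases (AddSubgroup.eq_of_le_of_card_ge l (by omega)).ge (show b ∈ B ⊓ (β u).ker from ⟨bB, b0⟩) with ⟨v, r⟩ | ⟨v, r⟩
  · exact ⟨1, one_mem _, v, by rw [g.one]; exact lc (show v + T y v = b from r)⟩
  · exact ⟨y2, m, v, lc (show v + T y v = b + (u + T y2 u) from r)⟩

theorem full : Cfsg.Agent.H23.Y.PaStmt.{u} := pa key

end H24.YPa
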